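/-
A relative form of Glauberman's ZJ-theorem: `R` is a `p`-subgroup of `X` with `R ∩ W` Sylow in the normal subgroup `W`
of odd order.
-/
import Cfsg.Agent.Lib.GW.Bender

set_option autoImplicit false
set_option linter.unusedSectionVars false

namespace CA.ABG

open Cfsg CA CA.Loc CA.GW Subgroup

variable {G : Type*} [Group G] [Finite G] {p : ℕ} {M W S : Subgroup G}

/-- Relative stability: on every normal `p`-subgroup `B` of `M`, either `O^p(C_M(B))` supplements `N_M(Z(J(S)))`, or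
all quadratic elements of `S` lie in `W`. -/
def RStab (p : ℕ) (M W S : Subgroup G) : Prop :=
  ∀ B : Subgroup G, B ⊴ M → PiGrp {p} B → M ≤ piEltGen {p}ᶜ (M ⊓ 𝐂(B)) ⊔ M ⊓ 𝐍(𝐙(Je p S)) ∨
    ∀ a ∈ S, ⁅⁅B, zpowers a⁆, zpowers a⁆ = ⊥ → a ∈ W

variable [hp : Fact p.Prime]

theorem le_of_rstab {A B : Subgroup G} (h : ∀ a ∈ S, ⁅⁅B, zpowers a⁆, zpowers a⁆ = ⊥ → a ∈ W) (hA : A ≤ S)
    (hc : IsMulCommutative A) (hn : B ≤ 𝐍(A)) : A ≤ W := fun a ha => h a (hA ha) (le_bot_iff.1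
  ((commutator_mono (commutator_mono le_rfl (zpowers_le.2 ha)) (zpowers_le.2 ha)).trans
    (quadratic_of_abelian hc hn).le))

theorem rzj_aux (h2 : p ≠ 2) (hWM : W ⊴ M) (oW : Odd (Nat.card W)) (hO : piCoreOf {p} M ≤ W) (hSM : S ≤ M)
    (hSp : IsPGroup p S) (hS : SylowIn p (S ⊓ W) W) (hs : RStab p M W S) (n : ℕ) :
    ∀ B : Subgroup G, Nat.card B ≤ n → B ⊴ M → PiGrp {p} B → M ≤ 𝐍(𝐙(Je p S) ⊓ B) := by
  induction n with
  | zero => intro B h; exact absurd (card_pos' B) (by omega)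
  | succ n ih =>
  intro B hc hB hBp
  set Z := 𝐙(Je p S) with hZ
  have hBW : B ≤ W := (le_piCoreOf hB hBp).trans hO
  have hBS : B ≤ S := (hS.normal_le (hB.of_le hBW hWM.le) hBp).trans inf_le_left
  have nZ : 𝐍(S) ≤ 𝐍(Z) := norms_center (norm_le_norm_Je S)
  set s := {y | ∃ g ∈ M, ∃ z ∈ Z ⊓ B, y = g * z * g⁻¹} with hs'
  have hsB : closure s ≤ B := (closure_le _).2 (by
    rintro _ ⟨g, hg, z, hz, rfl⟩; exact conj_mem_of_mem_normalizer (hB.norm hg) hz.2)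
  have hZs : Z ⊓ B ≤ closure s := fun z hz => subset_closure ⟨1, one_mem _, z, hz, by simp⟩
  by_cases hlt : closure s ≠ B
  · have h1 := ih (closure s) (by have := card_lt_of_lt' (lt_of_le_of_ne hsB hlt); omega)
      ⟨hsB.trans hB.le, norms_closure (by
        rintro h hh _ ⟨g, hg, z, hz, rfl⟩
        exact ⟨h * g, mul_mem hh hg, z, hz, by group⟩)⟩ (hBp.of_le hsB)
    rwa [le_antisymm (inf_le_inf_left Z hsB) (le_inf inf_le_left hZs)] at h1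
  push Not at hlt
  by_cases hb : B = ⊥
  · rw [hb, inf_bot_eq]; exact norms_bot
  have hcl : ∀ {K : Subgroup G}, (∀ g ∈ M, ∀ z ∈ Z ⊓ B, g * z * g⁻¹ ∈ K) → B ≤ K := fun h => by
    rw [← hlt, closure_le]; rintro _ ⟨g, hg, z, hz, rfl⟩; exact h g hg z hz
  have hB' : ⁅B, B⁆ ⊴ M := hB.commutator hB
  have hW := ih ⁅B, B⁆ (by have := card_lt_of_lt' (der_lt_pgroup (hBp.isPGroup hp.out) hb); omega) hB'
    (hBp.of_le (der_le B))
  have hBZ : ⁅B, B⁆ ≤ Z := by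
    refine le_trans ?_ (inf_le_left : Z ⊓ ⁅B, B⁆ ≤ Z)
    nth_rewrite 1 [← hlt]
    refine comm_closure_le ?_ ((hsB.trans hB.le).trans hW)
    rintro _ ⟨g, hg, z, hz, rfl⟩ c hc
    have hc' : g⁻¹ * c * g ∈ B := conj_inv_mem_of_mem_normalizer (hB.norm hg) hc
    have h1 : z * (g⁻¹ * c * g) * z⁻¹ * (g⁻¹ * c * g)⁻¹ ∈ Z ⊓ ⁅B, B⁆ :=
      ⟨comm_le_left ((hBS.trans le_normalizer).trans nZ) (comm_mem hz.1 hc'), comm_mem hz.2 hc'⟩
    convert conj_mem_of_mem_normalizer (hW hg) h1 using 1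
    group
  have hBB : ⁅B, B⁆ ≤ 𝐂(B) := cents_symm (hcl fun g hg z hz =>
    conj_mem_of_mem_normalizer (norms_cent hB'.norm hg)
      (cent_mono hBZ (abelian_iff.1 (abelian_center _) hz.1)))
  set Ω := omega1 p B with hΩ
  have hΩB : Ω ≤ B := omega1_le p B
  have hΩM : Ω ⊴ M := (omega1_charIn p B).trans_normalIn hB
  have hΩp : ∀ x ∈ Ω, x ^ p = 1 := fun x hx => omega1_pow_of_class_two h2 hBB hx
  have hrepl : ∀ A ∈ AE p S, ¬ Ω ≤ 𝐍(A) → ∃ A' ∈ AE p S, A ⊓ Ω < A' ⊓ Ω ∧ A' ≤ 𝐍(A) := fun A hA hn =>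
    replacement h2 hSp (hΩM.of_le (hΩB.trans hBS) hSM) hΩp (cents_mono hBB (der_mono hΩB) hΩB) hA
      ((der_mono hΩB).trans (hBZ.trans (inf_le_right.trans (cent_mono (le_Je hA))))) hn
  have hcΩ : ∀ x ∈ M, x ∈ 𝐂(Ω) → PiElt {p}ᶜ x → x ∈ 𝐂(B) := fun x hx hx1 hx' =>
    (copAct_zpowers_of_piElt (hBp.isPGroup hp.out) (hB.norm hx) hx').cents_of_omega1 h2
      (hBp.isPGroup hp.out) (zpowers_le.2 hx1) (mem_zpowers x)
  rcases hs Ω hΩM (hBp.of_le hΩB) with hq | hq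
  · refine hq.trans (sup_le ((closure_le _).2 fun x hx => ?_) (norms_inf inf_le_right (inf_le_left.trans hB.norm)))
    exact norms_of_cents (cent_mono inf_le_right) (hcΩ x hx.1.1 hx.1.2 hx.2)
  set L := sSup {K | K ⊴ M ∧ K ≤ W ⊓ 𝐍(Z ⊓ B)} with hL
  have hLW : L ≤ W := sSup_le fun K hK => hK.2.trans inf_le_left
  have hLN : L ≤ 𝐍(Z ⊓ B) := sSup_le fun K hK => hK.2.trans inf_le_right
  have hLM : L ⊴ M := ⟨sSup_le fun K hK => hK.1.le, norms_sSup fun K hK => hK.1.norm⟩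
  have hst : ∀ A ∈ AE p S, Ω ≤ 𝐍(A) → A ≤ L := fun A hA hn => by
    have nΩ : W ≤ 𝐍(Ω) := hWM.le.trans hΩM.norm
    have hCΩ : W ⊓ 𝐂(Ω) ⊴ W := normalIn_inf_of_norm (norms_cent nΩ)
    have hK := coreMod_normalIn {p} hCΩ
    refine (le_coreMod_of_norm_abelian h2 oW ((hBp.of_le hΩB).isPGroup hp.out) nΩ
      (le_of_rstab hq hA.1 hA.2.1.1 hn) hA.2.1.1 hn).trans (le_sSup ⟨⟨hK.le.trans hWM.le, norms_coreMod _ hWM.norm
        (norms_inf hWM.norm (norms_cent hΩM.norm))⟩, le_inf hK.le ?_⟩)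
    have h1 : W ⊓ 𝐂(B) ≤ W ⊓ 𝐂(Ω) := inf_le_inf_left _ (cent_mono hΩB)
    have h3 : W ⊓ 𝐂(Ω) ≤ 𝐍(W ⊓ 𝐂(B)) :=
      inf_le_left.trans (norms_inf le_normalizer (norms_cent (hWM.le.trans hB.norm)))
    have h4 : PiNum {p} ((W ⊓ 𝐂(B)).relIndex (W ⊓ 𝐂(Ω))) := by
      rw [← piGrp_quo_iff_relIndex h3]
      exact (isPGroup_quo_of_forall_piElt h3 fun x hx hx' => ⟨hx.1, hcΩ x (hWM.le hx.1) hx.2 hx'⟩).piGrp hp.out
    rw [← (hS.inf_normal hK).sup_eq_of_relIndex (h1.trans (le_coreMod_self _ _ _)) (by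
      rw [← relIndex_mul_relIndex _ _ _ h1 (le_coreMod_self _ _ _)]
      exact h4.mul (piNum_relIndex_coreMod _ _ _))]
    exact sup_le (inf_le_left.trans (inf_le_left.trans (norms_inf (le_normalizer.trans nZ) (hSM.trans hB.norm))))
      (norms_of_cents (inf_le_right.trans (cent_mono inf_le_right)))
  obtain ⟨A₀, hA₀, hmax⟩ := exists_max_card (𝒮 := AE p S) (exists_elem_pRank p S)
    fun A => Nat.card ↥(A ⊓ Ω)
  have hA₀L : A₀ ≤ L := hst A₀ hA₀ (by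
    by_contra hn
    obtain ⟨A', h1, h3, -⟩ := hrepl A₀ hA₀ hn
    exact (card_lt_of_lt' h3).not_ge (hmax A' h1))
  have hfr := frattini_exists_mul hLM (hS.inf_normal (hLM.of_le hLW hWM.le))
  rw [inf_assoc, inf_eq_right.2 hLW] at hfr
  have hJ : Je p (S ⊓ L) ≤ Je p S := sSup_le fun A hA => le_Je ((AE_inf hA₀ hA₀L).1 hA).1
  by_cases hall : ∀ A ∈ AE p S, A ≤ L
  · have hJ' : Je p (S ⊓ L) = Je p S :=
      le_antisymm hJ (sSup_le fun A hA => le_Je ((AE_inf hA₀ hA₀L).2 ⟨hA, hall A hA⟩))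
    intro g hg
    obtain ⟨l, hl, m, hm, rfl⟩ := hfr g hg
    refine mul_mem (hLN hl) (norms_inf (X := M ⊓ 𝐍(S ⊓ L)) ?_ (inf_le_left.trans hB.norm) hm)
    rw [hZ, ← hJ']
    exact inf_le_right.trans (norms_center (norm_le_norm_Je _))
  exfalso
  push Not at hall
  have hBJ : B ≤ 𝐂(Je p (S ⊓ L)) := hcl fun g hg z hz => by
    obtain ⟨l, hl, m, hm, h⟩ := hfr g⁻¹ (inv_mem hg)
    have h1 := conj_inv_mem_of_mem_normalizer (norms_cent (norm_le_norm_Je (p := p) _) hm.2)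
      (cent_mono hJ (conj_inv_mem_of_mem_normalizer (hLN hl) hz).1.2)
    rw [← inv_inv g, h]
    convert h1 using 1
    group
  obtain ⟨A, hA, hmax'⟩ := exists_max_card (𝒮 := {A | A ∈ AE p S ∧ ¬ A ≤ L}) hall
    fun A => Nat.card ↥(A ⊓ Ω)
  have hn : ¬ Ω ≤ 𝐍(A) := fun h => hA.2 (hst A hA.1 h)
  obtain ⟨A', h1, h3, h4⟩ := hrepl A hA.1 hn
  have h5 : A' ≤ L := by
    by_contra h
    exact (card_lt_of_lt' h3).not_ge (hmax' A' ⟨h1, h⟩)
  refine hn (le_trans (fun x hx => ?_) h4)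
  exact (Elem.maxElem h1 le_rfl).mem_of_cent (hBS (hΩB hx))
    (cent_mono (le_Je ((AE_inf hA₀ hA₀L).2 ⟨h1, h5⟩)) (hBJ (hΩB hx))) (hΩp x hx)

/-- The relative ZJ-theorem. -/
theorem relZJ (h2 : p ≠ 2) (hWM : W ⊴ M) (oW : Odd (Nat.card W)) (hO : piCoreOf {p} M ≤ W)
    (hC : M ⊓ 𝐂(piCoreOf {p} M) ≤ piCoreOf {p} M) (hSM : S ≤ M) (hSp : PiGrp {p} S)
    (hS : SylowIn p (S ⊓ W) W) (hs : RStab p M W S) : M ≤ 𝐍(𝐙(Je p S)) := by
  have hN := piCoreOf_normalIn {p} M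
  have hP := piCoreOf_piGrp {p} M
  rcases hs _ hN hP with hq | hq
  · refine hq.trans (sup_le ((closure_le _).2 fun x hx => ?_) inf_le_right)
    rw [(hP.piElt (hC hx.1)).eq_one hx.2]
    exact one_mem _
  have h1 := rzj_aux h2 hWM oW hO hSM (hSp.isPGroup hp.out) hS hs _ _ le_rfl hN hP
  have n : piCoreOf {p} M ≤ 𝐍(𝐙(Je p S)) := (hS.normal_le (hN.of_le hO hWM.le) hP).trans
    (inf_le_left.trans (le_normalizer.trans (norms_center (norm_le_norm_Je S))))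
  have h3 := le_coreMod_of_norm_abelian h2 oW (hP.isPGroup hp.out) (hWM.le.trans hN.norm) (A := 𝐙(Je p S))
    (le_of_rstab hq (inf_le_left.trans (Je_le p S)) (abelian_center _) n) (abelian_center _) n
  have hC' : W ⊓ 𝐂(piCoreOf {p} M) ⊴ W := normalIn_inf_of_norm (norms_cent (hWM.le.trans hN.norm))
  rw [coreMod, coq_piCoreOf hC' (hP.of_le ((inf_le_inf_right _ hWM.le).trans hC))] at h3
  rwa [inf_eq_left.2 (h3.trans (le_piCoreOf ((piCoreOf_charIn {p} W).trans_normalIn hWM) (piCoreOf_piGrp _ _)))] at h1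

end CA.ABG
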