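/-
Central extensions of `SL₂(q)` by 2-groups split.
-/
import Cfsg.Agent.Lib.GW.L2
import Cfsg.Agent.Lib.Classical.SmallIso

set_option autoImplicit false
set_option linter.unusedSectionVars false

namespace CA.ABG
open Cfsg CA CA.GW Matrix.SpecialLinearGroup CA.SL2 CA.Br Subgroup
open scoped MatrixGroups commutatorElement

theorem quat_ker {R : Type*} [Group R] {n : ℕ} [NeZero n] (ψ : R →* QuaternionGroup n) (hs : Function.Surjective ψ)
    (hc : ∀ c, ψ c = 1 → ∀ g, c * g = g * c) {c : R} (h1 : c ∈ commutator R) (h2 : ψ c = 1) : c = 1 := by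
  obtain ⟨a, ha⟩ := hs (.a 1)
  obtain ⟨b, hb⟩ := hs (.xa 0)
  have cm : ∀ {x y z : R}, ψ x = ψ y → y * z = z * y → x * z = z * x := fun {x y z} e h => by
    have := hc (x * y⁻¹) (by rw [map_mul, map_inv, e, mul_inv_cancel]) z
    calc x * z = x * y⁻¹ * (y * z) := by group
      _ = z * x := by rw [h, ← mul_assoc, this]; group
  let A : Subgroup R := (zpowers (QuaternionGroup.a 1 : QuaternionGroup n)).comap ψ
  have mA : ∀ {x}, x ∈ A ↔ ∃ i, ψ x = .a i := fun {x} => ⟨fun h => by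
      obtain ⟨k, hk⟩ := mem_powers_iff_mem_zpowers.2 (mem_comap.1 h)
      exact ⟨k, by rw [← hk, ← QuaternionGroup.a_one_pow]⟩, fun ⟨i, hi⟩ =>
    ⟨(i.val : ℕ), by simp only [zpow_natCast, QuaternionGroup.a_one_pow, ZMod.natCast_zmod_val, hi]⟩⟩
  have ab : ∀ {x y}, x ∈ A → y ∈ A → x * y = y * x := fun {x y} ⟨i, hi⟩ ⟨j, hj⟩ =>
    cm (y := a ^ i) (by rw [map_zpow, ha]; exact hi.symm) (cm (y := a ^ j) (by rw [map_zpow, ha]; exact hj.symm)
      (zpow_mul_comm a j i)).symm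
  have bA : ∀ {x}, x ∈ A → b * x * b⁻¹ ∈ A := fun {x} hx => by
    obtain ⟨i, hi⟩ := mA.1 hx
    refine mA.2 ⟨-i, ?_⟩
    rw [map_mul, map_mul, map_inv, hi, hb, mul_inv_eq_iff_eq_mul]; simp
  have dec : ∀ g, g ∈ A ∨ g * b⁻¹ ∈ A := fun g => by
    rcases h : ψ g with i | i
    · exact .inl (mA.2 ⟨i, h⟩)
    · refine .inr (mA.2 ⟨-i, ?_⟩)
      rw [map_mul, map_inv, h, hb, mul_inv_eq_iff_eq_mul]; simp
  let θ : A →* R := MonoidHom.mk' (fun x => (x : R)⁻¹ * (b * x * b⁻¹)) fun x y => by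
    rw [Subgroup.coe_mul, mul_inv_rev, ab (inv_mem y.2) (inv_mem x.2), mul_assoc, mul_assoc (x : R)⁻¹,
      ← mul_assoc (b * x * b⁻¹), ← ab (inv_mem y.2) (bA x.2)]
    group
  have key : ∀ {x y}, x ∈ A → y * b⁻¹ ∈ A → ⁅x, y⁆ ∈ θ.range := fun {x y} hx hy => ⟨⟨x⁻¹, inv_mem hx⟩, by
    have := ab hy (bA (inv_mem hx))
    change x⁻¹⁻¹ * (b * x⁻¹ * b⁻¹) = _
    calc _ = x * (b * x⁻¹ * b⁻¹ * (y * b⁻¹)) * (y * b⁻¹)⁻¹ := by group
      _ = _ := by rw [← this, commutatorElement_def]; group⟩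
  obtain ⟨x, rfl⟩ : c ∈ θ.range := (commutator_le.2 fun x _ y _ => by
    rcases dec x with hx | hx <;> rcases dec y with hy | hy
    · rw [commutatorElement_eq_one_iff_mul_comm.2 (ab hx hy)]; exact one_mem _
    · exact key hx hy
    · rw [← commutatorElement_inv]; exact inv_mem (key hy hx)
    · have := key (mul_mem hx (inv_mem hy)) hy
      rwa [show ⁅x * b⁻¹ * (y * b⁻¹)⁻¹, y⁆ = ⁅x, y⁆ by simp only [commutatorElement_def]; group] at this) h1
  obtain ⟨i, hi⟩ := mA.1 x.2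
  change (x : R)⁻¹ * (b * x * b⁻¹) = 1
  change ψ ((x : R)⁻¹ * (b * x * b⁻¹)) = 1 at h2
  rw [map_mul, map_mul, map_mul, map_inv, map_inv, hi, hb, inv_mul_eq_one, eq_mul_inv_iff_mul_eq] at h2
  simp only [QuaternionGroup.a_mul_xa, QuaternionGroup.xa_mul_a, QuaternionGroup.xa.injEq] at h2
  have : (x : R) * b = b * x := by
    rcases Quat.eq_of_sq_eq_one (i := i) (by linear_combination -h2) with rfl | rfl
    · exact hc _ hi b
    · exact cm (y := b * b) (by rw [hi, map_mul, hb]; simp) (mul_assoc _ _ _)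
  rw [← this]; group

variable {F : Type*} [Field F] [Fintype F]

theorem sl_induction (hF : Odd (Fintype.card F)) {C : SL(2, F) → Prop} (h1 : ∀ u, Odd (orderOf u) → C u)
    (h2 : ∀ a b, C a → C b → C (a * b)) (g : SL(2, F)) : C g := by
  obtain ⟨p, hp, n, hp', hn⟩ := FiniteField.card' F
  have : Fact p.Prime := ⟨hp'⟩
  have po : Odd p := (Nat.odd_pow_iff n.ne_zero).1 (hn ▸ hF)
  have key : ∀ u : SL(2, F), tr u = 2 → C u := fun u hu =>
    h1 u (po.of_dvd_nat (orderOf_dvd_of_pow_eq_one (pow_char_of_tr p hu)))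
  refine Lin.transvection_induction _ (fun i j hij c => ?_) h2 g
  fin_cases i <;> fin_cases j
  · exact absurd rfl hij
  · exact key _ (tr_up c)
  · exact key _ (tr_lo c)
  · exact absurd rfl hij

theorem cover {Y W : Type*} [Group Y] [Finite Y] [Group W] (hF : Odd (Fintype.card F)) (f : Y →* W)
    (hc : ∀ c, f c = 1 → ∀ g, c * g = g * c) (h2 : ∀ c, f c = 1 → ∃ k : ℕ, c ^ 2 ^ k = 1) (ι : SL(2, F) →* W)
    (hr : ∀ g, ∃ y, f y = ι g) : ∃ κ : SL(2, F) →* Y, ∀ g, f (κ g) = ι g := by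
  let E : Subgroup (SL(2, F) × Y) := (ι.comp (MonoidHom.fst _ _)).eqLocus (f.comp (MonoidHom.snd _ _))
  let Γ := closure {e | e ∈ E ∧ Odd (orderOf e)}
  have ΓE : Γ ≤ E := (closure_le _).2 fun _ h => h.1
  have sur : Γ.map (MonoidHom.fst _ _) = ⊤ := eq_top_iff.2 fun g _ => by
    refine sl_induction hF (C := (· ∈ Γ.map (MonoidHom.fst _ _))) (fun u hu => ?_) (fun _ _ => mul_mem) g
    obtain ⟨y, hy⟩ := hr u
    obtain ⟨k, hk⟩ := h2 (y ^ orderOf u) (by rw [map_pow, hy, ← map_pow, pow_orderOf_eq_one, map_one])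
    have m : (u, y) ^ 2 ^ k ∈ Γ := subset_closure ⟨pow_mem (show (u, y) ∈ E from hy.symm) _,
      hu.of_dvd_nat (orderOf_dvd_of_pow_eq_one (by
        rw [← pow_mul, mul_comm, pow_mul]; ext1 <;> simp [hk]))⟩
    obtain ⟨m', hm'⟩ := exists_pow_eq_self_of_coprime (x := u) (n := 2 ^ k)
      (Nat.Coprime.pow_left k (Nat.coprime_two_left.2 hu))
    exact ⟨_, pow_mem m m', by simp [hm']⟩
  obtain ⟨κ, hκ⟩ := Small.exists_hom_of_graph Γ sur fun c hc' => by
    let φ : Γ →* SL(2, F) := (MonoidHom.fst _ _).comp Γ.subtype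
    have φs : Function.Surjective φ := fun g => by
      obtain ⟨e, he, h⟩ := (sur ▸ mem_top g : g ∈ Γ.map (MonoidHom.fst _ _))
      exact ⟨⟨e, he⟩, h⟩
    have k1 : ∀ e : Γ, φ e = 1 → f e.1.2 = 1 := fun e he => by
      have : ι e.1.1 = f e.1.2 := ΓE e.2
      rw [← this, show e.1.1 = 1 from he, map_one]
    have cen : ∀ e : Γ, φ e = 1 → ∀ g, e * g = g * e := fun e he g => Subtype.ext (Prod.ext
      (by change e.1.1 * g.1.1 = g.1.1 * e.1.1; rw [show e.1.1 = 1 from he, one_mul, mul_one]) (hc _ (k1 e he) _))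
    obtain ⟨R⟩ : Nonempty (Sylow 2 Γ) := inferInstance
    obtain ⟨k, -, ⟨e⟩⟩ := sylow_two_quaternion hF (R.mapSurjective φs)
    let ψ : R →* QuaternionGroup (2 ^ k) := e.toMonoidHom.comp (φ.subgroupMap R)
    have ψ1 : ∀ {x : R}, ψ x = 1 ↔ φ x = 1 := fun {x} => (map_eq_one_iff _ e.injective).trans Subtype.ext_iff
    set c' : Γ := ⟨(1, c), hc'⟩
    obtain ⟨j, hj⟩ := h2 c (k1 c' rfl)
    have τ1 : MonoidHom.transfer (Abelianization.of : R →* _) = 1 := by
      have : ∀ x (hx : x ∈ Γ), MonoidHom.transfer (Abelianization.of : R →* _) ⟨x, hx⟩ = 1 := fun x hx => by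
        induction hx using closure_induction with
        | mem x hx =>
          obtain ⟨i, hi⟩ := (R.2.of_surjective (Abelianization.of : R →* _) QuotientGroup.mk_surjective)
            (MonoidHom.transfer (Abelianization.of : R →* _) ⟨x, subset_closure hx⟩)
          refine orderOf_eq_one_iff.1 (Nat.eq_one_of_dvd_coprimes (Nat.Coprime.pow_left i (Nat.coprime_two_left.2 hx.2))
            (orderOf_dvd_of_pow_eq_one hi) ((orderOf_map_dvd _ _).trans (Subgroup.orderOf_coe _).symm.dvd))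
        | one => exact map_one _
        | mul x y hx hy a b => exact (map_mul _ (⟨x, hx⟩ : Γ) ⟨y, hy⟩).trans (by rw [a, b, one_mul])
        | inv x hx a => exact (map_inv _ (⟨x, hx⟩ : Γ)).trans (by rw [a, inv_one])
      exact MonoidHom.ext fun x => this x.1 x.2
    have h3 := MonoidHom.transfer_eq_pow (Abelianization.of : R →* _) c' fun k g _ => by
      rw [mul_assoc, cen (c' ^ k) (by rw [map_pow, show φ c' = 1 from rfl, one_pow]), inv_mul_cancel_left]
    rw [τ1, eq_comm] at h3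
    have h4 := quat_ker ψ (e.surjective.comp (φ.subgroupMap_surjective R))
      (fun x hx g => Subtype.ext (cen _ (ψ1.1 hx) _)) ((QuotientGroup.eq_one_iff _).1 h3)
      (ψ1.2 (by change φ (c' ^ _) = 1; rw [map_pow, show φ c' = 1 from rfl, one_pow]))
    have h5 : c ^ (R : Subgroup Γ).index = 1 := congrArg (·.1.1.2) h4
    have h6 := Nat.dvd_gcd (orderOf_dvd_of_pow_eq_one hj) (orderOf_dvd_of_pow_eq_one h5)
    rwa [(Nat.Coprime.pow_left j ((Nat.Prime.coprime_iff_not_dvd Nat.prime_two).2 R.not_dvd_index)).gcd_eq_one,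
      Nat.dvd_one, orderOf_eq_one_iff] at h6
  exact ⟨κ, fun g => (ΓE (hκ g)).symm⟩

end CA.ABG
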