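/-
Groups with a normal `SL₂(q)` whose centralizer is a central 2-group.
-/
import Cfsg.Agent.Lib.ABG.Cover
import Cfsg.Agent.Lib.GW.Main

set_option autoImplicit false
set_option linter.unusedSectionVars false

namespace CA.ABG
open Cfsg CA CA.FStar CA.GW Matrix.SpecialLinearGroup CA.SL2 CA.Br Subgroup
open scoped MatrixGroups

section
variable {G : Type*} [Group G] [Finite G] {X K Z V : Subgroup G}

theorem dg_of (h : DSyl X) : DG X :=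
  let ⟨_, _, hS, hR, _⟩ := h
  ⟨fun _ hT h2 => hR.two hS h2 hT, fun _ hs s2 => hR.npc hS hs s2⟩

theorem a4_of (hV : Four V) (hN : V ⊴ X) (hc : X ⊓ 𝐂(V) = V) (h2 : ¬ PiGrp {2} X) :
    ∃ K, K ⊴ X ∧ X ⊓ 𝐂(K) = ⊥ ∧ Nonempty (K ≃* PSL(2, ZMod 3)) := by
  have h6 : V.relIndex X ∣ 6 := by rw [← hc, inf_comm, inf_relIndex_right]; exact four_aut hV hN.2
  have cX : 4 * V.relIndex X = Nat.card X := by rw [← hV.card, card_mul_relIndex hN.1]
  have h3 : 3 ∣ V.relIndex X := by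
    by_contra h
    have : V.relIndex X ∣ 2 := (Nat.Coprime.symm ((Nat.Prime.coprime_iff_not_dvd Nat.prime_three).2 h)).dvd_of_dvd_mul_left h6
    refine h2 fun p hp hd => (Nat.prime_dvd_prime_iff_eq hp Nat.prime_two).1 (hp.dvd_of_dvd_pow (n := 3) ?_)
    exact hd.trans (cX ▸ Nat.mul_dvd_mul_left 4 this)
  obtain ⟨⟨y, hy⟩, oy⟩ := exists_prime_orderOf_dvd_card' (G := X) 3 (cX ▸ h3.mul_left 4)
  rw [← Subgroup.orderOf_coe] at oy
  change orderOf y = 3 at oy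
  have y1 : y ≠ 1 := fun e => by simp [e] at oy
  have yo : Odd (orderOf y) := oy ▸ (by decide)
  have yV : y ∉ V := fun h => y1 (eq_one_of_odd yo (hV.sq y h))
  have yc : y ∉ 𝐂(V) := fun h => yV (hc ▸ ⟨hy, h⟩)
  have cT : Nat.card (zpowers y) = 3 := (Nat.card_zpowers y).trans oy
  have dj : V ⊓ zpowers y = ⊥ := disjoint_iff.1 (disjoint_of_coprime_natCard (by rw [hV.card, cT]; decide))
  have KX : V ⊔ zpowers y ≤ X := sup_le hN.1 (zpowers_le.2 hy)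
  have cK : Nat.card ↥(V ⊔ zpowers y) = 12 := by
    rw [card_sup_of_disjoint (.inl (zpowers_le.2 (hN.2 hy))) dj, hV.card, cT]
  have iK : (V ⊔ zpowers y).relIndex X ∣ 2 := by
    have := card_mul_relIndex KX
    rw [cK, ← cX] at this
    obtain ⟨k, hk⟩ := h6
    exact ⟨k, by nlinarith⟩
  refine ⟨V ⊔ zpowers y, ⟨KX, ?_⟩, eq_bot_iff.2 fun x hx => by_contra fun x1 => yc ?_, ?_⟩
  · rcases (Nat.dvd_prime Nat.prime_two).1 iK with h | h
    · exact (relIndex_eq_one.1 h).trans le_normalizer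
    · exact (normal_subgroupOf_iff_le_normalizer KX).1 (normal_of_index_eq_two h)
  · exact hV.cents_odd (hN.2 hy) yo (hc ▸ ⟨hx.1, PG.cent_anti le_sup_left hx.2⟩) x1
      (mem_cent1_iff.2 (hx.2 y (mem_sup_right (mem_zpowers y))))
  · obtain ⟨e⟩ := Small.psl_two_three (F := ZMod 3) (ZMod.card 3)
    set T := (zpowers y).subgroupOf (V ⊔ zpowers y)
    have cT' : Nat.card T = 3 := (Nat.card_congr (subgroupOfEquivOfLe le_sup_right).toEquiv).trans cT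
    have iT : T.index = 4 := by have := T.card_mul_index; rw [cT', cK] at this; omega
    obtain ⟨e'⟩ := Small.equiv_alt_of_injective (n := 4) (MulAction.toPermHom ↥(V ⊔ zpowers y) (↥(V ⊔ zpowers y) ⧸ T)) (by
      rw [← MonoidHom.ker_eq_bot_iff, ← normalCore_eq_ker]
      refine ((Nat.dvd_prime Nat.prime_three).1 (cT' ▸ card_dvd_of_le T.normalCore_le)).elim card_eq_one.1 fun h => ?_
      have : T.Normal := (eq_of_le_of_card_ge T.normalCore_le (by rw [h, cT'])) ▸ inferInstance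
      have n := (normal_subgroupOf_iff_le_normalizer le_sup_right).1 this
      exact absurd (zpowers_le.1 (cents_of_norms_of_disjoint (le_sup_left.trans n) (zpowers_le.2 (hN.2 hy)) (inf_comm V _ ▸ dj))) yc)
      iT (by rw [cK]; rfl)
    exact ⟨e'.trans e.symm⟩

/-- structure of groups with dihedral Sylow 2-subgroups -/
theorem dsyl_str (hd : DSyl X) (hO : 𝐎(X) = ⊥) (h2 : ¬ PiGrp {2} X) : (∃ K, K ⊴ X ∧ X ⊓ 𝐂(K) = ⊥ ∧
    ∃ (F : Type) (_ : Field F) (_ : Fintype F), Odd (Fintype.card F) ∧ Nonempty (K ≃* PSL(2, F))) ∨ A7T X := by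
  have g := dg_of hd
  by_cases hs : Group.IsSolvable X
  · obtain ⟨V, hV, hN, hc⟩ := (g.solv_str hs hO).resolve_left h2
    obtain ⟨K, h1, h3, h4⟩ := a4_of hV hN hc h2
    exact .inl ⟨K, h1, h3, ZMod 3, inferInstance, inferInstance, by rw [ZMod.card]; decide, h4⟩
  have hE : lay X ≠ ⊥ := g.lay_ne le_rfl hs (by rw [hO, cent_bot']; exact le_top)
  have hc : X ⊓ 𝐂(lay X) = ⊥ := (g.cent_lay hE).trans hO
  have hq := g.qs hE
  have := qs_simple hq (le_bot_iff.1 ((inf_le_inf_right _ (lay_le X)).trans hc.le))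
  rcases known_of (fun _ _ _ m => m.false) (lay X) (by rw [← der_subgroupOf, hq.der, subgroupOf_self])
    ((g.of_le (lay_le X)).dsyl hq.not_solvable).top with ⟨q, ho, -, F, _, _, rfl, h⟩ | h
  · exact .inl ⟨_, lay_normalIn X, hc, F, _, _, ho, h⟩
  · obtain ⟨e, h'⟩ := a7t (lay_normalIn X) hc hd h
    exact .inr (by rw [e]; exact h')

variable {F : Type*} [Field F] [Fintype F]

theorem pm_conj : PM (MulAut.conj : SL(2, F) →* _) := fun g => by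
  rw [← pm_mk g, QuotientGroup.mk'_apply, QuotientGroup.eq_one_iff, Subgroup.mem_center_iff, MulEquiv.ext_iff]
  exact forall_congr' fun h => by rw [MulAut.conj_apply, MulAut.one_apply, mul_inv_eq_iff_eq_mul, eq_comm]

theorem l2rep (hK : K ⊴ X) (hc : X ⊓ 𝐂(K) = ⊥) (hd : DSyl X) (hq : Odd (Fintype.card F)) (e : K ≃* PSL(2, F)) :
    ∃ (ι : SL(2, F) →* G) (Φ : X →* MulAut SL(2, F)), PM ι ∧ (∀ g, ι g ∈ X) ∧
      (∀ x ∈ X, ∀ g, x * ι g * x⁻¹ = ι (pel Φ x g)) ∧ (∀ x ∈ X, ∃ σ, Sem σ (pel Φ x)) ∧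
      (∀ x ∈ X, pel Φ x = 1 → x = 1) ∧ Odd ((pcomap Φ (Ph F)).relIndex X) := by
  let ι : SL(2, F) →* G := K.subtype.comp (e.symm.toMonoidHom.comp (QuotientGroup.mk' _))
  have hι : PM ι := fun g => by
    rw [← pm_mk g]
    exact (map_eq_one_iff _ K.subtype_injective).trans (map_eq_one_iff _ e.symm.injective)
  have ιK : ∀ g, ι g ∈ K := fun g => (e.symm _).2
  have Kι : ∀ k ∈ K, ∃ g, ι g = k := fun k hk => by
    obtain ⟨g, hg⟩ := QuotientGroup.mk'_surjective _ (e ⟨k, hk⟩)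
    exact ⟨g, congrArg Subtype.val ((congrArg e.symm hg).trans (e.symm_apply_apply _))⟩
  have ex : ∀ x : X, ∃ β : MulAut SL(2, F), (∃ σ, Sem σ β) ∧ ∀ g, x * ι g * (x : G)⁻¹ = ι (β g) := fun x => by
    obtain ⟨A, σ, h⟩ := aut (f := (MulAut.conj (x : G)).toMonoidHom.comp ι) hq hι
      (fun g => (conj_eq_one_iff (a := (x : G))).trans (hι g)) fun g => by
        obtain ⟨k, hk⟩ := Kι _ (conj_mem_of_mem_normalizer (hK.2 x.2) (ιK g))
        exact ⟨k, hk.symm⟩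
    exact ⟨_, ⟨σ, A, rfl⟩, h⟩
  choose β hβ hβ' using ex
  let Φ : X →* MulAut SL(2, F) := MonoidHom.mk' β fun x y => hι.aut_ext hq fun g => by
    rw [MulAut.mul_apply, ← hβ', ← hβ', ← hβ', Subgroup.coe_mul]; group
  have φ1 : ∀ x ∈ X, ∀ g, x * ι g * x⁻¹ = ι (pel Φ x g) := fun x hx g => by rw [pel_of_mem Φ hx]; exact hβ' ⟨x, hx⟩ g
  have φs : ∀ x ∈ X, ∃ σ, Sem σ (pel Φ x) := fun x hx => by rw [pel_of_mem Φ hx]; exact hβ ⟨x, hx⟩
  have φ0 : ∀ x ∈ X, pel Φ x = 1 → x = 1 := fun x hx h => mem_bot.1 (hc ▸ (⟨hx, fun k hk => by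
    obtain ⟨g, rfl⟩ := Kι k hk
    have := φ1 x hx g
    rw [h, mul_inv_eq_iff_eq_mul] at this
    exact this.symm⟩ : x ∈ X ⊓ 𝐂(K)))
  have φi : ∀ {x y}, x ∈ X → y ∈ X → (pel Φ x = pel Φ y ↔ x = y) := fun {x y} hx hy =>
    ⟨fun h => mul_inv_eq_one.1 (φ0 _ (mul_mem hx (inv_mem hy)) (by rw [pel_mul Φ hx (inv_mem hy), pel_inv Φ hy, h,
      mul_inv_cancel])), fun h => h ▸ rfl⟩
  have φι : ∀ g, pel Φ (ι g) = MulAut.conj g := fun g => hι.aut_ext hq fun h => by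
    rw [← φ1 _ (hK.1 (ιK g)), MulAut.conj_apply, map_mul, map_mul, map_inv]
  have Kφ : ∀ a ∈ Kh F, ∃ k ∈ K, pel Φ k = a := fun _ ⟨g, hg⟩ => ⟨ι g, ιK g, (φι g).trans hg⟩
  have φc : ∀ {x y}, x ∈ X → y ∈ X → (pel Φ x * pel Φ y = pel Φ y * pel Φ x ↔ x * y = y * x) := fun {x y} hx hy => by
    rw [← pel_mul Φ hx hy, ← pel_mul Φ hy hx, φi (mul_mem hx hy) (mul_mem hy hx)]
  have φ2 : ∀ {x}, x ∈ X → (pel Φ x * pel Φ x = 1 ↔ x * x = 1) := fun {x} hx => by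
    rw [← pel_mul Φ hx hx, ← pel_one Φ, φi (mul_mem hx hx) (one_mem _)]
  have φv : ∀ {x}, x ∈ X → (Inv2 (pel Φ x) ↔ Inv2 x) := fun {x} hx =>
    ⟨fun h => ⟨(φ2 hx).1 h.sq, fun e => h.ne (by rw [e, pel_one])⟩, fun h => ⟨(φ2 hx).2 h.sq, fun e => h.ne (φ0 x hx e)⟩⟩
  refine ⟨ι, Φ, hι, fun g => hK.1 (ιK g), φ1, φs, φ0, ?_⟩
  set P := pcomap Φ (Ph F)
  have KP : K ≤ P := fun k hk => by
    obtain ⟨g, rfl⟩ := Kι k hk
    exact mem_pcomap.2 ⟨hK.1 hk, Kh_le ⟨g, (φι g).symm⟩⟩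
  obtain ⟨S, R, hS, hR, -⟩ := hd
  have invP : ∀ s ∈ X, Inv2 s → s ∈ P := fun s hs s2 => by
    by_contra hP
    obtain ⟨σ, hσ⟩ := φs s hs
    obtain ⟨a', ha', b', hb', a2, b2, ab, c1, c2, c3⟩ := field_inv hq hσ ((φ2 hs).2 s2.sq) fun h => hP (mem_pcomap.2 ⟨hs, h⟩)
    obtain ⟨a, ha, rfl⟩ := Kφ a' ha'
    obtain ⟨b, hb, rfl⟩ := Kφ b' hb'
    rw [φc (hK.1 ha) (hK.1 hb)] at c1
    rw [φc hs (hK.1 ha)] at c2
    rw [φc hs (hK.1 hb)] at c3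
    obtain ⟨V, hV, mV⟩ := four_of ((φv (hK.1 ha)).1 a2) ((φv (hK.1 hb)).1 b2) (fun e => ab (e ▸ rfl)) c1
    have VK : V ≤ K := fun x hx => by
      rcases (mV x).1 hx with rfl | rfl | rfl | rfl
      exacts [one_mem _, ha, hb, mul_mem ha hb]
    obtain ⟨g, hg, h⟩ := (hR.syl_four hS hV (VK.trans hK.1)).exists_conj_mem (x := s) ⟨hs, fun x hx => by
      rcases (mV x).1 hx with rfl | rfl | rfl | rfl
      · simp
      · exact c2.symm
      · exact c3.symm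
      · rw [mul_assoc, ← c3, ← mul_assoc, ← c2, mul_assoc]⟩ s2.piElt
    exact hP (KP (by simpa [mul_assoc] using conj_mem_of_mem_normalizer (hK.2 (inv_mem hg.1)) (VK h)))
  obtain ⟨s, hs, sR⟩ := hR.exists
  have SP : S ≤ P := fun x hx => by
    by_cases h : x ∈ R
    · exact (mul_mem_cancel_left (invP s (hS.le hs) (hR.inv2 hs sR))).1
        (invP _ (hS.le (mul_mem hs hx)) (hR.inv2 (mul_mem hs hx) (Dih.mul_not_mem sR h)))
    · exact invP x (hS.le hx) (hR.inv2 hx h)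
  exact Nat.not_even_iff_odd.1 fun h => hS.not_dvd Nat.prime_two (h.two_dvd.trans (relIndex_dvd_of_le_left _ SP))
end

/-- `X` has the normal subgroup `ι(SL₂(F))` on which it acts semilinearly (`Φ`) with kernel the central 2-group `Z`. -/
structure QT {G : Type*} [Group G] (F : Type) [Field F] [Fintype F] (X Z : Subgroup G) where
  ι : SL(2, F) →* G
  Φ : X →* MulAut SL(2, F)
  odd : Odd (Fintype.card F)
  inj : Function.Injective ι
  mem : ∀ g, ι g ∈ X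
  act : ∀ x ∈ X, ∀ g, x * ι g * x⁻¹ = ι (pel Φ x g)
  sem : ∀ x ∈ X, ∃ σ, Sem σ (pel Φ x)
  ker : pker Φ = Z
  cen : Z ≤ 𝐂(X)
  two : PiGrp {2} Z
  oddi : Odd ((pcomap Φ (Ph F)).relIndex X)

variable {G : Type*} [Group G] [Finite G] {X Z : Subgroup G}

theorem core_quo_cen (hO : 𝐎(X) = ⊥) (ZX : Z ≤ X) (cen : Z ≤ 𝐂(X)) (two : PiGrp {2} Z) : 𝐎(X /ₛ Z) = ⊥ := by
  have hN : Z ⊴ X := ⟨ZX, (cents_symm cen).trans (centralizer_le_normalizer _)⟩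
  obtain ⟨H, sd, hH, e⟩ := exists_piGrp_quo_of_compl (π := {2}ᶜ) (by rwa [compl_compl]) (core_pi (X /ₛ Z))
  have hn := coq_normalIn hN (piCoreOf_normalIn {2}ᶜ (X /ₛ Z))
  have h1 : H ⊴ coq Z 𝐎(X /ₛ Z) := ⟨sd.right_le, sd.1 ▸ sup_le ((cen.trans (PG.cent_anti (sd.right_le.trans hn.1))).trans
    (centralizer_le_normalizer _)) le_normalizer⟩
  rw [← e, le_bot_iff.1 ((le_piCoreOf_of_subnormalIn (h1.subnormalIn.trans hn.subnormalIn) hH).trans hO.le), pmap_bot]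

theorem qt (hO : 𝐎(X) = ⊥) (ZX : Z ≤ X) (cen : Z ≤ 𝐂(X)) (two : PiGrp {2} Z) (hd : DSyl (X /ₛ Z))
    (h4 : ∀ V ≤ X, Four V → V ⊓ Z ≠ ⊥) (h2 : ¬ PiGrp {2} X) :
    (∃ (F : Type) (_ : Field F) (_ : Fintype F), Nonempty (QT F X Z)) ∨ A7T (X /ₛ Z) := by
  have hN : X ≤ 𝐍(Z) := (cents_symm cen).trans (centralizer_le_normalizer _)
  refine (dsyl_str hd (core_quo_cen hO ZX cen two) fun h => h2 (piGrp_of_quo hN two h)).imp_left ?_
  rintro ⟨K, hK, hc, F, _, _, hq, ⟨e⟩⟩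
  obtain ⟨ι, Φ, hι, ιX, φ1, φs, φ0, odi⟩ := l2rep hK hc hd hq e
  let f : X →* Quo Z := (qmk Z).comp (inclusion hN)
  have fq : ∀ x : X, f x = qel Z x := fun x => (pel_of_mem (qmk Z) (hN x.2)).symm
  have f1 : ∀ {x : X}, f x = 1 ↔ (x : G) ∈ Z := fun {x} => by rw [fq, qel_eq_one_iff (hN x.2)]
  have cz : ∀ c : X, f c = 1 → ∀ g, c * g = g * c := fun c h g => Subtype.ext (cen (f1.1 h) g g.2).symm
  have z2 : ∀ c : X, f c = 1 → ∃ k : ℕ, c ^ 2 ^ k = 1 := fun c h =>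
    (PG.isPGroup_iff_mem.1 (two.isPGroup Nat.prime_two) c (f1.1 h)).imp fun k hk => Subtype.ext hk
  obtain ⟨κ, hκ⟩ := cover hq f cz z2 ι fun g => by
    obtain ⟨x, hx, h⟩ := (mem_quo hN).1 (ιX g)
    exact ⟨⟨x, hx⟩, (fq _).trans h⟩
  let Ψ : X →* MulAut SL(2, F) := Φ.comp (pmapHom (qmk Z) hN)
  have Ψe : ∀ x ∈ X, pel Ψ x = pel Φ (qel Z x) := fun x hx => by
    rw [pel_of_mem Ψ hx, pel_of_mem Φ (qel_mem_quo Z hx)]
    exact congrArg Φ (Subtype.ext (pmapHom_apply _ _ _))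
  refine ⟨F, _, _, ⟨⟨X.subtype.comp κ, Ψ, hq, X.subtype_injective.comp ?_, fun g => (κ g).2, fun x hx g => ?_,
    fun x hx => Ψe x hx ▸ φs _ (qel_mem_quo Z hx), le_antisymm (fun x hx => ?_) fun x hx => ?_, cen, two, ?_⟩⟩⟩
  · have k1 : ∀ g, κ g = 1 → g = 1 ∨ g = -1 := fun g h => (hι g).1 (by rw [← hκ, h, map_one])
    refine (injective_iff_map_eq_one _).2 fun g h => (k1 g h).resolve_right ?_
    rintro rfl
    have pm : PM κ := fun g => ⟨k1 g, by rintro (rfl | rfl); exacts [map_one _, h]⟩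
    have eq : ∀ {a b}, κ a = κ b ↔ MulAut.conj a = MulAut.conj b := fun {a b} => pm.eq.trans pm_conj.eq.symm
    obtain ⟨p, hp, n, hp', hn⟩ := FiniteField.card' F
    have : Fact p.Prime := ⟨hp'⟩
    obtain ⟨g₁, g₂, -, -, d1, d2, i1, i2, ne, c⟩ := four_fix (two_ne_zero_of_odd hq) p (1 : RingAut F)
    obtain ⟨a, ha⟩ := piH_mem_K.2 (d1 ▸ IsSquare.one : IsSquare (aDet g₁))
    obtain ⟨b, hb⟩ := piH_mem_K.2 (d2 ▸ IsSquare.one : IsSquare (aDet g₂))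
    rw [← ha] at i1 ne c
    rw [← hb] at i2 ne c
    have iv : ∀ {a}, Inv2 (MulAut.conj a) → Inv2 (κ a : G) := fun {a} h =>
      ⟨by rw [← Subgroup.coe_mul, ← map_mul, eq.2 (show _ = MulAut.conj 1 by rw [map_mul, h.sq, map_one]), map_one]; rfl,
        fun e => h.ne (by rw [eq.1 (show κ a = κ 1 from Subtype.ext (by rw [e, map_one]; rfl)), map_one])⟩
    obtain ⟨V, hV, mV⟩ := four_of (iv i1) (iv i2) (fun e => ne (eq.1 (Subtype.ext e))) (by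
      rw [← Subgroup.coe_mul, ← map_mul, eq.2 (show _ = MulAut.conj (b * a) by rw [map_mul, map_mul, c]), map_mul]; rfl)
    have VK : ∀ x ∈ V, ∃ g, (κ g : G) = x := fun x hx => by
      rcases (mV x).1 hx with rfl | rfl | rfl | rfl
      exacts [⟨1, by simp⟩, ⟨a, rfl⟩, ⟨b, rfl⟩, ⟨a * b, by simp⟩]
    refine h4 V (fun x hx => ?_) hV (eq_bot_iff.2 fun x hx => ?_)
    · obtain ⟨g, rfl⟩ := VK x hx
      exact (κ g).2
    · obtain ⟨g, rfl⟩ := VK x hx.1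
      exact congrArg Subtype.val ((pm g).2 ((hι g).1 ((hκ g).symm.trans (f1.2 hx.2))))
  · set y : X := ⟨x, hx⟩
    have hz : ∀ g, f (y * κ g * y⁻¹ * (κ (pel Ψ x g))⁻¹) = 1 := fun g => by
      rw [map_mul, map_mul, map_mul, map_inv, map_inv, hκ, hκ, fq, φ1 _ (qel_mem_quo Z hx), Ψe x hx, mul_inv_cancel]
    refine congrArg Subtype.val (sl_induction hq (C := fun g => y * κ g * y⁻¹ = κ (pel Ψ x g)) (fun u hu => ?_)
      (fun a b ha hb => by rw [map_mul, map_mul, map_mul, ← ha, ← hb]; group) g)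
    obtain ⟨k, hk⟩ := z2 _ (hz u)
    have c : Commute (y * κ u * y⁻¹ * (κ (pel Ψ x u))⁻¹) (κ (pel Ψ x u)) := cz _ (hz u) _
    have h1 := c.mul_pow (orderOf u)
    rw [inv_mul_cancel_right, conj_pow, ← map_pow, ← map_pow, ← map_pow, pow_orderOf_eq_one, map_one, map_one, map_one,
      mul_one, mul_one, mul_inv_cancel] at h1
    exact mul_inv_eq_one.1 (orderOf_eq_one_iff.1 (Nat.eq_one_of_dvd_coprimes
      (Nat.Coprime.pow_left k (Nat.coprime_two_left.2 hu)) (orderOf_dvd_of_pow_eq_one hk) (orderOf_dvd_of_pow_eq_one h1.symm)))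
  · obtain ⟨h1, h3⟩ := mem_pker.1 hx
    exact (qel_eq_one_iff (hN h1)).1 (φ0 _ (qel_mem_quo Z h1) (Ψe x h1 ▸ h3))
  · exact mem_pker.2 ⟨ZX hx, by rw [Ψe x (ZX hx), qel_eq_one hx, pel_one]⟩
  · rw [← relIndex_coq hN] at odi
    rwa [← inf_relIndex_right, show pcomap Ψ (Ph F) ⊓ X = coq Z (pcomap Φ (Ph F)) ⊓ X from Subgroup.ext fun x =>
      mem_inf.trans <| (and_congr_left fun hx => by
        rw [mem_pcomap, mem_coq, mem_pcomap, Ψe x hx]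
        simp only [hx, hN hx, qel_mem_quo Z hx, true_and]).trans mem_inf.symm, inf_relIndex_right]

namespace QT
variable {F : Type} [Field F] [Fintype F] (h : QT F X Z) {x y : G} {Y : Subgroup G}

/-- the normal subgroup `SL₂(q)` -/
abbrev L : Subgroup G := h.ι.range
/-- the `PGL₂(q)` part -/
noncomputable abbrev P : Subgroup G := pcomap h.Φ (Ph F)
/-- all of `PGL₂(q)` is induced -/
def Full : Prop := Ph F ≤ h.Φ.range

theorem φι (g : SL(2, F)) : pel h.Φ (h.ι g) = MulAut.conj g := MulEquiv.ext fun k => h.inj (by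
  rw [← h.act _ (h.mem g), MulAut.conj_apply, map_mul, map_mul, map_inv])
include h in
theorem ZX : Z ≤ X := h.ker.ge.trans (pker_le_dom _)
include h in
theorem ZN : Z ⊴ X := ⟨h.ZX, (cents_symm h.cen).trans (centralizer_le_normalizer _)⟩
theorem φ1 (hx : x ∈ X) : pel h.Φ x = 1 ↔ x ∈ Z :=
  (and_iff_right hx).symm.trans (mem_pker.symm.trans (SetLike.ext_iff.1 h.ker x))
theorem φeq (hx : x ∈ X) (hy : y ∈ X) : pel h.Φ x = pel h.Φ y ↔ x * y⁻¹ ∈ Z := by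
  rw [← h.φ1 (mul_mem hx (inv_mem hy)), pel_mul _ hx (inv_mem hy), pel_inv _ hy, mul_inv_eq_one]
theorem LX : h.L ≤ X := by rintro _ ⟨g, rfl⟩; exact h.mem g
theorem LN : h.L ⊴ X := ⟨h.LX, fun x hx => mem_norm_of (by rintro _ ⟨g, rfl⟩; exact ⟨_, (h.act x hx g).symm⟩)⟩
theorem PX : h.P ≤ X := pcomap_le_dom _ _
theorem mP (hx : x ∈ h.P) : pel h.Φ x ∈ Ph F := (mem_pcomap.1 hx).2
theorem PN : h.P ⊴ X := ⟨h.PX, fun x hx => mem_norm_of fun y hy => by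
  obtain ⟨σ, hσ⟩ := h.sem x hx
  exact mem_pcomap.2 ⟨mul_mem (mul_mem hx (h.PX hy)) (inv_mem hx), by
    rw [pel_conj _ hx (h.PX hy)]; exact hσ.conj (h.mP hy)⟩⟩
theorem LP : h.L ≤ h.P := by rintro _ ⟨g, rfl⟩; exact mem_pcomap.2 ⟨h.mem g, Kh_le ⟨g, (h.φι g).symm⟩⟩
theorem ZP : Z ≤ h.P := h.ker.ge.trans (pker_le_pcomap _ _)
theorem cent_L : X ⊓ 𝐂(h.L) = Z := le_antisymm (fun x hx => (h.φ1 hx.1).1 (MulEquiv.ext fun g => h.inj (by
    rw [← h.act x hx.1, ← hx.2 _ ⟨g, rfl⟩, mul_inv_cancel_right]; rfl)))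
  (le_inf h.ZX (h.cen.trans (PG.cent_anti h.LX)))
theorem dec (hx : x ∈ h.L ⊔ Z) : ∃ g, ∃ c ∈ Z, x = h.ι g * c := by
  obtain ⟨_, ⟨g, rfl⟩, c, hc, e⟩ := (mem_sup_of_norm (.inl (h.ZX.trans h.LN.2))).1 hx
  exact ⟨g, c, hc, e.symm⟩
theorem φK (hx : x ∈ X) : pel h.Φ x ∈ Kh F ↔ x ∈ h.L ⊔ Z := ⟨fun ⟨g, hg⟩ => by
    have := (h.φeq hx (h.mem g)).1 (hg.symm.trans (h.φι g).symm)
    simpa using mul_mem (mem_sup_right this : _ ∈ h.L ⊔ Z) (mem_sup_left ⟨g, rfl⟩), fun e => by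
  obtain ⟨g, c, hc, rfl⟩ := h.dec e
  exact ⟨g, by rw [pel_mul _ (h.mem g) (h.ZX hc), (h.φ1 (h.ZX hc)).2 hc, mul_one, h.φι]⟩⟩
theorem mem_Z {g : SL(2, F)} : h.ι g ∈ Z ↔ g = 1 ∨ g = -1 := by rw [← h.φ1 (h.mem g), h.φι, pm_conj]
theorem neg : h.ι (-1) ∈ Z := h.mem_Z.2 (.inr rfl)
theorem neg2 : Inv2 (h.ι (-1)) := ⟨by rw [← map_mul]; simp, fun e => two_ne_zero_of_odd h.odd (by
  have := (s_ent (h.inj (e.trans (map_one _).symm))).1
  rw [neg_ent, one_ent00] at this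
  linear_combination -this)⟩
theorem inv_L (hx : x ∈ h.L) (x2 : Inv2 x) : x = h.ι (-1) := by
  obtain ⟨g, rfl⟩ := hx
  exact congrArg h.ι (Subtype.ext (eq_neg_one_of_involution (two_ne_zero_of_odd h.odd) g (fun e => x2.ne (by rw [e, map_one]))
    (h.inj (by rw [map_mul, x2.sq, map_one]))))
theorem card_L : Nat.card h.L = Fintype.card F * (Fintype.card F ^ 2 - 1) := by
  rw [← Nat.card_congr (MonoidHom.ofInjective h.inj).toEquiv, Lin.card_SL_two]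
theorem mul_mem_LZ (hx : x ∈ h.P) (hy : y ∈ h.P) (x1 : x ∉ h.L ⊔ Z) (y1 : y ∉ h.L ⊔ Z) : x * y ∈ h.L ⊔ Z :=
  (h.φK (mul_mem (h.PX hx) (h.PX hy))).1 (by
    rw [pel_mul _ (h.PX hx) (h.PX hy)]
    exact mul_mem_K h.odd (h.mP hx) (h.mP hy) (mt (h.φK (h.PX hx)).1 x1) (mt (h.φK (h.PX hy)).1 y1))
theorem sq_mem (hx : x ∈ h.P) : x * x ∈ h.L ⊔ Z :=
  by_contra fun e => e (h.mul_mem_LZ hx hx (fun a => e (mul_mem a a)) fun a => e (mul_mem a a))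
theorem der : ⁅X, X⁆ ≤ h.L ⊔ Z := commutator_le.2 fun x hx y hy =>
  (h.φK (mul_mem (mul_mem (mul_mem hx hy) (inv_mem hx)) (inv_mem hy))).1 (by
    obtain ⟨σ, hσ⟩ := h.sem x hx
    obtain ⟨ρ, hρ⟩ := h.sem y hy
    rw [pel_comm _ hx hy]
    exact comm_mem_K h.odd hσ hρ)
theorem two_mem (hx : x ∈ X) (x2 : PiElt {2} x) : x ∈ h.P :=
  mem_of_piElt h.PN (π := {2}) (fun r hr hd (e : r = 2) => h.oddi.not_two_dvd_nat (e ▸ hd)) hx x2
/-- odd elements of `P` lie in `L` -/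
theorem odd_mem (hx : x ∈ h.P) (xo : Odd (orderOf x)) : x ∈ h.L := by
  obtain ⟨w, hw, rfl⟩ := exists_sqrt xo
  obtain ⟨g, c, hc, e⟩ := h.dec (h.sq_mem (zpowers_le.2 hx hw))
  obtain ⟨k, hk⟩ := PG.isPGroup_iff_mem.1 (h.two.isPGroup Nat.prime_two) c hc
  obtain ⟨m, hm⟩ := exists_pow_eq_self_of_coprime (x := w * w) (n := 2 ^ k) (Nat.Coprime.pow_left k (Nat.coprime_two_left.2 xo))
  rw [← hm, e, Commute.mul_pow (h.cen hc _ (h.mem g)), hk, mul_one]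
  exact pow_mem (pow_mem (⟨g, rfl⟩ : h.ι g ∈ h.L) _) _
theorem L_le (hY : Y ⊴ X) (hi : PiNum {2} (Y.relIndex X)) : h.L ≤ Y := by
  rintro _ ⟨g, rfl⟩
  refine sl_induction h.odd (C := fun g => h.ι g ∈ Y) (fun u hu => ?_) (fun a b ha hb => map_mul h.ι a b ▸ mul_mem ha hb) g
  exact mem_of_piElt hY (π := {2}ᶜ) (by rwa [compl_compl]) (h.mem u) (odd_elt_iff.1 (hu.of_dvd_nat (orderOf_map_dvd _ _)))
theorem full_of (hx : x ∈ h.P) (x1 : x ∉ h.L ⊔ Z) : h.Full := fun a ha => by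
  have K : ∀ a ∈ Kh F, a ∈ h.Φ.range := fun _ ⟨g, hg⟩ => ⟨⟨_, h.mem g⟩, (pel_of_mem _ _).symm.trans ((h.φι g).trans hg)⟩
  by_cases e : a ∈ Kh F
  · exact K a e
  · exact (mul_mem_cancel_right (⟨⟨x, h.PX hx⟩, (pel_of_mem _ _).symm⟩ : pel h.Φ x ∈ h.Φ.range)).1
      (K _ (mul_mem_K h.odd ha (h.mP hx) e (mt (h.φK (h.PX hx)).1 x1)))
theorem full (hY : Y ⊴ X) (hi : Y.relIndex X = 2) (hZ : Z ≤ Y) : h.Full := by
  obtain ⟨S, hS⟩ := exists_sylowIn 2 X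
  obtain ⟨x, hx, xY⟩ := SetLike.not_le_iff_exists.1 fun e : S ≤ Y =>
    hS.not_dvd Nat.prime_two (hi ▸ relIndex_dvd_of_le_left _ e)
  exact h.full_of (h.two_mem (hS.le hx) (hS.piGrp.piElt hx)) fun e =>
    xY (sup_le (h.L_le hY fun r hr hd => (Nat.prime_dvd_prime_iff_eq hr Nat.prime_two).1 (hi ▸ hd)) hZ e)
theorem Full.ex {h : QT F X Z} (f : h.Full) (A : L2 F) : ∃ x ∈ h.P, pel h.Φ x = piH A := by
  obtain ⟨x, hx⟩ := f ⟨A, rfl⟩
  exact ⟨x, mem_pcomap.2 ⟨x.2, ⟨A, by rw [pel_coe, hx]⟩⟩, by rw [pel_coe, hx]⟩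

/-- all facts of `L2T` for `X / Z` -/
theorem l2t (h5 : 5 ≤ Fintype.card F) (hd : DSyl (X /ₛ Z)) : L2T (X /ₛ Z) (h.L /ₛ Z) (h.P /ₛ Z) (Fintype.card F) := by
  have hN := h.ZN.2
  let f : SL(2, F) →* ↥(h.L /ₛ Z) := (pmapHom (qmk Z) (h.LX.trans hN)).comp h.ι.rangeRestrict
  have fk : f.ker = center _ := Subgroup.ext fun g => by
    rw [MonoidHom.mem_ker, Subtype.ext_iff, ← QuotientGroup.eq_one_iff, ← QuotientGroup.mk'_apply, pm_mk g, ← h.mem_Z]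
    exact (by rw [show ((f g : ↥(h.L /ₛ Z)) : Quo Z) = qel Z (h.ι g) from pmapHom_apply _ _ _]; rfl :
      _ ↔ qel Z (h.ι g) = 1).trans (qel_eq_one_iff (hN (h.mem g)))
  have hc : (X /ₛ Z) ⊓ 𝐂(h.L /ₛ Z) = ⊥ := eq_bot_iff.2 fun u hu => by
    obtain ⟨x, hx, rfl⟩ := (mem_quo hN).1 hu.1
    refine qel_eq_one ((h.φ1 hx).1 (pm_conj.aut_ext h.odd fun g => ?_))
    have := hu.2 _ (qel_mem_quo Z (⟨g, rfl⟩ : h.ι g ∈ h.L))
    rw [← pel_mul _ (hN (h.mem g)) (hN hx), ← pel_mul _ (hN hx) (hN (h.mem g)), eq_comm,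
      qel_eq_iff' (hN (mul_mem hx (h.mem g))) (hN (mul_mem (h.mem g) hx)), mul_inv_rev, ← mul_assoc, h.act x hx, ← map_inv,
      ← map_mul, ← h.φ1 (h.mem _), h.φι, map_mul, map_inv, mul_inv_eq_one] at this
    exact this
  obtain ⟨P, t⟩ := GW.l2t (h.LN.quo Z) hc hd ⟨h.odd, by omega, F, _, _, rfl, ⟨((QuotientGroup.quotientMulEquivOfEq fk.symm).trans
    (QuotientGroup.quotientKerEquivOfSurjective f ((pmapHom_surjective _ _).comp h.ι.rangeRestrict_surjective))).symm⟩⟩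
  have key : ∀ {A B : Subgroup (Quo Z)}, A ≤ X /ₛ Z → B ⊴ X /ₛ Z → Odd (B.relIndex (X /ₛ Z)) → (∀ a ∈ A, a * a ∈ B) → A ≤ B :=
    fun {A B} hA hB ho hs a ha => by
      obtain ⟨k, hk⟩ := ho
      have := (normal_subgroupOf_iff_le_normalizer hB.1).2 hB.2
      have h1 : a ^ B.relIndex (X /ₛ Z) ∈ B := (B.subgroupOf _).pow_index_mem ⟨a, hA ha⟩
      rwa [hk, pow_succ, pow_mul, sq, mul_mem_cancel_left (pow_mem (hs a ha) k)] at h1
  rwa [show h.P /ₛ Z = P from le_antisymm (key (quo_mono Z h.PX) t.PX t.oddi fun a ha => ?_)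
    (key t.PX.1 (h.PN.quo Z) (by rw [relIndex_quo ⟨h.ZP, h.PX.trans hN⟩ hN]; exact h.oddi) fun a ha => ?_)]
  · obtain ⟨x, hx, rfl⟩ := (mem_quo (h.PX.trans hN)).1 ha
    rw [← pel_mul _ (hN (h.PX hx)) (hN (h.PX hx))]
    exact t.KP (quo_sup_right (h.LX.trans hN) ▸ qel_mem_quo Z (h.sq_mem hx))
  · refine quo_mono Z h.LP (by_contra fun e => ?_)
    rcases t.idx with i | i
    · exact e (relIndex_eq_one.1 i (mul_mem ha ha))
    · exact e (mul_mem_of_idx2 i ha ha (fun b => e (mul_mem b b)) fun b => e (mul_mem b b))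

end QT

end CA.ABG
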