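/-
Alperin–Brauer–Gorenstein theorem (semidihedral and wreathed Sylow 2-subgroups): shared definitions, the induction.
-/
import Cfsg.Agent.Lib.GW.Basic
import Cfsg.Prelude.Def_LieClassical

set_option autoImplicit false

namespace CA.ABG

open Cfsg CA CA.FStar CA.GW Subgroup

universe u

section
variable {G : Type*} [Group G]

/-- `S` is semidihedral or wreathed. -/
def QD (S : Subgroup G) : Prop := IsQuasiDihedral S ∨ IsWreathed S

/-- The Sylow 2-subgroups of `L` are semidihedral or wreathed. -/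
def QSyl (L : Subgroup G) : Prop := ∃ S, SylowIn 2 S L ∧ QD S

end

/-- Every involution commuting with the involution `t` centralizes `O(C(t))`. -/
def Bal (K : Type*) [Group K] : Prop :=
  ∀ t s : K, Inv2 t → Inv2 s → s ∈ 𝐂[t] → 𝐎(𝐂[t]) ≤ 𝐂[s]

/-- `H ≅ GL₂(q)/Z`, `Z` central of odd order. -/
def IsGLQ (H : Type*) [Group H] : Prop :=
  ∃ (F : Type) (_ : Field F) (_ : Fintype F) (Z : Subgroup (GL (Fin 2) F)) (_ : Z.Normal),
    Odd (Fintype.card F) ∧ Z ≤ center (GL (Fin 2) F) ∧ Odd (Nat.card Z) ∧ Nonempty (H ≃* (GL (Fin 2) F ⧸ Z))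

/-- `H ≅ GU₂(q)/Z`, `Z` central of odd order. -/
def IsGUQ (H : Type*) [Group H] : Prop :=
  ∃ (F : Type) (_ : Field F) (_ : Fintype F) (q : ℕ) (Z : Subgroup (GU 2 F q)) (_ : Z.Normal),
    Odd q ∧ Fintype.card F = q ^ 2 ∧ Z ≤ center (GU 2 F q) ∧ Odd (Nat.card Z) ∧ Nonempty (H ≃* (GU 2 F q ⧸ Z))

/-- The centralizer of some involution is `GL₂^ε(q)/Z`. -/
def Ident (K : Type*) [Group K] : Prop := ∃ t : K, Inv2 t ∧ (IsGLQ 𝐂[t] ∨ IsGUQ 𝐂[t])

/-- A minimal simple group with semidihedral or wreathed Sylow 2-subgroup `S` that is not balanced; `t` is the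
involution of `Z(S)`. -/
structure Min (G : Type u) [Group G] where
  S : Subgroup G
  t : G
  simple : IsSimpleGroup G
  syl : SylowIn 2 S ⊤
  qd : QD S
  tS : t ∈ S
  inv : Inv2 t
  S_le : S ≤ 𝐂[t]
  ind : ∀ (K : Type u) [Group K] [Finite K] [IsSimpleGroup K], Nat.card K < Nat.card G →
    QSyl (⊤ : Subgroup K) → Bal K
  unbal : ¬ Bal G

section
variable {G : Type*} [Group G] [Finite G] {S : Subgroup G}

omit [Finite G] in
theorem QD.ne_bot (h : QD S) : S ≠ ⊥ := fun e => by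
  rcases h with ⟨n, -, h, -⟩ | ⟨n, -, h, -⟩ <;>
  · rw [e, card_bot] at h
    exact absurd h (Nat.one_lt_two_pow (by omega)).ne

theorem exists_central (hS : PiGrp {2} S) (h : S ≠ ⊥) : ∃ t ∈ S, Inv2 t ∧ S ≤ 𝐂[t] := by
  obtain ⟨t, ht, e⟩ := exists_orderOf_eq_prime Nat.prime_two
    ((hS.inf_left 𝐂(S)).dvd_card_of_ne_bot (center_ne_bot_nil hS.nilpotent h))
  exact ⟨t, ht.1, inv2_of_ord e, mem_cent_iff_le_cent1.1 ht.2⟩

end

/-- The induction: every simple group with semidihedral or wreathed Sylow 2-subgroups is balanced. -/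
theorem bal_of (h : ∀ (G : Type u) [Group G] [Finite G], Min G → False) (K : Type u) [Group K] [Finite K]
    [IsSimpleGroup K] (hd : QSyl (⊤ : Subgroup K)) : Bal K := by
  induction hn : Nat.card K using Nat.strong_induction_on generalizing K with
  | _ n ih =>
  obtain ⟨S, hS, hd⟩ := hd
  obtain ⟨t, ht, t2, h1⟩ := exists_central hS.piGrp hd.ne_bot
  exact by_contra fun e => h K ⟨S, t, inferInstance, hS, hd, ht, t2, h1, fun L _ _ _ h1 h3 => ih _ (hn ▸ h1) L h3 rfl, e⟩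

end CA.ABG
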