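/-
Semidihedral and wreathed 2-groups, uniformly: an abelian subgroup `A = ⟨x, x^y⟩` of index 2 and an involution `y`.
-/
import Cfsg.Agent.Lib.ABG.Defs

set_option autoImplicit false
set_option linter.unusedSectionVars false

namespace CA.ABG

open Cfsg CA CA.FStar CA.GW Subgroup

/-- `S = A ⟨y⟩` is semidihedral or wreathed, `Z(S) = ⟨z⟩ ∋ t`, `S' = ⟨d⟩`. -/
structure SW {G : Type*} [Group G] (S : Subgroup G) (t : G) where
  A : Subgroup G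
  x : G
  y : G
  z : G
  d : G
  two : PiGrp {2} S
  le : A ≤ S
  idx : A.relIndex S = 2
  ab : ∀ a ∈ A, ∀ b ∈ A, a * b = b * a
  yS : y ∈ S
  yA : y ∉ A
  y2 : y * y = 1
  xA : x ∈ A
  hz : x * (y * x * y⁻¹) = z
  hd : x⁻¹ * (y * x * y⁻¹) = d
  t2 : Inv2 t
  gen : ∀ a ∈ A, ∃ i j : ℤ, a = x ^ i * z ^ j
  c1 : ∀ i : ℤ, d ^ i = 1 → x ^ i ∈ zpowers z
  c2 : ∀ i : ℤ, z ^ i = 1 → x ^ i ∈ zpowers d
  tz : t ∈ zpowers z
  td : t ∈ zpowers (d * d)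
  /-- semidihedral or wreathed -/
  typ : (A = zpowers x ∧ z = t) ∨ ((∀ a ∈ A, a ^ orderOf z = 1) ∧ t ∈ zpowers (z * z))

section
variable {G : Type*} [Group G] [Finite G] {S : Subgroup G}

theorem sw_sd (h : IsQuasiDihedral S) : ∃ t, Nonempty (SW S t) := by
  obtain ⟨n, hn, hc, x, y, ox, oy, e⟩ := h
  obtain ⟨k, rfl⟩ : ∃ k, n = k + 3 := ⟨n - 3, by omega⟩
  rw [← orderOf_coe] at ox oy
  have e' : (y : G) * x * (y : G)⁻¹ = (x : G) ^ (2 ^ (k + 2) - 1) := congrArg Subtype.val e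
  have xS := x.2
  have yS := y.2
  generalize (x : G) = x at *
  generalize (y : G) = y at *
  obtain ⟨m, hm⟩ : ∃ m : ℕ, m = 2 ^ k := ⟨_, rfl⟩
  have m1 : 1 ≤ m := hm ▸ Nat.one_le_two_pow
  have o8 : orderOf x = 8 * m := by rw [ox, hm]; ring
  have e1 : y * x * y⁻¹ = x ^ (4 * (m : ℤ) - 1) := by
    rw [e', ← zpow_natCast, Nat.cast_sub Nat.one_le_two_pow, hm]; congr 1; push_cast; ring
  have dv : ∀ i : ℤ, x ^ i = 1 ↔ 8 * (m : ℤ) ∣ i := fun i => by rw [← orderOf_dvd_iff_zpow_eq_one, o8]; push_cast; rfl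
  have ez : x * (y * x * y⁻¹) = x ^ (4 * (m : ℤ)) := by rw [e1]; group
  have ed : x⁻¹ * (y * x * y⁻¹) = x ^ (4 * (m : ℤ) - 2) := by rw [e1]; group
  have cop : IsCoprime (4 * (m : ℤ)) (2 * m - 1) := by
    rw [show 4 * (m : ℤ) = 2 * (2 * m) by ring]
    exact IsCoprime.mul_left ⟨m, -1, by ring⟩ ⟨1, -1, by ring⟩
  have x2 : x ^ (2 : ℤ) ∈ zpowers (x ^ (4 * (m : ℤ) - 2)) := by
    obtain ⟨a, b, hab⟩ := cop
    refine ⟨b, ?_⟩
    simp only
    rw [← zpow_mul, ← mul_inv_eq_one, ← zpow_sub, dv]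
    exact ⟨-a, by linear_combination 2 * hab⟩
  have yA : y ∉ zpowers x := fun ⟨i, hi⟩ => by
    have : x ^ (4 * (m : ℤ) - 2) = 1 := by rw [← ed, ← hi]; group
    have := Int.le_of_dvd (by omega) ((dv _).1 this)
    omega
  refine ⟨x ^ (4 * (m : ℤ)), ⟨⟨zpowers x, x, y, _, _, piGrp_of_card_pow Nat.prime_two hc, zpowers_le.2 xS,
    relIndex_eq_of_card_eq_mul (zpowers_le.2 xS) (by rw [hc, Nat.card_zpowers, ox]; ring), ?_, yS, yA,
    (inv2_of_ord oy).sq, mem_zpowers x, ez, ed, ⟨?_, ?_⟩, ?_, ?_, ?_, mem_zpowers _, ?_, .inl ⟨rfl, rfl⟩⟩⟩⟩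
  · rintro _ ⟨i, rfl⟩ _ ⟨j, rfl⟩; simp only; group
  · rw [← zpow_add, dv]; exact ⟨1, by ring⟩
  · intro h
    have := Int.le_of_dvd (by omega) ((dv _).1 h)
    omega
  · rintro _ ⟨i, rfl⟩; exact ⟨i, 0, by simp⟩
  · intro i h
    rw [← zpow_mul, dv] at h
    obtain ⟨c, hc⟩ := h
    obtain ⟨j, rfl⟩ := cop.dvd_of_dvd_mul_left (z := i) ⟨c, by linarith⟩
    exact ⟨j, by simp only; rw [← zpow_mul]⟩
  · intro i h
    rw [← zpow_mul, dv] at h
    obtain ⟨c, hc⟩ := h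
    obtain rfl : i = 2 * c := by
      have : (4 * (m : ℤ)) * i = 4 * m * (2 * c) := by linarith
      exact mul_left_cancel₀ (by omega) this
    rw [zpow_mul]; exact zpow_mem x2 _
  · obtain ⟨b, hb⟩ := x2
    refine ⟨b * m, ?_⟩
    simp only at hb ⊢
    rw [← zpow_two, ← zpow_mul, mul_left_comm, zpow_mul, hb, ← zpow_mul]; congr 1; ring

theorem sw_wr (h : IsWreathed S) : ∃ t, Nonempty (SW S t) := by
  obtain ⟨n, hn, hc, x, x', y, ox, c, hi, oy, e⟩ := h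
  obtain ⟨k, rfl⟩ : ∃ k, n = k + 2 := ⟨n - 2, by omega⟩
  rw [← orderOf_coe] at ox oy
  have e' : (y : G) * x * (y : G)⁻¹ = x' := congrArg Subtype.val e
  have c' : Commute (x : G) x' := congrArg Subtype.val c
  have hi' : ∀ i j : ℤ, (x : G) ^ i = (x' : G) ^ j → (x : G) ^ i = 1 := fun i j h => by
    have : x ^ i ∈ zpowers x ⊓ zpowers x' := ⟨⟨i, rfl⟩, ⟨j, Subtype.ext h.symm⟩⟩
    rw [hi, mem_bot] at this
    exact congrArg Subtype.val this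
  have xS := x.2
  have xS' := x'.2
  have yS := y.2
  generalize (x : G) = x at *
  generalize (x' : G) = x' at *
  generalize (y : G) = y at *
  obtain ⟨m, hm⟩ : ∃ m : ℕ, m = 2 ^ k := ⟨_, rfl⟩
  have m1 : 1 ≤ m := hm ▸ Nat.one_le_two_pow
  have o4 : orderOf x = 4 * m := by rw [ox, hm]; ring
  have o4' : orderOf x' = 4 * m := by rw [← e', orderOf_conj', o4]
  have dv : ∀ i : ℤ, x ^ i = 1 ↔ 4 * (m : ℤ) ∣ i := fun i => by rw [← orderOf_dvd_iff_zpow_eq_one, o4]; push_cast; rfl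
  have dv' : ∀ i : ℤ, x' ^ i = 1 ↔ 4 * (m : ℤ) ∣ i := fun i => by rw [← orderOf_dvd_iff_zpow_eq_one, o4']; push_cast; rfl
  have nn : zpowers x' ≤ 𝐍(zpowers x) := norms_zpowers_of_cent1 (zpowers_le.2 (mem_cent1_iff.2 c'.symm.eq))
  have mem : ∀ a, a ∈ zpowers x ⊔ zpowers x' ↔ ∃ i j : ℤ, a = x ^ i * x' ^ j := fun a => by
    rw [mem_sup_of_norm_right nn]
    exact ⟨fun ⟨_, ⟨i, rfl⟩, _, ⟨j, rfl⟩, h⟩ => ⟨i, j, h.symm⟩, fun ⟨i, j, h⟩ => ⟨_, ⟨i, rfl⟩, _, ⟨j, rfl⟩, h.symm⟩⟩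
  have le : zpowers x ⊔ zpowers x' ≤ S := sup_le (zpowers_le.2 xS) (zpowers_le.2 xS')
  have dj : zpowers x ⊓ zpowers x' = ⊥ := eq_bot_iff.2 fun a ⟨⟨i, h1⟩, ⟨j, h2⟩⟩ => by
    rw [mem_bot, ← h1]; exact hi' i j (h1.trans h2.symm)
  have ab : ∀ a ∈ zpowers x ⊔ zpowers x', ∀ b ∈ zpowers x ⊔ zpowers x', a * b = b * a := fun a ha b hb => by
    obtain ⟨i, j, rfl⟩ := (mem a).1 ha
    obtain ⟨i', j', rfl⟩ := (mem b).1 hb
    exact (((Commute.refl x).zpow_zpow i i').mul_right (c'.zpow_zpow i j')).mul_left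
      ((c'.symm.zpow_zpow j i').mul_right ((Commute.refl x').zpow_zpow j j'))
  have pz : ∀ i : ℤ, (x * x') ^ i = x ^ i * x' ^ i := fun i => c'.mul_zpow i
  have pd : ∀ i : ℤ, (x⁻¹ * x') ^ i = x ^ (-i) * x' ^ i := fun i => by rw [c'.inv_left.mul_zpow, inv_zpow']
  have oz : ∀ i : ℤ, (x * x') ^ i = 1 → x ^ i = 1 := fun i h =>
    hi' i (-i) (by rw [zpow_neg, eq_inv_iff_mul_eq_one, ← pz, h])
  refine ⟨(x * x') ^ (2 * (m : ℤ)), ⟨⟨zpowers x ⊔ zpowers x', x, y, x * x', x⁻¹ * x', piGrp_of_card_pow Nat.prime_two hc, le,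
    relIndex_eq_of_card_eq_mul le (by
      rw [hc, card_sup_of_disjoint (.inl nn) dj, Nat.card_zpowers, Nat.card_zpowers, o4, o4', hm]; ring),
    ab, yS, fun h => ?_, (inv2_of_ord oy).sq, mem_sup_left (mem_zpowers x), by rw [e'], by rw [e'], ⟨?_, fun h => ?_⟩,
    fun a ha => ?_, fun i h => ?_, fun i h => ?_, ⟨_, rfl⟩, ⟨m, ?_⟩, .inr ⟨fun a ha => ?_, ⟨m, ?_⟩⟩⟩⟩⟩
  · have := (dv 1).1 (hi' 1 1 (by
      rw [zpow_one, zpow_one, ← e', ab y h x (mem_sup_left (mem_zpowers x)), mul_inv_cancel_right]))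
    have := Int.le_of_dvd one_pos this
    omega
  · rw [← zpow_add, pz, (dv _).2 ⟨1, by ring⟩, (dv' _).2 ⟨1, by ring⟩, one_mul]
  · have := Int.le_of_dvd (by omega) ((dv _).1 (oz _ h))
    omega
  · obtain ⟨i, j, rfl⟩ := (mem a).1 ha
    exact ⟨i - j, j, by rw [pz]; group⟩
  · rw [hi' i i (by rw [pd, zpow_neg, inv_mul_eq_one] at h; exact h)]; exact one_mem _
  · rw [oz i h]; exact one_mem _
  · simp only
    rw [← zpow_two, ← zpow_mul, pd, pz, mul_left_inj, ← mul_inv_eq_one, ← zpow_sub, dv]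
    exact ⟨-1, by ring⟩
  · obtain ⟨i, j, rfl⟩ := (mem a).1 ha
    have h1 : x ^ (orderOf (x * x') : ℤ) = 1 := oz _ (by rw [zpow_natCast, pow_orderOf_eq_one])
    have h2 := (dv' _).2 ((dv _).1 h1)
    rw [← zpow_natCast, (c'.zpow_zpow i j).mul_zpow, ← zpow_mul, ← zpow_mul, mul_comm i, mul_comm j, zpow_mul,
      zpow_mul, h1, h2, one_zpow, one_zpow, one_mul]
  · simp only
    rw [← zpow_two, ← zpow_mul]

end

namespace SW
variable {G : Type*} [Group G] [Finite G] {S V : Subgroup G} {t : G} (w : SW S t) {a b s u : G}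

theorem norm : S ≤ 𝐍(w.A) := norm_of_relIndex_eq_prime (w.two.isPGroup Nat.prime_two) w.le w.idx

theorem cj_mem (hs : s ∈ S) (ha : a ∈ w.A) : s * a * s⁻¹ ∈ w.A := conj_mem_of_mem_normalizer (w.norm hs) ha

theorem out_mul (ha : a ∈ S) (hb : b ∈ S) (ha' : a ∉ w.A) (hb' : b ∉ w.A) : a * b ∈ w.A :=
  (mul_mem_iff_of_index_two w.idx (a := ⟨a, ha⟩) (b := ⟨b, hb⟩)).2 (iff_of_false ha' hb')

theorem yinv : w.y⁻¹ = w.y := inv_eq_of_mul_eq_one_right w.y2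

theorem y_inv2 : Inv2 w.y := ⟨w.y2, fun e => w.yA (e ▸ one_mem _)⟩

theorem out (hs : s ∈ S) (hA : s ∉ w.A) : ∃ a ∈ w.A, s = a * w.y :=
  ⟨s * w.y, w.out_mul hs w.yS hA w.yA, by rw [mul_assoc, w.y2, mul_one]⟩

theorem out_not (ha : a ∈ w.A) : a * w.y ∉ w.A := fun e => w.yA ((mul_mem_cancel_left ha).1 e)

theorem abelian : IsMulCommutative w.A := abelian_iff'.2 w.ab

theorem cj_in (ha : a ∈ w.A) (hb : b ∈ w.A) : a * b * a⁻¹ = b := by rw [w.ab a ha b hb, mul_inv_cancel_right]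

/-- every element outside `A` acts on `A` as `y` -/
theorem cj_out (hs : s ∈ S) (hA : s ∉ w.A) (ha : a ∈ w.A) : s * a * s⁻¹ = w.y * a * w.y⁻¹ := by
  obtain ⟨b, hb, rfl⟩ := w.out hs hA
  rw [← w.cj_in hb (w.cj_mem w.yS ha)]; group

theorem yy (a : G) : w.y * (w.y * a * w.y⁻¹) * w.y⁻¹ = a := by
  calc _ = (w.y * w.y) * a * (w.y * w.y)⁻¹ := by group
    _ = a := by rw [w.y2]; group

theorem zA : w.z ∈ w.A := w.hz ▸ mul_mem w.xA (w.cj_mem w.yS w.xA)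

theorem dA : w.d ∈ w.A := w.hd ▸ mul_mem (inv_mem w.xA) (w.cj_mem w.yS w.xA)

theorem Z_le : zpowers w.z ≤ w.A := zpowers_le.2 w.zA

theorem D_le : zpowers w.d ≤ w.A := zpowers_le.2 w.dA

theorem tA : t ∈ w.A := w.Z_le w.tz

include w in
theorem tS : t ∈ S := w.le w.tA

theorem td' : t ∈ zpowers w.d := zpowers_le.2 (mul_mem (mem_zpowers _) (mem_zpowers _)) w.td

theorem yz : w.y * w.z * w.y⁻¹ = w.z := by
  rw [← w.hz, ← conj_mul, w.yy, w.ab _ w.xA _ (w.cj_mem w.yS w.xA)]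

theorem yd : w.y * w.d * w.y⁻¹ = w.d⁻¹ := by
  rw [← w.hd, ← conj_mul, w.yy]; group

theorem yx : w.y * w.x * w.y⁻¹ = w.x * w.d := by rw [← w.hd]; group

theorem yx' : w.y * w.x * w.y⁻¹ = w.x⁻¹ * w.z := by rw [← w.hz]; group

theorem Z_cent : zpowers w.z ≤ 𝐂(S) := zpowers_le.2 (mem_centralizer_iff.2 fun s hs => by
  by_cases h : s ∈ w.A
  · exact w.ab _ h _ w.zA
  · exact mul_inv_eq_iff_eq_mul.1 ((w.cj_out hs h w.zA).trans w.yz))

include w in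
theorem S_le : S ≤ 𝐂[t] := mem_cent_iff_le_cent1.1 (w.Z_cent w.tz)

theorem cxz : Commute w.x w.z := w.ab _ w.xA _ w.zA

theorem cxd : Commute w.x w.d := w.ab _ w.xA _ w.dA

theorem y_gen (i j : ℤ) : w.y * (w.x ^ i * w.z ^ j) * w.y⁻¹ = w.x ^ i * w.z ^ j * w.d ^ i := by
  rw [← conj_mul, ← conj_zpow, ← conj_zpow, w.yz, w.yx, w.cxd.mul_zpow, mul_assoc, mul_assoc,
    w.ab _ (zpow_mem w.dA i) _ (zpow_mem w.zA j)]

theorem y_gen' (i j : ℤ) : w.x ^ i * w.z ^ j * (w.y * (w.x ^ i * w.z ^ j) * w.y⁻¹) = w.z ^ (i + 2 * j) := by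
  rw [← conj_mul, ← conj_zpow, ← conj_zpow, w.yz, w.yx', w.cxz.inv_left.mul_zpow, mul_assoc, ← mul_assoc (w.z ^ j),
    ← mul_assoc (w.z ^ j), ← (w.cxz.inv_left.zpow_zpow i j).eq]
  group

/-- `[A, y] = ⟨d⟩` -/
theorem comm_mem (ha : a ∈ w.A) : a⁻¹ * (w.y * a * w.y⁻¹) ∈ zpowers w.d := by
  obtain ⟨i, j, rfl⟩ := w.gen a ha
  rw [w.y_gen, inv_mul_cancel_left]; exact zpow_mem (mem_zpowers _) i

theorem exists_comm (ha : a ∈ zpowers w.d) : ∃ b ∈ w.A, w.y * b * w.y⁻¹ = b * a := by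
  obtain ⟨i, rfl⟩ := ha
  exact ⟨_, mul_mem (zpow_mem w.xA i) (zpow_mem w.zA 0), w.y_gen i 0⟩

theorem norm_mem (ha : a ∈ w.A) : a * (w.y * a * w.y⁻¹) ∈ zpowers w.z := by
  obtain ⟨i, j, rfl⟩ := w.gen a ha
  rw [w.y_gen']; exact zpow_mem (mem_zpowers _) _

/-- `C_A(y) = ⟨z⟩` -/
theorem cen (ha : a ∈ w.A) (h : w.y * a * w.y⁻¹ = a) : a ∈ zpowers w.z := by
  obtain ⟨i, j, rfl⟩ := w.gen a ha
  rw [w.y_gen, mul_eq_left] at h
  exact mul_mem (w.c1 i h) (zpow_mem (mem_zpowers _) j)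

theorem ker (ha : a ∈ w.A) (h : a * (w.y * a * w.y⁻¹) = 1) : a ∈ zpowers w.d := by
  obtain ⟨i, j, rfl⟩ := w.gen a ha
  rw [w.y_gen'] at h
  have e : w.z = w.x * w.x * w.d := by rw [← w.hz, ← w.hd]; group
  have : w.x ^ i * w.z ^ j = w.x ^ (i + 2 * j) * w.d ^ j := by
    rw [e, (w.cxd.mul_left w.cxd).mul_zpow, ← zpow_two, ← zpow_mul]; group
  rw [this]
  exact mul_mem (w.c2 _ h) (zpow_mem (mem_zpowers _) j)

theorem cen_out (hs : s ∈ S) (hA : s ∉ w.A) (ha : a ∈ w.A) (h : s * a = a * s) : a ∈ zpowers w.z :=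
  w.cen ha (by rw [← w.cj_out hs hA ha, h, mul_inv_cancel_right])

theorem sq_out (hs : s ∈ S) (hA : s ∉ w.A) : s * s ∈ zpowers w.z := by
  obtain ⟨a, ha, rfl⟩ := w.out hs hA
  have := w.norm_mem ha
  rwa [w.yinv, ← mul_assoc, ← mul_assoc, mul_assoc (a * w.y)] at this

theorem uz (hu : u ∈ zpowers w.z) (u2 : u * u = 1) : u = 1 ∨ u = t :=
  or_iff_not_imp_left.2 fun h => Zas.uniq_of_cyclic inferInstance hu w.tz u2 w.t2.sq h w.t2.ne

theorem ud (hu : u ∈ zpowers w.d) (u2 : u * u = 1) : u = 1 ∨ u = t :=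
  or_iff_not_imp_left.2 fun h => Zas.uniq_of_cyclic inferInstance hu w.td' u2 w.t2.sq h w.t2.ne

theorem dd_ne : w.d * w.d ≠ 1 := fun e => w.t2.ne (by simpa [e] using w.td)

theorem center : 𝐙(S) = zpowers w.z := le_antisymm (fun s hs => by
  by_cases h : s ∈ w.A
  · exact w.cen h (mul_inv_eq_iff_eq_mul.2 (hs.2 _ w.yS))
  · have h1 : w.d = 1 := by
      rw [← w.hd, ← w.cj_out hs.1 h w.xA, ← hs.2 _ (w.le w.xA)]; group
    exact absurd (by rw [h1, mul_one]) w.dd_ne) (le_inf (w.Z_le.trans w.le) w.Z_cent)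

include w in
theorem eq_t (hs : s ∈ S) (s2 : Inv2 s) (h : S ≤ 𝐂[s]) : s = t :=
  (w.uz (w.center ▸ ⟨hs, mem_cent_iff_le_cent1.2 h⟩) s2.sq).resolve_left s2.ne

/-- the involutions outside `A` are conjugate under `A` -/
theorem out_conj (hs : s ∈ S) (hA : s ∉ w.A) (s2 : s * s = 1) : ∃ b ∈ w.A, b * w.y * b⁻¹ = s := by
  obtain ⟨a, ha, rfl⟩ := w.out hs hA
  obtain ⟨b, hb, e⟩ := w.exists_comm (inv_mem (w.ker ha (by rw [w.yinv, ← s2]; group)))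
  refine ⟨b, hb, ?_⟩
  calc b * w.y * b⁻¹ = b * (w.y * b * w.y⁻¹)⁻¹ * w.y := by group
    _ = a * w.y := by rw [e, _root_.mul_inv_rev, inv_inv, w.ab a ha _ (inv_mem hb), mul_inv_cancel_left]

theorem in_inv (hu : u ∈ w.A) (u2 : Inv2 u) (ut : u ≠ t) : w.y * u * w.y⁻¹ = t * u := by
  have h1 := w.cj_mem w.yS hu
  rcases w.ud (w.comm_mem hu) (by
    rw [u2.inv, mul_assoc, ← mul_assoc (w.y * u * w.y⁻¹), ← w.ab _ hu _ h1, mul_assoc, (u2.conj _).sq, mul_one,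
      u2.sq]) with h | h
  · exact absurd ((w.uz (w.cen hu (inv_mul_eq_one.1 h).symm) u2.sq).resolve_left u2.ne) ut
  · rw [inv_mul_eq_iff_eq_mul.1 h, w.ab _ hu _ w.tA]

include w in
/-- a noncentral involution `s` is conjugate to `t s` -/
theorem swap (hs : s ∈ S) (s2 : Inv2 s) (st : s ≠ t) : ∃ σ ∈ S, σ * s * σ⁻¹ = t * s := by
  by_cases h : s ∈ w.A
  · exact ⟨_, w.yS, w.in_inv h s2 st⟩
  obtain ⟨b, hb, e⟩ := w.exists_comm w.td'
  refine ⟨b, w.le hb, ?_⟩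
  calc b * s * b⁻¹ = b * (s * b * s⁻¹)⁻¹ * s := by group
    _ = t * s := by
      rw [w.cj_out hs h hb, e, _root_.mul_inv_rev, w.t2.inv, w.ab t w.tA _ (inv_mem hb), mul_inv_cancel_left]

include w in
theorem rank2 (ha : a ∈ S) (hb : b ∈ S) (a2 : Inv2 a) (b2 : Inv2 b) (c : a * b = b * a) (at' : a ≠ t) (bt : b ≠ t) :
    b = a ∨ b = t * a := by
  have key : a * b ∈ zpowers w.z → b = a ∨ b = t * a := fun h => by
    rcases w.uz h (by rw [mul_assoc, ← mul_assoc b, ← c, mul_assoc, b2.sq, mul_one, a2.sq]) with h | h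
    · exact .inl (by rw [← a2.inv, eq_comm, inv_eq_iff_mul_eq_one, h])
    · exact .inr (by rw [← h, c, mul_assoc, a2.sq, mul_one])
  by_cases h1 : a ∈ w.A <;> by_cases h2 : b ∈ w.A
  · refine key (w.cen (mul_mem h1 h2) ?_)
    rw [← conj_mul, w.in_inv h1 a2 at', w.in_inv h2 b2 bt, mul_assoc, ← mul_assoc a, w.ab _ h1 _ w.tA, mul_assoc,
      ← mul_assoc, w.t2.sq, one_mul]
  · exact absurd ((w.uz (w.cen_out hb h2 h1 c.symm) a2.sq).resolve_left a2.ne) at'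
  · exact absurd ((w.uz (w.cen_out ha h1 h2 c) b2.sq).resolve_left b2.ne) bt
  · exact key (w.cen_out ha h1 (w.out_mul ha hb h1 h2) (by rw [mul_assoc, c]))

include w in
theorem four_mem (hV : Four V) (h : V ≤ S) : t ∈ V := by
  obtain ⟨a, ha, b, hb, a1, b1, ab⟩ := hV.exists_two
  by_contra e
  rcases w.rank2 (h ha) (h hb) (hV.inv2 ha a1) (hV.inv2 hb b1) (hV.comm ha hb) (fun e' => e (e' ▸ ha))
    (fun e' => e (e' ▸ hb)) with e1 | e1
  · exact ab e1.symm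
  · exact e ((mul_mem_cancel_right ha).1 (e1 ▸ hb))

theorem normZ : S ≤ 𝐍(zpowers w.z) := norms_of_cents (cents_symm w.Z_cent)

theorem x_not : w.x ∉ zpowers w.z := fun h => w.dd_ne (by
  have : w.d = 1 := by rw [← w.hd, w.Z_cent h _ w.yS]; group
  rw [this, mul_one])

/-- `S / Z(S)` is dihedral -/
theorem dih : Dih (S /ₛ zpowers w.z) (w.A /ₛ zpowers w.z) := by
  have nA := w.le.trans w.normZ
  refine ⟨quo_mono _ w.le, ?_, by rw [relIndex_quo ⟨w.Z_le, nA⟩ w.normZ, w.idx], fun s hs hA => ?_⟩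
  · have : w.A /ₛ zpowers w.z = zpowers w.x /ₛ zpowers w.z := le_antisymm
      ((quo_le_quo_iff nA (zpowers_le.2 (nA w.xA))).2 fun a ha => by
        obtain ⟨i, j, rfl⟩ := w.gen a ha
        exact mul_mem (mem_sup_right ⟨i, rfl⟩) (mem_sup_left ⟨j, rfl⟩)) (quo_mono _ (zpowers_le.2 w.xA))
    rw [this]; exact cyclic_quo inferInstance _
  · obtain ⟨s, hs', rfl⟩ := (mem_quo w.normZ).1 hs
    rw [← pel_mul _ (w.normZ hs') (w.normZ hs')]
    exact qel_eq_one (w.sq_out hs' fun e => hA (qel_mem_quo _ e))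

theorem dih_ne : w.A /ₛ zpowers w.z ≠ ⊥ := quo_ne_bot (w.le.trans w.normZ) fun h => w.x_not (h w.xA)

/-- an element outside `A` whose order does not occur in `A ∖ {t}`, with square in `Z(S)` -/
theorem exists_out : ∃ r ∈ S, r ∉ w.A ∧ ∀ k : ℕ, Odd k → ∀ a ∈ w.A, orderOf a = orderOf (r ^ k) → a = t := by
  rcases w.typ with ⟨h1, h2⟩ | ⟨h1, h2⟩
  · refine ⟨_, w.yS, w.yA, fun k ⟨k, hk⟩ a ha e => ?_⟩
    rw [hk, pow_succ, pow_mul, pow_two, w.y2, one_pow, one_mul, w.y_inv2.ord] at e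
    exact Zas.uniq_of_cyclic (h1 ▸ inferInstance) ha w.tA (inv2_of_ord e).sq w.t2.sq (inv2_of_ord e).ne w.t2.ne
  · have hr := mul_mem (w.le w.xA) w.yS
    have e1 : w.x * w.y * (w.x * w.y) = w.z := by rw [← w.hz, w.yinv]; group
    refine ⟨_, hr, w.out_not w.xA, fun k hk a ha e => ?_⟩
    obtain ⟨n, hn⟩ := (piElt_singleton_iff Nat.prime_two).1 (w.two.piElt hr)
    rw [Nat.Coprime.orderOf_pow (by rw [hn]; exact (Nat.coprime_two_left.2 hk).pow_left n)] at e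
    have h3 := orderOf_dvd_of_pow_eq_one (h1 a ha)
    rw [e, ← e1, ← pow_two, orderOf_pow' _ two_ne_zero, hn] at h3
    rcases n with _ | n
    · exact absurd (by rw [orderOf_eq_one_iff.1 hn]; exact one_mem _) (w.out_not w.xA)
    rw [Nat.gcd_eq_right (dvd_pow_self 2 n.succ_ne_zero), pow_succ, Nat.mul_div_cancel _ two_pos] at h3
    have := Nat.le_of_dvd (by positivity) h3
    have := Nat.one_le_two_pow (n := n)
    omega

end SW

section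
variable {G : Type*} [Group G] [Finite G] {S O : Subgroup G} {t : G}

theorem QD.sw' (h : QD S) : ∃ t, Nonempty (SW S t) := h.elim sw_sd sw_wr

theorem QD.sw (h : QD S) (ht : t ∈ S) (t2 : Inv2 t) (hc : S ≤ 𝐂[t]) : Nonempty (SW S t) := by
  obtain ⟨t', ⟨w⟩⟩ := h.sw'
  exact w.eq_t ht t2 hc ▸ ⟨w⟩

omit [Finite G] in
theorem QD.equiv {G' : Type*} [Group G'] {S' : Subgroup G'} (h : QD S) (e : S ≃* S') : QD S' := by
  rcases h with ⟨n, hn, hc, x, y, h1, h2, h3⟩ | ⟨n, hn, hc, x, y, z, h1, h2, h3, h4, h5⟩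
  · exact .inl ⟨n, hn, (Nat.card_congr e.toEquiv).symm.trans hc, e x, e y, (e.orderOf_eq x).trans h1,
      (e.orderOf_eq y).trans h2, by rw [← map_pow, ← h3, map_mul, map_mul, map_inv]⟩
  · refine .inr ⟨n, hn, (Nat.card_congr e.toEquiv).symm.trans hc, e x, e y, e z, (e.orderOf_eq x).trans h1,
      by rw [← map_mul, h2, map_mul], ?_, (e.orderOf_eq z).trans h4, by rw [← h5, map_mul, map_mul, map_inv]⟩
    have := congrArg (Subgroup.map e.toMonoidHom) h3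
    rwa [map_inf _ _ _ e.injective, MonoidHom.map_zpowers, MonoidHom.map_zpowers, Subgroup.map_bot] at this

theorem QD.two (h : QD S) : PiGrp {2} S := by
  obtain ⟨t, ⟨w⟩⟩ := h.sw'
  exact w.two

omit [Finite G] in
theorem QD.cj (h : QD S) (g : G) : QD (cj g S) := h.equiv (S.equivMapOfInjective _ (MulAut.conj g).injective)

theorem QD.quo (h : QD S) (hn : S ≤ 𝐍(O)) (hO : Odd (Nat.card O)) : QD (S /ₛ O) :=
  h.equiv (quoEquivOfDisjoint hn ((odd_iff.1 hO).inf_eq_bot' h.two))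

omit [Finite G] in
theorem QD.subgroupOf {M : Subgroup G} (h : QD S) (hM : S ≤ M) : QD (S.subgroupOf M) :=
  h.equiv (subgroupOfEquivOfLe hM).symm

omit [Finite G] in
theorem QD.map {G' : Type*} [Group G'] (h : QD S) {f : G →* G'} (hf : Function.Injective f) : QD (S.map f) :=
  h.equiv (S.equivMapOfInjective f hf)

end

end CA.ABG
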