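/-
Alperin–Brauer–Gorenstein theorem: local balance in the proper subgroups of a minimal counterexample.
-/
import Cfsg.Agent.Lib.ABG.SW
import Cfsg.Agent.Lib.ABG.QT
import Cfsg.Agent.Lib.Alp.Main

set_option autoImplicit false
set_option linter.unusedSectionVars false

namespace CA.ABG

open Cfsg CA CA.FStar CA.GW Subgroup

universe u

/-- what is used of "the 2-subgroups of `X` lie in a semidihedral or wreathed group" -/
structure QG {G : Type*} [Group G] (X : Subgroup G) : Prop where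
  rk : ∀ V ≤ X, Four V → ∀ s ∈ X, s * s = 1 → s ∈ 𝐂(V) → s ∈ V
  npc : ∀ V ≤ X, Four V → NormalPCompl 2 (X ⊓ 𝐂(V))
  cyc : ∀ T ≤ X, PiGrp {2} T → ∀ a ∈ T, ∀ b ∈ T, a * b ≠ b * a → ∀ u ∈ T ⊓ 𝐂[a] ⊓ 𝐂[b], ∀ v ∈ T ⊓ 𝐂[a] ⊓ 𝐂[b],
    Inv2 u → Inv2 v → u = v

section
variable {G : Type*} [Group G] [Finite G] {G' : Type*} [Group G'] [Finite G']
variable {S T X Y K L M N O U V : Subgroup G} {t s a b c : G} {p : ℕ}

theorem QG.of_le (h : QG X) (hY : Y ≤ X) : QG Y :=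
  ⟨fun V hV V4 s hs => h.rk V (hV.trans hY) V4 s (hY hs),
    fun V hV V4 => (h.npc V (hV.trans hY) V4).of_le (inf_le_inf_right _ hY), fun T hT => h.cyc T (hT.trans hY)⟩

theorem QG.solv (h : QG X) (hV : V ≤ X) (V4 : Four V) (hY : Y ≤ X) (hc : Y ≤ 𝐂(V)) : Group.IsSolvable Y :=
  solvable_of_le (solv_of_npc (h.npc V hV V4)) (le_inf hY hc)

/-- an element commuting with two noncommuting elements is central -/
theorem SW.cen2 (w : SW S t) (ha : a ∈ S) (hb : b ∈ S) (hc : c ∈ S) (h : a * b ≠ b * a) (h1 : c * a = a * c)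
    (h2 : c * b = b * c) : c ∈ zpowers w.z := by
  have z1 : ∀ x ∈ zpowers w.z, ∀ y ∈ S, x * y = y * x := fun x hx y hy => (w.Z_cent hx y hy).symm
  by_cases e : c ∈ w.A
  · by_cases e1 : a ∈ w.A
    · exact w.cen_out hb (fun e2 => h (w.ab _ e1 _ e2)) e h2.symm
    · exact w.cen_out ha e1 e h1.symm
  have key : ∀ x ∈ S, c * x = x * c → ∃ y ∈ zpowers w.z, x = y ∨ x = y * c⁻¹ := fun x hx hx' => by
    by_cases e1 : x ∈ w.A
    · exact ⟨x, w.cen_out hc e e1 hx', .inl rfl⟩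
    · exact ⟨x * c, w.cen_out hc e (w.out_mul hx hc e1 e) (by rw [← mul_assoc, hx']), .inr (by group)⟩
  obtain ⟨x, hx, rfl | rfl⟩ := key a ha h1
  · exact absurd (z1 _ hx _ hb) h
  obtain ⟨y, hy, rfl | rfl⟩ := key b hb h2
  · exact absurd (z1 _ hy _ ha).symm h
  refine absurd ?_ h
  have yS := w.le (w.Z_le hy)
  have xS := w.le (w.Z_le hx)
  rw [mul_assoc, ← mul_assoc c⁻¹, ← z1 _ hy _ (inv_mem hc), mul_assoc y c⁻¹ (x * c⁻¹), ← mul_assoc c⁻¹ x,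
    ← z1 _ hx _ (inv_mem hc), ← mul_assoc, ← mul_assoc, ← mul_assoc, ← mul_assoc, z1 _ hx _ yS]

theorem SW.rk (w : SW S t) (hV : Four V) (h : V ≤ S) (hs : s ∈ S) (s2 : s * s = 1) (hc : s ∈ 𝐂(V)) : s ∈ V := by
  have tV := w.four_mem hV h
  obtain ⟨b, hb, b1, bt⟩ := hV.exists tV
  by_cases s1 : s = 1
  · rw [s1]; exact one_mem _
  by_cases st : s = t
  · rw [st]; exact tV
  rcases w.rank2 (h hb) hs (hV.inv2 hb b1) ⟨s2, s1⟩ (mem_cent_iff.1 hc b hb) bt st with e | e <;> rw [e]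
  exacts [hb, mul_mem tV hb]

theorem SW.cent_ab (w : SW S t) (hV : Four V) (h : V ≤ S) (hT : T ≤ S ⊓ 𝐂(V)) : IsMulCommutative T := by
  refine abelian_iff'.2 fun a ha b hb => by_contra fun e => hV.not_le (T := zpowers w.z) inferInstance fun v hv => ?_
  exact w.cen2 (hT ha).1 (hT hb).1 (h hv) e (mem_cent_iff.1 (hT ha).2 v hv) (mem_cent_iff.1 (hT hb).2 v hv)

theorem QSyl.exists (h : QSyl M) (hT : PiGrp {2} T) (hM : T ≤ M) : ∃ S t, SylowIn 2 S M ∧ T ≤ S ∧ Nonempty (SW S t) := by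
  obtain ⟨S, hS, hq⟩ := h
  obtain ⟨g, hg, e⟩ := hS.exists_le_cj hT hM
  obtain ⟨t, w⟩ := (hq.cj g).sw'
  exact ⟨_, t, hS.cj_of_mem hg, e, w⟩

theorem QSyl.qg (h : QSyl M) : QG M := by
  have rk : ∀ V ≤ M, Four V → ∀ s ∈ M, s * s = 1 → s ∈ 𝐂(V) → s ∈ V := fun V hV V4 s hs s2 hc => by
    obtain ⟨S, t, -, h1, ⟨w⟩⟩ := h.exists (V4.piGrp.sup (piGrp_zpowers.2 (two_of_sq s2))
      (.inl (norms_of_cents (zpowers_le.2 hc)))) (sup_le hV (zpowers_le.2 hs))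
    exact w.rk V4 (le_sup_left.trans h1) (h1 (mem_sup_right (mem_zpowers s))) s2 hc
  refine ⟨rk, fun V hV V4 => ?_, fun T hT T2 a ha b hb e u hu v hv u2 v2 => ?_⟩
  · obtain ⟨T, hT, VT⟩ := exists_sylowIn_ge V4.piGrp (le_inf hV V4.le_cent)
    obtain ⟨S, t, -, h1, ⟨w⟩⟩ := h.exists hT.piGrp (hT.le.trans inf_le_left)
    have ab := w.cent_ab V4 (VT.trans h1) (le_inf h1 (hT.le.trans inf_le_right))
    refine hT.normalPCompl_of_cent fun g hg => ?_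
    refine mem_of_forall_constt_mem fun q hq _ => ?_
    have g1 : constt {q} g ∈ M ⊓ 𝐂(V) ⊓ 𝐍(T) := constt_mem _ hg
    by_cases e : q = 2
    · subst e
      exact abelian_iff.1 ab ((hT.of_le (le_inf hT.le le_normalizer) inf_le_left).mem_of_normal inf_le_right g1
        (constt_piElt _ _))
    · refine zpowers_le.1 ((copAct_p_left (zpowers_le.2 g1.2) hT.piGrp ((piGrp_zpowers.2 (constt_piElt {q} g)).compl_singleton
        (Ne.symm e))).cents_of_abelian_omega1 ab hT.piGrp (zpowers_le.2 (cent_mono (omega1_le_iff.2 fun x hx x2 => ?_) g1.1.2)))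
      exact rk V hV V4 x (hT.le hx).1 (by rw [← pow_two, x2]) (hT.le hx).2
  · obtain ⟨S, t, -, h1, ⟨w⟩⟩ := h.exists T2 hT
    have k : ∀ u ∈ T ⊓ 𝐂[a] ⊓ 𝐂[b], Inv2 u → u = t := fun u hu u2 => (w.uz (w.cen2 (h1 ha) (h1 hb) (h1 hu.1.1) e
      (mem_cent1_iff.1 hu.1.2) (mem_cent1_iff.1 hu.2)) u2.sq).resolve_left u2.ne
    rw [k u hu u2, k v hv v2]

theorem QG.quo (h : QG X) (hO : O ⊴ X) (ho : PiGrp {2}ᶜ O) : QG (X /ₛ O) := by
  have hk : PiGrp {2}ᶜ (pker (qmk O)) := by rw [pker_qmk]; exact ho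
  have cen : ∀ V ≤ X, PiGrp {2} V → (X ⊓ 𝐂(V)) /ₛ O = (X /ₛ O) ⊓ 𝐂(V /ₛ O) := fun V hV V2 =>
    (copAct_p_right (hV.trans hO.norm) ho V2).quo_inf_cent_ker (hV.trans le_normalizer)
  refine ⟨fun U hU U4 s hs s2 hc => ?_, fun U hU U4 => ?_, fun U hU U2 a ha b hb e u hu v hv u2 v2 => ?_⟩
  · obtain ⟨V, hV, V4, rfl⟩ := lift_four hO.norm ho U4 hU
    by_cases s1 : s = 1
    · rw [s1]; exact one_mem _
    have hm : s ∈ (X ⊓ 𝐂(V)) /ₛ O := by rw [cen V hV V4.piGrp]; exact ⟨hs, hc⟩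
    obtain ⟨s', hs', s2', rfl⟩ := lift_inv (inf_le_left.trans hO.norm) hk hm ⟨s2, s1⟩
    exact qel_mem_quo _ (h.rk V hV V4 s' hs'.1 s2'.sq hs'.2)
  · obtain ⟨V, hV, V4, rfl⟩ := lift_four hO.norm ho U4 hU
    rw [← cen V hV V4.piGrp]
    exact (h.npc V hV V4).pmap _
  · obtain ⟨T, hT, T2, rfl⟩ := exists_piGrp_singleton_pmap _ hO.norm U2 hU
    have Tn := hT.trans hO.norm
    have inj : ∀ x ∈ T, ∀ y ∈ T, qel O x = qel O y → x = y := fun x hx y hy e =>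
      mul_inv_eq_one.1 (mem_bot.1 (ho.inf_eq_bot' T2 ▸ mem_inf.2 ⟨(qel_eq_iff' (Tn hx) (Tn hy)).1 e, mul_mem hx (inv_mem hy)⟩))
    have mul : ∀ x ∈ T, ∀ y ∈ T, qel O x * qel O y = qel O (x * y) := fun x hx y hy => (pel_mul _ (Tn hx) (Tn hy)).symm
    replace ha := (mem_quo Tn).1 ha
    replace hb := (mem_quo Tn).1 hb
    obtain ⟨a, ha, rfl⟩ := ha
    obtain ⟨b, hb, rfl⟩ := hb
    have k : ∀ u ∈ (T /ₛ O) ⊓ 𝐂[qel O a] ⊓ 𝐂[qel O b], Inv2 u → ∃ u' ∈ T ⊓ 𝐂[a] ⊓ 𝐂[b], Inv2 u' ∧ qel O u' = u :=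
      fun u hu u2 => by
        obtain ⟨u, hu', rfl⟩ := (mem_quo Tn).1 hu.1.1
        have c : ∀ x ∈ T, qel O u ∈ 𝐂[qel O x] → u ∈ 𝐂[x] := fun x hx e => mem_cent1_iff.2
          (inj _ (mul_mem hu' hx) _ (mul_mem hx hu') (by rw [← mul u hu' x hx, ← mul x hx u hu', mem_cent1_iff.1 e]))
        exact ⟨u, ⟨⟨hu', c a ha hu.1.2⟩, c b hb hu.2⟩, ⟨inj _ (mul_mem hu' hu') _ (one_mem _) (by
          rw [← mul u hu' u hu', u2.sq, pel_one]), fun e => u2.ne (by rw [e, pel_one])⟩, rfl⟩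
    obtain ⟨u', hu', u2', rfl⟩ := k u hu u2
    obtain ⟨v', hv', v2', rfl⟩ := k v hv v2
    rw [h.cyc T hT T2 a ha b hb (fun e' => e (by rw [mul a ha b hb, mul b hb a ha, e'])) u' hu' v' hv' u2' v2']

/-- local balance in groups with dihedral Sylow 2-subgroups and trivial core -/
theorem dg_ll0 (h : DG X) (hO : 𝐎(X) = ⊥) (hs : s ∈ X) (s2 : Inv2 s) (hp : p ≠ 2) (hY : Y ≤ X) (Yp : PiGrp {p} Y)
    (hn : X ⊓ 𝐂[s] ≤ 𝐍(Y)) (hc : ⁅Y, zpowers s⁆ = Y) : Y = ⊥ := by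
  by_cases e : Group.IsSolvable X
  · exact h.ll_solv e hO hs s2 hY (Yp.compl_singleton (by simpa using hp.symm)) hn
  have hE : lay X ≠ ⊥ := h.lay_ne le_rfl e (by rw [hO, cent_bot']; exact le_top)
  have hC : X ⊓ 𝐂(lay X) = ⊥ := (h.cent_lay hE).trans hO
  have hq := h.qs hE
  haveI := qs_simple hq (le_bot_iff.1 ((inf_le_inf_right _ (lay_le X)).trans hC.le))
  rw [← hc, comm_eq_bot_iff, cent_zpowers]
  rcases known_of (fun _ _ _ m => m.false) (lay X) (by rw [← der_subgroupOf, hq.der, subgroupOf_self])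
    ((h.of_le (lay_le X)).dsyl hq.not_solvable).top with ⟨q, k⟩ | k
  · obtain ⟨P, k⟩ := GW.l2t (lay_normalIn X) hC (h.dsyl e) k
    exact k.ll _ hs s2 p hp _ (hc.ge.trans ((comm_le_der hY (zpowers_le.2 hs)).trans k.der)) Yp
      ((inf_le_inf_right _ k.KX.le).trans hn)
  · obtain ⟨e', k⟩ := a7t (lay_normalIn X) hC (h.dsyl e) k
    exact k.ll _ (e' ▸ hs) s2 p hp _ (e' ▸ hY) Yp (e' ▸ hn)

theorem npc_two (h : NormalPCompl 2 X) (hO : 𝐎(X) = ⊥) : PiGrp {2} X :=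
  piGrp_of_relIndex (A := 𝐎(X)) (by rw [hO, bot_inf_eq]; exact piGrp_bot _) h.piNum

/-- the case of a normal four-group -/
theorem QG.ll_four (h : QG X) (hO : 𝐎(X) = ⊥) (U4 : Four U) (hU : U ⊴ X) (hs : s ∈ X) (s2 : Inv2 s) (hY : Y ≤ X)
    (Yo : PiGrp {2}ᶜ Y) (hn : X ⊓ 𝐂[s] ≤ 𝐍(Y)) : Y = ⊥ := by
  have h2 := npc_two (h.npc U hU.le U4) (le_bot_iff.1 (hO ▸ piCoreOf_le_of_normalIn _ hU.cent))
  have hz : zpowers s ≤ 𝐍(U) := zpowers_le.2 (hU.norm hs)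
  obtain ⟨v, hv, v1⟩ := exists_ne_one_mem' (meet_center_nil (U4.piGrp.sup s2.piGrp (Or.inl hz)).nilpotent
    (normalIn_sup_left hz) U4.nb)
  have vs : v ∈ 𝐂[s] := cent_le_cent1 (mem_sup_right (mem_zpowers s)) hv.2.2
  have YV := hY.trans hU.norm
  have h1 : Y ≤ 𝐂[v] := by
    rw [← cent_zpowers, ← comm_eq_bot_iff, ← le_bot_iff, ← Yo.inf_eq_bot' U4.piGrp]
    exact le_inf (comm_le_left (zpowers_le.2 (hn ⟨hU.le hv.1, vs⟩)))
      ((commutator_mono le_rfl (zpowers_le.2 hv.1)).trans (comm_le_right YV))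
  exact (h2.of_le fun y hy => ⟨hY hy, U4.cents_odd (YV hy) (odd_elt_iff.2 (Yo.piElt hy)) hv.1 v1 (h1 hy)⟩).eq_bot Yo

/-- a normal subgroup `N` of even order contains a four-group, or an involution that is isolated in `X` -/
theorem four_or_isol (hN : N ⊴ X) (h : ¬ PiGrp {2}ᶜ N) :
    (∃ U ≤ N, Four U) ∨ ∃ z ∈ N, Inv2 z ∧ ∀ g ∈ X, z * (g * z * g⁻¹) ∈ 𝐎(X) := by
  obtain ⟨z, hz, z2⟩ := exists_inv2 h
  by_cases e : ∀ g ∈ X, Commute z (g * z * g⁻¹) → g * z * g⁻¹ = z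
  · exact .inr ⟨z, hz, z2, fun g hg => Blk.zstar_in' (hN.le hz) z2.sq e hg⟩
  push Not at e
  obtain ⟨g, hg, c, e⟩ := e
  obtain ⟨U, U4, hU⟩ := four_of z2 (z2.conj g) e.symm c
  have k := conj_mem_of_mem_normalizer (hN.norm hg) hz
  refine .inl ⟨U, fun x hx => ?_, U4⟩
  rcases (hU x).1 hx with rfl | rfl | rfl | rfl
  exacts [one_mem _, hz, k, mul_mem hz k]

omit [Finite G] in
theorem isol_comm (a2 : Inv2 a) (h : a * (b * a * b⁻¹) = 1) : b * a = a * b :=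
  mul_inv_eq_iff_eq_mul.1 ((eq_inv_of_mul_eq_one_right h).trans a2.inv)

theorem QG.prank (h : QG X) : PRankLE 2 2 X := fun A ab hA => by
  have sq : ∀ a ∈ A.map X.subtype, a * a = 1 := by
    rintro _ ⟨a, ha, rfl⟩; exact congrArg Subtype.val ((pow_two a).symm.trans (hA a ha))
  have le : A.map X.subtype ≤ X := map_subtype_le A
  have ab' : IsMulCommutative (A.map X.subtype) := inferInstance
  rw [← card_map_of_injective X.subtype_injective]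
  generalize A.map X.subtype = B at *
  by_cases e : B = ⊥
  · rw [e, card_bot]; norm_num
  obtain ⟨a, ha, a1⟩ := exists_ne_one_mem' e
  by_cases e' : B ≤ zpowers a
  · exact (card_le_of_le' e').trans (by rw [Inv2.card ⟨sq a ha, a1⟩]; norm_num)
  obtain ⟨b, hb, ba⟩ := SetLike.not_le_iff_exists.1 e'
  obtain ⟨U, U4, hU⟩ := four_of ⟨sq a ha, a1⟩ ⟨sq b hb, fun e => ba (e ▸ one_mem _)⟩ (fun e => ba (e ▸ mem_zpowers _))
    (abelian_iff'.1 ab' a ha b hb)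
  have UB : U ≤ B := fun x hx => by
    rcases (hU x).1 hx with rfl | rfl | rfl | rfl
    exacts [one_mem _, ha, hb, mul_mem ha hb]
  exact (card_le_of_le' fun x hx => h.rk U (UB.trans le) U4 x (le hx) (sq x hx)
    (cent_mono UB (abelian_iff.1 ab' hx))).trans U4.card.le

/-- simple sections: dihedral, semidihedral or wreathed Sylow 2-subgroups -/
theorem QG.syl (h : QG X) [IsSimpleGroup X] (hq : QS X) : DSyl X ∨ QSyl (⊤ : Subgroup X) := by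
  haveI : Fact (Nat.Prime 2) := ⟨Nat.prime_two⟩
  obtain ⟨S⟩ : Nonempty (Sylow 2 X) := inferInstance
  rcases Alp.alperin h.prank (sylowIn_top S) (fun e => hq.not_solvable (solvable_of_abelian e)) with
    ⟨n, hn, ⟨e⟩⟩ | e | e | ⟨-, a0, a1, b0, b1, z0, z1, k, n0, n1, n2⟩
  · have := (dsyl_of_equiv S hn e).map X.subtype_injective
    rw [← MonoidHom.range_eq_map, range_subtype] at this
    exact .inl this
  · exact .inr ⟨_, sylowIn_top S, .inl e⟩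
  · exact .inr ⟨_, sylowIn_top S, .inr e⟩
  · exfalso
    let f : (S : Subgroup X) →* G := X.subtype.comp (S : Subgroup X).subtype
    have fi : Function.Injective f := X.subtype_injective.comp (S : Subgroup X).subtype_injective
    have m : ∀ x, f x ∈ (S : Subgroup X).map X.subtype := fun x => ⟨x, x.2, rfl⟩
    have c : ∀ x y, x * y = y * x → f x ∈ 𝐂[f y] := fun x y e => mem_cent1_iff.2 (by rw [← map_mul, e, map_mul])
    have i2 : ∀ x, x * x = 1 → x ≠ 1 → Inv2 (f x) := fun x e x1 =>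
      ⟨by rw [← map_mul, e, map_one], fun e => x1 (fi (e.trans (map_one f).symm))⟩
    refine n2 (fi (h.cyc _ (map_subtype_le _) ((sylowIn_top S).piGrp.map _) _ (m a0) _ (m b0) (fun e => n0 ?_) _
      ⟨⟨m z0, c _ _ (by rw [← k.q0]; group)⟩, c _ _ (commutatorElement_eq_one_iff_mul_comm.1 k.c1)⟩ _
      ⟨⟨m z1, c _ _ (commutatorElement_eq_one_iff_mul_comm.1 k.c2)⟩, c _ _ (by rw [← k.q2]; group)⟩
      (i2 _ k.s0 n0) (i2 _ k.s1 n1)))
    rw [← k.r2, commutatorElement_eq_one_iff_mul_comm]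
    exact fi (by rw [map_mul, e, map_mul])

theorem Bal.sub (h : Bal K) (ha : a ∈ K) (hb : b ∈ K) (a2 : Inv2 a) (b2 : Inv2 b) (c : a ∈ 𝐂[b]) :
    𝐎(K ⊓ 𝐂[b]) ≤ 𝐂[a] := fun x hx => by
  have xK : x ∈ K := (piCoreOf_le _ _ hx).1
  have i2 : ∀ {a} (ha : a ∈ K), Inv2 a → Inv2 (⟨a, ha⟩ : K) := fun _ a2 =>
    ⟨Subtype.ext a2.sq, fun e => a2.ne (congrArg Subtype.val e)⟩
  have := h ⟨b, hb⟩ ⟨a, ha⟩ (i2 hb b2) (i2 ha a2) (by rw [← subgroupOf_cent1]; exact c)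
  rw [← subgroupOf_cent1, ← subgroupOf_cent1, ← inf_subgroupOf_left, ← piCoreOf_subgroupOf _ inf_le_left] at this
  exact this (x := ⟨x, xK⟩) hx

end

/-- local balance, `O(X) = 1` -/
theorem QG.ll0 {G : Type u} [Group G] [Finite G] {X Y V : Subgroup G} {a : G} {p n : ℕ} (h : QG X) (hO : 𝐎(X) = ⊥)
    (ind : ∀ (K : Type u) [Group K] [Finite K] [IsSimpleGroup K], Nat.card K < n → QSyl (⊤ : Subgroup K) → Bal K)
    (hn : Nat.card X < n) (hV : V ≤ X) (V4 : Four V) (ha : a ∈ V) (a1 : a ≠ 1)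
    (VK : ∀ K, K ⊴ X → QS K → K ⊓ 𝐂(K) = ⊥ → V ≤ K ∨ DSyl X) (hp : p ≠ 2) (hY : Y ≤ X) (Yp : PiGrp {p} Y)
    (hN : X ⊓ 𝐂[a] ≤ 𝐍(Y)) (hc : ⁅Y, zpowers a⁆ = Y)
    (hb : ∀ b ∈ V, b ≠ 1 → b ≠ a → ⁅Y ⊓ 𝐂[b], zpowers a⁆ ≤ 𝐎(X ⊓ 𝐂[b])) : Y = ⊥ := by
  have a2 := V4.inv2 ha a1
  have Yo : PiGrp {2}ᶜ Y := Yp.compl_singleton (by simpa using hp.symm)
  have cen : ∀ z ∈ X, Inv2 z → (∀ g ∈ X, z * (g * z * g⁻¹) ∈ 𝐎(X)) → Y = ⊥ := fun z hz z2 e => by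
    have k : X ≤ 𝐂[z] := fun g hg => mem_cent1_iff.2 (isol_comm z2 (mem_bot.1 (hO ▸ e g hg)))
    by_cases za : z = a
    · exact eq_bot_of_piCoreOf_eq_bot hO ⟨hY, (le_inf le_rfl (za ▸ k)).trans hN⟩ Yo
    have := hb z (h.rk V hV V4 z hz z2.sq (mem_cent_iff_le_cent1.2 (hV.trans k))) z2.ne za
    rwa [inf_eq_left.2 (hY.trans k), inf_eq_left.2 k, hc, hO, le_bot_iff] at this
  by_cases e : piCoreOf {2} X = ⊥
  swap
  · have T2 := piCoreOf_piGrp {2} X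
    have hZ : 𝐙(piCoreOf {2} X) ⊴ X := ⟨inf_le_left.trans (piCoreOf_le _ _), norms_inf (piCoreOf_norm _ _)
      (norms_cent (piCoreOf_norm _ _))⟩
    rcases four_or_isol hZ (fun k => center_ne_bot_nil T2.nilpotent e ((T2.inf_left _).eq_bot k)) with
      ⟨U, hU, U4⟩ | ⟨z, hz, z2, k⟩
    · refine h.ll_four hO U4 ⟨hU.trans hZ.le, fun g hg => mem_normalizer_of_cj_le (cj_le_iff'.2 fun x hx => ?_)⟩
        (hV ha) a2 hY Yo hN
      have k := conj_mem_of_mem_normalizer (hZ.norm hg) (hU hx)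
      exact h.rk U (hU.trans hZ.le) U4 _ (hZ.le k) (by rw [conj_mul, U4.sq x hx]; simp)
        (cent_mono (hU.trans inf_le_left) k.2)
    · exact cen z (hZ.le hz) z2 k
  have hF : fittingOf X = ⊥ := (piGrp_fittingOf_of_core_eq_bot hO).eq_bot
    (piGrp_fittingOf_of_core_eq_bot (by rw [compl_compl]; exact e))
  have sv : ∀ N, SubnormalIn N X → Group.IsSolvable N → N = ⊥ := fun N hN hs =>
    (fittingOf_eq_bot_iff hs).1 (le_bot_iff.1 (hF ▸ fittingOf_mono_subnormal hN))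
  have hE : lay X ≠ ⊥ := fun k => fstar_ne_bot (ne_bot_of_mem (hV ha) a1) (by rw [fstar_eq, k, hF, bot_sup_eq])
  obtain ⟨K, hK⟩ := exists_compIn hE
  have OK : 𝐎(K) = ⊥ := sv _ ((piCoreOf_normalIn _ K).subnormalIn.trans hK.1) (solv_core K)
  have ZK : K ⊓ 𝐂(K) = ⊥ := sv _ ((NormalIn.refl K).cent.subnormalIn.trans hK.1)
    (solvable_of_abelian (abelian_iff.2 (inf_le_right.trans (cent_mono inf_le_left))))
  obtain ⟨U, hU, U4⟩ := (four_or_isol (NormalIn.refl K) fun k => hK.qs.not_solvable (solv_odd (odd_iff.2 k))).resolve_right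
    fun ⟨z, hz, z2, k⟩ => z2.ne (mem_bot.1 (ZK ▸ mem_inf.2 ⟨hz, mem_cent_iff.2 fun g hg => isol_comm z2 (mem_bot.1 (OK ▸ k g hg))⟩))
  have KX : K ⊴ X := by
    have : lay X = K := le_antisymm (lay_le_iff.2 fun K' hK' => (hK'.eq_or_cents hK).elim le_of_eq fun k =>
      absurd (h.solv (hU.trans hK.le) U4 hK'.le (k.trans (cent_mono hU))) hK'.qs.not_solvable) hK.le_lay
    exact this ▸ lay_normalIn X
  rcases VK K KX hK.qs ZK with VK | k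
  swap
  · exact dg_ll0 (dg_of k) hO (hV ha) a2 hp hY Yp hN hc
  have YK : Y ≤ K := hc.ge.trans ((commutator_mono le_rfl (zpowers_le.2 (VK ha))).trans (comm_le_right (hY.trans KX.norm)))
  haveI := qs_simple hK.qs ZK
  rcases (h.of_le KX.le).syl hK.qs with k | k
  · exact dg_ll0 (dg_of k) OK (VK ha) a2 hp YK Yp ((inf_le_inf_right _ KX.le).trans hN) hc
  have bal := ind K ((card_le_of_le' KX.le).trans_lt hn) k
  have VY : V ≤ 𝐍(Y) := (le_inf hV (V4.le_cent1 ha)).trans hN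
  rw [← hc, comm_eq_bot_iff, cent_zpowers]
  refine V4.gen VY (odd_iff.2 Yo) fun b bV b1 => ?_
  by_cases ba : b = a
  · exact ba ▸ inf_le_right
  have aN : a ∈ 𝐍(Y ⊓ 𝐂[b]) := norms_inf VY (V4.le_cent1 bV |>.trans le_normalizer) ha
  rw [← cent_zpowers a, ← comm_eq_bot_iff, ← (copAct_inv a2.sq (odd_iff.2 (Yo.inf_left _)) aN).comm_comm,
    comm_eq_bot_iff, cent_zpowers]
  refine le_trans ?_ (bal.sub (VK ha) (VK bV) a2 (V4.inv2 bV b1) (V4.le_cent1 bV ha))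
  refine le_trans (le_inf (hb b bV b1 ba) ?_) (piCoreOf_inf_le _ (inf_le_inf_right _ KX.le))
  exact (comm_le_left (zpowers_le.2 aN)).trans (inf_le_inf_right _ YK)

section
variable {G : Type*} [Group G] [Finite G] {S T M L N V : Subgroup G} {t g : G}

theorem SW.sq_mem (w : SW S t) (hg : g ∈ S) : g * g ∈ w.A := by
  by_cases e : g ∈ w.A
  exacts [mul_mem e e, w.out_mul hg hg e e]

/-- the involution of `Z(T)` is extremal -/
theorem extremal (hT : SylowIn 2 T M) (ht : T ≤ 𝐂[t]) (hg : g ∈ M) :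
    ∃ h ∈ M, h * (g * t * g⁻¹) * h⁻¹ = t ∧ ∀ x ∈ T ⊓ 𝐂[g * t * g⁻¹], h * x * h⁻¹ ∈ T := by
  obtain ⟨c, hc, e⟩ := SylowIn.exists_cj_le (hT.of_le (le_inf hT.le ht) inf_le_left) ((hT.piGrp.inf_left 𝐂[g * t * g⁻¹]).cj g⁻¹)
    (cj_le_iff'.2 fun x hx => ⟨M.mul_mem (M.mul_mem (M.inv_mem hg) (hT.le hx.1)) (M.inv_mem (M.inv_mem hg)), mem_cent1_iff.2 (by
      calc g⁻¹ * x * g⁻¹⁻¹ * t = g⁻¹ * (x * (g * t * g⁻¹)) * g := by group
        _ = _ := by rw [mem_cent1_iff.1 hx.2]; group)⟩)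
  refine ⟨c * g⁻¹, mul_mem hc.1 (inv_mem hg), ?_, fun x hx => ?_⟩
  · calc c * g⁻¹ * (g * t * g⁻¹) * (c * g⁻¹)⁻¹ = c * t * c⁻¹ := by group
      _ = t := by rw [mem_cent1_iff.1 hc.2, mul_inv_cancel_right]
  · have := cj_le_iff'.1 e _ (mem_cj'.2 ⟨x, hx, rfl⟩)
    rwa [show c * (g⁻¹ * x * g⁻¹⁻¹) * c⁻¹ = c * g⁻¹ * x * (c * g⁻¹)⁻¹ by group] at this

/-- a normal subgroup without isolated involutions of a subgroup `L ⊇ C(V)` contains `V` -/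
theorem four_le (hG : QSyl (⊤ : Subgroup G)) (one : ∀ a b : G, Inv2 a → Inv2 b → ∃ g, g * a * g⁻¹ = b) (V4 : Four V)
    (hL : 𝐂(V) ≤ L) (hN : N ⊴ L) (N2 : ¬ PiGrp {2}ᶜ N) (ni : ∀ z ∈ N, Inv2 z → ¬ ∀ g ∈ L, z * (g * z * g⁻¹) ∈ 𝐎(L)) :
    V ≤ N ∨ DSyl L := by
  obtain ⟨T0, hT0, VT⟩ := exists_sylowIn_ge V4.piGrp V4.le_cent
  obtain ⟨T, hT, T0T⟩ := exists_sylowIn_ge hT0.piGrp (hT0.le.trans hL)
  obtain ⟨S, t, hS, TS, ⟨w⟩⟩ := hG.exists hT.piGrp le_top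
  have VS := VT.trans (T0T.trans TS)
  have tV := w.four_mem V4 VS
  have Tt := TS.trans w.S_le
  have cN : ∀ g ∈ L, ∀ x ∈ N, g * x * g⁻¹ ∈ N := fun g hg x hx => conj_mem_of_mem_normalizer (hN.norm hg) hx
  have tN : t ∈ N := by
    obtain ⟨U, hU, U4⟩ := (four_or_isol hN N2).resolve_right fun ⟨z, hz, z2, k⟩ => ni z hz z2 k
    obtain ⟨g, hg, e⟩ := hT.exists_cj_le U4.piGrp (hU.trans hN.le)
    exact cj_le_iff'.2 (fun x hx => cN g hg x (hU hx)) (w.four_mem (U4.cj g) (e.trans TS))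
  obtain ⟨g, hg, hu, ut⟩ : ∃ g ∈ L, g * t * g⁻¹ ∈ T ∧ g * t * g⁻¹ ≠ t := by
    by_contra e
    push Not at e
    refine ni t tN w.t2 fun g hg => Blk.zstar_in' (hN.le tN) w.t2.sq (fun g hg c => ?_) hg
    obtain ⟨c', hc', k⟩ := SylowIn.exists_conj_mem (hT.of_le (le_inf hT.le Tt) inf_le_left)
      ⟨hN.le (cN g hg t tN), mem_cent1_iff.2 c.symm⟩ (w.t2.conj g).piElt
    have := e (c' * g) (mul_mem hc'.1 hg) (by rwa [show c' * g * t * (c' * g)⁻¹ = c' * (g * t * g⁻¹) * c'⁻¹ by group])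
    calc g * t * g⁻¹ = c'⁻¹ * (c' * g * t * (c' * g)⁻¹) * c' := by group
      _ = t := by rw [this, mul_assoc, ← mem_cent1_iff.1 hc'.2, inv_mul_cancel_left]
  obtain ⟨v, hv, v1, vt⟩ := V4.exists tV
  have v2 := V4.inv2 hv v1
  have key : v ∈ N → V ≤ N := V4.le_of tV hv w.t2.ne v1 vt.symm tN
  rcases w.typ with ⟨hA, hz⟩ | ⟨-, k, hk⟩
  · have out : ∀ u, Inv2 u → u ≠ t → u ∉ w.A := fun u u2 ut e =>
      ut (Zas.uniq_of_cyclic (hA ▸ inferInstance) e w.tA u2.sq w.t2.sq u2.ne w.t2.ne)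
    by_cases e : w.x ∈ T
    · have AL : w.A ≤ L := hA ▸ zpowers_le.2 (hT.le e)
      obtain ⟨b, hb, e1⟩ := w.out_conj (TS hu) (out _ (w.t2.conj g) ut) (w.t2.conj g).sq
      obtain ⟨c, hc, e2⟩ := w.out_conj (VS hv) (out _ v2 vt) v2.sq
      have := cN _ (mul_mem (AL hc) (inv_mem (AL hb))) _ (cN g hg t tN)
      rw [← e1, show c * b⁻¹ * (b * w.y * b⁻¹) * (c * b⁻¹)⁻¹ = c * w.y * c⁻¹ by group, e2] at this
      exact .inl (key this)
    have vT := T0T (VT hv)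
    have vA := out v v2 vt
    refine .inr ⟨T, T ⊓ w.A, hT, ⟨inf_le_left, cyclic_of_le (hA ▸ inferInstance) inf_le_right, ?_, fun s hs sA => ?_⟩,
      ne_bot_of_mem ⟨T0T (VT tV), w.tA⟩ w.t2.ne⟩
    · rw [inf_relIndex_left, relIndex, index_eq_two_iff]
      refine ⟨⟨v, vT⟩, fun b => ?_⟩
      by_cases e : (b : G) ∈ w.A
      · exact .inr ⟨e, fun e' => vA ((mul_mem_cancel_left e).1 e')⟩
      · exact .inl ⟨w.out_mul (TS b.2) (VS hv) e vA, e⟩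
    · have h1 := w.out_mul (VS hv) (TS hs) vA fun e => sA ⟨hs, e⟩
      have h2 := w.cj_out (VS hv) vA h1
      obtain ⟨n, hn⟩ := (mem_powers_iff_mem_zpowers.2 (hA ▸ h1) : v * s ∈ Submonoid.powers w.x)
      replace hn : w.x ^ n = v * s := hn
      rcases Nat.even_or_odd n with ⟨j, rfl⟩ | ho
      · have h3 : w.y * (v * s) * w.y⁻¹ = (v * s)⁻¹ := by
          rw [← hn, ← conj_pow, w.yx', w.cxz.inv_left.mul_pow, ← two_mul, pow_mul w.z, pow_two, hz, w.t2.sq, one_pow,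
            mul_one, inv_pow]
        rw [h3, ← mul_assoc, v2.sq, one_mul, _root_.mul_inv_rev, mul_left_inj] at h2
        nth_rewrite 1 [h2]; exact inv_mul_cancel s
      · refine absurd (zpowers_le.2 (hn ▸ mul_mem vT hs : w.x ^ n ∈ T) (mem_zpowers_pow_iff.2 ?_)) e
        exact Nat.eq_one_iff_not_exists_prime_dvd.2 fun p hp hd => (Nat.not_even_iff_odd.2 ho) (even_iff_two_dvd.2
          ((w.two.piElt (w.le w.xA) p hp (hd.trans (Nat.gcd_dvd_right _ _)) : p = 2) ▸ hd.trans (Nat.gcd_dvd_left _ _)))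
  · obtain ⟨r, hr, e⟩ : ∃ r ∈ zpowers w.z, r * r = t :=
      ⟨w.z ^ k, zpow_mem_zpowers _ _, ((Commute.refl w.z).mul_zpow k).symm.trans hk⟩
    have rS := w.Z_cent hr
    have r2 := w.two.piElt (w.le (w.Z_le hr))
    have sq : ∀ h : G, h * r * h⁻¹ ∈ S → h * t * h⁻¹ ∈ w.A := fun h k => by
      have := w.sq_mem k
      rwa [conj_mul, e] at this
    have vA : v ∈ w.A := by
      obtain ⟨g, rfl⟩ := one t v w.t2 v2
      obtain ⟨h, -, e1, e2⟩ := extremal hS w.S_le (mem_top g)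
      have h1 : h⁻¹ * r * h⁻¹⁻¹ ∈ 𝐂(V) := by
        have k : ∀ x, h * x * h⁻¹ ∈ S → x ∈ 𝐂[h⁻¹ * r * h⁻¹⁻¹] := fun x hx => mem_cent1_iff.2 (by
          calc x * (h⁻¹ * r * h⁻¹⁻¹) = h⁻¹ * (h * x * h⁻¹ * r) * h := by group
            _ = _ := by rw [mem_cent_iff.1 rS _ hx]; group)
        exact mem_cent_iff_le_cent1.2 (V4.le_of tV hv w.t2.ne v1 vt.symm
          (k _ (e2 t ⟨w.tS, mem_cent1_iff.2 (V4.comm tV hv)⟩)) (k _ (by rw [e1]; exact w.tS)))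
      obtain ⟨c, hc, k⟩ := hT0.exists_conj_mem h1 (r2.map (MulAut.conj h⁻¹).toMonoidHom)
      have := sq (c * h⁻¹) (by
        rw [show c * h⁻¹ * r * (c * h⁻¹)⁻¹ = c * (h⁻¹ * r * h⁻¹⁻¹) * c⁻¹ by group]; exact TS (T0T k))
      rwa [show c * h⁻¹ * t * (c * h⁻¹)⁻¹ = c * (g * t * g⁻¹) * c⁻¹ by nth_rewrite 1 [← e1]; group,
        ← mem_cent_iff.1 hc _ hv, mul_inv_cancel_right] at this
    have rT : r ∈ T := T0T (zpowers_le.1 (hT0.le_of_norm' (piGrp_zpowers.2 r2) (zpowers_le.2 (cent_mono VS rS))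
      (norms_of_cents (zpowers_le.2 (cent_mono (T0T.trans TS) rS)))))
    obtain ⟨h, hh, e1, e2⟩ := extremal hT Tt hg
    have tA := sq h (TS (e2 r ⟨rT, cent_le_cent1 (TS hu) rS⟩))
    have h1 := cN h hh t tN
    rcases w.rank2 (w.le tA) (VS hv) (w.t2.conj h) v2 (w.ab _ tA _ vA)
      (fun k => ut (mul_left_cancel (mul_right_cancel (e1.trans k.symm)))) vt with k | k
    exacts [.inl (key (k ▸ h1)), .inl (key (k ▸ mul_mem tN h1))]

theorem Four.quo {O : Subgroup G} (V4 : Four V) (hn : V ≤ 𝐍(O)) (ho : PiGrp {2}ᶜ O) : Four (V /ₛ O) :=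
  ⟨(card_quo_of_coprime hn (ho.coprime' V4.piGrp)).trans V4.card, fun x hx => by
    obtain ⟨y, hy, rfl⟩ := (mem_quo hn).1 hx
    rw [← pel_mul _ (hn hy) (hn hy), V4.sq y hy, pel_one]⟩

end

/-- Local balance in a subgroup `L ⊇ C(V)` all of whose simple sections are balanced. -/
theorem ll_of {G : Type u} [Group G] [Finite G] {L V Y : Subgroup G} {a : G} {p n : ℕ} (hG : QSyl (⊤ : Subgroup G))
    (one : ∀ a b : G, Inv2 a → Inv2 b → ∃ g, g * a * g⁻¹ = b)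
    (ind : ∀ (K : Type u) [Group K] [Finite K] [IsSimpleGroup K], Nat.card K < n → QSyl (⊤ : Subgroup K) → Bal K)
    (hlt : Nat.card L < n) (V4 : Four V) (hL : 𝐂(V) ≤ L) (ha : a ∈ V) (a1 : a ≠ 1) (hp : p ≠ 2) (hY : Y ≤ L)
    (Yp : PiGrp {p} Y) (hn : L ⊓ 𝐂[a] ≤ 𝐍(Y)) (hb : ∀ b ∈ V, b ≠ 1 → b ≠ a → ⁅Y ⊓ 𝐂[b], zpowers a⁆ ≤ 𝐎(𝐂[b])) :
    ⁅Y, zpowers a⁆ ≤ piCoreOf {p} L := by
  have VL := V4.le_cent.trans hL
  have hs := VL ha
  have s2 := V4.inv2 ha a1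
  have sY : a ∈ 𝐍(Y) := hn ⟨hs, self_mem_cent1 a⟩
  have Yo : PiGrp {2}ᶜ Y := Yp.compl_singleton (by simpa using hp.symm)
  have hc := (copAct_inv s2.sq (odd_iff.2 Yo) sY).comm_comm
  have hle : ⁅Y, zpowers a⁆ ≤ Y := comm_le_left (zpowers_le.2 sY)
  replace hn := norms_commutator hn (norms_zpowers_of_cent1 inf_le_right)
  replace hb : ∀ b ∈ V, b ≠ 1 → b ≠ a → ⁅⁅Y, zpowers a⁆ ⊓ 𝐂[b], zpowers a⁆ ≤ 𝐎(L ⊓ 𝐂[b]) := fun b bV b1 ba =>
    (commutator_mono (inf_le_inf_right _ hle) le_rfl).trans (le_trans (le_inf (hb b bV b1 ba) (comm_le_of_le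
      (inf_le_inf_right _ hY) (zpowers_le.2 ⟨hs, V4.le_cent1 bV ha⟩))) (piCoreOf_inf_le _ inf_le_right))
  replace Yp := Yp.of_le hle
  replace Yo := Yo.of_le hle
  replace hY := hle.trans hY
  generalize ⁅Y, zpowers a⁆ = Y at *
  have key : ∀ N, N ⊴ L → PiGrp {2}ᶜ N → ⁅Y /ₛ N, zpowers (qel N a)⁆ = Y /ₛ N ∧
      (L /ₛ N) ⊓ 𝐂[qel N a] ≤ 𝐍(Y /ₛ N) ∧ Inv2 (qel N a) := fun N hN ho => by
    have hk : PiGrp {2}ᶜ (pker (qmk N)) := by rw [pker_qmk]; exact ho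
    refine ⟨?_, ?_, s2.pm (hN.norm hs) hk⟩
    · rw [← quo_zpowers (hN.norm hs), ← quo_commutator (hY.trans hN.norm) (zpowers_le.2 (hN.norm hs)), hc]
    · rw [← pm_cent hk (hN.norm hs) s2 (le_normalizer hs)]; exact quo_norms N hn
  have hO := piCoreOf_normalIn {2}ᶜ L
  have ho := core_pi L
  have hk : PiGrp {2}ᶜ (pker (qmk 𝐎(L))) := by rw [pker_qmk]; exact ho
  have h1 : Y ≤ 𝐎(L) := by
    obtain ⟨k1, k2, k3⟩ := key _ hO ho
    have Vn := VL.trans hO.norm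
    rw [← quo_eq_bot_iff (hY.trans hO.norm)]
    refine ((hG.qg.of_le le_top).quo hO ho).ll0 (piCoreOf_quo_self _ L) ind ((card_quo_le L _).trans_lt hlt)
      (quo_mono _ VL) (Four.quo V4 Vn ho) (qel_mem_quo _ ha) k3.ne (fun K hK hq hZ => ?_) hp (quo_mono _ hY)
      (Yp.quo _) k2 k1 fun b bV b1 ba => ?_
    · refine (four_le hG one V4 hL (coq_normalIn hO hK) (fun e => hq.not_solvable (solv_odd (odd_iff.2
        (quo_coq K ▸ e.quo _)))) fun z hz z2 e => ?_).imp (le_coq_iff Vn).1 fun e => e.quo hO.norm (odd_core L)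
      obtain ⟨z1, z3⟩ := mem_coq.1 hz
      refine (z2.pm z1 hk).ne (mem_bot.1 (hZ ▸ mem_inf.2 ⟨z3, mem_cent_iff.2 fun g hg => ?_⟩))
      obtain ⟨g, hg', rfl⟩ := (mem_quo hO.norm).1 (hK.le hg)
      have gn := hO.norm hg'
      refine isol_comm (z2.pm z1 hk) ?_
      rw [← pel_inv _ gn, ← pel_mul _ gn z1, ← pel_mul _ (mul_mem gn z1) (inv_mem gn),
        ← pel_mul _ z1 (mul_mem (mul_mem gn z1) (inv_mem gn))]
      exact (qel_eq_one_iff (hO.norm (hO.le (e g hg')))).2 (e g hg')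
    · obtain ⟨b, bV', rfl⟩ := (mem_quo Vn).1 bV
      have b2 := V4.inv2 bV' fun e => b1 (by rw [e, pel_one])
      rw [← pm_cent hk (Vn bV') b2 (hn ⟨VL bV', V4.le_cent1 ha bV'⟩), ← pm_cent hk (Vn bV') b2 (le_normalizer (VL bV')),
        ← quo_zpowers (Vn ha), ← quo_commutator (inf_le_left.trans (hY.trans hO.norm)) (zpowers_le.2 (Vn ha))]
      exact (quo_mono _ (hb b bV' b2.ne fun e => ba (by rw [e]))).trans (quo_piCoreOf_le _ _ _)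
  have hQ := piCoreOf_normalIn {p} L
  have Qo : PiGrp {2}ᶜ (piCoreOf {p} L) := (piCoreOf_piGrp _ L).compl_singleton (by simpa using hp.symm)
  obtain ⟨k1, k2, k3⟩ := key _ hQ Qo
  rw [← quo_eq_bot_iff (hY.trans hQ.norm)]
  exact ll_core hp (hO.quo _) (ho.quo _) (piCoreOf_quo_self _ L) (qel_mem_quo _ hs) k3.sq (quo_mono _ h1)
    (Yp.quo _) k1 k2

/-- LL: local balance in a proper subgroup `L ⊇ C(V)` of a minimal counterexample. -/
theorem Min.ll {G : Type u} [Group G] [Finite G] (m : Min G) {L V Y : Subgroup G} {a : G} {p : ℕ}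
    (one : ∀ a b : G, Inv2 a → Inv2 b → ∃ g, g * a * g⁻¹ = b) (hL : L ≠ ⊤) (V4 : Four V) (hV : 𝐂(V) ≤ L) (ha : a ∈ V)
    (a1 : a ≠ 1) (hp : p ≠ 2) (hY : Y ≤ L) (Yp : PiGrp {p} Y) (hn : L ⊓ 𝐂[a] ≤ 𝐍(Y))
    (hb : ∀ b ∈ V, b ≠ 1 → b ≠ a → ⁅Y ⊓ 𝐂[b], zpowers a⁆ ≤ 𝐎(𝐂[b])) : ⁅Y, zpowers a⁆ ≤ piCoreOf {p} L :=
  ll_of ⟨_, m.syl, m.qd⟩ one m.ind ((card_lt_of_lt' hL.lt_top).trans_eq card_top) V4 hV ha a1 hp hY Yp hn hb

end CA.ABG
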