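/-
The torus of `SL₂(q)` fixed by an involution of `PGL₂(q)`.
-/
import Cfsg.Agent.Lib.GW.L2

set_option autoImplicit false
set_option linter.unusedSectionVars false

namespace CA.ABG
open Cfsg CA CA.GW Matrix.SpecialLinearGroup CA.SL2 CA.Br Subgroup
open scoped MatrixGroups

variable {F : Type*} [Field F]

theorem sl_ex {A : L2 F} (h : aDet A = 1) : ∃ g : SL(2, F), toGL g = A :=
  ⟨⟨A, by rw [Matrix.det_fin_two]; exact h⟩, Units.ext rfl⟩

theorem toGL_neg (g : SL(2, F)) : (toGL (-g) : L2 F) = dg (-1, -1) * toGL g :=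
  ext2 (by simp [mul_ent, toGL_ent, neg_ent]) (by simp [mul_ent, toGL_ent, neg_ent]) (by simp [mul_ent, toGL_ent, neg_ent])
    (by simp [mul_ent, toGL_ent, neg_ent])

theorem neg_ne_self (h2 : (2 : F) ≠ 0) (g : SL(2, F)) : -g ≠ g := fun e => h2 (by
  have := (s_ent (mul_right_cancel ((neg_one_mul g).trans (e.trans (one_mul g).symm)))).1
  rw [neg_ent, one_ent00] at this
  linear_combination -this)

theorem sq_one (h2 : (2 : F) ≠ 0) {g : SL(2, F)} (h : g * g = 1) : g = 1 ∨ g = -1 :=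
  or_iff_not_imp_left.2 fun e => Subtype.ext (eq_neg_one_of_involution h2 g e h)

theorem sq_neg {g : SL(2, F)} (h0 : aTr (toGL g : L2 F) = 0) : g * g = -1 := by
  have hV := aDet_toGL g
  refine toGL_injective (ext2 ?_ ?_ ?_ ?_) <;> simp only [aTr, aDet] at h0 hV <;>
    simp only [map_mul, mul_ent] <;> simp only [toGL_ent, neg_ent, one_ent00, one_ent01, one_ent10, one_ent11] at h0 hV ⊢
  · linear_combination g 0 0 * h0 - hV
  · linear_combination g 0 1 * h0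
  · linear_combination g 1 0 * h0
  · linear_combination g 1 1 * h0 - hV

variable [Fintype F]
local notation "𝔮" => Fintype.card F

/-- `T` generates the torus of `PGL₂(q)` through the involution `s`, `τ` the fixed torus of `SL₂(q)`, `σ` inverts it -/
structure TorS (s T : MulAut SL(2, F)) (τ σ : SL(2, F)) (n : ℕ) : Prop where
  TP : T ∈ Ph F
  ordT : orderOf T = n
  hn : n + 1 = 𝔮 ∨ n = 𝔮 + 1
  TK : ∀ k : ℕ, T ^ k ∈ Kh F ↔ Even k
  Ts : T * s = s * T
  ord : orderOf τ = n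
  fix : ∀ g, s g = g ↔ g ∈ zpowers τ
  cj : MulAut.conj τ = T ^ 2
  Tτ : T τ = τ
  sq : σ * σ = -1
  sσ : s σ = -σ
  inv : σ * τ * σ⁻¹ = τ⁻¹
  dich : ∀ c ∈ Ph F, c * s = s * c → c ∉ zpowers T → c * c = 1
  self : s ∈ zpowers T

theorem torS (hF : Odd 𝔮) {s : MulAut SL(2, F)} (hs : s ∈ Ph F) (s2 : Inv2 s) : ∃ T τ σ n, TorS s T τ σ n := by
  have h2 := two_ne_zero_of_odd hF
  obtain ⟨S, rfl⟩ := hs
  have hS : ¬ aSc S := fun e => s2.ne (piH_eq_one.2 e)
  have t : aTr S = 0 := tr_zero hS (piH_eq_one.1 (by rw [map_mul, s2.sq]))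
  obtain ⟨u₀, n, hn, ns, him, hall⟩ := tor_alg hF (neg_ne_zero.2 (a_det_ne S))
  have n0 : u₀.norm ≠ 0 := fun e => ns (by rw [e]; exact IsSquare.zero)
  obtain ⟨T, hT⟩ := isW_ex t n0
  have q3 : 1 < 𝔮 := Fintype.one_lt_card
  have dv : ∀ k, piH T ^ k = 1 ↔ n ∣ k := fun k => by rw [← map_pow, piH_eq_one, (hT.pow t k).sc h2 t hS, him]
  have ord : orderOf (piH T) = n :=
    Nat.dvd_antisymm (orderOf_dvd_of_pow_eq_one ((dv n).2 dvd_rfl)) ((dv _).1 (pow_orderOf_eq_one _))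
  have memW : ∀ g, g * S = S * g → ∃ (k : ℕ) (l : Fˣ), g = dg (l, l) * T ^ k := fun g e => by
    obtain ⟨u, hu⟩ := isW_of_comm h2 t hS e
    obtain ⟨k, l, l0, rfl⟩ := hall u (hu.det t ▸ a_det_ne g)
    exact ⟨k, _, hu.ext ((hT.pow t k).smul (Units.mk0 l l0))⟩
  have memW' : ∀ g, g * S = S * g → piH g ∈ zpowers (piH T) := fun g e => by
    obtain ⟨k, l, rfl⟩ := memW g e
    rw [map_mul, piH_sc, one_mul, map_pow]
    exact pow_mem (mem_zpowers _) k
  set ν := Units.mk0 _ n0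
  have dT : aDet T = ν := hT.det t
  obtain ⟨τ, hτ⟩ := sl_ex (A := dg (ν⁻¹, ν⁻¹) * T ^ 2) (by rw [a_det_mul, aDet_dg, aDet_pow, dT, Units.val_inv_eq_inv_val]; field_simp)
  have τk : ∀ k : ℕ, toGL (τ ^ k) = dg (ν⁻¹ ^ k, ν⁻¹ ^ k) * T ^ (2 * k) := fun k => by
    rw [map_pow, hτ, Commute.mul_pow (sc_comm _ _), ← map_pow, pow_mul]; rfl
  have τS : ∀ k : ℕ, toGL (τ ^ k) * S = S * toGL (τ ^ k) := fun k => τk k ▸ ((hT.pow t _).smul _).comm t
  have o1 : ∀ k : ℕ, τ ^ k = 1 ↔ n ∣ k := fun k => by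
    have w := ((hT.pow t (2 * k)).smul (ν⁻¹ ^ k))
    rw [← τk, mul_comm 2, pow_mul, sq (u₀ ^ k)] at w
    have nk : (u₀ ^ k).re ^ 2 + aDet S * (u₀ ^ k).im ^ 2 = ν ^ k := by
      rw [show (ν : F) = u₀.norm from rfl, ← map_pow, qa_norm]; ring
    have ν0 : (ν : F) ^ k ≠ 0 := pow_ne_zero _ n0
    rw [← him]
    refine ⟨fun e => ?_, fun e => toGL_injective (w.ext ?_)⟩
    · have h1 := w.tr
      rw [e, map_one] at h1
      simp only [aTr, one_00, one_11, QuadraticAlgebra.re_smul, QuadraticAlgebra.re_mul, smul_eq_mul, Units.val_pow_eq_pow_val,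
        Units.val_inv_eq_inv_val, inv_pow] at h1
      field_simp at h1
      exact pow_eq_zero_iff two_ne_zero |>.1 (mul_left_cancel₀ (mul_ne_zero (mul_ne_zero h2 h2) (a_det_ne S))
        (by linear_combination h1 + 2 * nk))
    · rw [e] at nk
      rw [map_one]
      refine ⟨?_, ?_, ?_, ?_⟩ <;>
        simp only [one_00, one_01, one_10, one_11, QuadraticAlgebra.re_smul, QuadraticAlgebra.re_mul, QuadraticAlgebra.im_smul,
          QuadraticAlgebra.im_mul, smul_eq_mul, Units.val_pow_eq_pow_val, Units.val_inv_eq_inv_val, inv_pow, e] <;>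
        field_simp
      · linear_combination -nk
      · ring
      · ring
      · linear_combination -nk
  have oτ : orderOf τ = n := Nat.dvd_antisymm (orderOf_dvd_of_pow_eq_one ((o1 n).2 dvd_rfl)) ((o1 _).1 (pow_orderOf_eq_one _))
  obtain ⟨m, hm⟩ : ∃ m, n = m + m := by obtain ⟨a, ha⟩ := hF; rcases hn with h | h; exacts [⟨a, by omega⟩, ⟨a + 1, by omega⟩]
  have ng : -1 ∈ zpowers τ := by
    rw [← (sq_one h2 (g := τ ^ m) (by rw [← pow_add, ← hm, o1])).resolve_left fun e => by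
      have := Nat.le_of_dvd (by omega) ((o1 m).1 e); omega]
    exact pow_mem (mem_zpowers _) _
  obtain ⟨V, hV, aV⟩ := anti_ex hF t hS
  obtain ⟨σ, rfl⟩ := sl_ex hV
  have σ2 : σ * σ = -1 := sq_neg (tr_anti h2 aV)
  have sσ : piH S σ = -σ := piH_eq_iff.2 (by
    rw [toGL_neg, mul_assoc, aV, ← mul_assoc, ← map_mul]; simp [Prod.mk_one_one])
  have fix : ∀ g, piH S g = g ↔ g ∈ zpowers τ := fun g => by
    rw [piH_eq_iff]
    refine ⟨fun e => ?_, fun e => ?_⟩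
    · obtain ⟨k, l, hk⟩ := memW _ e.symm
      have d := aDet_toGL g
      rw [hk, a_det_mul, aDet_dg, aDet_pow, dT] at d
      obtain ⟨j, rfl⟩ := (sq_pow_iff (a := (ν : F)) ns k).1 ⟨(l⁻¹ : Fˣ), by
        rw [Units.val_inv_eq_inv_val, ← mul_inv]; exact eq_inv_of_mul_eq_one_right d⟩
      have e1 : toGL g = dg (l * ν ^ j, l * ν ^ j) * toGL (τ ^ j) := by
        rw [hk, τk, ← mul_assoc, ← map_mul, two_mul]; simp [mul_assoc]
      rcases mul_self_eq_one_iff.1 (show ((l * ν ^ j : Fˣ) : F) * (l * ν ^ j : Fˣ) = 1 by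
        push_cast; linear_combination d) with h | h
      · rw [toGL_injective (e1.trans (by rw [Units.ext (h.trans Units.val_one.symm), Prod.mk_one_one, map_one, one_mul]))]
        exact pow_mem (mem_zpowers _) _
      · rw [toGL_injective (e1.trans (by rw [toGL_neg, show l * ν ^ j = -1 from Units.ext h])), ← neg_one_mul]
        exact mul_mem ng (pow_mem (mem_zpowers _) _)
    · obtain ⟨k, rfl⟩ := (Submonoid.mem_powers_iff _ _).1 (mem_powers_iff_mem_zpowers.2 e)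
      exact (τS k).symm
  refine ⟨piH T, τ, σ, n, ⟨T, rfl⟩, ord, hn, fun k => ?_, by rw [← map_mul, hT.comm t, map_mul], oτ, fix, ?_, ?_, σ2, sσ,
    ?_, ?_, memW' S rfl⟩
  · rw [← map_pow, piH_mem_K, aDet_pow, hT.det t, sq_pow_iff ns]
  · rw [← piH_toGL, hτ, map_mul, piH_sc, one_mul, map_pow]
  · rw [piH_eq_iff, hτ, ← mul_assoc, ← sc_comm, mul_assoc, mul_assoc, ← pow_succ, ← pow_succ']
  · have h1 : piH S (σ * τ) = -(σ * τ) := by rw [map_mul, sσ, (fix τ).2 (mem_zpowers τ), neg_mul]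
    have h3 : σ * τ * (σ * τ) = -1 := sq_neg (tr_anti h2 (S := S) (by
      rw [piH_eq_iff.1 h1, toGL_neg, ← mul_assoc, ← mul_assoc, ← map_mul]; simp [Prod.mk_one_one]))
    rw [show σ⁻¹ = -σ from inv_eq_of_mul_eq_one_right (by rw [mul_neg, σ2, neg_neg]), eq_inv_iff_mul_eq_one, mul_neg, neg_mul,
      mul_assoc, h3, neg_neg]
  · rintro _ ⟨C, rfl⟩ e hc
    rw [← map_mul]
    exact piH_eq_one.2 (sc_sq (tr_anti h2 ((comm_pm e).resolve_left fun e => hc (memW' C e))))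

/-- involutions of `PGL₂(q)` in the same coset of `PSL₂(q)` are conjugate under `PSL₂(q)` -/
theorem inv_conj (hF : Odd 𝔮) {a b : MulAut SL(2, F)} (ha : a ∈ Ph F) (hb : b ∈ Ph F) (a2 : Inv2 a) (b2 : Inv2 b)
    (h : a * b ∈ Kh F) : ∃ g : SL(2, F), MulAut.conj g * a * (MulAut.conj g)⁻¹ = b := by
  obtain ⟨T, τ, σ, n, t⟩ := torS hF hb b2
  obtain ⟨A, rfl⟩ := ha
  obtain ⟨B, rfl⟩ := hb
  have hA : ¬ aSc A := fun e => a2.ne (piH_eq_one.2 e)
  have hB : ¬ aSc B := fun e => b2.ne (piH_eq_one.2 e)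
  rw [← map_mul, piH_mem_K, a_det_mul] at h
  obtain ⟨c, hc⟩ := h
  have c0 : c ≠ 0 := fun e => mul_ne_zero (a_det_ne A) (a_det_ne B) (by rw [hc, e, zero_mul])
  set l := Units.mk0 (c / aDet A) (div_ne_zero c0 (a_det_ne A))
  obtain ⟨k, hk⟩ := a_conj (g := dg (l, l) * A) (fun e => hA (piH_eq_one.1 (by
    rw [← piH_eq_one, map_mul, piH_sc, one_mul] at e; exact e))) hB (by
    rw [aTr_dg, tr_zero hA (piH_eq_one.1 (by rw [map_mul, a2.sq])), tr_zero hB (piH_eq_one.1 (by rw [map_mul, b2.sq])), mul_zero])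
    (by have := a_det_ne A; rw [a_det_mul, aDet_dg]; simp only [l, Units.val_mk0]; field_simp; linear_combination -hc)
  have e : piH k * piH A * (piH k)⁻¹ = piH B := by rw [← hk, map_mul, map_mul, map_mul, piH_sc, one_mul, map_inv]
  by_cases hK : piH k ∈ Kh F
  · obtain ⟨g, hg⟩ := hK
    exact ⟨g, hg ▸ e⟩
  · obtain ⟨g, hg⟩ := mul_mem_K hF t.TP ⟨k, rfl⟩ (fun e => by simpa using (t.TK 1).1 (by rwa [pow_one])) hK
    refine ⟨g, ?_⟩
    rw [hg, show T * piH k * piH A * (T * piH k)⁻¹ = T * (piH k * piH A * (piH k)⁻¹) * T⁻¹ by group, e, t.Ts,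
      mul_inv_cancel_right]

end CA.ABG
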