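/-
`QT` groups in which `P = SL₂(q) ⋊ ⟨d⟩`: involutions, tori, centralizers of noncentral involutions.
-/
import Cfsg.Agent.Lib.ABG.QT
import Cfsg.Agent.Lib.ABG.TorS

set_option autoImplicit false
set_option linter.unusedSectionVars false

namespace CA.ABG
open Cfsg CA CA.FStar CA.GW Matrix.SpecialLinearGroup CA.SL2 CA.Br Subgroup
open scoped MatrixGroups

/-- `d` has order `|Z|` and `⟨d⟩` meets `Z` trivially -/
structure Gen {G : Type*} [Group G] (X Z : Subgroup G) (d : G) : Prop where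
  mem : d ∈ X
  ord : orderOf d = Nat.card Z
  dz : zpowers d ⊓ Z = ⊥

/-- a `QT` group with an element `d` as in `Gen` -/
structure QE {G : Type*} [Group G] (F : Type) [Field F] [Fintype F] (X Z : Subgroup G) extends QT F X Z where
  d : G
  dX : d ∈ X
  dord : orderOf d = Nat.card Z
  dZ : zpowers d ⊓ Z = ⊥

variable {G : Type*} [Group G] [Finite G] {X Z : Subgroup G} {d : G}

theorem Gen.conj (h : Gen X Z d) (cen : Z ≤ 𝐂(X)) {g : G} (hg : g ∈ X) : Gen X Z (g * d * g⁻¹) :=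
  ⟨mul_mem (mul_mem hg h.mem) (inv_mem hg), by rw [← h.ord]; exact (MulAut.conj g).orderOf_eq d, eq_bot_iff.2 fun x ⟨⟨k, hk⟩, hx⟩ => by
    have e : d ^ k = x := by
      have hk : g * d ^ k * g⁻¹ = x := _root_.conj_zpow.symm.trans hk
      rwa [mul_inv_eq_iff_eq_mul, ← cen hx g hg, mul_left_cancel_iff] at hk
    exact h.dz ▸ ⟨⟨k, e⟩, hx⟩⟩

theorem card_two (two : PiGrp {2} Z) (h1 : Z ≠ ⊥) : ∃ e, Nat.card Z = 2 ^ (e + 1) := by
  obtain ⟨k, hk⟩ := (IsPGroup.iff_card (p := 2)).1 (two.isPGroup Nat.prime_two)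
  cases k with
  | zero => exact absurd (card_eq_one.1 hk) h1
  | succ e => exact ⟨e, hk⟩

theorem Gen.half (hd : Gen X Z d) (h : ∃ e, Nat.card Z = 2 ^ (e + 1)) : Inv2 (d ^ (Nat.card Z / 2)) ∧ d ^ (Nat.card Z / 2) ∉ Z ∧
    ∀ y ∈ zpowers d, y * y = 1 → y = 1 ∨ y = d ^ (Nat.card Z / 2) := by
  obtain ⟨e, he⟩ := h
  have o := hd.ord
  rw [he] at o ⊢
  rw [show 2 ^ (e + 1) / 2 = 2 ^ e by omega]
  have i : Inv2 (d ^ 2 ^ e) := ⟨by rw [← pow_add, ← two_mul, ← pow_succ', ← o, pow_orderOf_eq_one], fun e1 => by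
    have := Nat.le_of_dvd (by positivity) (o ▸ orderOf_dvd_of_pow_eq_one e1)
    have : 0 < 2 ^ e := by positivity
    omega⟩
  refine ⟨i, fun e1 => i.ne (mem_bot.1 (hd.dz ▸ ⟨pow_mem (mem_zpowers d) _, e1⟩)), fun y hy y2 => ?_⟩
  obtain ⟨k, rfl⟩ := (Submonoid.mem_powers_iff _ _).1 (mem_powers_iff_mem_zpowers.2 hy)
  rw [← pow_add, ← two_mul, ← orderOf_dvd_iff_pow_eq_one, o, pow_succ'] at y2
  obtain ⟨j, rfl⟩ := Nat.dvd_of_mul_dvd_mul_left two_pos y2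
  exact (mem_zpowers_sq i.sq).1 (by rw [pow_mul]; exact pow_mem (mem_zpowers _) _)

namespace QT
variable {F : Type} [Field F] [Fintype F] (h : QT F X Z) {x y s u : G}

/-- the central involution -/
noncomputable abbrev t : G := h.ι (-1)

include h in
theorem card_Z : ∃ e, Nat.card Z = 2 ^ (e + 1) := card_two h.two fun e => h.neg2.ne (mem_bot.1 (e ▸ h.neg))

include h in
theorem gen_two (hd : Gen X Z d) : PiElt {2} d := by rw [PiElt, hd.ord]; exact h.two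

theorem gen_L (hd : Gen X Z d) : h.L ⊓ zpowers d = ⊥ := by_contra fun e => by
  obtain ⟨x, hx, o⟩ := exists_orderOf_eq_prime Nat.prime_two
    (((piGrp_zpowers.2 (h.gen_two hd)).inf_right h.L).dvd_card_of_ne_bot e)
  exact (inv2_of_ord o).ne (mem_bot.1 (hd.dz ▸ ⟨hx.2, h.inv_L hx.1 (inv2_of_ord o) ▸ h.neg⟩))

theorem gen_P (hd : Gen X Z d) : d ∈ h.P := h.two_mem hd.mem (h.gen_two hd)

include h in
theorem gen_half (hd : Gen X Z d) : Inv2 (d ^ (Nat.card Z / 2)) ∧ d ^ (Nat.card Z / 2) ∉ Z ∧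
    ∀ y ∈ zpowers d, y * y = 1 → y = 1 ∨ y = d ^ (Nat.card Z / 2) := hd.half h.card_Z

theorem gen_LZ (hd : Gen X Z d) : d ∉ h.L ⊔ Z := fun e => by
  obtain ⟨g, c, hc, rfl⟩ := h.dec e
  obtain ⟨i, hZ, -⟩ := h.gen_half hd
  obtain ⟨k, he⟩ := h.card_Z
  have cm : Commute (h.ι g) c := h.cen hc _ (h.mem g)
  have c1 : c ^ (Nat.card Z / 2) * c ^ (Nat.card Z / 2) = 1 := by
    rw [← pow_add, show Nat.card Z / 2 + Nat.card Z / 2 = Nat.card Z by omega]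
    exact congrArg Subtype.val (pow_card_eq_one' (x := (⟨c, hc⟩ : Z)))
  have h1 := i.sq
  rw [cm.mul_pow, ← map_pow] at hZ
  rw [cm.mul_pow, (cm.pow_pow _ _).symm.mul_mul_mul_comm, c1, mul_one, ← map_pow, ← map_mul] at h1
  exact hZ (mul_mem (h.mem_Z.2 (sq_one (two_ne_zero_of_odd h.odd) (h.inj (h1.trans (map_one _).symm)))) (pow_mem hc _))

theorem gen_full (hd : Gen X Z d) : h.Full := h.full_of (h.gen_P hd) (h.gen_LZ hd)

theorem L_inf_Z : h.L ⊓ Z = zpowers h.t := le_antisymm (by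
    rintro _ ⟨⟨g, rfl⟩, hg⟩
    rcases h.mem_Z.1 hg with rfl | rfl
    exacts [by simp, mem_zpowers _]) (zpowers_le.2 ⟨⟨_, rfl⟩, h.neg⟩)

theorem card_P (hd : Gen X Z d) : Nat.card h.P = Nat.card h.L * Nat.card Z := by
  have h1 := card_sup_mul_card_inf (.inl (h.ZX.trans h.LN.2))
  have h2 := card_mul_relIndex (sup_le h.LP h.ZP)
  rw [relIndex_two (h.gen_P hd) (h.gen_LZ hd) fun a ha e => h.mul_mem_LZ ha (h.gen_P hd) e (h.gen_LZ hd)] at h2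
  rw [← h2, ← h1, h.L_inf_Z, h.neg2.card]

theorem P_eq (hd : Gen X Z d) : h.P = h.L ⊔ zpowers d :=
  (eq_of_le_of_card_ge (sup_le h.LP (zpowers_le.2 (h.gen_P hd))) (by
    rw [card_sup_of_disjoint (.inl (zpowers_le.2 (h.LN.2 hd.mem))) (h.gen_L hd), h.card_P hd, Nat.card_zpowers, hd.ord])).symm

theorem decP (hd : Gen X Z d) (hx : x ∈ h.P) : ∃ g, ∃ y ∈ zpowers d, x = h.ι g * y := by
  obtain ⟨_, ⟨g, rfl⟩, c, hc, e⟩ := (mem_sup_of_norm (.inl (zpowers_le.2 (h.LN.2 hd.mem)))).1 (h.P_eq hd ▸ hx)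
  exact ⟨g, c, hc, e.symm⟩

theorem invL (hd : Gen X Z d) (hu : u ∈ X) (u2 : u * u = 1) : u ∈ h.L ∨ u * d ^ (Nat.card Z / 2) ∈ h.L := by
  obtain ⟨i, -, hy⟩ := h.gen_half hd
  obtain ⟨g, y, hy', rfl⟩ := h.decP hd (h.two_mem hu (piElt_of_pow_eq_one (n := 2) ((piNum_prime Nat.prime_two).2 rfl) ((sq u).trans u2)))
  have yX := zpowers_le.2 hd.mem hy'
  rcases hy y hy' (mem_bot.1 (h.gen_L hd ▸ ⟨⟨(pel h.Φ y g)⁻¹ * g⁻¹, by
    rw [map_mul, map_inv, map_inv, ← h.act y yX, ← _root_.mul_inv_rev, inv_eq_iff_mul_eq_one, ← u2]; group⟩, mul_mem hy' hy'⟩))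
    with rfl | rfl
  · exact .inl ⟨g, (mul_one _).symm⟩
  · exact .inr ⟨g, by rw [mul_assoc, i.sq, mul_one]⟩

theorem inv_Z (hd : Gen X Z d) (hu : u ∈ Z) (u2 : Inv2 u) : u = h.t := by
  obtain ⟨i, hZ, -⟩ := h.gen_half hd
  refine (h.invL hd (h.ZX hu) u2.sq).elim (h.inv_L · u2) fun e => absurd ?_ hZ
  have c := h.cen hu _ (pow_mem hd.mem (Nat.card Z / 2))
  exact (mul_mem_cancel_left hu).1 (h.inv_L e (u2.mul i (fun e => hZ (e ▸ hu)) c.symm) ▸ h.neg)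

theorem φinv (hs : s ∈ X) (s2 : Inv2 s) (sZ : s ∉ Z) : Inv2 (pel h.Φ s) :=
  ⟨by rw [← pel_mul _ hs hs, s2.sq, pel_one], mt (h.φ1 hs).1 sZ⟩

theorem swap_of (hs : s ∈ X) {σ : SL(2, F)} (e : pel h.Φ s σ = -σ) : h.ι σ * s * (h.ι σ)⁻¹ = s * h.t := by
  have := h.act s hs σ
  rw [e, ← neg_one_mul, map_mul, mul_inv_eq_iff_eq_mul, mul_assoc] at this
  rw [mul_inv_eq_iff_eq_mul, h.cen h.neg s hs, mul_assoc, this, ← mul_assoc, h.neg2.sq, one_mul]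

/-- noncentral involutions are conjugate under `L` -/
theorem conj (hd : Gen X Z d) (hu : u ∈ X) (hs : s ∈ X) (u2 : Inv2 u) (s2 : Inv2 s) (uZ : u ∉ Z) (sZ : s ∉ Z) :
    ∃ g, h.ι g * u * (h.ι g)⁻¹ = s := by
  obtain ⟨i, -, -⟩ := h.gen_half hd
  have k : ∀ {u}, u ∈ X → Inv2 u → u ∉ Z → u * d ^ (Nat.card Z / 2) ∈ h.L := fun hu u2 uZ =>
    (h.invL hd hu u2.sq).resolve_left fun e => uZ (h.inv_L e u2 ▸ h.neg)
  have us : u * s ∈ h.L := by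
    simpa [mul_assoc, s2.inv] using mul_mem (k hu u2 uZ) (inv_mem (k hs s2 sZ))
  have sP := h.mP (h.two_mem hs s2.piElt)
  obtain ⟨g, hg⟩ := inv_conj h.odd (h.mP (h.two_mem hu u2.piElt)) sP (h.φinv hu u2 uZ) (h.φinv hs s2 sZ)
    (by rw [← pel_mul _ hu hs]; exact (h.φK (mul_mem hu hs)).2 (mem_sup_left us))
  have uX := mul_mem (mul_mem (h.mem g) hu) (inv_mem (h.mem g))
  rw [← h.φι, ← pel_conj _ (h.mem g) hu, h.φeq uX hs] at hg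
  have v2 := u2.conj (h.ι g)
  by_cases e : h.ι g * u * (h.ι g)⁻¹ = s
  · exact ⟨g, e⟩
  obtain ⟨T, τ, σ, n, t⟩ := torS h.odd sP (h.φinv hs s2 sZ)
  have c := h.cen hg s hs
  rw [s2.inv] at hg c
  have e1 := h.inv_Z hd hg (v2.mul s2 e (by
    rw [mul_assoc _ s, s2.sq, mul_one, ← mul_assoc] at c
    conv_lhs => rw [← c, mul_assoc, s2.sq, mul_one]))
  refine ⟨σ⁻¹ * g, ?_⟩
  rw [map_mul, map_inv, show ∀ a b : G, a⁻¹ * b * u * (a⁻¹ * b)⁻¹ = a⁻¹ * (b * u * b⁻¹) * a from fun a b => by group,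
    eq_mul_inv_of_mul_eq e1, s2.inv, ← h.cen h.neg s hs, ← h.swap_of hs t.sσ]
  group

theorem fratt (hd : Gen X Z d) (hs : s ∈ X) (s2 : Inv2 s) (sZ : s ∉ Z) : X = h.L ⊔ (X ⊓ 𝐂[s]) :=
  le_antisymm (fun x hx => by
    obtain ⟨g, hg⟩ := h.conj hd (mul_mem (mul_mem hx hs) (inv_mem hx)) hs (s2.conj x) s2
      (fun e => sZ (by simpa [mul_assoc] using conj_mem_of_mem_normalizer (h.ZN.2 (inv_mem hx)) e)) sZ
    rw [← inv_mul_cancel_left (h.ι g) x]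
    exact mul_mem (mem_sup_left (inv_mem ⟨g, rfl⟩)) (mem_sup_right ⟨mul_mem (h.mem g) hx, mem_cent1_iff.2 (by
      rw [← mul_inv_eq_iff_eq_mul]; exact Eq.trans (by group) hg)⟩)) (sup_le h.LX inf_le_left)

/-- torus data at the noncentral involution `s` -/
structure Tor (s d : G) (τ σ : SL(2, F)) (n m : ℕ) : Prop where
  sX : s ∈ X
  s2 : Inv2 s
  sZ : s ∉ Z
  gen : Gen X Z d
  sd : s ∈ zpowers d
  tor : ∃ T, TorS (pel h.Φ s) T τ σ n ∧ pel h.Φ d ∈ zpowers T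
  nm : n = Nat.card Z * m
  mo : Odd m

theorem tor (hd : Gen X Z d) (hs : s ∈ X) (s2 : Inv2 s) (sZ : s ∉ Z) : ∃ d τ σ n m, h.Tor s d τ σ n m := by
  obtain ⟨i, hZ, -⟩ := h.gen_half hd
  obtain ⟨g, hg⟩ := h.conj hd (pow_mem hd.mem _) hs i s2 hZ sZ
  have he := hd.conj h.cen (h.mem g)
  rw [← conj_pow] at hg
  generalize h.ι g * d * (h.ι g)⁻¹ = d at hg he
  obtain ⟨T, τ, σ, n, t⟩ := torS h.odd (h.mP (h.two_mem hs s2.piElt)) (h.φinv hs s2 sZ)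
  have k1 : ∀ k : ℕ, pel h.Φ d ^ k = 1 ↔ d ^ k = 1 := fun k => by
    rw [← pel_pow _ he.mem, h.φ1 (pow_mem he.mem k)]
    exact ⟨fun e => mem_bot.1 (he.dz ▸ ⟨pow_mem (mem_zpowers d) k, e⟩), fun e => e ▸ one_mem _⟩
  have dT : pel h.Φ d ∈ zpowers T := by_contra fun e => by
    have := t.dich _ (h.mP (h.gen_P he)) (by rw [← hg, pel_pow _ he.mem, ← pow_succ, pow_succ']) e
    rw [← sq, k1, sq] at this
    rcases (mem_zpowers_sq this).1 (hg ▸ pow_mem (mem_zpowers d) _ : s ∈ zpowers d) with h1 | h1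
    exacts [s2.ne h1, e (h1 ▸ t.self)]
  have : Finite (zpowers T) := Nat.finite_of_card_ne_zero (by
    rw [Nat.card_zpowers, t.ordT]; have := t.hn; have : 1 < Fintype.card F := Fintype.one_lt_card; omega)
  obtain ⟨k, hk⟩ := (Submonoid.mem_powers_iff _ _).1 ((finite_zpowers.1 (Set.toFinite _)).mem_powers_iff_mem_zpowers.2 dT)
  have ko : Odd k := Nat.not_even_iff_odd.1 fun e => h.gen_LZ he ((h.φK he.mem).1 (hk ▸ (t.TK k).2 e))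
  refine ⟨d, τ, σ, n, n.gcd k, hs, s2, sZ, he, hg ▸ pow_mem (mem_zpowers d) _, ⟨T, t, dT⟩, ?_,
    ko.of_dvd_nat (Nat.gcd_dvd_right _ _)⟩
  rw [← he.ord, ← orderOf_eq_orderOf_iff.2 k1, ← hk, orderOf_pow' _ ko.pos.ne', t.ordT, Nat.div_mul_cancel (Nat.gcd_dvd_left _ _)]

namespace Tor
variable {h} {τ σ : SL(2, F)} {n m : ℕ} {a b : G} (t : h.Tor s d τ σ n m)
include t

theorem hn : n + 1 = Fintype.card F ∨ n = Fintype.card F + 1 := let ⟨_, t, _⟩ := t.tor; t.hn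
theorem ord : orderOf τ = n := let ⟨_, t, _⟩ := t.tor; t.ord
theorem ord' : orderOf (h.ι τ) = n := (orderOf_injective _ h.inj τ).trans t.ord
theorem sq : σ * σ = -1 := let ⟨_, t, _⟩ := t.tor; t.sq
theorem inv : σ * τ * σ⁻¹ = τ⁻¹ := let ⟨_, t, _⟩ := t.tor; t.inv
theorem swap : h.ι σ * s * (h.ι σ)⁻¹ = s * h.t := let ⟨_, t', _⟩ := t.tor; h.swap_of t.sX t'.sσ
theorem inv' (ha : a ∈ zpowers (h.ι τ)) : h.ι σ * a * (h.ι σ)⁻¹ = a⁻¹ :=
  inv_of_mem_zpowers (by rw [← map_inv, ← map_mul, ← map_mul, t.inv, map_inv]) ha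
theorem dC : zpowers d ≤ 𝐂[s] := zpowers_le.2 (mem_cent1_iff.2 (let ⟨_, e⟩ := t.sd; e ▸ Commute.self_zpow d _))

theorem cent : h.L ⊓ 𝐂[s] = zpowers (h.ι τ) := by
  obtain ⟨T, t', -⟩ := t.tor
  have k : ∀ g, h.ι g ∈ 𝐂[s] ↔ g ∈ zpowers τ := fun g => by
    rw [← t'.fix, mem_cent1_iff, ← h.inj.eq_iff, ← h.act s t.sX, mul_inv_eq_iff_eq_mul, eq_comm]
  refine le_antisymm ?_ (zpowers_le.2 ⟨⟨_, rfl⟩, (k τ).2 (mem_zpowers τ)⟩)
  rintro _ ⟨⟨g, rfl⟩, hg⟩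
  obtain ⟨j, rfl⟩ := (k g).1 hg
  exact ⟨j, (map_zpow _ _ _).symm⟩

theorem dτ : d * h.ι τ = h.ι τ * d := by
  obtain ⟨T, t', k, hk⟩ := t.tor
  rw [← mul_inv_eq_iff_eq_mul, h.act d t.gen.mem, ← hk]
  exact congrArg h.ι ((MulAction.mem_stabilizer_iff.1 (zpow_mem (MulAction.mem_stabilizer_iff.2 t'.Tτ :
    T ∈ MulAction.stabilizer _ τ) k)))

theorem PC : h.P ⊓ 𝐂[s] = zpowers (h.ι τ) ⊔ zpowers d := le_antisymm (fun x hx => by
    obtain ⟨g, y, hy, rfl⟩ := h.decP t.gen hx.1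
    exact mul_mem (mem_sup_left (t.cent ▸ ⟨⟨g, rfl⟩, (mul_mem_cancel_right (t.dC hy)).1 hx.2⟩)) (mem_sup_right hy))
  (sup_le (t.cent ▸ inf_le_inf_right _ h.LP) (le_inf (zpowers_le.2 (h.gen_P t.gen)) t.dC))

theorem cτ : zpowers d ≤ 𝐂(zpowers (h.ι τ)) := zpowers_le.2 (cents_symm (zpowers_le.2 (by
  rw [cent_zpowers]; exact mem_cent1_iff.2 t.dτ.symm)) (mem_zpowers d))

theorem comm (ha : a ∈ h.P ⊓ 𝐂[s]) (hb : b ∈ h.P ⊓ 𝐂[s]) : a * b = b * a := by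
  rw [t.PC] at ha hb
  exact (abelian_sup inferInstance inferInstance (cents_symm t.cτ)).is_comm.comm ⟨a, ha⟩ ⟨b, hb⟩ |> congrArg Subtype.val

theorem card_PC : Nat.card ↥(h.P ⊓ 𝐂[s]) = n * Nat.card Z := by
  rw [t.PC, card_sup_of_disjoint (.inl (t.cτ.trans (centralizer_le_normalizer _))) (eq_bot_iff.2 (h.gen_L t.gen ▸
    inf_le_inf_right _ (t.cent ▸ inf_le_left))), Nat.card_zpowers, Nat.card_zpowers, t.ord', t.gen.ord]

/-- 2-elements of `C_X(s)` are central in it -/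
theorem two_cent (ha : a ∈ X ⊓ 𝐂[s]) (a2 : PiElt {2} a) (hx : x ∈ X ⊓ 𝐂[s]) : x * a = a * x := by
  have aP : a ∈ h.P ⊓ 𝐂[s] := ⟨h.two_mem ha.1 a2, ha.2⟩
  suffices k : ∀ x ∈ X ⊓ 𝐂[s], Odd (orderOf x) → x * a = a * x by
    rw [← constt_mul_compl {2} x, mul_assoc, k _ (constt_mem _ hx) (odd_elt_iff.2 (constt_piElt _ x)), ← mul_assoc,
      t.comm ⟨h.two_mem (constt_mem _ hx.1) (constt_piElt _ x), constt_mem _ hx.2⟩ aP, mul_assoc]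
  intro x hx xo
  obtain ⟨T, t', dT⟩ := t.tor
  have : Finite (MulAut SL(2, F)) := inferInstance
  have c1 : pmap h.Φ (h.P ⊓ 𝐂[s]) ≤ zpowers T := by
    rw [t.PC, pmap_sup _ (zpowers_le.2 (h.mem τ)) (zpowers_le.2 t.gen.mem), pmap_zpowers _ (h.mem τ), pmap_zpowers _ t.gen.mem,
      h.φι, t'.cj]
    exact sup_le (zpowers_le.2 (pow_mem (mem_zpowers T) 2)) (zpowers_le.2 dT)
  have n1 : zpowers (pel h.Φ x) ≤ 𝐍(pmap h.Φ (h.P ⊓ 𝐂[s])) := by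
    rw [← pmap_zpowers _ hx.1]
    exact pmap_norms _ ((zpowers_le.2 hx).trans (PG.norm_inf (inf_le_left.trans h.PN.2) (inf_le_right.trans le_normalizer)))
  have c2 := cent_of_cyclic (T := zpowers (pel h.Φ a)) (piGrp_zpowers.2 (by rw [pel_of_mem _ ha.1]; exact (piElt_coe.1 a2).map _))
    inferInstance (norms_of_cyclic (cyclic_of_le inferInstance c1) (zpowers_le.2 (pel_mem_pmap _ aP)) n1 (mem_zpowers _))
    (by rw [pel_of_mem _ hx.1]; exact (orderOf_coe (⟨x, hx.1⟩ : X) ▸ xo).of_dvd_nat (orderOf_map_dvd _ _)) _ (mem_zpowers _)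
  rw [← pel_mul _ ha.1 hx.1, ← pel_mul _ hx.1 ha.1, h.φeq (mul_mem ha.1 hx.1) (mul_mem hx.1 ha.1)] at c2
  have c3 : Commute (a * x * (x * a)⁻¹) x := (h.cen c2 x hx.1).symm
  have c4 := c3.mul_pow (orderOf x)
  rw [show a * x * (x * a)⁻¹ * x = a * x * a⁻¹ by group, conj_pow, pow_orderOf_eq_one, mul_one, mul_one, mul_inv_cancel] at c4
  exact (mul_inv_eq_one.1 ((h.two.piElt c2).eq_one (odd_elt_iff.1 (xo.of_dvd_nat (orderOf_dvd_of_pow_eq_one c4.symm))))).symm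

theorem syl_cent {A : Subgroup G} (hA : SylowIn 2 A (X ⊓ 𝐂[s])) : X ⊓ 𝐂[s] ≤ 𝐂(A) :=
  fun _ hx _ ha => (t.two_cent (hA.le ha) (hA.piGrp.piElt ha) hx).symm

theorem syl_P {A : Subgroup G} (hA : SylowIn 2 A (X ⊓ 𝐂[s])) : A ≤ h.P ⊓ 𝐂[s] :=
  fun _ ha => ⟨h.two_mem (hA.le ha).1 (hA.piGrp.piElt ha), (hA.le ha).2⟩

theorem card_syl {A : Subgroup G} (hA : SylowIn 2 A (X ⊓ 𝐂[s])) : Nat.card A = Nat.card Z ^ 2 := by
  obtain ⟨e, he⟩ := h.card_Z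
  rw [SylowIn.card_eq_pow (hA.of_le (t.syl_P hA) (inf_le_inf_right _ h.PX)) Nat.prime_two, t.card_PC, t.nm, he,
    mul_right_comm, ← pow_add, Nat.factorization_mul (by positivity) t.mo.pos.ne', Nat.Prime.factorization_pow Nat.prime_two,
    ← pow_mul]
  simp [Nat.factorization_eq_zero_of_not_dvd t.mo.not_two_dvd_nat, mul_two]

theorem npc : NormalPCompl 2 (X ⊓ 𝐂[s]) :=
  let ⟨_, hA⟩ := exists_sylowIn 2 (X ⊓ 𝐂[s])
  hA.normalPCompl_of_cent (inf_le_left.trans (t.syl_cent hA))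

theorem mem_core (hx : x ∈ X ⊓ 𝐂[s]) (xo : Odd (orderOf x)) : x ∈ 𝐎(X ⊓ 𝐂[s]) :=
  (t.npc.mem_iff hx).2 (odd_elt_iff.1 xo)

theorem odd_mem (hx : x ∈ h.P ⊓ 𝐂[s]) (xo : Odd (orderOf x)) : x ∈ zpowers (h.ι τ) := t.cent ▸ ⟨h.odd_mem hx.1 xo, hx.2⟩

theorem core_P : 𝐎(X ⊓ 𝐂[s]) ⊓ h.P = 𝐎(zpowers (h.ι τ)) := le_antisymm (fun _ hx =>
    (mem_piCoreOf_of_nilpotent (nilpotent_of_cyclic inferInstance) (t.odd_mem ⟨hx.2, (piCoreOf_le _ (X ⊓ 𝐂[s]) hx.1).2⟩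
      (odd_of_mem (odd_core _) hx.1))).2 ((core_pi _).piElt hx.1)) fun x hx =>
  have e : x ∈ h.L ⊓ 𝐂[s] := t.cent ▸ piCoreOf_le _ _ hx
  ⟨t.mem_core ⟨h.LX e.1, e.2⟩ (odd_of_mem (odd_core _) hx), h.LP e.1⟩

theorem card_core : Nat.card 𝐎(zpowers (h.ι τ)) = m := by
  rw [(normalPCompl_of_nilpotent (nilpotent_of_cyclic inferInstance) 2).hall.card_eq, Nat.card_zpowers, t.ord']
  exact piPart_eq_of_mul' h.two ((piNum_compl_singleton Nat.prime_two).2 t.mo.not_two_dvd_nat)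
    (t.ord' ▸ (orderOf_pos _).ne') t.nm.symm

/-- a field automorphism of odd prime power order `r^j` moves an odd `r'`-element of the torus -/
theorem al {r : ℕ} (hr : r.Prime) (r2 : r ≠ 2) (hx : x ∈ X ⊓ 𝐂[s]) (xr : PiElt {r} x)
    (H : ∀ a ∈ zpowers (h.ι τ), Odd (orderOf a) → PiElt {r}ᶜ a → x * a = a * x) : x ∈ h.P := by
  obtain ⟨ρ, hρ⟩ := h.sem x hx.1
  refine mem_pcomap.2 ⟨hx.1, ?_⟩
  by_cases h5 : 5 ≤ Fintype.card F
  swap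
  · have q3 : Fintype.card F = 3 := by
      have := h.odd; have : 1 < Fintype.card F := Fintype.one_lt_card
      obtain ⟨k, hk⟩ := h.odd; omega
    refine sem_one.1 ((RingEquiv.ext fun y => ?_ : ρ = 1) ▸ hρ)
    have : y * ((y - 1) * (y + 1)) = 0 := by have := FiniteField.pow_card y; rw [q3] at this; linear_combination this
    rcases mul_eq_zero.1 this with e | e
    · simp [e]
    · rcases mul_eq_zero.1 e with e | e
      · simp [sub_eq_zero.1 e]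
      · simp [eq_neg_of_add_eq_zero_left e]
  obtain ⟨T, t', -⟩ := t.tor
  obtain ⟨B, k, BP, ord, hk, -, sB, ⟨v, -, -, -, dich⟩, -, fr⟩ := torB h.odd h5 (h.mP (h.two_mem t.sX t.s2.piElt))
    (h.φinv t.sX t.s2 t.sZ)
  obtain ⟨j, hj⟩ := (piElt_singleton_iff' hr).1 xr
  have TX : zpowers (h.ι τ) ≤ X ⊓ 𝐂[s] := t.cent ▸ inf_le_inf_right _ h.LX
  have H' : ∀ a ∈ zpowers (h.ι τ), PiElt {r}ᶜ a → x * a = a * x := fun a ha ar => by
    rw [← constt_mul_compl {2} a, ← mul_assoc, t.two_cent (constt_mem _ (TX ha)) (constt_piElt _ a) hx, mul_assoc,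
      H _ (constt_mem _ ha) (odd_elt_iff.2 (constt_piElt _ a)) (ar.of_mem_zpowers (constt_mem_zpowers _ a)), mul_assoc]
  refine al_B h.odd h5 ord hk fr (fun c hc e c2 => ?_) hr r2 hρ
    (by rw [← pel_mul _ hx.1 t.sX, mem_cent1_iff.1 hx.2, pel_mul _ t.sX hx.1]) (by rw [← pel_pow _ hx.1, hj, pel_one]) fun l => ?_
  · obtain ⟨i, rfl⟩ : c ∈ zpowers B := by_contra fun e' => c2 (dich c hc e e').1
    exact Commute.zpow_self B i
  obtain ⟨i, hi⟩ : B ∈ zpowers T := by_contra fun e => by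
    obtain ⟨i, hi⟩ := sB
    have := Nat.le_of_dvd two_pos (ord ▸ orderOf_dvd_of_pow_eq_one ((pow_two B).trans
      (t'.dich B BP (hi ▸ Commute.self_zpow B i) e)))
    omega
  set a := h.ι τ ^ i
  have ha : a ∈ zpowers (h.ι τ) := ⟨i, rfl⟩
  have e1 : B ^ 2 = pel h.Φ a := by
    rw [pel_zpow _ (h.mem τ), h.φι, t'.cj, ← hi, ← _root_.zpow_natCast, ← _root_.zpow_natCast, ← _root_.zpow_mul,
      ← _root_.zpow_mul, mul_comm]
  have xl := pow_mem hx l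
  have c1 : Commute (x ^ l) (constt {r}ᶜ a) := Commute.pow_left (H' _ (constt_mem _ ha) (constt_piElt _ a)) l
  have m1 : x ^ l * constt {r} a * (x ^ l)⁻¹ ∈ zpowers (h.ι τ) := t.cent ▸ conj_mem_of_mem_normalizer
    (PG.norm_inf (inf_le_left.trans h.LN.2) (inf_le_right.trans le_normalizer) xl) (t.cent ▸ constt_mem _ ha)
  obtain ⟨w, hw⟩ := (piElt_singleton_iff' hr).1 ((piElt_conj.2 (constt_piElt {r} a)).mul (constt_piElt {r} a).inv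
    (congrArg Subtype.val (mul_comm' (⟨_, m1⟩ : zpowers (h.ι τ)) ⟨_, inv_mem (constt_mem _ ha)⟩)))
  refine ⟨w, ?_⟩
  rw [e1, ← pel_pow _ hx.1, ← pel_comm _ xl.1 (TX ha).1, ← pel_pow _ (mul_mem (mul_mem (mul_mem xl.1 (TX ha).1) (inv_mem xl.1))
    (inv_mem (TX ha).1)), ← pel_one h.Φ, ← hw]
  congr 2
  conv_lhs => rw [← constt_mul_compl {r} a]
  rw [← mul_assoc, mul_assoc _ (constt {r}ᶜ a), ← c1.inv_left.eq]
  group

theorem norm (hx : x ∈ X ⊓ 𝐂[s]) {Y : Subgroup G} (hY : Y ≤ zpowers (h.ι τ)) : x ∈ 𝐍(Y) :=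
  norms_of_cyclic inferInstance hY (t.cent ▸ PG.norm_inf (inf_le_left.trans h.LN.2) (inf_le_right.trans le_normalizer)) hx

/-- `[T, x, x] = 1` forces `x ∈ T` -/
theorem ff (hx : x ∈ X ⊓ 𝐂[s]) (xo : Odd (orderOf x))
    (H : ∀ a ∈ zpowers (h.ι τ), Odd (orderOf a) → x * (x * a * x⁻¹ * a⁻¹) = x * a * x⁻¹ * a⁻¹ * x) : x ∈ zpowers (h.ι τ) := by
  refine t.odd_mem ⟨mem_of_forall_constt_mem fun r hr hd => t.al hr (fun e => xo.not_two_dvd_nat (e ▸ hd)) (constt_mem _ hx)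
    (constt_piElt _ x) fun a ha ao ar => ?_, hx.2⟩ xo
  obtain ⟨k, hk⟩ := (Submonoid.mem_powers_iff _ _).1 (mem_powers_iff_mem_zpowers.2 (constt_mem_zpowers {r} x))
  obtain ⟨j, hj⟩ := (piElt_singleton_iff' hr).1 (constt_piElt {r} x)
  have hc : x * a * x⁻¹ * a⁻¹ ∈ zpowers a := mul_mem (conj_mem_of_mem_normalizer (t.norm hx (zpowers_le.2 ha)) (mem_zpowers a))
    (inv_mem (mem_zpowers a))
  have c : Commute x (x * a * x⁻¹ * a⁻¹) := H a ha ao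
  generalize hw : x * a * x⁻¹ * a⁻¹ = w at hc c
  have it : ∀ l : ℕ, x ^ l * a = w ^ l * a * x ^ l := fun l => by
    induction l with
    | zero => simp
    | succ l ih => rw [pow_succ', mul_assoc, ih, ← mul_assoc, ← mul_assoc, (c.pow_right l).eq, pow_succ w, ← hw]; group
  have h1 := it (k * r ^ j)
  rw [pow_mul, hk, hj, one_mul, mul_one, right_eq_mul, pow_mul] at h1
  rw [← hk, it, ((piElt_singleton_iff' hr).2 ⟨j, h1⟩).eq_one ((ar.of_mem_zpowers hc).pow k), one_mul]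

end Tor

/-- the group of field automorphisms is cyclic -/
theorem ex_frob : ∃ φ ∈ X, X = h.P ⊔ zpowers φ := by
  obtain ⟨p, hp, f, hp', -⟩ := FiniteField.card' F
  have : Fact p.Prime := ⟨hp'⟩
  choose! σ hσ using h.sem
  have uq : ∀ {ρ x}, x ∈ X → Sem ρ (pel h.Φ x) → σ x = ρ := fun {ρ x} hx e => by
    obtain ⟨A, hA⟩ := hσ x hx
    obtain ⟨B, hB⟩ := e
    exact mul_inv_eq_one.1 (Sem.eq_one (x := (piH A)⁻¹ * piH B) ⟨1, by
      rw [map_one, one_mul, map_mul, map_inv, eq_mul_inv_iff_mul_eq, mul_assoc, ← hB, hA, inv_mul_cancel_left]⟩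
      (mul_mem (inv_mem ⟨A, rfl⟩) ⟨B, rfl⟩))
  let f : X →* RingAut F := MonoidHom.mk' (fun x => σ x) fun x y => uq (mul_mem x.2 y.2) (by
    rw [Subgroup.coe_mul, pel_mul _ x.2 y.2]; exact (hσ _ x.2).mul (hσ _ y.2))
  have : IsCyclic (RingAut F) := ⟨⟨frobeniusEquiv F p, fun ρ => let ⟨e, he⟩ := frob_ex p ρ; ⟨e, RingEquiv.ext fun x => by
    rw [he, ← frob_pow (σ := frobeniusEquiv F p) (fun _ => rfl)]; simp⟩⟩⟩
  obtain ⟨⟨_, φ, rfl⟩, hφ⟩ := IsCyclic.exists_generator (α := f.range)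
  refine ⟨φ, φ.2, le_antisymm (fun x hx => ?_) (sup_le h.PX (zpowers_le.2 φ.2))⟩
  obtain ⟨k, hk⟩ := hφ ⟨_, ⟨x, hx⟩, rfl⟩
  have m := mul_mem hx (inv_mem (φ ^ k).2)
  rw [← inv_mul_cancel_right x (φ ^ k : X)]
  refine mul_mem (mem_sup_left (mem_pcomap.2 ⟨m, sem_one.1 ?_⟩)) (mem_sup_right ⟨k, rfl⟩)
  rw [← show f (⟨x, hx⟩ * (φ ^ k)⁻¹) = 1 by rw [map_mul, map_inv, map_zpow, mul_inv_eq_one]; exact (congrArg Subtype.val hk).symm]
  exact hσ _ m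

end QT

theorem QE.gen {F : Type} [Field F] [Fintype F] (h : QE F X Z) : Gen X Z h.d := ⟨h.dX, h.dord, h.dZ⟩

theorem qe (hO : 𝐎(X) = ⊥) (ZX : Z ≤ X) (cen : Z ≤ 𝐂(X)) (two : PiGrp {2} Z) (hd : DSyl (X /ₛ Z))
    (h4 : ∀ V ≤ X, Four V → V ⊓ Z ≠ ⊥) (h2 : ¬ PiGrp {2} X) {r : G} (hg : Gen X Z d) (hr : r ∈ X) (rZ : r ∉ Z) (r2 : r * r ∈ Z) (hc : ∀ c ∈ Z, r * c * (r * c) ≠ 1) :
    ∃ (F : Type) (_ : Field F) (_ : Fintype F), Nonempty (QE F X Z) := by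
  have hN : X ≤ 𝐍(Z) := (cents_symm cen).trans (centralizer_le_normalizer _)
  rcases qt hO ZX cen two hd h4 h2 with ⟨F, _, _, ⟨h⟩⟩ | h
  · exact ⟨F, _, _, ⟨⟨h, d, hg.mem, hg.ord, hg.dz⟩⟩⟩
  have iv : ∀ {x}, x ∈ X → x ∉ Z → x * x ∈ Z → Inv2 (qel Z x) := fun hx h1 h3 =>
    ⟨by rw [← pel_mul _ (hN hx) (hN hx)]; exact qel_eq_one h3, mt (qel_eq_one_iff (hN hx)).1 h1⟩
  obtain ⟨⟨s2, -⟩, sZ, -⟩ := hg.half (card_two two fun e => hc 1 (one_mem _) (by rwa [e, mem_bot, ← mul_one r] at r2))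
  have hs := pow_mem hg.mem (Nat.card Z / 2)
  obtain ⟨_, hy', e⟩ := hd.conj h.qs.der (qel_mem_quo Z hs) (qel_mem_quo Z hr) (iv hs sZ (s2 ▸ one_mem _)) (iv hr rZ r2)
  obtain ⟨y, hy, rfl⟩ := (mem_quo hN).1 hy'
  rw [← pel_conj _ (hN hy) (hN hs), eq_comm, qel_eq_iff (hN hr) (hN (mul_mem (mul_mem hy hs) (inv_mem hy)))] at e
  exact absurd (by rw [mul_inv_cancel_left, conj_mul, s2, mul_one, mul_inv_cancel]) (hc _ e)

end CA.ABG
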