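/-
Groups `X ≤ C(t)` with a semidihedral or wreathed Sylow 2-subgroup `S`: `Z(S) ≤ Z*(X)`, the input of `qe`.
-/
import Cfsg.Agent.Lib.ABG.SW
import Cfsg.Agent.Lib.ABG.QE
import Cfsg.Agent.Lib.Blk.ZStar

set_option autoImplicit false
set_option linter.unusedSectionVars false

namespace CA.ABG

open Cfsg CA CA.FStar CA.GW Subgroup

section
variable {G : Type*} [Group G] [Finite G] {S M D K : Subgroup G} {x r : G}

theorem mem_of_sq_mem (ho : Odd (orderOf x)) (h : x * x ∈ K) : x ∈ K := by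
  obtain ⟨k, hk⟩ := ho
  have : x = (x * x) ^ (k + 1) := by
    rw [← pow_two, ← pow_mul, show 2 * (k + 1) = orderOf x + 1 by omega, pow_succ, pow_orderOf_eq_one, one_mul]
  rw [this]; exact pow_mem h _

theorem two_sup_zpowers {a b : G} (a2 : Inv2 a) (b2 : Inv2 b) (c : a * b = b * a) :
    PiGrp {2} (zpowers a ⊔ zpowers b) :=
  a2.piGrp.sup b2.piGrp (.inl (norms_zpowers_of_cent1 (zpowers_le.2 (mem_cent1_iff.2 c.symm))))

/-- Thompson's transfer lemma -/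
theorem transfer2 (hS : SylowIn 2 S M) (hD : D ≤ S) (hi : D.relIndex S = 2) (hr : r ∈ S)
    (h : ∀ k : ℕ, ∀ g ∈ M, g * r ^ k * g⁻¹ ∈ S → (g * r ^ k * g⁻¹ ∈ D ↔ Even k)) :
    ∃ N, N ⊴ M ∧ N.relIndex M = 2 ∧ r ∉ N := by
  classical
  have hm : ∀ a b : S.subgroupOf M, ((a * b : S.subgroupOf M) : G) ∈ D ↔ ((a : G) ∈ D ↔ (b : G) ∈ D) := fun a b =>
    mul_mem_iff_of_index_two (H := D.subgroupOf S) hi (a := ⟨a, a.2⟩) (b := ⟨b, b.2⟩)
  let φ : S.subgroupOf M →* ℤˣ := MonoidHom.mk' (fun a => if (a : G) ∈ D then 1 else -1) fun a b => by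
    have := hm a b
    by_cases h1 : (a : G) ∈ D <;> by_cases h2 : (b : G) ∈ D <;> simp_all
  have := Fintype.ofFinite (Quotient (MulAction.orbitRel (zpowers (⟨r, hS.le hr⟩ : M)) (M ⧸ S.subgroupOf M)))
  have e : φ.transfer ⟨r, hS.le hr⟩ = -1 := by
    rw [MonoidHom.transfer_eq_prod_quotient_orbitRel_zpowers_quot,
      ← (Nat.not_even_iff_odd.1 fun e => hS.not_dvd Nat.prime_two e.two_dvd).neg_one_pow, relIndex,
      index_eq_sum_minimalPeriod _ (⟨r, hS.le hr⟩ : M), ← Finset.prod_pow_eq_pow_sum]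
    refine Finset.prod_congr rfl fun q _ => ?_
    have h1 := QuotientGroup.out_conj_pow_minimalPeriod_mem (S.subgroupOf M) ⟨r, hS.le hr⟩ q.out
    have h2 := h (Function.minimalPeriod ((⟨r, hS.le hr⟩ : M) • ·) q.out) _ (q.out.out⁻¹).2
      (by simpa [mem_subgroupOf] using h1)
    simp only [φ, MonoidHom.mk'_apply]
    split_ifs with h3
    · exact (h2.1 (by simpa using h3)).neg_one_pow.symm
    · exact (Nat.not_even_iff_odd.1 fun e => h3 (by simpa using h2.2 e)).neg_one_pow.symm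
  refine ⟨pker φ.transfer, pker_normalIn _, ?_, fun e' => ?_⟩
  · rw [← card_pmap _ le_rfl, (eq_top_iff (a := pmap φ.transfer M)).2 fun u _ => ?_, card_top,
      Nat.card_eq_fintype_card, Fintype.card_units_int]
    rcases Int.units_eq_one_or u with rfl | rfl
    · exact one_mem _
    · exact e ▸ pel_of_mem φ.transfer (hS.le hr) ▸ pel_mem_pmap _ (hS.le hr)
  · have := (mem_pker.1 e').2
    rw [pel_of_mem _ (hS.le hr), e] at this
    exact absurd this (by decide)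

end

namespace SW
variable {G : Type*} [Group G] [Finite G] {S X V T R : Subgroup G} {t : G} (w : SW S t) {a b c s g : G}

theorem gen_ex : ∃ d ∈ S, orderOf d = Nat.card (zpowers w.z) ∧ zpowers d ⊓ zpowers w.z = ⊥ := by
  rw [Nat.card_zpowers]
  rcases w.typ with ⟨-, h⟩ | ⟨h, -⟩
  · refine ⟨_, w.yS, by rw [h, w.t2.ord, w.y_inv2.ord], eq_bot_iff.2 fun u hu => ?_⟩
    exact ((mem_zpowers_sq w.y2).1 hu.1).resolve_right fun e => w.yA (e ▸ w.Z_le hu.2)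
  have pz : ∀ i : ℤ, w.z ^ i = w.x ^ i * (w.y * w.x ^ i * w.y⁻¹) := fun i => by
    rw [← w.hz, ← conj_zpow, Commute.mul_zpow (w.ab _ w.xA _ (w.cj_mem w.yS w.xA))]
  have e : orderOf w.x = orderOf w.z := Nat.dvd_antisymm (orderOf_dvd_of_pow_eq_one (h _ w.xA))
    (orderOf_dvd_of_pow_eq_one (by rw [← zpow_natCast, pz, zpow_natCast, pow_orderOf_eq_one]; group))
  refine ⟨_, w.le w.xA, e, by_contra fun h1 => ?_⟩
  obtain ⟨u, ⟨⟨i, rfl⟩, h2⟩, h3⟩ := exists_orderOf_eq_prime Nat.prime_two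
    (((w.two.of_le (w.Z_le.trans w.le)).inf_right _).dvd_card_of_ne_bot h1)
  have h4 := inv2_of_ord h3
  refine h4.ne ?_
  rw [← orderOf_dvd_iff_zpow_eq_one, e, orderOf_dvd_iff_zpow_eq_one, pz, w.Z_cent h2 _ w.yS, mul_inv_cancel_right]
  exact h4.sq

theorem r_mem : w.x * w.y ∈ S := mul_mem (w.le w.xA) w.yS

theorem r_sq : w.x * w.y * (w.x * w.y) = w.z := by rw [← w.hz, w.yinv]; group

theorem r_ne (hc : c ∈ zpowers w.z) : w.x * w.y * c * (w.x * w.y * c) ≠ 1 := fun e => by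
  rw [mul_assoc, ← mul_assoc c, ← w.Z_cent hc _ w.r_mem, mul_assoc (w.x * w.y) c c, ← mul_assoc, w.r_sq] at e
  obtain ⟨j, rfl⟩ := hc
  have h1 : w.z ∈ zpowers (w.z * w.z) := ⟨-j, by
    simp only at e ⊢
    refine Eq.trans ?_ (eq_inv_of_mul_eq_one_left e).symm
    rw [← zpow_two]; group⟩
  obtain ⟨n, hn⟩ := (piElt_singleton_iff' Nat.prime_two).1 (w.two.piElt (w.le w.zA))
  have h2 : ∀ k : ℕ, w.z ∈ zpowers (w.z ^ 2 ^ k) := fun k => by
    induction k with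
    | zero => simp
    | succ k ih =>
      obtain ⟨i, hi⟩ := h1
      refine zpowers_le.2 (⟨i, ?_⟩ : w.z ^ 2 ^ k ∈ zpowers (w.z ^ 2 ^ (k + 1))) ih
      simp only at hi ⊢
      conv_rhs => rw [← hi]
      rw [← pow_two, ← zpow_natCast, ← zpow_natCast, ← zpow_natCast, ← zpow_mul, ← zpow_mul, ← zpow_mul]
      congr 1; push_cast; ring
  have h3 := h2 n
  rw [hn, zpowers_one_eq_bot, mem_bot] at h3
  exact w.t2.ne (by simpa [h3] using w.tz)

variable (hS : SylowIn 2 S X) (hX : X ≤ 𝐂[t])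
include w hS hX

theorem fix (hg : g ∈ X) : g * t * g⁻¹ = t := by rw [mem_cent1_iff.1 (hX hg), mul_inv_cancel_right]

theorem rank2X (ha : a ∈ X) (hb : b ∈ X) (a2 : Inv2 a) (b2 : Inv2 b) (c : a * b = b * a) (at' : a ≠ t) (bt : b ≠ t) :
    b = a ∨ b = t * a := by
  obtain ⟨g, hg, h⟩ := hS.exists_cj_le (two_sup_zpowers a2 b2 c) (sup_le (zpowers_le.2 ha) (zpowers_le.2 hb))
  have e := w.fix hS hX hg
  rcases w.rank2 (h (conj_mem_cj.2 (mem_sup_left (mem_zpowers a)))) (h (conj_mem_cj.2 (mem_sup_right (mem_zpowers b))))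
    (a2.conj g) (b2.conj g) (by rw [conj_mul, conj_mul, c]) (fun e' => at' (by simpa using e'.trans e.symm))
    (fun e' => bt (by simpa using e'.trans e.symm)) with h1 | h1
  · exact .inl (by simpa using h1)
  · rw [← e, conj_mul] at h1
    exact .inr (by simpa using h1)

theorem four_memX (hV : Four V) (h : V ≤ X) : t ∈ V := by
  obtain ⟨g, hg, h⟩ := hS.exists_cj_le hV.piGrp h
  have := w.four_mem (hV.cj g) h
  rwa [← w.fix hS hX hg, conj_mem_cj] at this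

theorem swapX (hs : s ∈ X) (s2 : Inv2 s) (st : s ≠ t) : ∃ σ ∈ X, PiElt {2} σ ∧ σ * s * σ⁻¹ = t * s := by
  obtain ⟨g, hg, h⟩ := hS.exists_conj_mem hs s2.piElt
  have e := w.fix hS hX hg
  obtain ⟨σ, h1, h2⟩ := w.swap h (s2.conj g) fun e' => st (by simpa using e'.trans e.symm)
  refine ⟨g⁻¹ * σ * g⁻¹⁻¹, mul_mem (mul_mem (inv_mem hg) (hS.le h1)) (inv_mem (inv_mem hg)),
    piElt_conj.2 (w.two.piElt h1), ?_⟩
  calc _ = g⁻¹ * (σ * (g * s * g⁻¹) * σ⁻¹) * g := by group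
    _ = g⁻¹ * (g * t * g⁻¹ * (g * s * g⁻¹)) * g := by rw [h2, e]
    _ = _ := by group

/-- elements of odd order centralize the abelian 2-subgroups they normalize -/
theorem odd_cent (hT : PiGrp {2} T) (hc : IsMulCommutative T) (hTX : T ≤ X) (hR : R ≤ X) (hn : R ≤ 𝐍(T))
    (ho : Odd (Nat.card R)) : R ≤ 𝐂(T) := by
  refine (copAct_p_left hn hT (odd_iff.1 ho)).cents_of_abelian_prime_order hc fun u hu hp =>
    mem_centralizer_iff.2 fun ρ hρ => ?_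
  have u2 : Inv2 u := inv2_of_ord (hT.piElt hu _ hp dvd_rfl)
  have e := w.fix hS hX (hR hρ)
  by_cases ut : u = t
  · rw [ut]; exact mem_cent1_iff.1 (hX (hR hρ))
  have h1 := conj_mem_of_mem_normalizer (hn hρ) hu
  rcases w.rank2X hS hX (hTX hu) (hTX h1) u2 (u2.conj ρ) (abelian_iff'.1 hc _ hu _ h1) ut
    (fun e' => ut (by simpa using e'.trans e.symm)) with h | h
  · exact mul_inv_eq_iff_eq_mul.1 h
  · refine mem_cent1_iff.1 (mem_of_sq_mem (odd_of_mem ho hρ) (mem_cent1_iff.2 (mul_inv_eq_iff_eq_mul.1 ?_)))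
    calc ρ * ρ * u * (ρ * ρ)⁻¹ = ρ * (ρ * u * ρ⁻¹) * ρ⁻¹ := by group
      _ = u := by rw [h, ← conj_mul, e, h, ← mul_assoc, w.t2.sq, one_mul]

theorem norm_cent (hT : PiGrp {2} T) (hTX : T ≤ X) (hc : c ∈ 𝐙(T)) (hR : SylowIn 2 R (X ⊓ 𝐍(T))) (h : R ≤ 𝐂[c]) :
    X ⊓ 𝐍(T) ≤ 𝐂[c] := by
  refine le_of_forall_sylowIn_le fun p hp _ => ?_
  by_cases e : p = 2
  · exact ⟨R, e ▸ hR, h⟩
  obtain ⟨P, hP⟩ := exists_sylowIn p (X ⊓ 𝐍(T))
  exact ⟨P, hP, (w.odd_cent hS hX (hT.inf_left _) (abelian_center T) (inf_le_left.trans hTX) (hP.le.trans inf_le_left)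
    (norms_center (hP.le.trans inf_le_right)) (hP.piGrp.piNum.odd (by simpa using Ne.symm e))).trans
    (cent_le_cent1 hc)⟩

theorem wc_aux (hc : c ∈ X) (n : ℕ) : ∀ S1 S2 : Subgroup G, SylowIn 2 S1 X → SylowIn 2 S2 X → S1 ≤ 𝐂[c] → c ∈ S2 →
    Nat.card G - Nat.card ↥(S1 ⊓ S2) ≤ n → S2 ≤ 𝐂[c] := by
  induction n using Nat.strong_induction_on with
  | _ n ih =>
  intro S1 S2 h1 h2 hc1 hc2 hn
  by_cases e : S2 ≤ S1
  · exact e.trans hc1
  have lt2 : S1 ⊓ S2 < S2 := lt_of_le_of_ne inf_le_right fun e' => e (e' ▸ inf_le_left)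
  have lt1 : S1 ⊓ S2 < S1 := lt_of_le_of_ne inf_le_left fun e' => e (h1.eq_of_le_hall h2 (e' ▸ inf_le_right)).ge
  have c1 : c ∈ S1 := h1.mem_of_mem_norm (norms_of_cents (zpowers_le.2 (mem_cent_iff_le_cent1.2 hc1)) (mem_zpowers c)) hc (h2.piGrp.piElt hc2)
  have step : ∀ A B : Subgroup G, SylowIn 2 A X → SylowIn 2 B X → A ≤ 𝐂[c] → S1 ⊓ S2 < A ⊓ B → B ≤ 𝐂[c] :=
    fun A B hA hB h3 h4 => by
      have := card_lt_of_lt' h4
      have := card_le_card_group (A ⊓ B)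
      exact ih _ (by omega) A B hA hB h3 (h4.le ⟨c1, hc2⟩).2 le_rfl
  obtain ⟨R, hR, h3⟩ := exists_sylowIn_ge (h1.piGrp.inf_left 𝐍(S1 ⊓ S2)) (inf_le_inf_right _ h1.le)
  obtain ⟨B, hB, h4⟩ := exists_sylowIn_ge hR.piGrp (hR.le.trans inf_le_left)
  have h5 := w.norm_cent hS hX (h1.piGrp.inf_left S2) (inf_le_left.trans h1.le)
    ⟨⟨c1, hc2⟩, mem_cent_iff_le_cent1.2 (inf_le_left.trans hc1)⟩ hR (h4.trans (step S1 B h1 hB hc1
      ((lt_inf_norm_of_nilpotent h1.piGrp.nilpotent lt1).trans_le (le_inf inf_le_left (h3.trans h4)))))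
  obtain ⟨A, hA, h6⟩ := exists_sylowIn_ge (M := X ⊓ 𝐂[c]) (h2.piGrp.inf_left 𝐍(S1 ⊓ S2))
    (le_inf (inf_le_left.trans h2.le) ((inf_le_inf_right _ h2.le).trans h5))
  exact step A S2 (h1.of_card_eq (hA.le.trans inf_le_left)
    (hA.card_eq_card (h1.of_le (le_inf h1.le hc1) inf_le_left))) h2 (hA.le.trans inf_le_right)
    ((lt_inf_norm_of_nilpotent h2.piGrp.nilpotent lt2).trans_le (le_inf h6 inf_le_left))

/-- the elements of `Z(S)` are weakly closed in `S` -/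
theorem wc (hc : c ∈ zpowers w.z) (hg : g ∈ X) (h : g * c * g⁻¹ ∈ S) : g * c * g⁻¹ = c := by
  have c1 := w.Z_cent hc
  have c2 := w.le (w.Z_le hc)
  have h1 := w.wc_aux hS hX (hS.le c2) _ S (cj g⁻¹ S) hS (hS.cj_of_mem (inv_mem hg)) (mem_cent_iff_le_cent1.1 c1)
    (mem_cj.2 (by simpa using h)) le_rfl
  rw [cj_le_iff, inv_inv, cj_centralizer_singleton] at h1
  obtain ⟨n, hn, e⟩ := hS.exists_norm_conj hg c1 (mem_cent_iff_le_cent1.2 h1)
  rw [← e, mem_cent1_iff.1 (w.norm_cent hS hX w.two hS.le ⟨c2, c1⟩ hS.inf_norm (mem_cent_iff_le_cent1.1 c1) hn),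
    mul_inv_cancel_right]

theorem Z_cen (hO : 𝐎(X) = ⊥) : zpowers w.z ≤ 𝐂(X) := by
  have key : ∀ (n : ℕ) (c : G), c ∈ zpowers w.z → c ^ 2 ^ n = 1 → c ∈ 𝐂(X) := by
    intro n
    induction n with
    | zero => intro c _ h; rw [pow_zero, pow_one] at h; rw [h]; exact one_mem _
    | succ n ih =>
      intro c hc h
      have h1 := ih (c * c) (mul_mem hc hc) (by rw [← pow_two, ← pow_mul, ← pow_succ', h])
      have cS := w.le (w.Z_le hc)
      set Y := zpowers (c * c)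
      have YS : Y ≤ S := zpowers_le.2 (mul_mem cS cS)
      have nY : X ≤ 𝐍(Y) := norms_of_cents (cents_symm (zpowers_le.2 h1))
      have h2 := core_quo_cen hO (YS.trans hS.le) (zpowers_le.2 h1) (w.two.of_le YS)
      have cj : ∀ g ∈ X, qel Y (g * c * g⁻¹) = qel Y g * qel Y c * (qel Y g)⁻¹ := fun g hg =>
        pel_conj _ (nY hg) (nY (hS.le cS))
      have mS : ∀ g ∈ X, g * c * g⁻¹ ∈ X := fun g hg => mul_mem (mul_mem hg (hS.le cS)) (inv_mem hg)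
      refine mem_centralizer_iff.2 fun g hg => mul_inv_eq_iff_eq_mul.1 (w.wc hS hX hc hg ?_)
      have h3 := Blk.zstar_in (hS.quo (hS.le.trans nY)) (qel_mem_quo Y cS)
        (by rw [← pel_mul _ (nY (hS.le cS)) (nY (hS.le cS))]; exact qel_eq_one (mem_zpowers _)) (fun k hk h4 => by
          obtain ⟨l, hl, rfl⟩ := (mem_quo nY).1 hk
          rw [← cj l hl] at h4 ⊢
          rw [w.wc hS hX hc hl ((qel_mem_quo_iff (nY (mS l hl)) YS).1 h4)]) (qel_mem_quo Y hg)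
      rw [h2, mem_bot, ← cj g hg, ← pel_mul _ (nY (hS.le cS)) (nY (mS g hg)),
        qel_eq_one_iff (nY (mul_mem (hS.le cS) (mS g hg)))] at h3
      exact (mul_mem_cancel_left cS).1 (YS h3)
  intro c hc
  obtain ⟨n, hn⟩ := (piElt_singleton_iff' Nat.prime_two).1 (w.two.piElt (w.le (w.Z_le hc)))
  exact key n c hc hn

omit hX in
theorem dsyl : DSyl (X /ₛ zpowers w.z) := ⟨_, _, hS.quo w.normZ, w.dih, w.dih_ne⟩

theorem h4 : ∀ V ≤ X, Four V → V ⊓ zpowers w.z ≠ ⊥ := fun _ h hV =>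
  ne_bot_of_mem (mem_inf.2 ⟨w.four_memX hS hX hV h, w.tz⟩) w.t2.ne

/-- the structure of `X` when `O(X) = 1` -/
theorem qe (hO : 𝐎(X) = ⊥) (h2 : ¬ PiGrp {2} X) :
    ∃ (F : Type) (_ : Field F) (_ : Fintype F), Nonempty (QE F X (zpowers w.z)) := by
  obtain ⟨d, h3, h4, h5⟩ := w.gen_ex
  exact ABG.qe hO ((w.Z_le.trans w.le).trans hS.le) (w.Z_cen hS hX hO) (w.two.of_le (w.Z_le.trans w.le)) (w.dsyl hS)
    (w.h4 hS hX) h2 ⟨hS.le h3, h4, h5⟩ (hS.le w.r_mem) (fun e => w.out_not w.xA (w.Z_le e))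
    (w.r_sq ▸ mem_zpowers _) fun _ => w.r_ne

end SW

end CA.ABG
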