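/-
Fusion of involutions in groups with semidihedral or wreathed Sylow 2-subgroups; groups of QD type.
-/
import Cfsg.Agent.Lib.ABG.SylQ
import Cfsg.Agent.Lib.GW.Over

set_option autoImplicit false
set_option linter.unusedSectionVars false

namespace CA.ABG

open Cfsg CA CA.FStar CA.GW Subgroup

/-- `M` has semidihedral or wreathed Sylow 2-subgroups, one class of involutions, and their centralizers are not
2-nilpotent. -/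
structure QDT {G : Type*} [Group G] (M : Subgroup G) : Prop where
  syl : QSyl M
  one : ∀ a ∈ M, ∀ b ∈ M, Inv2 a → Inv2 b → ∃ g ∈ M, g * a * g⁻¹ = b
  nq : ∀ t ∈ M, Inv2 t → ¬ NormalPCompl 2 (M ⊓ 𝐂[t])

section
variable {G : Type*} [Group G] [Finite G] {S M N V D : Subgroup G} {a b c s g : G}

theorem idx_two (hD : D ≤ S) (ha : a ∈ S) (h1 : a ∉ D) (h : ∀ b ∈ S, b ∈ D ∨ b * a ∈ D) : D.relIndex S = 2 :=
  index_eq_two_iff.2 ⟨⟨a, ha⟩, fun b => by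
    by_cases e : (b : G) ∈ D
    · exact .inr ⟨e, fun e' => h1 ((mul_mem_cancel_left e).1 e')⟩
    · exact .inl ⟨(h b b.2).resolve_left e, e⟩⟩

theorem comm_mem_idx (hN : N ⊴ M) (hi : N.relIndex M = 2) (ha : a ∈ M) (hb : b ∈ M) : a * b * a⁻¹ * b⁻¹ ∈ N := by
  have := (mul_mem_iff_of_index_two (H := N.subgroupOf M) hi (a := ⟨a * b * a⁻¹, mul_mem (mul_mem ha hb) (inv_mem ha)⟩)
    (b := ⟨b⁻¹, inv_mem hb⟩)).2
  simp only [mem_subgroupOf, inv_mem_iff] at this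
  exact this (mem_normalizer_iff.1 (hN.norm ha) b).symm

/-- in a 2-nilpotent group, the fusion in a Sylow 2-subgroup `S` is that of `S` -/
theorem npc_fusion (h : NormalPCompl 2 M) (hS : SylowIn 2 S M) (hs : s ∈ S) (hg : g ∈ M) (e : g * s * g⁻¹ ∈ S) :
    ∃ σ ∈ S, σ * s * σ⁻¹ = g * s * g⁻¹ := by
  have sd := h.sdprod hS
  obtain ⟨o, ho, σ, hσ, rfl⟩ := (mem_sup_of_norm_right sd.2.1).1 (sd.1 ▸ hg)
  have h1 : σ * s * σ⁻¹ ∈ S := mul_mem (mul_mem hσ hs) (inv_mem hσ)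
  have h2 : o * σ * s * (o * σ)⁻¹ * (σ * s * σ⁻¹)⁻¹ ∈ 𝐎(M) ⊓ S := mem_inf.2 ⟨by
    have := mul_mem ho (conj_mem_of_mem_normalizer (sd.2.1 h1) (inv_mem ho))
    convert this using 1; group, mul_mem e (inv_mem h1)⟩
  rw [sd.2.2, mem_bot, mul_inv_eq_one] at h2
  exact ⟨σ, hσ, h2.symm⟩

/-- if every noncentral involution can be swapped, `N(V)` induces `S₃` -/
theorem rot_of (hV : Four V) (sw : ∀ a ∈ V, ∀ b ∈ V, a ≠ 1 → b ≠ 1 → a ≠ b → ∃ σ ∈ M ⊓ 𝐂[a], σ * b * σ⁻¹ = a * b)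
    (ha : a ∈ V) (hb : b ∈ V) (a1 : a ≠ 1) (b1 : b ≠ 1) : ∃ g ∈ M ⊓ 𝐍(V), g * a * g⁻¹ = b := by
  have a2 := hV.inv2 ha a1
  have b2 := hV.inv2 hb b1
  by_cases hab : a = b
  · exact ⟨1, one_mem _, by simp [hab]⟩
  have c := a2.mul b2 hab (hV.comm ha hb)
  have ca : a * b ≠ a := fun e => b1 (by simpa using e)
  obtain ⟨σ, h1, h2⟩ := sw _ (mul_mem ha hb) _ ha c.ne a1 ca
  rw [hV.comm ha hb, mul_assoc b, a2.sq, mul_one] at h2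
  refine ⟨σ, ⟨h1.1, hV.norm_of (mul_mem ha hb) ha c.ne a1 ca ?_ (h2 ▸ hb)⟩, h2⟩
  rw [mem_cent1_iff.1 h1.2, mul_inv_cancel_right]; exact mul_mem ha hb

end

namespace SW
variable {G : Type*} [Group G] [Finite G] {S M N V : Subgroup G} {t : G} (w : SW S t) {a b c s u g : G}

/-- the dihedral subgroup generated by the involutions outside `A` -/
def D : Subgroup G := zpowers w.d ⊔ zpowers w.y

theorem mem_D : a ∈ w.D ↔ a ∈ zpowers w.d ∨ a * w.y ∈ zpowers w.d := by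
  have n : zpowers w.y ≤ 𝐍(zpowers w.d) := zpowers_le.2 (mem_normalizer_of_le_cj (zpowers_le.2 (mem_cj.2 (by
    rw [w.yinv]; nth_rewrite 2 [← w.yinv]; rw [w.yd]; exact inv_mem (mem_zpowers _)))))
  refine ⟨fun h => ?_, fun h => h.elim mem_sup_left fun h => ?_⟩
  · obtain ⟨p, hp, q, hq, rfl⟩ := (mem_sup_of_norm_right n).1 h
    rcases (mem_zpowers_sq w.y2).1 hq with rfl | rfl
    · exact .inl (by simpa using hp)
    · exact .inr (by rwa [mul_assoc, w.y2, mul_one])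
  · exact (mul_mem_cancel_right (mem_sup_right (mem_zpowers w.y))).1 (mem_sup_left h)

theorem D_leS : w.D ≤ S := sup_le (w.D_le.trans w.le) (zpowers_le.2 w.yS)

theorem out_D (hs : s ∈ S) (hA : s ∉ w.A) (s2 : s * s = 1) : s ∈ w.D := by
  obtain ⟨a, ha, rfl⟩ := w.out hs hA
  exact w.mem_D.2 (.inr (by rw [mul_assoc, w.y2, mul_one]; exact w.ker ha (by rw [w.yinv, ← s2]; group)))

theorem dihD : Dih w.D (zpowers w.d) := by
  have yd : w.y ∉ zpowers w.d := fun e => w.yA (w.D_le e)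
  refine ⟨le_sup_left, inferInstance, idx_two le_sup_left (mem_sup_right (mem_zpowers _)) yd fun b => w.mem_D.1,
    fun s hs h => ?_⟩
  obtain ⟨i, hi⟩ := (w.mem_D.1 hs).resolve_left h
  obtain rfl : s = w.d ^ i * w.y := by simp only at hi; rw [hi, mul_assoc, w.y2, mul_one]
  calc _ = w.d ^ i * (w.y * w.d * w.y⁻¹) ^ i := by rw [conj_zpow, w.yinv]; group
    _ = 1 := by rw [w.yd]; group

theorem x_not_d : w.x ∉ zpowers w.d := fun ⟨i, hi⟩ => by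
  have : w.z = 1 := by rw [← w.hz, ← hi, ← conj_zpow, w.yd]; group
  exact w.t2.ne (by simpa [this] using w.tz)

theorem idxD (h : w.A = zpowers w.x) (hz : w.z = t) : w.D.relIndex S = 2 := by
  have x2 : w.x ^ (2 : ℤ) ∈ zpowers w.d := by
    have : w.x ^ (2 : ℤ) = w.z * w.d⁻¹ := by
      rw [← w.hz, ← w.hd, zpow_two]; group
    rw [this, hz]; exact mul_mem w.td' (inv_mem (mem_zpowers _))
  have ev : ∀ i : ℤ, w.x ^ (2 * i) ∈ zpowers w.d := fun i => by rw [zpow_mul]; exact zpow_mem x2 _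
  refine idx_two w.D_leS (w.le w.xA) (fun e => (w.mem_D.1 e).elim w.x_not_d fun e => w.out_not w.xA (w.D_le e))
    fun b hb => ?_
  by_cases e : b ∈ w.A
  · obtain ⟨i, rfl⟩ := h ▸ e
    rcases Int.even_or_odd' i with ⟨k, rfl | rfl⟩
    · exact .inl (mem_sup_left (ev k))
    · exact .inr (mem_sup_left (by convert ev (k + 1) using 1; simp only; group))
  · obtain ⟨a, ha, rfl⟩ := w.out hb e
    obtain ⟨i, rfl⟩ := h ▸ ha
    rcases Int.even_or_odd' i with ⟨k, rfl | rfl⟩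
    · exact .inl (mul_mem (mem_sup_left (ev k)) (mem_sup_right (mem_zpowers _)))
    · refine .inr ?_
      have : _ ∈ w.D := mul_mem (mul_mem (mem_sup_left (ev (k + 1))) (mem_sup_left (mem_zpowers w.d)))
        (mem_sup_right (mem_zpowers w.y))
      convert this using 1
      simp only
      rw [mul_assoc, show w.y * w.x = w.x * w.d * w.y by rw [← w.yx]; group]; group

theorem eq_t_of_cyc (h : w.A = zpowers w.x) (hu : u ∈ w.A) (u2 : Inv2 u) : u = t :=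
  Zas.uniq_of_cyclic (h ▸ inferInstance) hu w.tA u2.sq w.t2.sq u2.ne w.t2.ne

theorem exists_four_elt (h : t ∈ zpowers (w.z * w.z)) : ∃ c ∈ zpowers w.z, c * c = t := by
  obtain ⟨i, hi⟩ := h
  exact ⟨w.z ^ i, ⟨i, rfl⟩, Eq.trans (by
    simp only; rw [← zpow_two, ← zpow_two, ← zpow_mul, ← zpow_mul, mul_comm]) hi⟩

variable (hS : SylowIn 2 S M)
include w hS

theorem syl_t : SylowIn 2 S (M ⊓ 𝐂[t]) := hS.of_le (le_inf hS.le w.S_le) inf_le_left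

theorem extremal (hg : g ∈ M) (e : g * s * g⁻¹ = t) : ∃ k ∈ M, k * s * k⁻¹ = t ∧ cj k (S ⊓ 𝐂[s]) ≤ S := by
  obtain ⟨h, hh, h1⟩ := (w.syl_t hS).exists_cj_le ((w.two.inf_left 𝐂[s]).cj g) (by
    rw [cj_inf, cj_centralizer_singleton, e]
    exact inf_le_inf_right _ ((cj_mono g hS.le).trans (cj_eq_of_mem hg).le))
  refine ⟨h * g, mul_mem hh.1 hg, ?_, by rwa [cj_mul]⟩
  calc h * g * s * (h * g)⁻¹ = h * (g * s * g⁻¹) * h⁻¹ := by group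
    _ = t := by rw [e, mem_cent1_iff.1 hh.2, mul_inv_cancel_right]

/-- wreathed case: if `s ≠ t` is fused to `t`, then `⟨t, s⟩` is fused into `A` -/
theorem fuse_A (h : t ∈ zpowers (w.z * w.z)) (st : s ≠ t) (hs : s ∈ S) (hg : g ∈ M) (e : g * s * g⁻¹ = t) :
    ∃ k ∈ M, k * s * k⁻¹ = t ∧ k * t * k⁻¹ ∈ w.A ∧ k * t * k⁻¹ ≠ t := by
  obtain ⟨k, hk, h1, h2⟩ := w.extremal hS hg e
  obtain ⟨c, hc, h3⟩ := w.exists_four_elt h
  have h4 := h2 (conj_mem_cj.2 ⟨w.le (w.Z_le hc), cent_le_cent1 hs (w.Z_cent hc)⟩)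
  have h5 : k * t * k⁻¹ ≠ t := fun e' => st (by simpa using h1.trans e'.symm)
  refine ⟨k, hk, h1, ?_, h5⟩
  rw [show k * t * k⁻¹ = k * c * k⁻¹ * (k * c * k⁻¹) by rw [conj_mul, h3]]
  by_cases e' : k * c * k⁻¹ ∈ w.A
  · exact mul_mem e' e'
  · exact w.Z_le (w.sq_out h4 e')

theorem fuse_in (hni : ∃ g ∈ M, g * t * g⁻¹ ∈ S ∧ g * t * g⁻¹ ≠ t) (hu : u ∈ w.A) (u2 : Inv2 u) :
    ∃ g ∈ M, g * t * g⁻¹ = u := by
  by_cases ut : u = t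
  · exact ⟨1, one_mem _, by simp [ut]⟩
  rcases w.typ with ⟨h, -⟩ | ⟨-, h⟩
  · exact absurd (w.eq_t_of_cyc h hu u2) ut
  obtain ⟨g, hg, h1, h2⟩ := hni
  obtain ⟨k, hk, -, h3, h4⟩ := w.fuse_A hS h h2 h1 (inv_mem hg) (by group)
  rcases w.rank2 (w.le h3) (w.le hu) (w.t2.conj k) u2 (w.ab _ h3 _ hu) h4 ut with e | e
  · exact ⟨k, hk, e.symm⟩
  · refine ⟨w.y * k, mul_mem (hS.le w.yS) hk, ?_⟩
    rw [e, ← w.in_inv h3 (w.t2.conj k) h4]; group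

theorem one_of (hni : ∃ g ∈ M, g * t * g⁻¹ ∈ S ∧ g * t * g⁻¹ ≠ t) (hy : ∃ g ∈ M, g * w.y * g⁻¹ ∈ w.A)
    (hs : s ∈ M) (s2 : Inv2 s) : ∃ g ∈ M, g * t * g⁻¹ = s := by
  obtain ⟨k, hk, h1⟩ := hS.exists_conj_mem hs s2.piElt
  by_cases e : k * s * k⁻¹ ∈ w.A
  · obtain ⟨g, hg, h2⟩ := w.fuse_in hS hni e (s2.conj k)
    exact ⟨k⁻¹ * g, mul_mem (inv_mem hk) hg, by
      rw [show k⁻¹ * g * t * (k⁻¹ * g)⁻¹ = k⁻¹ * (g * t * g⁻¹) * k by group, h2]; group⟩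
  obtain ⟨b, hb, h2⟩ := w.out_conj h1 e (s2.conj k).sq
  obtain ⟨l, hl, h3⟩ := hy
  obtain ⟨g, hg, h4⟩ := w.fuse_in hS hni h3 (w.y_inv2.conj l)
  refine ⟨k⁻¹ * b * l⁻¹ * g, mul_mem (mul_mem (mul_mem (inv_mem hk) (hS.le (w.le hb))) (inv_mem hl)) hg, ?_⟩
  calc _ = k⁻¹ * (b * (l⁻¹ * (g * t * g⁻¹) * l) * b⁻¹) * k := by group
    _ = k⁻¹ * (b * w.y * b⁻¹) * k := by rw [h4]; group
    _ = s := by rw [h2]; group

theorem hy_sd (h : w.A = zpowers w.x) (hni : ∃ g ∈ M, g * t * g⁻¹ ∈ S ∧ g * t * g⁻¹ ≠ t) :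
    ∃ g ∈ M, g * w.y * g⁻¹ ∈ w.A := by
  obtain ⟨g, hg, h1, h2⟩ := hni
  obtain ⟨b, hb, h3⟩ := w.out_conj h1 (fun e => h2 (w.eq_t_of_cyc h e (w.t2.conj g))) (w.t2.conj g).sq
  refine ⟨g⁻¹ * b, mul_mem (inv_mem hg) (hS.le (w.le hb)), ?_⟩
  rw [show g⁻¹ * b * w.y * (g⁻¹ * b)⁻¹ = g⁻¹ * (b * w.y * b⁻¹) * g by group, h3]
  simpa [mul_assoc] using w.tA

theorem not_npc (hs : s ∈ S) (hA : s ∉ w.A) (hg : g ∈ M ⊓ 𝐂[t]) (e : g * s * g⁻¹ ∈ w.A) :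
    ¬ NormalPCompl 2 (M ⊓ 𝐂[t]) := fun h => by
  obtain ⟨σ, hσ, h1⟩ := npc_fusion h (w.syl_t hS) hs hg (w.le e)
  exact hA ((mem_normalizer_iff.1 (w.norm hσ) s).2 (h1 ▸ e))

theorem swap_of (one : ∀ s ∈ M, Inv2 s → ∃ g ∈ M, g * t * g⁻¹ = s) (ha : a ∈ M) (hb : b ∈ M) (a2 : Inv2 a)
    (b2 : Inv2 b) (c : a * b = b * a) (hab : a ≠ b) : ∃ σ ∈ M ⊓ 𝐂[a], PiElt {2} σ ∧ σ * b * σ⁻¹ = a * b := by
  obtain ⟨g, hg, rfl⟩ := one a ha a2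
  obtain ⟨σ, h1, h2, h3⟩ := w.swapX (w.syl_t hS) inf_le_right (s := g⁻¹ * b * g⁻¹⁻¹)
    (mem_inf.2 ⟨mul_mem (mul_mem (inv_mem hg) hb) (inv_mem (inv_mem hg)), mem_cent1_iff.2 (by
      calc _ = g⁻¹ * (b * (g * t * g⁻¹)) * g := by group
        _ = _ := by rw [← c]; group)⟩) (b2.conj _) fun e => hab (by rw [← e]; group)
  refine ⟨g * σ * g⁻¹, mem_inf.2 ⟨mul_mem (mul_mem hg h1.1) (inv_mem hg), ?_⟩, piElt_conj.2 h2, ?_⟩
  · rw [← cj_centralizer_singleton]; exact conj_mem_cj.2 h1.2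
  · calc _ = g * (σ * (g⁻¹ * b * g⁻¹⁻¹) * σ⁻¹) * g⁻¹ := by group
      _ = _ := by rw [h3]; group

/-- wreathed case: `y` is fused into `A` by `C(t)` -/
theorem fuse_y (h : t ∈ zpowers (w.z * w.z)) (one : ∀ s ∈ M, Inv2 s → ∃ g ∈ M, g * t * g⁻¹ = s) :
    ∃ g ∈ M ⊓ 𝐂[t], g * w.y * g⁻¹ ∈ w.A := by
  obtain ⟨g, hg, e⟩ := one _ (hS.le w.yS) w.y_inv2
  obtain ⟨k, hk, h1, h2, h3⟩ := w.fuse_A hS h (fun e => w.yA (by rw [e]; exact w.tA)) w.yS (inv_mem hg) (by rw [← e]; group)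
  have u2 := w.t2.conj k
  generalize hu : k * t * k⁻¹ = u at *
  have c := w.ab _ h2 _ w.tA
  have h4 := mul_mem h2 w.tA
  obtain ⟨σ, hσ, -, h5⟩ := w.swap_of hS one (hS.le (w.le h4)) (hS.le w.tS) (u2.mul w.t2 h3 c) w.t2
    (w.ab _ h4 _ w.tA) fun e => u2.ne (by simpa using e)
  rw [mul_assoc u, w.t2.sq, mul_one] at h5
  have h6 : σ * u * σ⁻¹ = t := by
    have := mem_cent1_iff.1 hσ.2
    calc σ * u * σ⁻¹ = σ * (u * t) * σ⁻¹ * (σ * t * σ⁻¹)⁻¹ := by group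
      _ = t := by rw [this, h5, c]; group
  refine ⟨σ * k, ⟨mul_mem hσ.1 hk, mem_cent1_iff.2 (mul_inv_eq_iff_eq_mul.1 ?_)⟩, ?_⟩
  · rw [show σ * k * t * (σ * k)⁻¹ = σ * (k * t * k⁻¹) * σ⁻¹ by group, hu, h6]
  · rw [show σ * k * w.y * (σ * k)⁻¹ = σ * (k * w.y * k⁻¹) * σ⁻¹ by group, h1, h5]; exact h2

/-- semidihedral case: `C(t)` is not 2-nilpotent, or the dihedral subgroup `D` is cut out by a subgroup of index 2 -/
theorem sd_dich (h : w.A = zpowers w.x) (hz : w.z = t) :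
    ¬ NormalPCompl 2 (M ⊓ 𝐂[t]) ∨ ∃ N, N ⊴ M ∧ N.relIndex M = 2 ∧ w.x * w.y ∉ N := by
  rw [or_iff_not_imp_left, not_not]
  intro hn
  have r2 := w.r_sq.trans hz
  refine transfer2 hS w.D_leS (w.idxD h hz) w.r_mem fun k g hg e => ?_
  have ev : ∀ j : ℕ, (w.x * w.y) ^ (j + j) = t ^ j := fun j => by rw [← two_mul, pow_mul, pow_two, r2]
  have t2 : ∀ j : ℕ, t ^ j * t ^ j = 1 := fun j => by rw [← (Commute.refl t).mul_pow, w.t2.sq, one_pow]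
  rcases Nat.even_or_odd k with ⟨j, rfl⟩ | hk
  · refine iff_of_true ?_ ⟨j, rfl⟩
    have h1 : g * (w.x * w.y) ^ (j + j) * g⁻¹ * (g * (w.x * w.y) ^ (j + j) * g⁻¹) = 1 := by
      rw [conj_mul, ev, t2]; group
    by_cases e1 : g * (w.x * w.y) ^ (j + j) * g⁻¹ ∈ w.A
    · by_cases e2 : g * (w.x * w.y) ^ (j + j) * g⁻¹ = 1
      · rw [e2]; exact one_mem _
      · rw [w.eq_t_of_cyc h e1 ⟨h1, e2⟩]; exact mem_sup_left w.td'
    · exact w.out_D e e1 h1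
  refine iff_of_false (fun e1 => ?_) (Nat.not_even_iff_odd.2 hk)
  have h1 : g * (w.x * w.y) ^ k * g⁻¹ * (g * (w.x * w.y) ^ k * g⁻¹) = g * t * g⁻¹ := by
    obtain ⟨j, rfl⟩ := hk
    rw [conj_mul, ← pow_add, ev, pow_succ, two_mul, pow_add, t2, one_mul]
  have h2 := w.D_le (w.dihD.mem_of_sq e1 (h1 ▸ (w.t2.conj g).ne))
  have h3 := w.eq_t_of_cyc h (h1 ▸ mul_mem h2 h2) (w.t2.conj g)
  refine w.not_npc hS (pow_mem w.r_mem k) ?_ ⟨hg, mem_cent1_iff.2 (mul_inv_eq_iff_eq_mul.1 h3)⟩ h2 hn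
  obtain ⟨j, rfl⟩ := hk
  rw [pow_succ, two_mul, ev, mul_mem_cancel_left (pow_mem w.tA j)]
  exact w.out_not w.xA

theorem qdt_of (hq : QD S) (one : ∀ s ∈ M, Inv2 s → ∃ g ∈ M, g * t * g⁻¹ = s) (h : ¬ NormalPCompl 2 (M ⊓ 𝐂[t])) :
    QDT M := by
  refine ⟨⟨S, hS, hq⟩, fun a ha b hb a2 b2 => ?_, fun s hs s2 e => ?_⟩
  · obtain ⟨g, hg, rfl⟩ := one a ha a2
    obtain ⟨k, hk, rfl⟩ := one b hb b2
    exact ⟨k * g⁻¹, mul_mem hk (inv_mem hg), by group⟩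
  · obtain ⟨g, hg, rfl⟩ := one s hs s2
    have := e.cj g⁻¹
    rw [cj_inf, cj_eq_of_mem (inv_mem hg), cj_centralizer_singleton] at this
    exact h (by simpa [mul_assoc] using this)

/-- the three types of groups with a semidihedral or wreathed Sylow 2-subgroup -/
theorem types (hq : QD S) : (∀ g ∈ M, g * t * g⁻¹ ∈ S → g * t * g⁻¹ = t) ∨ QDT M ∨
    ((∀ u ∈ w.A, Inv2 u → ∃ g ∈ M, g * t * g⁻¹ = u) ∧ ∃ N, N ⊴ M ∧ N.relIndex M = 2 ∧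
      ((w.A = zpowers w.x ∧ w.z = t ∧ S ⊓ N = w.D ∧ NormalPCompl 2 (M ⊓ 𝐂[t]) ∧
        ∀ s ∈ M, Inv2 s → ∃ g ∈ M, g * t * g⁻¹ = s) ∨
      (t ∈ zpowers (w.z * w.z) ∧ w.y ∉ N ∧ ∀ g ∈ M, g * w.y * g⁻¹ ∉ w.A))) := by
  rw [or_iff_not_imp_left]
  intro hni
  push Not at hni
  rcases w.typ with ⟨h, hz⟩ | ⟨-, h⟩
  · have one := fun s => w.one_of hS (s := s) hni (w.hy_sd hS h hni)
    by_cases hn : NormalPCompl 2 (M ⊓ 𝐂[t])
    swap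
    · exact .inl (w.qdt_of hS hq one hn)
    obtain ⟨N, h1, h2, h3⟩ := (w.sd_dich hS h hz).resolve_left (not_not.2 hn)
    refine .inr ⟨fun u => w.fuse_in hS hni, N, h1, h2, .inl ⟨h, hz, ?_, hn, one⟩⟩
    have dN : w.d ∈ N := by
      have := comm_mem_idx h1 h2 (hS.le (inv_mem (w.le w.xA))) (hS.le w.yS)
      rwa [inv_inv, mul_assoc, mul_assoc, ← mul_assoc w.y, w.hd] at this
    have yN : w.y ∈ N := by
      obtain ⟨g, hg, e⟩ := one _ (hS.le w.yS) w.y_inv2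
      exact e ▸ conj_mem_of_mem_normalizer (h1.norm hg) (zpowers_le.2 dN w.td')
    have DN : w.D ≤ N := sup_le (zpowers_le.2 dN) (zpowers_le.2 yN)
    refine le_antisymm (fun a ha => by_contra fun e => h3 ?_) (le_inf w.D_leS DN)
    refine (mul_mem_cancel_left (mem_inf.1 ha).2).1 (DN ?_)
    exact (mul_mem_iff_of_index_two (w.idxD h hz) (a := ⟨a, ha.1⟩) (b := ⟨_, w.r_mem⟩)).2 (iff_of_false e
      fun e' => w.t2.ne (hz ▸ w.r_sq ▸ w.dihD.sq _ e' fun e'' => w.out_not w.xA (w.D_le e'')))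
  by_cases hy : ∃ g ∈ M, g * w.y * g⁻¹ ∈ w.A
  · have one := fun s => w.one_of hS (s := s) hni hy
    obtain ⟨g, hg, e⟩ := w.fuse_y hS h one
    exact .inl (w.qdt_of hS hq one (w.not_npc hS w.yS w.yA hg e))
  push Not at hy
  obtain ⟨N, h1, h2, h3⟩ := transfer2 hS w.le w.idx w.yS fun k g hg _ => by
    rcases Nat.even_or_odd' k with ⟨j, rfl | rfl⟩
    · simp [pow_mul, pow_two, w.y2]
    · simp [pow_succ, pow_mul, w.y2, hy g hg]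
  exact .inr ⟨fun u => w.fuse_in hS hni, N, h1, h2, .inr ⟨h, h3, hy⟩⟩

end SW

section
variable {G : Type*} [Group G] [Finite G] {S M N V W O T : Subgroup G} {a b c s t g : G}

theorem QSyl.ex (h : QSyl M) : ∃ S t, SylowIn 2 S M ∧ QD S ∧ Nonempty (SW S t) := by
  obtain ⟨S, h1, h2⟩ := h
  obtain ⟨t, h3⟩ := h2.sw'
  exact ⟨S, t, h1, h2, h3⟩

theorem QSyl.qd (h : QSyl M) (hT : SylowIn 2 T M) : QD T := by
  obtain ⟨S, h1, h2⟩ := h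
  obtain ⟨g, -, rfl⟩ := h1.exists_cj hT
  exact h2.cj g

theorem QSyl.quo (h : QSyl M) (hn : M ≤ 𝐍(O)) (hO : Odd (Nat.card O)) : QSyl (M /ₛ O) := by
  obtain ⟨S, h1, h2⟩ := h
  exact ⟨_, h1.quo (h1.le.trans hn), h2.quo (h1.le.trans hn) hO⟩

theorem QSyl.top (h : QSyl M) : QSyl (⊤ : Subgroup M) := by
  obtain ⟨S, h1, h2⟩ := h
  exact ⟨_, h1.subgroupOf_top, h2.subgroupOf h1.le⟩

/-- no subgroup of index 2 and no isolated involution -/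
theorem qdt_of (h : QSyl M) (h2 : ∀ N, N ⊴ M → N.relIndex M ≠ 2)
    (hz : ∀ t ∈ M, Inv2 t → ∃ g ∈ M, t * (g * t * g⁻¹) ∉ 𝐎(M)) : QDT M := by
  obtain ⟨S, t, hS, hq, ⟨w⟩⟩ := h.ex
  rcases w.types hS hq with e | e | ⟨-, N, h3, h4, -⟩
  · obtain ⟨g, hg, h1⟩ := hz t (hS.le w.tS) w.t2
    exact absurd (Blk.zstar_in hS w.tS w.t2.sq e hg) h1
  · exact e
  · exact absurd h4 (h2 N h3)

theorem QSyl.not_solv_top [IsSimpleGroup G] (h : QSyl (⊤ : Subgroup G)) : ¬ Group.IsSolvable G := fun hs => by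
  obtain ⟨S, t, -, -, ⟨w⟩⟩ := h.ex
  have := IsSimpleGroup.comm_iff_isSolvable.2 hs
  exact w.dd_ne (by rw [← w.hd, this w.y, mul_inv_cancel_right, inv_mul_cancel, mul_one])

theorem qdt_top [IsSimpleGroup G] (h : QSyl (⊤ : Subgroup G)) : QDT (⊤ : Subgroup G) := by
  have ns := h.not_solv_top
  have key : ∀ N : Subgroup G, N ⊴ ⊤ → Group.IsSolvable N → N = ⊥ := fun N hN hs =>
    (IsSimpleGroup.eq_bot_or_eq_top_of_normal N (normalIn_top_iff.1 hN)).resolve_right fun e =>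
      ns (by subst e; exact solvable_of_surjective (f := (⊤ : Subgroup G).subtype) fun x => ⟨⟨x, trivial⟩, rfl⟩)
  refine qdt_of h (fun N hN e => ?_) fun t _ t2 => by_contra fun e => ?_
  · rcases IsSimpleGroup.eq_bot_or_eq_top_of_normal N (normalIn_top_iff.1 hN) with rfl | rfl
    · rw [relIndex_bot_left, card_top] at e
      have := Fact.mk Nat.prime_two
      have := isCyclic_of_prime_card e
      exact ns (IsSimpleGroup.comm_iff_isSolvable.1 fun a b => (IsCyclic.commGroup (α := G)).mul_comm a b)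
    · simp at e
  · push Not at e
    rw [key _ (piCoreOf_normalIn _ _) (solv_core _)] at e
    have h1 : zpowers t ⊴ ⊤ := ⟨le_top, norms_zpowers_of_cent1 fun g hg => mem_cent1_iff.2 (by
      have := mem_bot.1 (e g hg)
      rw [mul_eq_one_iff_inv_eq, t2.inv] at this
      exact mul_inv_eq_iff_eq_mul.1 this.symm)⟩
    exact t2.ne (mem_bot.1 (key _ h1 t2.piGrp.solvable ▸ mem_zpowers t))

namespace QDT
variable (h : QDT M)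
include h

/-- a Sylow 2-subgroup of `C_M(t)` is one of `M` -/
theorem syl_cent (ht : t ∈ M) (t2 : Inv2 t) (hT : SylowIn 2 T (M ⊓ 𝐂[t])) :
    SylowIn 2 T M ∧ QD T ∧ Nonempty (SW T t) := by
  obtain ⟨S, s, hS, hq, ⟨w⟩⟩ := h.syl.ex
  obtain ⟨g, hg, rfl⟩ := h.one _ (hS.le w.tS) _ ht w.t2 t2
  have h1 := (w.syl_t hS).cj g
  rw [cj_inf, cj_eq_of_mem hg, cj_centralizer_singleton] at h1
  have h2 : SylowIn 2 T M := hS.of_card_eq (hT.le.trans inf_le_left) (by rw [hT.card_eq_card h1, card_cj])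
  exact ⟨h2, h.syl.qd h2, (h.syl.qd h2).sw
    (hT.mem_of_mem_norm (norms_of_cents (zpowers_le.2 (mem_cent_iff_le_cent1.2 (hT.le.trans inf_le_right)))
      (mem_zpowers _)) ⟨ht, self_mem_cent1 _⟩ t2.piElt) t2 (hT.le.trans inf_le_right)⟩

theorem sw (ht : t ∈ M) (t2 : Inv2 t) (hT : PiGrp {2} T) (h1 : T ≤ M ⊓ 𝐂[t]) :
    ∃ S, T ≤ S ∧ SylowIn 2 S M ∧ SylowIn 2 S (M ⊓ 𝐂[t]) ∧ QD S ∧ Nonempty (SW S t) := by
  obtain ⟨S, h2, h3⟩ := exists_sylowIn_ge hT h1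
  obtain ⟨h4, h5⟩ := h.syl_cent ht t2 h2
  exact ⟨S, h3, h4, h2, h5⟩

theorem sw0 (ht : t ∈ M) (t2 : Inv2 t) :
    ∃ S, SylowIn 2 S M ∧ SylowIn 2 S (M ⊓ 𝐂[t]) ∧ QD S ∧ Nonempty (SW S t) := by
  obtain ⟨S, -, h1⟩ := h.sw ht t2 (piGrp_bot _) bot_le
  exact ⟨S, h1⟩

theorem rank2 (ht : t ∈ M) (t2 : Inv2 t) (ha : a ∈ M ⊓ 𝐂[t]) (hb : b ∈ M ⊓ 𝐂[t]) (a2 : Inv2 a) (b2 : Inv2 b)
    (c : a * b = b * a) (at' : a ≠ t) (bt : b ≠ t) : b = a ∨ b = t * a := by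
  obtain ⟨S, -, h1, -, ⟨w⟩⟩ := h.sw0 ht t2
  exact w.rank2X h1 inf_le_right ha hb a2 b2 c at' bt

/-- the involutions centralizing a four-group lie in it -/
theorem mem_four (hV : Four V) (hM : V ≤ M) (ht : t ∈ M ⊓ 𝐂(V)) (t2 : Inv2 t) : t ∈ V := by
  obtain ⟨S, -, h1, -, ⟨w⟩⟩ := h.sw0 ht.1 t2
  exact w.four_memX h1 inf_le_right hV (le_inf hM (mem_cent_iff_le_cent1.1 ht.2))

theorem swap (ha : a ∈ M) (hb : b ∈ M) (a2 : Inv2 a) (b2 : Inv2 b) (c : a * b = b * a) (hab : a ≠ b) :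
    ∃ σ ∈ M ⊓ 𝐂[a], PiElt {2} σ ∧ σ * b * σ⁻¹ = a * b := by
  obtain ⟨S, -, h1, -, ⟨w⟩⟩ := h.sw0 ha a2
  exact w.swapX h1 inf_le_right ⟨hb, mem_cent1_iff.2 c.symm⟩ b2 hab.symm

theorem rot (hV : Four V) (hM : V ≤ M) (ha : a ∈ V) (hb : b ∈ V) (a1 : a ≠ 1) (b1 : b ≠ 1) :
    ∃ g ∈ M ⊓ 𝐍(V), g * a * g⁻¹ = b :=
  rot_of hV (fun a ha b hb a1 b1 ab => by
    obtain ⟨σ, h1, -, h2⟩ := h.swap (hM ha) (hM hb) (hV.inv2 ha a1) (hV.inv2 hb b1) (hV.comm ha hb) ab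
    exact ⟨σ, h1, h2⟩) ha hb a1 b1

/-- an element permuting the three involutions of `V` cyclically -/
theorem rot3 (hV : Four V) (hM : V ≤ M) (ha : a ∈ V) (hb : b ∈ V) (a1 : a ≠ 1) (b1 : b ≠ 1) (hab : a ≠ b) :
    ∃ g ∈ M ⊓ 𝐍(V), g * a * g⁻¹ = b ∧ g * b * g⁻¹ = a * b ∧ g * (a * b) * g⁻¹ = a := by
  have a2 := hV.inv2 ha a1
  have b2 := hV.inv2 hb b1
  have c := hV.comm ha hb
  have c2 := a2.mul b2 hab c
  have bab : b * (a * b) = a := by rw [c, ← mul_assoc, b2.sq, one_mul]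
  obtain ⟨σ, h1, -, h2⟩ := h.swap (hM ha) (hM hb) a2 b2 c hab
  obtain ⟨τ, h3, -, h4⟩ := h.swap (hM (mul_mem ha hb)) (hM ha) c2 a2 (hV.comm (mul_mem ha hb) ha)
    fun e => b1 (by simpa using e)
  rw [c, mul_assoc b, a2.sq, mul_one] at h4
  have h5 : σ * a * σ⁻¹ = a := by rw [mem_cent1_iff.1 h1.2, mul_inv_cancel_right]
  have h6 : τ * (a * b) * τ⁻¹ = a * b := by rw [mem_cent1_iff.1 h3.2, mul_inv_cancel_right]
  have e1 : τ * σ * a * (τ * σ)⁻¹ = b := by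
    rw [show τ * σ * a * (τ * σ)⁻¹ = τ * (σ * a * σ⁻¹) * τ⁻¹ by group, h5, h4]
  have e2 : τ * σ * b * (τ * σ)⁻¹ = a * b := by
    rw [show τ * σ * b * (τ * σ)⁻¹ = τ * (σ * b * σ⁻¹) * τ⁻¹ by group, h2, h6]
  exact ⟨τ * σ, ⟨mul_mem h3.1 h1.1, hV.norm_of ha hb a1 b1 hab (e1 ▸ hb) (e2 ▸ mul_mem ha hb)⟩, e1, e2,
    by rw [← conj_mul, e1, e2, bab]⟩

/-- the noncentral involutions of `C_M(t)` are conjugate -/
theorem conj_cent (ht : t ∈ M) (t2 : Inv2 t) (ha : a ∈ M ⊓ 𝐂[t]) (hb : b ∈ M ⊓ 𝐂[t]) (a2 : Inv2 a) (b2 : Inv2 b)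
    (at' : a ≠ t) (bt : b ≠ t) : ∃ g ∈ M ⊓ 𝐂[t], g * a * g⁻¹ = b := by
  obtain ⟨S, hS, h1, -, ⟨w⟩⟩ := h.sw0 ht t2
  have key : ∀ a ∈ M ⊓ 𝐂[t], Inv2 a → a ≠ t → ∃ g ∈ M ⊓ 𝐂[t], g * w.y * g⁻¹ = a := fun a ha a2 at' => by
    obtain ⟨k, hk, h2⟩ := h1.exists_conj_mem ha a2.piElt
    have e := w.fix h1 inf_le_right hk
    have h3 : k * a * k⁻¹ ≠ t := fun e' => at' (by simpa using e'.trans e.symm)
    suffices ∃ g ∈ M ⊓ 𝐂[t], g * w.y * g⁻¹ = k * a * k⁻¹ by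
      obtain ⟨g, hg, e1⟩ := this
      exact ⟨k⁻¹ * g, mul_mem (inv_mem hk) hg, by
        rw [show k⁻¹ * g * w.y * (k⁻¹ * g)⁻¹ = k⁻¹ * (g * w.y * g⁻¹) * k by group, e1]; group⟩
    by_cases e1 : k * a * k⁻¹ ∈ w.A
    swap
    · obtain ⟨b, hb, e2⟩ := w.out_conj h2 e1 (a2.conj k).sq
      exact ⟨b, h1.le (w.le hb), e2⟩
    rcases w.typ with ⟨e2, -⟩ | ⟨-, e2⟩
    · exact absurd (w.eq_t_of_cyc e2 e1 (a2.conj k)) h3
    obtain ⟨g, hg, h4⟩ := w.fuse_y hS e2 fun s hs s2 => h.one _ ht _ hs t2 s2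
    have h5 : g * w.y * g⁻¹ ≠ t := fun e' => w.yA (by
      have := e'.trans (w.fix h1 inf_le_right hg).symm
      rw [show w.y = t by simpa using this]; exact w.tA)
    rcases w.rank2 (w.le h4) h2 (w.y_inv2.conj g) (a2.conj k) (w.ab _ h4 _ e1) h5 h3 with e3 | e3
    · exact ⟨g, hg, e3.symm⟩
    · refine ⟨w.y * g, mul_mem (h1.le w.yS) hg, ?_⟩
      rw [e3, ← w.in_inv h4 (w.y_inv2.conj g) h5]; group
  obtain ⟨g, hg, rfl⟩ := key a ha a2 at'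
  obtain ⟨k, hk, rfl⟩ := key b hb b2 bt
  exact ⟨k * g⁻¹, mul_mem hk (inv_mem hg), by group⟩

/-- `M` is transitive on the pairs of distinct commuting involutions -/
theorem conj_pair {a' b' : G} (ha : a ∈ M) (hb : b ∈ M) (ha' : a' ∈ M) (hb' : b' ∈ M) (a2 : Inv2 a) (b2 : Inv2 b)
    (a2' : Inv2 a') (b2' : Inv2 b') (c : a * b = b * a) (c' : a' * b' = b' * a') (ab : a ≠ b) (ab' : a' ≠ b') :
    ∃ g ∈ M, g * a * g⁻¹ = a' ∧ g * b * g⁻¹ = b' := by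
  obtain ⟨g, hg, rfl⟩ := h.one _ ha _ ha' a2 a2'
  obtain ⟨k, hk, e⟩ := h.conj_cent ha' a2' (a := g * b * g⁻¹)
    (mem_inf.2 ⟨mul_mem (mul_mem hg hb) (inv_mem hg), mem_cent1_iff.2 (by rw [conj_mul, conj_mul, c])⟩)
    ⟨hb', mem_cent1_iff.2 c'.symm⟩ (b2.conj g) b2' (fun e => ab (by simpa using e.symm)) ab'.symm
  refine ⟨k * g, mul_mem hk.1 hg, ?_, by rw [← e]; group⟩
  rw [show k * g * a * (k * g)⁻¹ = k * (g * a * g⁻¹) * k⁻¹ by group, mem_cent1_iff.1 hk.2, mul_inv_cancel_right]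

theorem four_conj (hV : Four V) (hW : Four W) (h1 : V ≤ M) (h2 : W ≤ M) : ∃ g ∈ M, cj g V = W := by
  obtain ⟨a, ha, b, hb, a1, b1, ab⟩ := hV.exists_two
  obtain ⟨a', ha', b', hb', a1', b1', ab'⟩ := hW.exists_two
  obtain ⟨g, hg, rfl, rfl⟩ := h.conj_pair (h1 ha) (h1 hb) (h2 ha') (h2 hb') (hV.inv2 ha a1) (hV.inv2 hb b1)
    (hW.inv2 ha' a1') (hW.inv2 hb' b1') (hV.comm ha hb) (hW.comm ha' hb') ab ab'
  exact ⟨g, hg, (eq_of_le_of_card_eq (hW.le_of ha' hb' a1' b1' ab' (conj_mem_cj.2 ha) (conj_mem_cj.2 hb))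
    (hW.card.trans (hV.cj g).card.symm)).symm⟩

theorem exists_four (ht : t ∈ M) (t2 : Inv2 t) : ∃ s ∈ M ⊓ 𝐂[t], Inv2 s ∧ s ≠ t := by
  obtain ⟨S, -, h1, -, ⟨w⟩⟩ := h.sw0 ht t2
  exact ⟨w.y, h1.le w.yS, w.y_inv2, fun e => w.yA (by rw [e]; exact w.tA)⟩

/-- the structure of `C_M(t) / O(C_M(t))` -/
theorem qe (ht : t ∈ M) (t2 : Inv2 t) : ∃ (Z : Subgroup (Quo 𝐎(M ⊓ 𝐂[t]))) (F : Type) (_ : Field F) (_ : Fintype F)
    (e : QE F ((M ⊓ 𝐂[t]) /ₛ 𝐎(M ⊓ 𝐂[t])) Z), e.t = qel _ t := by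
  obtain ⟨S, -, h1, hq, ⟨w⟩⟩ := h.sw0 ht t2
  have n := piCoreOf_norm {2}ᶜ (M ⊓ 𝐂[t])
  have hX : (M ⊓ 𝐂[t]) /ₛ 𝐎(M ⊓ 𝐂[t]) ≤ 𝐂[qel _ t] := by
    rw [← cent_zpowers (qel _ t), ← quo_zpowers (n (h1.le w.tS))]
    exact quo_cents _ (cent_zpowers t ▸ inf_le_right)
  have h2 := h1.quo (h1.le.trans n)
  have t2' := inv2_qel t2 (n (h1.le w.tS)) (odd_core _)
  obtain ⟨w'⟩ := (hq.quo (h1.le.trans n) (odd_core _)).sw (qel_mem_quo _ w.tS) t2' (h2.le.trans hX)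
  obtain ⟨F, _, _, ⟨e⟩⟩ := w'.qe h2 hX (piCoreOf_quo_self _ _) fun e => h.nq t ht t2 (normalPCompl_iff_quo.2 e)
  exact ⟨_, F, _, _, e, (e.inv_Z e.gen w'.tz t2').symm⟩

end QDT

end

end CA.ABG
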