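/-
Alperin–Brauer–Gorenstein theorem, `C(t)` maximal: counting of involutions and the lemma `W'`.
-/
import Cfsg.Agent.Lib.GW.LemB
import Cfsg.Agent.Lib.GW.Bender
import Cfsg.Agent.Lib.Blk.ZStar

set_option autoImplicit false

namespace CA.ABG

open Cfsg CA CA.FStar CA.GW Subgroup

section
variable {G : Type*} [Group G] [Finite G] {Y R B : Subgroup G} {z x t a b w : G} {p : ℕ}

/-- CNT: if no other conjugate of `z` centralizes the `p`-group `R ≤ C(z)` then `C(z)` contains a Sylow `p`-subgroup -/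
theorem cnt_syl (hR : R ≤ Y ⊓ 𝐂[z]) (Rp : PiGrp {p} R) (h : ∀ g ∈ Y, g * z * g⁻¹ ∈ 𝐂(R) → g * z * g⁻¹ = z) :
    ∃ P, SylowIn p P Y ∧ R ≤ P ∧ P ≤ 𝐂[z] := by
  obtain ⟨P, hP, RP⟩ := exists_sylowIn_ge Rp hR
  have Pz : P ≤ 𝐂[z] := hP.le.trans inf_le_right
  refine ⟨P, hP.of_norm_le inf_le_left fun g hg => ⟨hg.1, mem_cent1_iff.2 (mul_inv_eq_iff_eq_mul.1 (h g hg.1 ?_))⟩, RP, Pz⟩
  exact cent_mono RP (conj_mem_of_mem_normalizer (normalizer_le_normalizer_centralizer P hg.2) (mem_cent_iff_le_cent1.2 Pz))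

theorem cnt_elt (hR : R ≤ Y ⊓ 𝐂[z]) (Rp : PiGrp {p} R) (h : ∀ g ∈ Y, g * z * g⁻¹ ∈ 𝐂(R) → g * z * g⁻¹ = z)
    (hx : x ∈ Y) (xp : PiElt {p} x) : ∃ g ∈ Y, x ∈ 𝐂[g * z * g⁻¹] := by
  obtain ⟨P, hP, -, Pz⟩ := cnt_syl hR Rp h
  obtain ⟨g, hg, e⟩ := hP.exists_conj_mem hx xp
  refine ⟨g⁻¹, inv_mem hg, ?_⟩
  rw [← cj_centralizer_singleton]
  exact mem_cj_inv.2 (Pz e)

theorem cnt_core (hz : z ∈ Y) (z2 : z * z = 1) (hR : R ≤ Y ⊓ 𝐂[z]) (Rp : PiGrp {p} R)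
    (h : ∀ g ∈ Y, g * z * g⁻¹ ∈ 𝐂(R) → g * z * g⁻¹ = z) (hB : B ≤ 𝐎(Y)) (Bp : PiGrp {p} B) (zB : z ∈ 𝐍(B)) :
    B ≤ 𝐂[z] := by
  obtain ⟨P, hP, -, Pz⟩ := cnt_syl hR Rp h
  have OY : 𝐎(Y) ⊴ Y := piCoreOf_normalIn _ _
  have Pz' : P ⊓ 𝐎(Y) ≤ 𝐂[z] := inf_le_left.trans Pz
  obtain ⟨c, hc, e⟩ := (copAct_inv z2 (odd_core Y) (OY.2 hz)).sylowIn_le_cj (hP.inf_normal OY)
    (zpowers_le.2 (centralizer_le_normalizer _ (mem_cent_iff_le_cent1.2 Pz'))) hB Bp (zpowers_le.2 zB)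
  exact e.trans (cj_le_of_le Pz' (cent_zpowers z ▸ hc.2))

omit [Finite G] in
theorem comm_of_inv_inv (ha : a * x * a⁻¹ = x⁻¹) (hb : b * x * b⁻¹ = x⁻¹) : a * b * x = x * (a * b) := by
  calc a * b * x = a * (b * x * b⁻¹) * a⁻¹ * (a * b) := by group
    _ = (a * x * a⁻¹)⁻¹ * (a * b) := by rw [hb]; group
    _ = _ := by rw [ha, inv_inv]

omit [Finite G] in
/-- an element of odd order inverts no nontrivial element of odd order -/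
theorem eq_one_of_odd_inv (ha : Odd (orderOf a)) (hw : Odd (orderOf w)) (h : a * w * a⁻¹ = w⁻¹) : w = 1 := by
  obtain ⟨b, hb, e⟩ := exists_sqrt ha
  have h2 : a * a ∈ 𝐂[w] := mem_cent1_iff.2 (comm_of_inv_inv h h)
  obtain ⟨k, hk⟩ := ha
  have : a = (a * a) ^ (k + 1) := by
    rw [← sq, ← pow_mul, show 2 * (k + 1) = 2 * k + 1 + 1 by ring, ← hk, pow_succ, pow_orderOf_eq_one, one_mul]
  exact eq_one_of_cent_inv hw (mem_cent1_iff.1 (this ▸ pow_mem h2 _)) h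

/-- if `t` is the only involution of `C_Y(t)` then the product of `t` with another involution of `Y` has odd order -/
theorem odd_mul_of_uniq (ht : t ∈ Y) (t2 : Inv2 t) (h : ∀ u ∈ Y ⊓ 𝐂[t], Inv2 u → u = t) (hz : z ∈ Y) (z2 : Inv2 z) :
    Odd (orderOf (z * t)) := by
  by_contra hn
  obtain ⟨u, hu, uo⟩ := exists_orderOf_eq_prime (A := zpowers (z * t)) Nat.prime_two
    (by rw [Nat.card_zpowers]; exact even_iff_two_dvd.1 (Nat.not_odd_iff_even.1 hn))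
  have u2 := inv2_of_ord uo
  have i1 : t * (z * t) * t⁻¹ = (z * t)⁻¹ := by rw [mul_inv_rev, z2.inv, ← mul_assoc, mul_inv_cancel_right, t2.inv]
  have i2 : z * (z * t) * z⁻¹ = (z * t)⁻¹ := by rw [mul_inv_rev, z2.inv, t2.inv, ← mul_assoc, z2.sq, one_mul]
  have c1 := inv_of_mem_zpowers i1 hu
  have c2 := inv_of_mem_zpowers i2 hu
  rw [u2.inv] at c1 c2
  have e := h u ⟨zpowers_le.2 (mul_mem hz ht) hu, mem_cent1_iff.2 (mul_inv_eq_iff_eq_mul.1 c1).symm⟩ u2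
  subst e
  have e := h z ⟨hz, mem_cent1_iff.2 (mul_inv_eq_iff_eq_mul.1 c2)⟩ z2
  subst e
  rw [z2.sq, zpowers_one_eq_bot, mem_bot] at hu
  exact z2.ne hu

omit [Finite G] in
/-- a nontrivial element inverted by `a` -/
theorem exists_inv_of_not_cent (a2 : a * a ∈ 𝐂(B)) (ha : a ∈ 𝐍(B)) (h : ¬ B ≤ 𝐂[a]) :
    ∃ w ∈ B, w ≠ 1 ∧ a * w * a⁻¹ = w⁻¹ := by
  obtain ⟨x, hx, hn⟩ := SetLike.not_le_iff_exists.1 h
  refine ⟨x⁻¹ * (a * x * a⁻¹), mul_mem (inv_mem hx) (conj_mem_of_mem_normalizer ha hx), fun e => hn ?_, ?_⟩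
  · rw [inv_mul_eq_one] at e
    exact mem_cent1_iff.2 (by rw [eq_mul_inv_iff_mul_eq.1 e])
  · calc a * (x⁻¹ * (a * x * a⁻¹)) * a⁻¹ = a * x⁻¹ * a⁻¹ * (a * a * x * (a * a)⁻¹) := by group
      _ = _ := by rw [conj_eq_of_mem_cent a2 hx]; group

/-- W': `R ≠ 1` is a `p`-group normal in the maximal subgroup `C(t)` and inverted by the noncentral involutions. -/
theorem lemW [IsSimpleGroup G] {s : G} (hH : IsCoatom 𝐂[t]) (t2 : Inv2 t) (s2 : Inv2 s) (sH : s ∈ 𝐂[t]) (st : s ≠ t)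
    (one : ∀ u : G, Inv2 u → ∃ g, g * t * g⁻¹ = u) (R1 : R ≠ ⊥) (Rp : PiGrp {p} R) (Ro : Odd (Nat.card R)) (RH : R ⊴ 𝐂[t])
    (hi : ∀ u ∈ 𝐂[t], Inv2 u → u ≠ t → ∀ y ∈ R, u * y * u⁻¹ = y⁻¹)
    (xH : x ∈ 𝐂[t]) (xp : PiElt {p} x) (sx : s ∈ 𝐍(zpowers x)) (hu : ∀ u ∈ 𝐂[x] ⊓ 𝐂[t], Inv2 u → u = t) :
    𝐂[x] ≤ 𝐂[t] := by
  have tx : t ∈ 𝐂[x] := mem_cent1_comm.1 xH
  have OY : 𝐎(𝐂[x]) ⊴ 𝐂[x] := piCoreOf_normalIn _ _
  suffices hO : 𝐎(𝐂[x]) ≤ 𝐂[t] by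
    intro g hg
    obtain ⟨o, ho, c, -, ct, rfl⟩ := Blk.zstar_factor tx t2.sq (fun g hg hc => hu _
      (mem_inf.2 ⟨mul_mem (mul_mem hg tx) (inv_mem hg), mem_cent1_iff.2 hc.eq.symm⟩) (t2.conj g)) hg
    exact mul_mem (hO ho) (mem_cent1_iff.2 ct)
  obtain ⟨V, hV, eV⟩ := four_of s2 t2 st (mem_cent1_iff.1 sH)
  have sO : s ∈ 𝐍(𝐎(𝐂[x])) := norm_le_norm_piCoreOf _ _ (cent_zpowers x ▸ normalizer_le_normalizer_centralizer _ sx)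
  have VO : V ≤ 𝐍(𝐎(𝐂[x])) := hV.le_of ((eV _).2 (.inr (.inl rfl))) ((eV _).2 (.inr (.inr (.inl rfl)))) s2.ne t2.ne st
    sO (OY.2 tx)
  have VH : V ≤ 𝐂[t] := hV.le_cent1 ((eV _).2 (.inr (.inr (.inl rfl))))
  refine hV.gen VO (odd_core _) fun v hv v1 => ?_
  by_cases vt : v = t
  · exact vt ▸ inf_le_right
  by_contra hn
  have v2 := hV.inv2 hv v1
  have tv : t ∈ 𝐂[v] := mem_cent1_comm.1 (VH hv)
  obtain ⟨w, hw, w1, iw⟩ := exists_inv_of_not_cent (B := 𝐎(𝐂[x]) ⊓ 𝐂[v]) (by rw [t2.sq]; exact one_mem _)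
    (norms_inf (X := zpowers t) (zpowers_le.2 (OY.2 tx)) (zpowers_le.2 (le_normalizer tv)) (mem_zpowers t)) hn
  have wo : Odd (orderOf w) := odd_of_mem (odd_core _) hw.1
  obtain ⟨g, rfl⟩ := one v v2
  have eH : cj g 𝐂[t] = 𝐂[g * t * g⁻¹] := cj_centralizer_singleton g t
  have hi' : ∀ u ∈ 𝐂[g * t * g⁻¹], Inv2 u → u ≠ g * t * g⁻¹ → ∀ y ∈ cj g R, u * y * u⁻¹ = y⁻¹ := fun u hu u2 ut y hy => by
    rw [← eH] at hu
    have := hi _ (mem_cj.1 hu) (by simpa using u2.conj g⁻¹) (fun e => ut (by rw [← e]; group)) _ (mem_cj.1 hy)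
    calc u * y * u⁻¹ = g * (g⁻¹ * u * g * (g⁻¹ * y * g) * (g⁻¹ * u * g)⁻¹) * g⁻¹ := by group
      _ = _ := by rw [this]; group
  have tw2 : Inv2 (t * w) := ⟨by
    calc t * w * (t * w) = t * w * t⁻¹ * (t * t) * w := by group
      _ = 1 := by rw [iw, t2.sq]; group, fun e => t2.not_mem (odd_core 𝐂[x]) (by
    rw [eq_inv_of_mul_eq_one_left e]; exact inv_mem hw.1)⟩
  have wR : cj g R ≤ 𝐂[w] := fun y hy => by
    have := comm_of_inv_inv (hi' t tv t2 (Ne.symm vt) y hy) (hi' _ (mul_mem tv hw.2) tw2 (fun e => ?_) y hy)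
    · rw [← mul_assoc t t, t2.sq, one_mul] at this
      exact mem_cent1_iff.2 this.symm
    · have e2 : w = t * (g * t * g⁻¹) := by rw [← e, ← mul_assoc, t2.sq, one_mul]
      exact w1 (eq_one_of_odd wo (e2 ▸ (t2.mul v2 (Ne.symm vt) (mem_cent1_iff.1 tv)).sq))
  have RH' : cj g R ≤ 𝐂[g * t * g⁻¹] := eH ▸ cj_mono g RH.1
  have CR : 𝐂(cj g R) ≤ 𝐂[g * t * g⁻¹] := by
    rw [← eH, ← cj_centralizer]
    exact cj_mono g (cent_le_coatom hH RH R1)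
  obtain ⟨y, hy, y1⟩ := exists_ne_one_mem' (cj_eq_bot.not.2 R1 : cj g R ≠ ⊥)
  obtain ⟨k, hk, e⟩ := cnt_elt (Y := 𝐂[w]) (le_inf wR RH') (Rp.cj g) (fun k _ hc => by_contra fun hn =>
    y1 (eq_one_of_cent_inv (odd_of_mem (by rwa [card_cj]) hy) (mem_cent_iff'.1 hc y hy)
      (hi' _ (CR hc) (v2.conj k) hn y hy))) (mem_cent1_comm.1 (OY.1 hw.1)) xp
  have zw : k * (g * t * g⁻¹) * k⁻¹ ∈ 𝐂[w] := mul_mem (mul_mem hk (mem_cent1_comm.1 hw.2)) (inv_mem hk)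
  refine w1 (eq_one_of_odd_inv (odd_mul_of_uniq tx t2 hu (mem_cent1_comm.1 e) (v2.conj k)) wo ?_)
  generalize k * (g * t * g⁻¹) * k⁻¹ = z at zw
  calc z * t * w * (z * t)⁻¹ = z * (t * w * t⁻¹) * z⁻¹ := by group
    _ = (z * w * z⁻¹)⁻¹ := by rw [iw]; group
    _ = _ := by rw [mem_cent1_iff.1 zw, mul_inv_cancel_right]

end

end CA.ABG
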