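/-
Alperin–Brauer–Gorenstein theorem: the maximal subgroups containing `C(t)`.
-/
import Cfsg.Agent.Lib.ABG.Sub
import Cfsg.Agent.Lib.ABG.SylG
import Cfsg.Agent.Lib.ABG.T1a

set_option autoImplicit false
set_option linter.unusedSectionVars false

namespace CA.ABG

open Cfsg CA CA.FStar CA.GW Subgroup

universe u

/-- `M = O(M) C(t) > C(t)` is maximal, `F*(M)` has odd order, `t` acts on `O_r(M)`. -/
structure A4 {G : Type*} [Group G] (t : G) (M : Subgroup G) (r : ℕ) : Prop where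
  coatom : IsCoatom M
  le : 𝐂[t] ≤ M
  eq : 𝐎(M) ⊔ 𝐂[t] = M
  lay : lay M = ⊥
  fit : fittingOf M ≤ 𝐎(M)
  prime : r.Prime
  ne : r ≠ 2
  nc : ¬ piCoreOf {r} M ≤ 𝐂[t]

section
variable {G : Type*} [Group G] [Finite G] {S N M : Subgroup G} {t : G}

/-- every normal subgroup of even order contains `t` -/
theorem SW.mem_normal (w : SW S t) (hS : SylowIn 2 S M) (hN : N ⊴ M) (h : ¬ PiGrp {2}ᶜ N) : t ∈ N := by
  have h1 := hS.inf_normal hN
  obtain ⟨z, hz, z2⟩ := exists_inv2' ((w.two.inf_left _).inf_left _) (meet_center_nil w.two.nilpotent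
    (normalIn_inf_of_norm (hS.le.trans hN.norm)) fun e => h (h1.eq_bot_iff.1 e))
  exact w.eq_t hz.1.1 z2 (mem_cent_iff_le_cent1.1 hz.2.2) ▸ hz.1.2

end

namespace Min
variable {G : Type u} [Group G] [Finite G] (m : Min G) {L M N X : Subgroup G} {a b s : G}
include m

theorem qsyl : QSyl (⊤ : Subgroup G) := ⟨_, m.syl, m.qd⟩

theorem qdt : QDT (⊤ : Subgroup G) := haveI := m.simple; qdt_top m.qsyl

theorem one (a b : G) (a2 : Inv2 a) (b2 : Inv2 b) : ∃ g, g * a * g⁻¹ = b :=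
  let ⟨g, _, e⟩ := m.qdt.one a trivial b trivial a2 b2; ⟨g, e⟩

theorem sw : Nonempty (SW m.S m.t) := m.qd.sw m.tS m.inv m.S_le

theorem ne_top (h : Group.IsSolvable X) : X ≠ ⊤ := fun e => haveI := m.simple
  m.qsyl.not_solv_top (by subst e; exact solvable_of_surjective (f := (⊤ : Subgroup G).subtype) fun x => ⟨⟨x, trivial⟩, rfl⟩)

theorem norm_ne (h1 : X ≠ ⊥) (h2 : X ≠ ⊤) : 𝐍(X) ≠ ⊤ := fun e =>
  (m.simple.eq_bot_or_eq_top_of_normal X (normalizer_eq_top_iff.1 e)).elim h1 h2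

theorem cent1_ne (h : a ≠ 1) : 𝐂[a] ≠ ⊤ := fun e =>
  m.norm_ne (ne_bot_of_mem (mem_zpowers a) h) (m.ne_top (solvable_of_abelian inferInstance))
    (top_le_iff.1 (norms_zpowers_of_cent1 e.ge))

theorem norm_eq (hM : IsCoatom M) (hN : N ⊴ M) (h : N ≠ ⊥) : 𝐍(N) = M :=
  (hM.le_iff.1 hN.norm).resolve_left (m.norm_ne h fun e => hM.1 (top_le_iff.1 (e ▸ hN.le)))

/-- some involution `s` of `C(t)` does not centralize `O(C(t))` -/
theorem unb : ∃ s ∈ 𝐂[m.t], Inv2 s ∧ s ≠ m.t ∧ ¬ 𝐎(𝐂[m.t]) ≤ 𝐂[s] := by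
  by_contra e
  refine m.unbal fun t s t2 s2 st => ?_
  obtain ⟨g, rfl⟩ := m.one _ _ m.inv t2
  obtain ⟨s, rfl⟩ := (MulAut.conj g).surjective s
  rw [MulAut.conj_apply] at *
  rw [← cj_centralizer_singleton] at st ⊢
  rw [← cj_piCoreOf, ← cj_centralizer_singleton]
  refine cj_mono g (by_contra fun k => e ⟨s, by simpa [mem_cj, mul_assoc] using st, by simpa [mul_assoc] using s2.conj g⁻¹, ?_, k⟩)
  rintro rfl
  exact k (piCoreOf_le _ _)

/-- all noncentral involutions of `C(t)` act on `O_p(C(t))` for some odd prime `p` -/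
theorem exists_p : ∃ p : ℕ, p.Prime ∧ p ≠ 2 ∧
    ∀ s ∈ 𝐂[m.t], Inv2 s → s ≠ m.t → ¬ piCoreOf {p} 𝐂[m.t] ≤ 𝐂[s] := by
  obtain ⟨s, hs, s2, st, h⟩ := m.unb
  have hO := piCoreOf_normalIn {2}ᶜ 𝐂[m.t]
  have sO := hO.norm hs
  have h1 : ¬ fittingOf 𝐎(𝐂[m.t]) ≤ 𝐂[s] := fun e => h (by
    have hF := hO.fittingOf
    rw [← cent_zpowers s, ← comm_eq_bot_iff, ← (copAct_inv s2.sq (odd_core _) sO).comm_comm, comm_eq_bot_iff, cent_zpowers]
    refine le_trans (le_fittingOf_of_cents (solv_core _) (comm_le_left (zpowers_le.2 sO)) ?_) e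
    exact (commutator_mono le_rfl (zpowers_le.2 (mem_cent_iff_le_cent1.2 e))).trans
      (comm_le_right (hO.le.trans (norms_cent hF.norm))))
  by_contra e
  push Not at e
  refine h1 (fittingOf_le_of_forall_piCoreOf_le fun p hp hd => ?_)
  have p2 : p ≠ 2 := fun k => ((core_pi _).of_le (fittingOf_le _)) p hp hd k
  obtain ⟨u, hu, u2, ut, k⟩ := e p hp p2
  obtain ⟨g, hg, rfl⟩ := m.qdt.conj_cent trivial m.inv ⟨trivial, hu⟩ ⟨trivial, hs⟩ u2 s2 ut st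
  rw [← cj_centralizer_singleton]
  exact (piCoreOf_le_of_normalIn _ hO).trans ((cj_eq_of_mem_normalizer (piCoreOf_norm _ _ hg.2)).ge.trans (cj_mono g k))

/-- TOP: `C(t)` is maximal, or there is a strongly embedded subgroup, or the configuration `A4` -/
theorem top : IsCoatom 𝐂[m.t] ∨ (∃ M, IsCoatom M ∧ 𝐂[m.t] ≤ M ∧ QDT M) ∨ ∃ M r, A4 m.t M r := by
  obtain ⟨M, hM, hH⟩ := exists_isCoatom_ge (m.cent1_ne m.inv.ne)
  obtain ⟨w⟩ := m.sw
  have hS : SylowIn 2 m.S M := m.syl.of_le (m.S_le.trans hH) le_top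
  have tM := hS.le m.tS
  rcases w.types hS m.qd with e | e | ⟨-, N, -, -, ⟨-, -, -, e, -⟩ | ⟨h1, -, e⟩⟩
  rotate_left
  · exact .inr (.inl ⟨M, hM, hH, e⟩)
  · exact absurd (e.of_le (le_inf (inf_le_right.trans hH) inf_le_right)) (m.qdt.nq _ trivial m.inv)
  · obtain ⟨g, hg, k⟩ := w.fuse_y m.syl h1 fun s _ s2 => m.qdt.one _ trivial _ trivial m.inv s2
    exact absurd k (e g (hH hg.2))
  have hO := piCoreOf_normalIn {2}ᶜ M
  have eq : 𝐎(M) ⊔ 𝐂[m.t] = M := le_antisymm (sup_le hO.le hH) fun g hg => by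
    have h1 := Blk.zstar_in hS m.tS m.inv.sq e hg
    obtain ⟨k, hk⟩ := Inv.conj_of_odd m.inv.sq (m.inv.conj g).sq (odd_elt_iff.2 ((core_pi M).piElt h1))
    have h2 := zpow_mem h1 k
    generalize (m.t * (g * m.t * g⁻¹)) ^ k = o at *
    exact (mul_mem_cancel_left (mem_sup_left (inv_mem h2))).1 (mem_sup_right (mem_cent1_iff.2 (by
      calc o⁻¹ * g * m.t = o⁻¹ * (g * m.t * g⁻¹) * g := by group
        _ = _ := by rw [← hk]; group)))
  by_cases e : 𝐎(M) ≤ 𝐂[m.t]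
  · exact .inl (by rwa [← eq, sup_eq_right.2 e] at hM)
  have key : ∀ N, N ⊴ M → N ≤ 𝐂(𝐎(M)) → PiGrp {2}ᶜ N := fun N hN hc =>
    by_contra fun k => e (mem_cent_iff_le_cent1.1 (hc (w.mem_normal hS hN k)))
  have hE : lay M = ⊥ := by_contra fun k => by
    obtain ⟨K, hK⟩ := exists_compIn k
    exact hK.qs.not_solvable (solv_odd (odd_iff.2 ((key _ (lay_normalIn M) (lay_cents_core M)).of_le hK.le_lay)))
  have hF : fittingOf M ≤ 𝐎(M) := le_piCoreOf (fittingOf_normalIn M) (piGrp_fittingOf_of_core_eq_bot (by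
    rw [compl_compl]
    exact (piCoreOf_piGrp _ M).eq_bot (key _ (piCoreOf_normalIn _ M) (piCoreOf_cents_compl _ M))))
  refine .inr (.inr (by_contra fun k => m.inv.not_mem (odd_core M) (hF (zpowers_le.1 ?_))))
  have := le_fstar_of_cents (zpowers_le.2 tM) (by
    rw [fstar_eq, hE, bot_sup_eq, zpowers_le, mem_cent_iff_le_cent1]
    exact fittingOf_le_of_forall_piCoreOf_le fun r hr hd => by_contra fun k' =>
      k ⟨M, r, hM, hH, eq, hE, hF, hr, fun e => ((core_pi M).of_le hF) r hr hd e, k'⟩)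
  rwa [fstar_eq, hE, bot_sup_eq] at this

/-- if `C(t)` is maximal, there is a prime dividing `|O(C(t)) : C(s)|` but not `|G : C(t)|` -/
theorem kill (hH : IsCoatom 𝐂[m.t]) : ∃ p : ℕ, p.Prime ∧ p ≠ 2 ∧ ¬ p ∣ (𝐂[m.t]).index ∧
    ∀ s ∈ 𝐂[m.t], Inv2 s → s ≠ m.t → ¬ piCoreOf {p} 𝐂[m.t] ≤ 𝐂[s] ∧ p ∣ (𝐂[s]).relIndex 𝐎(𝐂[m.t]) := by
  obtain ⟨p, hp, p2, h⟩ := m.exists_p
  have hP := piCoreOf_normalIn {p} 𝐂[m.t]
  have Pp := piCoreOf_piGrp {p} 𝐂[m.t]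
  refine ⟨p, hp, p2, fun hd => ?_, fun s hs s2 st => ⟨h s hs s2 st, by_contra fun k => h s hs s2 st ?_⟩⟩
  · obtain ⟨s, hs, s2, st⟩ := m.qdt.exists_four trivial m.inv
    have hN := m.norm_eq hH hP fun e => h s hs.2 s2 st (e ▸ bot_le)
    obtain ⟨R, hR, -, Rt⟩ := cnt_syl (Y := ⊤) (le_inf le_top hP.le) Pp fun g _ hg => by_contra fun e =>
      h _ (hN ▸ centralizer_le_normalizer _ hg) (m.inv.conj g) e (mem_cent_iff_le_cent1.1 hg)
    exact hR.not_dvd hp (hd.trans (by rw [relIndex_top_right]; exact index_dvd_of_le Rt))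
  · have PO : piCoreOf {p} 𝐂[m.t] ≤ 𝐎(𝐂[m.t]) := piCoreOf_mono_pi (by simpa using Ne.symm p2) _
    obtain ⟨R, hR⟩ := exists_sylowIn p (𝐎(𝐂[m.t]) ⊓ 𝐂[s])
    exact ((hR.of_not_dvd_relIndex inf_le_left hp (by rwa [inf_relIndex_left])).normal_le
      ⟨PO, (piCoreOf_le _ _).trans hP.norm⟩ Pp).trans (hR.le.trans inf_le_right)

end Min

end CA.ABG
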