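/-
Alperin–Brauer–Gorenstein theorem: the two local hypotheses used to exclude the configuration `A4`.
-/
import Cfsg.Agent.Lib.ABG.Top
import Cfsg.Agent.Lib.ABG.RelZJ

set_option autoImplicit false

namespace CA.ABG

open Cfsg CA CA.FStar CA.Loc CA.GW Subgroup

/-- no root group exception for the prime `r` -/
def LL0 (G : Type*) [Group G] (r : ℕ) : Prop :=
  ∀ a b : G, Inv2 a → Inv2 b → a ∈ 𝐂[b] → ∀ Y ≤ 𝐂[b], Odd (Nat.card Y) → 𝐂[b] ⊓ 𝐂[a] ≤ 𝐍(Y) →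
    ∀ R ≤ ⁅Y, zpowers a⁆, PiGrp {r} R → R ≤ 𝐎(𝐂[b])

/-- the odd order subgroup `O(L) O(C_L(a)) O(C(V))` -/
def Ex {G : Type*} [Group G] (V L : Subgroup G) (a : G) : Subgroup G := 𝐎(L) ⊔ 𝐎(L ⊓ 𝐂[a]) ⊔ 𝐎(𝐂(V))

/-- the relative ZJ-theorem for the maximal subgroups of characteristic `r` containing `C(V)` -/
def RZ (G : Type*) [Group G] (r : ℕ) : Prop :=
  ∀ (V L : Subgroup G) (a : G) (R : Subgroup G), Four V → a ∈ V → a ≠ 1 → IsCoatom L → 𝐂(V) ≤ L →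
    L ⊓ 𝐂(piCoreOf {r} L) ≤ piCoreOf {r} L → SylowIn r R (Ex V L a) → L ≤ 𝐍(𝐙(Je r R))

section
variable {G : Type*} [Group G] [Finite G] {V L : Subgroup G} {a : G}

theorem Ex.norm (ha : a ∈ V) (hL : 𝐂(V) ≤ L) : 𝐂(V) ≤ 𝐍(Ex V L a) :=
  norms_sup (norms_sup (hL.trans (piCoreOf_norm _ _)) ((le_inf hL (cent_le_cent1 ha)).trans (piCoreOf_norm _ _)))
    (piCoreOf_norm _ _)

theorem Ex.le (hL : 𝐂(V) ≤ L) : Ex V L a ≤ L :=
  sup_le (sup_le (piCoreOf_le _ _) ((piCoreOf_le _ _).trans inf_le_left)) ((piCoreOf_le _ _).trans hL)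

theorem Ex.odd (ha : a ∈ V) (hL : 𝐂(V) ≤ L) : PiGrp {2}ᶜ (Ex V L a) := by
  have h := (piCoreOf_le {2}ᶜ _).trans (le_inf hL (cent_le_cent1 ha))
  rw [Ex, sup_assoc]
  exact (core_pi _).sup ((core_pi _).sup (core_pi _) (.inl (h.trans (piCoreOf_norm _ _))))
    (.inl ((sup_le (piCoreOf_le _ _) h).trans (inf_le_left.trans (piCoreOf_norm _ _))))

end

end CA.ABG
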