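/-
Alperin–Brauer–Gorenstein theorem, `C(t)` maximal, semidihedral case with `q > 3`: the hypotheses of the local analysis.
-/
import Cfsg.Agent.Lib.GW.Basic

set_option autoImplicit false

namespace CA.ABG

open Cfsg CA CA.FStar CA.GW Subgroup

/-- The fact on proper subgroups `Y ⊇ D₈ = ⟨s, σ⟩` with `t = σ² ∉ Z*(Y)`. -/
def KG {G : Type*} [Group G] (t s σ : G) : Prop :=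
  ∀ Y N F : Subgroup G, Y ≠ ⊤ → s ∈ Y → σ ∈ Y → ¬ Y ≤ 𝐎(Y) ⊔ (Y ⊓ 𝐂[t]) → N ⊴ Y → 𝐎(Y) ≤ N → t ∈ N →
    F ⊴ Y ⊓ 𝐂[t] → Group.IsNilpotent F → Odd (Nat.card F) →
    (∃ v, (v = s ∨ v = s * σ) ∧ v ∈ N ∧ ⁅F, zpowers v⁆ ≤ 𝐎(Y)) ∨
    ((∃ a ∈ F, F ≤ 𝐎(Y) ⊔ zpowers a) ∧ ⁅F, zpowers σ⁆ ≤ 𝐎(Y) ∧ Group.IsSolvable ↥(Y ⊓ 𝐂[t]) ∧
      (σ ∈ N ∨ ∃ v, (v = s ∨ v = s * σ) ∧ ∃ g ∈ N, g * t * g⁻¹ = v))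

/-- `H = C(t)` is maximal, `⟨s, σ⟩ ≅ D₈`, `⟨σ, e⟩ ≅ Q₈`. -/
structure T1 (G : Type*) [Group G] where
  t : G
  s : G
  σ : G
  e : G
  simple : IsSimpleGroup G
  coatom : IsCoatom 𝐂[t]
  t2 : Inv2 t
  s2 : Inv2 s
  σσ : σ * σ = t
  σs : σ * s * σ⁻¹ = s * t
  ee : e * e = t
  eσ : e * σ * e⁻¹ = σ⁻¹
  one : ∀ u : G, Inv2 u → ∃ g, g * t * g⁻¹ = u
  conj : ∀ u ∈ 𝐂[t], Inv2 u → u ≠ t → ∃ g ∈ 𝐂[t], g * s * g⁻¹ = u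
  c1 : ∃ g ∈ 𝐂[t], g * σ * g⁻¹ = e
  c2 : ∃ g ∈ 𝐂[t], g * σ * g⁻¹ = σ * e
  nn : ∀ N : Subgroup G, N ⊴ 𝐂[t] → σ ∈ N → ¬ Group.IsSolvable N
  kg : KG t s σ

end CA.ABG
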