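/-
Alperin–Brauer–Gorenstein theorem, semidihedral case: proper subgroups containing `D₈` in which `t` is not isolated.
-/
import Cfsg.Agent.Lib.ABG.Sub
import Cfsg.Agent.Lib.ABG.SylG
import Cfsg.Agent.Lib.ABG.T1d

set_option autoImplicit false
set_option linter.unusedSectionVars false

namespace CA.ABG

open Cfsg CA CA.FStar CA.GW Subgroup

universe u

/-- the 2-elements centralizing a four-group are involutions -/
def SDP {G : Type*} [Group G] (X : Subgroup G) : Prop :=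
  ∀ V ≤ X, Four V → ∀ x ∈ X ⊓ 𝐂(V), PiElt {2} x → x * x = 1

/-- `⟨s, σ⟩ ≅ D₈` with centre `⟨t⟩` -/
structure D8 {G : Type*} [Group G] (t s σ : G) : Prop where
  t2 : Inv2 t
  s2 : Inv2 s
  σσ : σ * σ = t
  σs : σ * s * σ⁻¹ = s * t

section
variable {G : Type*} [Group G] [Finite G] {S T X Y K N O F U V : Subgroup G} {t s σ u v g : G}

namespace D8
variable (d : D8 t s σ)
include d

theorem st : s * t = t * s := by
  have := (d.s2.conj σ).sq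
  rw [d.σs] at this
  rw [eq_inv_of_mul_eq_one_left this, _root_.mul_inv_rev, d.s2.inv, d.t2.inv]

theorem σt : σ * t = t * σ := by rw [← d.σσ, mul_assoc]

theorem nc : s * σ ≠ σ * s := fun e => d.t2.ne (mul_left_cancel (a := s) (by rw [← d.σs, ← e]; group))

theorem ne : s ≠ t := fun e => d.nc (by rw [e, d.σt])

theorem sσ2 : Inv2 (s * σ) := by
  refine ⟨?_, fun e => d.nc (by rw [e, eq_inv_of_mul_eq_one_left e, mul_inv_cancel])⟩
  calc s * σ * (s * σ) = s * (σ * s * σ⁻¹) * (σ * σ) := by group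
    _ = 1 := by rw [d.σs, d.σσ, ← mul_assoc, d.s2.sq, one_mul, d.t2.sq]

theorem two : PiElt {2} σ :=
  fun p hp h => (Nat.prime_dvd_prime_iff_eq hp Nat.prime_two).1 (hp.dvd_of_dvd_pow (n := 2)
    (h.trans (orderOf_dvd_of_pow_eq_one (by rw [show 2 ^ 2 = 2 * 2 from rfl, pow_mul, pow_two σ, d.σσ, pow_two, d.t2.sq]))))

theorem norm : zpowers s ≤ 𝐍(zpowers σ) := zpowers_le.2 (mem_normalizer_of_cj_le (by
  rw [cj_zpowers, show s * σ * s⁻¹ = σ⁻¹ by rw [d.s2.inv, ← mul_eq_one_iff_eq_inv, mul_assoc]; exact d.sσ2.sq]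
  exact zpowers_le.2 (inv_mem (mem_zpowers σ))))

theorem piGrp : PiGrp {2} (zpowers σ ⊔ zpowers s) := (piGrp_zpowers.2 d.two).sup d.s2.piGrp (.inl d.norm)

theorem four : ∃ V, Four V ∧ ∀ x, x ∈ V ↔ x = 1 ∨ x = t ∨ x = s ∨ x = t * s := four_of d.t2 d.s2 d.ne.symm d.st.symm

theorem quo (ho : PiGrp {2}ᶜ O) (hs : s ∈ 𝐍(O)) (hσ : σ ∈ 𝐍(O)) : D8 (qel O t) (qel O s) (qel O σ) := by
  have hk : PiGrp {2}ᶜ (pker (qmk O)) := by rw [pker_qmk]; exact ho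
  have ht : t ∈ 𝐍(O) := d.σσ ▸ mul_mem hσ hσ
  refine ⟨d.t2.pm ht hk, d.s2.pm hs hk, by rw [← pel_mul _ hσ hσ, d.σσ], ?_⟩
  rw [← pel_inv _ hσ, ← pel_mul _ hσ hs, ← pel_mul _ (mul_mem hσ hs) (inv_mem hσ), d.σs, pel_mul _ hs ht]

/-- if `s` and `sσ` both swap `u` and `u'`, then `σ` fixes `u` -/
theorem fix {u' : G} (h1 : s * u * s⁻¹ = u') (h2 : s * σ * u * (s * σ)⁻¹ = u') : σ * u = u * σ := by
  rw [← h1, mul_assoc s, _root_.mul_inv_rev, ← mul_assoc, mul_left_inj, mul_assoc, mul_right_inj] at h2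
  exact mul_inv_eq_iff_eq_mul.1 h2

end D8

theorem SDP.of_le (h : SDP X) (hY : Y ≤ X) : SDP Y := fun V hV V4 x hx => h V (hV.trans hY) V4 x ⟨hY hx.1, hx.2⟩

theorem SDP.quo (h : SDP X) (hO : O ⊴ X) (ho : PiGrp {2}ᶜ O) : SDP (X /ₛ O) := fun U hU U4 x hx x2 => by
  obtain ⟨V, hV, V4, rfl⟩ := lift_four hO.norm ho U4 hU
  rw [← (copAct_p_right (hV.trans hO.norm) ho V4.piGrp).quo_inf_cent_ker (hV.trans le_normalizer)] at hx
  obtain ⟨y, hy, y2, rfl⟩ := exists_piElt_pel (inf_le_left.trans hO.norm) hx x2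
  rw [← pel_mul _ (hO.norm hy.1) (hO.norm hy.1), h V hV V4 y hy y2, pel_one]

theorem SW.sdp (w : SW S t) (hS : SylowIn 2 S X) (hA : w.A = zpowers w.x) (hz : w.z = t) : SDP X := fun V hV V4 x hx x2 => by
  obtain ⟨g, -, e⟩ := hS.exists_cj_le (V4.piGrp.sup (piGrp_zpowers.2 x2) (.inl (norms_of_cents (zpowers_le.2 hx.2))))
    (sup_le hV (zpowers_le.2 hx.1))
  have k := cj_le_iff'.1 e
  obtain ⟨v, hv, v1, vt⟩ := (V4.cj g).exists (w.four_mem (V4.cj g) ((cj_mono g le_sup_left).trans e))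
  have v2 := (V4.cj g).inv2 hv v1
  obtain ⟨v, hv', rfl⟩ := mem_cj'.1 hv
  have vS := k v (mem_sup_left hv')
  have xS := k x (mem_sup_right (mem_zpowers x))
  have vA : g * v * g⁻¹ ∉ w.A := fun e => vt (w.eq_t_of_cyc hA e v2)
  have c : g * v * g⁻¹ * (g * x * g⁻¹) = g * x * g⁻¹ * (g * v * g⁻¹) := by rw [conj_mul, conj_mul, mem_cent_iff.1 hx.2 v hv']
  have sq : ∀ a ∈ zpowers w.z, a * a = 1 := fun a ha => by
    rw [hz] at ha
    rcases (mem_zpowers_sq w.t2.sq).1 ha with rfl | rfl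
    exacts [one_mul _, w.t2.sq]
  rw [← conj_eq_one_iff (a := g), ← conj_mul]
  generalize g * v * g⁻¹ = b at *
  generalize g * x * g⁻¹ = a at *
  by_cases e : a ∈ w.A
  · exact sq _ (w.cen_out vS vA e c)
  · have := sq _ (w.cen_out vS vA (w.out_mul vS xS vA e) (by rw [mul_assoc, ← c]))
    rwa [mul_assoc, ← mul_assoc a, ← c, ← mul_assoc, ← mul_assoc, v2.sq, one_mul] at this

/-- a subgroup of a semidihedral group containing a noncentral involution is dihedral or everything -/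
theorem SW.dih_or (w : SW S t) (hA : w.A = zpowers w.x) (hz : w.z = t) (TS : T ≤ S) (vT : v ∈ T) (v2 : Inv2 v)
    (vt : v ≠ t) : T = S ∨ Dih T (T ⊓ w.A) := by
  have vA : v ∉ w.A := fun e => vt (w.eq_t_of_cyc hA e v2)
  by_cases e : w.x ∈ T
  · refine .inl (le_antisymm TS fun a ha => ?_)
    have AT : w.A ≤ T := hA ▸ zpowers_le.2 e
    by_cases k : a ∈ w.A
    exacts [AT k, (mul_mem_cancel_right vT).1 (AT (w.out_mul ha (TS vT) k vA))]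
  refine .inr ⟨inf_le_left, cyclic_of_le (hA ▸ inferInstance) inf_le_right, idx_two inf_le_left vT (fun e => vA e.2)
    fun b hb => ?_, fun s hs sA => ?_⟩
  · by_cases k : b ∈ w.A
    exacts [.inl ⟨hb, k⟩, .inr ⟨mul_mem hb vT, w.out_mul (TS hb) (TS vT) k vA⟩]
  have h1 := w.out_mul (TS vT) (TS hs) vA fun e => sA ⟨hs, e⟩
  have h2 := w.cj_out (TS vT) vA h1
  obtain ⟨n, hn⟩ := (mem_powers_iff_mem_zpowers.2 (hA ▸ h1) : v * s ∈ Submonoid.powers w.x)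
  replace hn : w.x ^ n = v * s := hn
  rcases Nat.even_or_odd n with ⟨j, rfl⟩ | ho
  · have h3 : w.y * (v * s) * w.y⁻¹ = (v * s)⁻¹ := by
      rw [← hn, ← conj_pow, w.yx', w.cxz.inv_left.mul_pow, ← two_mul, pow_mul w.z, pow_two, hz, w.t2.sq, one_pow,
        mul_one, inv_pow]
    rw [h3, ← mul_assoc, v2.sq, one_mul, _root_.mul_inv_rev, mul_left_inj] at h2
    nth_rewrite 1 [h2]; exact inv_mul_cancel s
  · refine absurd (zpowers_le.2 (hn ▸ mul_mem vT hs : w.x ^ n ∈ T) (mem_zpowers_pow_iff.2 ?_)) e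
    exact Nat.eq_one_iff_not_exists_prime_dvd.2 fun p hp hd => (Nat.not_even_iff_odd.2 ho) (even_iff_two_dvd.2
      ((w.two.piElt (w.le w.xA) p hp (hd.trans (Nat.gcd_dvd_right _ _)) : p = 2) ▸ hd.trans (Nat.gcd_dvd_left _ _)))

/-- the structure of a group of 2-rank two with `O(X) = 1` -/
theorem QG.str (h : QG X) (hO : 𝐎(X) = ⊥) (hX : X ≠ ⊥) : (∃ z ∈ X, Inv2 z ∧ X ≤ 𝐂[z]) ∨ (∃ U, Four U ∧ U ⊴ X) ∨
    ∃ K, K ⊴ X ∧ QS K ∧ X ⊓ 𝐂(K) = ⊥ ∧ (∃ U ≤ K, Four U) ∧ ∀ N, N ⊴ X → N ≠ ⊥ → K ≤ N := by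
  by_cases e : piCoreOf {2} X = ⊥
  swap
  · have T2 := piCoreOf_piGrp {2} X
    have hZ : 𝐙(piCoreOf {2} X) ⊴ X := ⟨inf_le_left.trans (piCoreOf_le _ _), norms_inf (piCoreOf_norm _ _)
      (norms_cent (piCoreOf_norm _ _))⟩
    rcases four_or_isol hZ (fun k => center_ne_bot_nil T2.nilpotent e ((T2.inf_left _).eq_bot k)) with
      ⟨U, hU, U4⟩ | ⟨z, hz, z2, k⟩
    · refine .inr (.inl ⟨U, U4, hU.trans hZ.le, fun g hg => mem_normalizer_of_cj_le (cj_le_iff'.2 fun x hx => ?_)⟩)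
      have k := conj_mem_of_mem_normalizer (hZ.norm hg) (hU hx)
      exact h.rk U (hU.trans hZ.le) U4 _ (hZ.le k) (by rw [conj_mul, U4.sq x hx]; simp)
        (cent_mono (hU.trans inf_le_left) k.2)
    · exact .inl ⟨z, hZ.le hz, z2, fun g hg => mem_cent1_iff.2 (isol_comm z2 (mem_bot.1 (hO ▸ k g hg)))⟩
  have hF : fittingOf X = ⊥ := (piGrp_fittingOf_of_core_eq_bot hO).eq_bot
    (piGrp_fittingOf_of_core_eq_bot (by rw [compl_compl]; exact e))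
  have sv : ∀ N, SubnormalIn N X → Group.IsSolvable N → N = ⊥ := fun N hN hs =>
    (fittingOf_eq_bot_iff hs).1 (le_bot_iff.1 (hF ▸ fittingOf_mono_subnormal hN))
  have hE : lay X ≠ ⊥ := fun k => fstar_ne_bot hX (by rw [fstar_eq, k, hF, bot_sup_eq])
  obtain ⟨K, hK⟩ := exists_compIn hE
  have OK : 𝐎(K) = ⊥ := sv _ ((piCoreOf_normalIn _ K).subnormalIn.trans hK.1) (solv_core K)
  have ZK : K ⊓ 𝐂(K) = ⊥ := sv _ ((NormalIn.refl K).cent.subnormalIn.trans hK.1)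
    (solvable_of_abelian (abelian_iff.2 (inf_le_right.trans (cent_mono inf_le_left))))
  obtain ⟨U, hU, U4⟩ := (four_or_isol (NormalIn.refl K) fun k => hK.qs.not_solvable (solv_odd (odd_iff.2 k))).resolve_right
    fun ⟨z, hz, z2, k⟩ => z2.ne (mem_bot.1 (ZK ▸ mem_inf.2 ⟨hz, mem_cent_iff.2 fun g hg => isol_comm z2 (mem_bot.1 (OK ▸ k g hg))⟩))
  have KX : K ⊴ X := by
    have : lay X = K := le_antisymm (lay_le_iff.2 fun K' hK' => (hK'.eq_or_cents hK).elim le_of_eq fun k =>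
      absurd (h.solv (hU.trans hK.le) U4 hK'.le (k.trans (cent_mono hU))) hK'.qs.not_solvable) hK.le_lay
    exact this ▸ lay_normalIn X
  have hC : X ⊓ 𝐂(K) = ⊥ := sv _ KX.cent.subnormalIn
    (h.solv (hU.trans hK.le) U4 inf_le_left (inf_le_right.trans (cent_mono hU)))
  refine .inr (.inr ⟨K, KX, hK.qs, hC, ⟨U, hU, U4⟩, fun N hN N1 => ?_⟩)
  rcases hK.qs.normal (normalIn_inf_of_norm (KX.le.trans hN.norm)) with k | k
  · refine absurd (le_bot_iff.1 (hC ▸ le_inf hN.le (comm_eq_bot_iff.1 (le_bot_iff.1 ?_)))) N1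
    rw [← ZK]
    have := le_inf (comm_le_right (hN.le.trans KX.norm)) (comm_le_left (KX.le.trans hN.norm))
    exact le_inf (this.trans inf_le_left) (this.trans k)
  · exact k.ge.trans inf_le_right

theorem cube_conj (hu : orderOf u = 3) (hg : g ∈ 𝐍(zpowers u)) : g * u * g⁻¹ = u ∨ g * u * g⁻¹ = u⁻¹ := by
  classical
  obtain ⟨k, hk, e⟩ := Finset.mem_image.1 (mem_zpowers_iff_mem_range_orderOf.1 (conj_mem_of_mem_normalizer hg (mem_zpowers u)))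
  rw [hu, Finset.mem_range] at hk
  interval_cases k
  · rw [pow_zero, eq_comm, conj_eq_one_iff] at e
    simp [e] at hu
  · exact .inl (e.symm.trans (pow_one u))
  · exact .inr (e.symm.trans (eq_inv_of_mul_eq_one_left (by rw [← pow_succ]; exact (congrArg (u ^ ·) hu).symm.trans (pow_orderOf_eq_one u))))

/-- the case of a dihedral Sylow 2-subgroup -/
theorem D8.kg_d (d : D8 t s σ) (h : DSyl X) (KX : K ⊴ X) (hq : QS K) (hC : X ⊓ 𝐂(K) = ⊥) (hs : s ∈ X) (hσ : σ ∈ X)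
    (hF : F ⊴ X ⊓ 𝐂[t]) (Fn : Group.IsNilpotent F) (Fo : Odd (Nat.card F)) :
    (∃ v, (v = s ∨ v = s * σ) ∧ v ∈ K ∧ F ≤ 𝐂[v]) ∨
    (IsCyclic F ∧ F ≤ 𝐂[σ] ∧ (σ ∈ K ∨ ∃ v, (v = s ∨ v = s * σ) ∧ ∃ g ∈ K, g * t * g⁻¹ = v)) := by
  have ht : t ∈ X := d.σσ ▸ mul_mem hσ hσ
  have σt := mem_cent1_iff.2 d.σt
  have st := mem_cent1_iff.2 d.st
  have dK := ((dg_of h).of_le KX.le).dsyl hq.not_solvable
  haveI := qs_simple hq (le_bot_iff.1 ((inf_le_inf_right _ KX.le).trans hC.le))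
  rcases known_of (fun _ _ _ m => m.false) K (by rw [← der_subgroupOf, hq.der, subgroupOf_self]) dK.top with ⟨q, k⟩ | k
  · obtain ⟨P, k⟩ := GW.l2t KX hC h k
    obtain ⟨T, -, d1, d2, -, -, -, hT⟩ := k.tor t ht d.t2
    have FT := hT F hF.le Fn Fo ((d2.le.trans (inf_le_inf_right _ KX.le)).trans hF.norm)
    have σP := k.two_mem hσ d.two
    have σT := d1.mem_of_sq ⟨σP, σt⟩ (d.σσ ▸ d.t2.ne)
    refine .inr ⟨cyclic_of_le d2.cyc FT, fun x hx => mem_cent1_iff.2 (d1.comm (FT hx).2 σT), ?_⟩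
    by_cases e : σ ∈ K
    · exact .inl e
    have i2 := k.idx.resolve_left fun i => e (relIndex_eq_one.1 i σP)
    have tK : t ∈ K := d.σσ ▸ mul_mem_of_idx2 i2 σP σP e e
    by_cases e' : s ∈ K
    · exact .inr ⟨s, .inl rfl, dK.conj hq.der tK e' d.t2 d.s2⟩
    · exact .inr ⟨_, .inr rfl, dK.conj hq.der tK (mul_mem_of_idx2 i2 (k.two_mem hs d.s2.piElt) σP e' e) d.t2 d.sσ2⟩
  · obtain ⟨rfl, k⟩ := a7t KX hC h k
    obtain ⟨-, u, -, -, hu, e, -⟩ := k.cen t ht d.t2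
    have Fu : F ≤ zpowers u := e ▸ le_piCoreOf hF (odd_iff.1 Fo)
    have n : X ⊓ 𝐂[t] ≤ 𝐍(zpowers u) := e ▸ piCoreOf_norm _ _
    have c : ∀ v, v * u = u * v → F ≤ 𝐂[v] := fun v e => Fu.trans (zpowers_le.2 (mem_cent1_iff.2 e.symm))
    rcases cube_conj hu (n ⟨hs, st⟩) with e1 | e1
    · exact .inl ⟨s, .inl rfl, hs, c s (mul_inv_eq_iff_eq_mul.1 e1)⟩
    rcases cube_conj hu (n (mul_mem ⟨hs, st⟩ ⟨hσ, σt⟩)) with e2 | e2
    · exact .inl ⟨_, .inr rfl, mul_mem hs hσ, c _ (mul_inv_eq_iff_eq_mul.1 e2)⟩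
    · exact .inr ⟨cyclic_of_le inferInstance Fu, c σ (d.fix e1 e2), .inl hσ⟩

theorem D8.eq_t (d : D8 t s σ) (h : QG X) (hs : s ∈ X) (hσ : σ ∈ X) (hu : u ∈ X) (u2 : Inv2 u) (h1 : s ∈ 𝐂[u])
    (h2 : σ ∈ 𝐂[u]) : u = t := by
  obtain ⟨V, V4, hV⟩ := d.four
  have le : ∀ Y : Subgroup G, s ∈ Y → σ ∈ Y → V ≤ Y := fun Y hs hσ x hx => by
    have ht : t ∈ Y := d.σσ ▸ mul_mem hσ hσ
    rcases (hV x).1 hx with rfl | rfl | rfl | rfl
    exacts [one_mem _, ht, hs, mul_mem ht hs]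
  rcases (hV u).1 (h.rk V (le X hs hσ) V4 u hu u2.sq (mem_cent_iff_le_cent1.2 (le _ h1 h2))) with e | e | rfl | rfl
  · exact absurd e u2.ne
  · exact e
  · exact absurd (mem_cent1_iff.1 h2).symm d.nc
  · refine absurd (mul_left_cancel (a := t) ?_) d.nc
    rw [← mul_assoc, ← mem_cent1_iff.1 h2, ← mul_assoc, d.σt, mul_assoc]

end

theorem D8.kg0 {G : Type u} [Group G] [Finite G] {X N F : Subgroup G} {t s σ : G} {n : ℕ} (d : D8 t s σ) (h : QG X)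
    (sd : SDP X) (hS : DSyl X ∨ QSyl X) (hO : 𝐎(X) = ⊥)
    (ind : ∀ (K : Type u) [Group K] [Finite K] [IsSimpleGroup K], Nat.card K < n → QSyl (⊤ : Subgroup K) → Bal K)
    (hn : Nat.card X < n) (hs : s ∈ X) (hσ : σ ∈ X) (nc : ¬ X ≤ 𝐂[t]) (hN : N ⊴ X) (tN : t ∈ N)
    (hF : F ⊴ X ⊓ 𝐂[t]) (Fn : Group.IsNilpotent F) (Fo : Odd (Nat.card F)) :
    (∃ v, (v = s ∨ v = s * σ) ∧ v ∈ N ∧ F ≤ 𝐂[v]) ∨ (IsCyclic F ∧ F ≤ 𝐂[σ] ∧ Group.IsSolvable ↥(X ⊓ 𝐂[t]) ∧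
      (σ ∈ N ∨ ∃ v, (v = s ∨ v = s * σ) ∧ ∃ g ∈ N, g * t * g⁻¹ = v)) := by
  have ht : t ∈ X := hN.le tN
  have σt := mem_cent1_iff.2 d.σt
  have st := mem_cent1_iff.2 d.st
  have DX : zpowers σ ⊔ zpowers s ≤ X := sup_le (zpowers_le.2 hσ) (zpowers_le.2 hs)
  have sD : s ∈ zpowers σ ⊔ zpowers s := mem_sup_right (mem_zpowers s)
  have σD : σ ∈ zpowers σ ⊔ zpowers s := mem_sup_left (mem_zpowers σ)
  have FX := hF.le.trans inf_le_left
  rcases h.str hO (ne_bot_of_mem ht d.t2.ne) with ⟨z, hz, z2, e⟩ | ⟨U, U4, hU⟩ | ⟨K, KX, hq, hC, ⟨U, hU, U4⟩, KN⟩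
  · exact absurd (d.eq_t h hs hσ hz z2 (e hs) (e hσ) ▸ e) nc
  · have hz := DX.trans hU.norm
    obtain ⟨v, hv, v1⟩ := exists_ne_one_mem' (meet_center_nil (U4.piGrp.sup d.piGrp (Or.inl hz)).nilpotent
      (normalIn_sup_left hz) U4.nb)
    have c : ∀ x ∈ zpowers σ ⊔ zpowers s, x ∈ 𝐂[v] := fun x hx =>
      mem_cent1_iff.2 (mem_cent_iff.1 hv.2.2 x (mem_sup_right hx))
    have tU : t ∈ U := d.eq_t h hs hσ (hU.le hv.1) (U4.inv2 hv.1 v1) (c s sD) (c σ σD) ▸ hv.1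
    obtain ⟨g, hg, gt⟩ := SetLike.not_le_iff_exists.1 nc
    have u2 := d.t2.conj g
    have uU := conj_mem_of_mem_normalizer (hU.norm hg) tU
    have ut : t ≠ g * t * g⁻¹ := fun e => gt (mem_cent1_iff.2 (mul_inv_eq_iff_eq_mul.1 e.symm))
    have UN : U ≤ N := U4.le_of tU uU d.t2.ne u2.ne ut tN (conj_mem_of_mem_normalizer (hN.norm hg) tN)
    have F0 : F = ⊥ := ((npc_two (h.npc U hU.le U4) (le_bot_iff.1 (hO ▸ piCoreOf_le_of_normalIn _ hU.cent))).of_le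
      fun y hy => ⟨FX hy, U4.cents_odd (hU.norm (FX hy)) (odd_elt_iff.2 ((odd_iff.1 Fo).piElt hy)) tU d.t2.ne
        (hF.le hy).2⟩).eq_bot (odd_iff.1 Fo)
    generalize g * t * g⁻¹ = u at *
    have cU : ∀ x ∈ 𝐂[t], x * u = u * x → x ∈ 𝐂(U) := fun x hx e => mem_cent_iff_le_cent1.2
      (U4.le_of tU uU d.t2.ne u2.ne ut (mem_cent1_iff.2 (mem_cent1_iff.1 hx).symm) (mem_cent1_iff.2 e.symm))
    have key : ∀ x ∈ X ⊓ 𝐂[t], Inv2 x → x ∈ N ∨ x * u * x⁻¹ = t * u := fun x hx x2 => by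
      rcases (U4.mem tU uU d.t2.ne u2.ne ut _).1 (conj_mem_of_mem_normalizer (hU.norm hx.1) uU) with e | e | e | e
      · exact absurd e (u2.conj x).ne
      · exact absurd (mul_left_cancel (mul_right_cancel (e.trans (mul_inv_eq_iff_eq_mul.2
          (mem_cent1_iff.1 hx.2)).symm))).symm ut
      · exact .inl (UN (h.rk U hU.le U4 x hx.1 x2.sq (cU x hx.2 (mul_inv_eq_iff_eq_mul.1 e))))
      · exact .inr e
    rcases key s ⟨hs, st⟩ d.s2 with e1 | e1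
    · exact .inl ⟨s, .inl rfl, e1, F0 ▸ bot_le⟩
    rcases key _ ⟨mul_mem hs hσ, mul_mem st σt⟩ d.sσ2 with e2 | e2
    · exact .inl ⟨_, .inr rfl, e2, F0 ▸ bot_le⟩
    exact absurd (d.σσ.symm.trans (sd U hU.le U4 σ ⟨hσ, cU σ σt (d.fix e1 e2)⟩ d.two)) d.t2.ne
  replace KN := KN N hN (ne_bot_of_mem tN d.t2.ne)
  have fin : ∀ {Y : Subgroup G}, DSyl Y → K ⊴ Y → Y ≤ X → s ∈ Y → σ ∈ Y → F ≤ Y → Group.IsSolvable ↥(X ⊓ 𝐂[t]) →
      (∃ v, (v = s ∨ v = s * σ) ∧ v ∈ N ∧ F ≤ 𝐂[v]) ∨ (IsCyclic F ∧ F ≤ 𝐂[σ] ∧ Group.IsSolvable ↥(X ⊓ 𝐂[t]) ∧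
        (σ ∈ N ∨ ∃ v, (v = s ∨ v = s * σ) ∧ ∃ g ∈ N, g * t * g⁻¹ = v)) := fun hY KY YX hs hσ FY sv => by
    rcases d.kg_d hY KY hq (le_bot_iff.1 (hC ▸ inf_le_inf_right _ YX)) hs hσ
      ⟨le_inf FY (hF.le.trans inf_le_right), (inf_le_inf_right _ YX).trans hF.norm⟩ Fn Fo with
      ⟨v, h1, h2, h3⟩ | ⟨h1, h2, h3 | ⟨v, h4, g, h5, h6⟩⟩
    exacts [.inl ⟨v, h1, KN h2, h3⟩, .inr ⟨h1, h2, sv, .inl (KN h3)⟩, .inr ⟨h1, h2, sv, .inr ⟨v, h4, g, KN h5, h6⟩⟩]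
  rcases hS with hS | hS
  · exact fin hS KX le_rfl hs hσ FX ((dg_of hS).solv ht d.t2 inf_le_left inf_le_right)
  obtain ⟨S, t', hS, DS, ⟨w⟩⟩ := hS.exists d.piGrp DX
  rcases w.typ with ⟨hA, hz⟩ | ⟨-, e⟩
  swap
  · obtain ⟨c, hc, e⟩ := w.exists_four_elt e
    obtain ⟨g, -, k⟩ := hS.exists_cj_le U4.piGrp (hU.trans KX.le)
    have cS := w.le (w.Z_le hc)
    exact absurd (e.symm.trans (sd _ (k.trans hS.le) (U4.cj g) c (mem_inf.2 ⟨hS.le cS, cent_mono k (w.Z_cent hc)⟩)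
      (w.two.piElt cS))) w.t2.ne
  obtain rfl : t = t' := w.eq_t_of_cyc hA (d.σσ ▸ w.sq_mem (DS σD)) d.t2
  have hni : ∃ g ∈ X, g * t * g⁻¹ ∈ S ∧ g * t * g⁻¹ ≠ t := by
    by_contra e
    push Not at e
    exact nc fun g hg => mem_cent1_iff.2 (isol_comm d.t2 (mem_bot.1 (hO ▸ Blk.zstar_in hS w.tS d.t2.sq e hg)))
  have cK : ∀ g ∈ X, ∀ x ∈ K, g * x * g⁻¹ ∈ K := fun g hg x hx => conj_mem_of_mem_normalizer (KX.norm hg) hx
  have tK : t ∈ K := by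
    obtain ⟨g, hg, e⟩ := hS.exists_cj_le U4.piGrp (hU.trans KX.le)
    exact cj_le_iff'.2 (fun x hx => cK g hg x (hU hx)) (w.four_mem (U4.cj g) e)
  have iK : ∀ u ∈ X, Inv2 u → u ∈ K := fun u hu u2 => by
    obtain ⟨g, hg, rfl⟩ := w.one_of hS hni (w.hy_sd hS hA hni) hu u2
    exact cK g hg t tK
  have sK := iK s hs d.s2
  haveI := qs_simple hq (le_bot_iff.1 ((inf_le_inf_right _ KX.le).trans hC.le))
  rcases (h.of_le KX.le).syl hq with k | k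
  · have FK := FX.trans KX.norm
    refine fin (Y := K ⊔ F) ?_ (normalIn_sup_left FK) (sup_le KX.le FX) (mem_sup_left sK)
      (mem_sup_left ((mul_mem_cancel_left sK).1 (iK _ (mul_mem hs hσ) d.sσ2))) le_sup_right ?_
    · obtain ⟨T, R, hT, e⟩ := k
      exact ⟨T, R, hT.trans_relIndex le_sup_left (by rw [relIndex_sup_of_norm FK]; exact (odd_iff.1 Fo).relIndex K), e⟩
    have SK := hS.le.trans KX.norm
    refine solvable_of_ker_of_pmap (f := qmk K) (inf_le_left.trans KX.norm) (by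
      rw [pker_qmk]; exact (dg_of k).solv tK d.t2 inf_le_left (inf_le_right.trans inf_le_right))
      (solvable_of_le (solv_of_npc (npc_cyc (hS.quo SK) (cyclic_of_le (cyclic_quo (hA ▸ inferInstance : IsCyclic w.A) K)
        ((quo_le_quo_iff SK (w.le.trans SK)).2 fun a ha => ?_)))) (quo_mono K inf_le_left))
    by_cases e : a ∈ w.A
    · exact mem_sup_right e
    · exact (mul_mem_cancel_right (mem_sup_left (iK _ (hS.le w.yS) w.y_inv2))).1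
        (mem_sup_right (w.out_mul ha w.yS e w.yA))
  · refine .inl ⟨s, .inl rfl, KN sK, ?_⟩
    have sF := hF.norm ⟨hs, st⟩
    rw [← cent_zpowers s, ← comm_eq_bot_iff, ← (copAct_inv d.s2.sq Fo sF).comm_comm, comm_eq_bot_iff, cent_zpowers]
    refine le_trans ?_ ((ind K ((card_le_of_le' KX.le).trans_lt hn) k).sub sK tK d.s2 d.t2 st)
    have := comm_le_left (zpowers_le.2 sF)
    refine le_trans (le_inf (this.trans (le_piCoreOf hF (odd_iff.1 Fo))) (le_inf ?_ (this.trans (hF.le.trans inf_le_right))))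
      (piCoreOf_inf_le _ (inf_le_inf_right _ KX.le))
    exact (commutator_mono le_rfl (zpowers_le.2 sK)).trans (comm_le_right (FX.trans KX.norm))

/-- `KG` when all proper simple sections are balanced and `S` is semidihedral -/
theorem D8.kg {G : Type u} [Group G] [Finite G] {S : Subgroup G} {t s σ t0 : G} (d : D8 t s σ) (w : SW S t0)
    (hS : SylowIn 2 S ⊤) (hq : QD S) (hA : w.A = zpowers w.x) (hz : w.z = t0)
    (ind : ∀ (K : Type u) [Group K] [Finite K] [IsSimpleGroup K], Nat.card K < Nat.card G →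
      QSyl (⊤ : Subgroup K) → Bal K) : KG t s σ := by
  intro Y N F hY hs hσ nc hN ON tN hF Fn Fo
  have hO := piCoreOf_normalIn {2}ᶜ Y
  have ho := core_pi Y
  have hk : PiGrp {2}ᶜ (pker (qmk 𝐎(Y))) := by rw [pker_qmk]; exact ho
  have ht := hN.le tN
  have cen := pm_cent hk (hO.norm ht) d.t2 (le_normalizer ht)
  have syl : DSyl Y ∨ QSyl Y := by
    obtain ⟨T, hT, DT⟩ := exists_sylowIn_ge d.piGrp (sup_le (zpowers_le.2 hσ) (zpowers_le.2 hs))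
    obtain ⟨g, -, e⟩ := hS.exists_cj_le hT.piGrp le_top
    have sT := mem_cj'.2 ⟨s, DT (mem_sup_right (mem_zpowers s)), (rfl : g * s * g⁻¹ = _)⟩
    have σT := mem_cj'.2 ⟨σ, DT (mem_sup_left (mem_zpowers σ)), (rfl : g * σ * g⁻¹ = _)⟩
    have tA : g * t * g⁻¹ ∈ w.A := by rw [← d.σσ, ← conj_mul]; exact w.sq_mem (e σT)
    have tt := w.eq_t_of_cyc hA tA (d.t2.conj g)
    rcases w.dih_or hA hz e sT (d.s2.conj g) (fun k => d.ne (mul_left_cancel (mul_right_cancel (k.trans tt.symm)))) with k | k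
    · exact .inr ⟨T, hT, by have := (k ▸ hq).cj g⁻¹; rwa [cj_inv_cj] at this⟩
    · refine .inl ⟨T, _, hT, by have := k.cj g⁻¹; rwa [cj_inv_cj] at this, fun k' => ne_bot_of_mem (A := cj g T ⊓ w.A)
        ⟨by rw [← d.σσ, ← conj_mul]; exact mul_mem σT σT, tA⟩ (d.t2.conj g).ne (cj_eq_bot.1 k')⟩
  have FO := (hF.le.trans inf_le_left).trans hO.norm
  have lift : ∀ v ∈ Y, F /ₛ 𝐎(Y) ≤ 𝐂[qel _ v] → ⁅F, zpowers v⁆ ≤ 𝐎(Y) := fun v hv e => by
    have vn := zpowers_le.2 (hO.norm hv)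
    rw [← quo_eq_bot_iff (comm_le_of_le FO vn), quo_commutator FO vn, quo_zpowers (hO.norm hv), comm_eq_bot_iff,
      cent_zpowers]
    exact e
  have vv : ∀ v, v = qel 𝐎(Y) s ∨ v = qel 𝐎(Y) s * qel 𝐎(Y) σ → ∃ u ∈ Y, (u = s ∨ u = s * σ) ∧ Inv2 u ∧ qel _ u = v := by
    rintro _ (rfl | rfl)
    exacts [⟨s, hs, .inl rfl, d.s2, rfl⟩, ⟨_, mul_mem hs hσ, .inr rfl, d.sσ2, pel_mul _ (hO.norm hs) (hO.norm hσ)⟩]
  rcases (d.quo ho (hO.norm hs) (hO.norm hσ)).kg0 (((QSyl.qg ⟨S, hS, hq⟩).of_le le_top).quo hO ho)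
    (((w.sdp hS hA hz).of_le le_top).quo hO ho)
    (syl.imp (fun e => e.quo hO.norm (odd_core Y)) fun e => e.quo hO.norm (odd_core Y)) (piCoreOf_quo_self _ Y) ind
    ((card_quo_le Y _).trans_lt ((card_lt_of_lt' hY.lt_top).trans_eq card_top)) (qel_mem_quo _ hs) (qel_mem_quo _ hσ)
    (fun e => nc ((quo_le_quo_iff hO.norm (inf_le_left.trans hO.norm)).1 (cen ▸ le_inf le_rfl e))) (hN.quo _)
    (qel_mem_quo _ tN) (cen ▸ hF.quo _) (nilpotent_quo Fn _) (odd_card_quo Fo _) with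
    ⟨v, hv, h1, h2⟩ | ⟨h1, h2, h3, h4⟩
  · obtain ⟨u, hu, e, -, rfl⟩ := vv v hv
    exact .inl ⟨u, e, (qel_mem_quo_iff (hO.norm hu) ON).1 h1, lift u hu h2⟩
  refine .inr ⟨?_, lift σ hσ h2, solvable_of_quo (inf_le_left.trans hO.norm) (solv_core Y) (cen ▸ h3),
    h4.imp (qel_mem_quo_iff (hO.norm hσ) ON).1 fun ⟨v, hv, g, hg, e⟩ => ?_⟩
  · obtain ⟨a, ha, e⟩ := isCyclic_iff_exists_zpowers.1 h1
    obtain ⟨a, ha', rfl⟩ := (mem_quo FO).1 ha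
    exact ⟨a, ha', (quo_le_quo_iff FO (zpowers_le.2 (FO ha'))).1 (by rw [e, quo_zpowers (FO ha')])⟩
  · obtain ⟨u, hu, e', u2, rfl⟩ := vv v hv
    obtain ⟨g, hg', rfl⟩ := (mem_quo (hN.le.trans hO.norm)).1 hg
    have gn := hO.norm (hN.le hg')
    have tn := hO.norm ht
    rw [← pel_inv _ gn, ← pel_mul _ gn tn, ← pel_mul _ (mul_mem gn tn) (inv_mem gn)] at e
    have h5 := (qel_eq_iff' (mul_mem (mul_mem gn tn) (inv_mem gn)) (hO.norm hu)).1 e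
    rw [u2.inv] at h5
    obtain ⟨k, hk⟩ := Inv.conj_of_odd (d.t2.conj g).sq u2.sq (odd_elt_iff.2 (ho.piElt h5))
    exact ⟨u, e', _, mul_mem (zpow_mem (ON h5) k) hg', Eq.trans (by simp only [mul_assoc, _root_.mul_inv_rev]) hk⟩

theorem Min.kg {G : Type u} [Group G] [Finite G] (m : Min G) {t s σ t0 : G} (d : D8 t s σ) (w : SW m.S t0)
    (hA : w.A = zpowers w.x) (hz : w.z = t0) : KG t s σ := d.kg w m.syl m.qd hA hz m.ind

end CA.ABG
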