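/-
Alperin–Brauer–Gorenstein theorem: a proper subgroup `L ⊇ C(V)` is balanced or locally balanced for odd subgroups.
-/
import Cfsg.Agent.Lib.ABG.KG
import Cfsg.Agent.Lib.ABG.Top

set_option autoImplicit false
set_option linter.unusedSectionVars false

namespace CA.ABG

open Cfsg CA CA.FStar CA.GW Subgroup

universe u

section
variable {G : Type*} [Group G] [Finite G] {X Y : Subgroup G} {s : G}

theorem cent_of_fit (s2 : s * s = 1) (ho : Odd (Nat.card Y)) (hs : s ∈ 𝐍(Y)) (h : fittingOf Y ≤ 𝐂[s]) : Y ≤ 𝐂[s] := by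
  rw [← cent_zpowers s, ← comm_eq_bot_iff, ← (copAct_inv s2 ho hs).comm_comm, comm_eq_bot_iff, cent_zpowers]
  refine le_trans (le_fittingOf_of_cents (solv_odd ho) (comm_le_left (zpowers_le.2 hs)) ?_) h
  exact (commutator_mono le_rfl (zpowers_le.2 (mem_cent_iff_le_cent1.2 h))).trans
    (comm_le_right (norms_cent (fittingOf_normalIn Y).norm))

theorem dg_odd (h : DG X) (hO : 𝐎(X) = ⊥) (hs : s ∈ X) (s2 : Inv2 s) (hY : Y ≤ X) (Yo : PiGrp {2}ᶜ Y)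
    (hn : X ⊓ 𝐂[s] ≤ 𝐍(Y)) : Y ≤ 𝐂[s] := by
  refine cent_of_fit s2.sq (odd_iff.2 Yo) (hn ⟨hs, self_mem_cent1 s⟩) (fittingOf_le_of_forall_piCoreOf_le fun p hp hd => ?_)
  have n := norms_piCoreOf {p} hn
  have sP := n ⟨hs, self_mem_cent1 s⟩
  have le := comm_le_left (zpowers_le.2 sP)
  rw [← cent_zpowers, ← comm_eq_bot_iff]
  exact dg_ll0 h hO hs s2 (fun e => (Yo.of_le (fittingOf_le Y)) p hp hd e) (le.trans ((piCoreOf_le _ _).trans hY))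
    ((piCoreOf_piGrp _ _).of_le le) (norms_commutator n (norms_zpowers_of_cent1 inf_le_right))
    (copAct_inv s2.sq (odd_iff.2 (Yo.of_le (piCoreOf_le _ _))) sP).comm_comm

end

theorem QG.dich {G : Type u} [Group G] [Finite G] {X V : Subgroup G} {a : G} {n : ℕ} (h : QG X) (hO : 𝐎(X) = ⊥)
    (ind : ∀ (K : Type u) [Group K] [Finite K] [IsSimpleGroup K], Nat.card K < n → QSyl (⊤ : Subgroup K) → Bal K)
    (hn : Nat.card X < n) (hV : V ≤ X) (V4 : Four V) (ha : a ∈ V) (a1 : a ≠ 1)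
    (VK : ∀ K, K ⊴ X → QS K → K ⊓ 𝐂(K) = ⊥ → V ≤ K ∨ DSyl X) :
    (∀ b ∈ V, b ≠ 1 → 𝐎(X ⊓ 𝐂[b]) ≤ 𝐂[a]) ∨ ∀ Y ≤ X, PiGrp {2}ᶜ Y → X ⊓ 𝐂[a] ≤ 𝐍(Y) → Y ≤ 𝐂[a] := by
  have a2 := V4.inv2 ha a1
  rcases h.str hO (ne_bot_of_mem (hV ha) a1) with ⟨z, hz, z2, e⟩ | ⟨U, U4, hU⟩ | ⟨K, KX, hq, hC, -, -⟩
  · refine .inl fun b hb b1 => ?_
    have zV := h.rk V hV V4 z hz z2.sq (mem_cent_iff_le_cent1.2 (hV.trans e))
    by_cases e1 : b = z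
    · rw [e1, inf_eq_left.2 e, hO]; exact bot_le
    refine (piCoreOf_le _ _).trans fun x hx => mem_cent1_iff.2 (mem_cent1_iff.1 (V4.le_of hb zV b1 z2.ne e1
      (mem_cent1_iff.2 (mem_cent1_iff.1 hx.2).symm) (mem_cent1_iff.2 (mem_cent1_iff.1 (e hx.1)).symm) ha)).symm
  · exact .inr fun Y hY Yo hN => h.ll_four hO U4 hU (hV ha) a2 hY Yo hN ▸ bot_le
  have ZK := le_bot_iff.1 ((inf_le_inf_right _ KX.le).trans hC.le)
  rcases VK K KX hq ZK with VK | k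
  swap
  · exact .inr fun Y hY => dg_odd (dg_of k) hO (hV ha) a2 hY
  have key : ∀ Y ≤ X, PiGrp {2}ᶜ Y → a ∈ 𝐍(Y) → ⁅Y, zpowers a⁆ ≤ K ⊓ Y ∧ (⁅Y, zpowers a⁆ ≤ 𝐂[a] → Y ≤ 𝐂[a]) :=
    fun Y hY Yo aY => ⟨le_inf ((commutator_mono le_rfl (zpowers_le.2 (VK ha))).trans (comm_le_right (hY.trans KX.norm)))
      (comm_le_left (zpowers_le.2 aY)), fun e => by
        rw [← cent_zpowers a, ← comm_eq_bot_iff, ← (copAct_inv a2.sq (odd_iff.2 Yo) aY).comm_comm, comm_eq_bot_iff,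
          cent_zpowers]
        exact e⟩
  haveI := qs_simple hq ZK
  rcases (h.of_le KX.le).syl hq with k | k
  · refine .inr fun Y hY Yo hN => ?_
    obtain ⟨h1, h2⟩ := key Y hY Yo (hN ⟨hV ha, self_mem_cent1 a⟩)
    exact h2 (dg_odd (dg_of k) (le_bot_iff.1 (hO ▸ piCoreOf_le_of_normalIn _ KX)) (VK ha) a2 (h1.trans inf_le_left)
      (Yo.of_le (h1.trans inf_le_right)) ((inf_le_inf_right _ KX.le).trans
        (norms_commutator hN (norms_zpowers_of_cent1 inf_le_right))))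
  · refine .inl fun b hb b1 => ?_
    obtain ⟨h1, h2⟩ := key _ ((piCoreOf_le _ _).trans inf_le_left) (core_pi _)
      (piCoreOf_norm _ _ (⟨hV ha, V4.le_cent1 hb ha⟩ : a ∈ X ⊓ 𝐂[b]))
    refine h2 (le_trans ?_ ((ind K ((card_le_of_le' KX.le).trans_lt hn) k).sub (VK ha) (VK hb) a2 (V4.inv2 hb b1)
      (V4.le_cent1 hb ha)))
    exact le_trans (le_inf (h1.trans inf_le_right) (h1.trans (inf_le_inf_left _ ((piCoreOf_le _ _).trans inf_le_right))))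
      (piCoreOf_inf_le _ (inf_le_inf_right _ KX.le))

/-- the hypothesis `VK` in `L / O(L)` -/
theorem Min.vk {G : Type u} [Group G] [Finite G] (m : Min G) {L V : Subgroup G} (V4 : Four V) (hL : 𝐂(V) ≤ L) :
    ∀ K, K ⊴ L /ₛ 𝐎(L) → QS K → K ⊓ 𝐂(K) = ⊥ → V /ₛ 𝐎(L) ≤ K ∨ DSyl (L /ₛ 𝐎(L)) := fun K hK hq hZ => by
  have hO := piCoreOf_normalIn {2}ᶜ L
  have hk : PiGrp {2}ᶜ (pker (qmk 𝐎(L))) := by rw [pker_qmk]; exact core_pi L
  refine (four_le m.qsyl m.one V4 hL (coq_normalIn hO hK) (fun e => hq.not_solvable (solv_odd (odd_iff.2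
    (quo_coq K ▸ e.quo _)))) fun z hz z2 e => ?_).imp (le_coq_iff ((V4.le_cent.trans hL).trans hO.norm)).1
      fun e => e.quo hO.norm (odd_core L)
  obtain ⟨z1, z3⟩ := mem_coq.1 hz
  refine (z2.pm z1 hk).ne (mem_bot.1 (hZ ▸ mem_inf.2 ⟨z3, mem_cent_iff.2 fun g hg => ?_⟩))
  obtain ⟨g, hg', rfl⟩ := (mem_quo hO.norm).1 (hK.le hg)
  have gn := hO.norm hg'
  refine isol_comm (z2.pm z1 hk) ?_
  rw [← pel_inv _ gn, ← pel_mul _ gn z1, ← pel_mul _ (mul_mem gn z1) (inv_mem gn),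
    ← pel_mul _ z1 (mul_mem (mul_mem gn z1) (inv_mem gn))]
  exact (qel_eq_one_iff (hO.norm (hO.le (e g hg')))).2 (e g hg')

theorem Min.dich {G : Type u} [Group G] [Finite G] (m : Min G) {L V : Subgroup G} {a : G} (hL : L ≠ ⊤) (V4 : Four V)
    (hV : 𝐂(V) ≤ L) (ha : a ∈ V) (a1 : a ≠ 1) : (∀ b ∈ V, b ≠ 1 → ⁅𝐎(L ⊓ 𝐂[b]), zpowers a⁆ ≤ 𝐎(L)) ∨
      ∀ Y ≤ L, PiGrp {2}ᶜ Y → L ⊓ 𝐂[a] ≤ 𝐍(Y) → ⁅Y, zpowers a⁆ ≤ 𝐎(L) := by
  have VL := V4.le_cent.trans hV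
  have hO := piCoreOf_normalIn {2}ᶜ L
  have ho := core_pi L
  have hk : PiGrp {2}ᶜ (pker (qmk 𝐎(L))) := by rw [pker_qmk]; exact ho
  have Vn := VL.trans hO.norm
  have lift : ∀ Y ≤ L, Y /ₛ 𝐎(L) ≤ 𝐂[qel _ a] → ⁅Y, zpowers a⁆ ≤ 𝐎(L) := fun Y hY e => by
    have vn := zpowers_le.2 (Vn ha)
    have FO := hY.trans hO.norm
    rw [← quo_eq_bot_iff (comm_le_of_le FO vn), quo_commutator FO vn, quo_zpowers (Vn ha), comm_eq_bot_iff, cent_zpowers]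
    exact e
  have cen : ∀ b ∈ V, b ≠ 1 → _ := fun b hb b1 => pm_cent hk (Vn hb) (V4.inv2 hb b1) (le_normalizer (VL hb))
  refine (((m.qsyl.qg.of_le le_top).quo hO ho).dich (piCoreOf_quo_self _ L) m.ind ((card_quo_le L _).trans_lt
    ((card_lt_of_lt' hL.lt_top).trans_eq card_top)) (quo_mono _ VL) (Four.quo V4 Vn ho) (qel_mem_quo _ ha)
    ((V4.inv2 ha a1).pm (Vn ha) hk).ne (m.vk V4 hV)).imp (fun e b hb b1 => ?_) fun e Y hY Yo hn => ?_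
  · refine lift _ ((piCoreOf_le _ _).trans inf_le_left) ((quo_piCoreOf_le _ _ _).trans ?_)
    rw [cen b hb b1]
    exact e _ (qel_mem_quo _ hb) ((V4.inv2 hb b1).pm (Vn hb) hk).ne
  · exact lift Y hY (e _ (quo_mono _ hY) (Yo.quo _) (cen a ha a1 ▸ quo_norms _ hn))

end CA.ABG
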