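/-
Alperin–Brauer–Gorenstein theorem: `C(a)`-invariant `r`-subgroups not centralized by the involution `a`.
-/
import Cfsg.Agent.Lib.ABG.A4d
import Cfsg.Agent.Lib.ABG.Dich

set_option autoImplicit false
set_option linter.unusedSectionVars false

namespace CA.ABG

open Cfsg CA CA.FStar CA.Loc CA.GW Subgroup

universe u

/-- `A` is a minimal `C(a)`-invariant `r`-subgroup with `A = [A, a] ≠ 1`, `M ⊇ N(A)` is maximal -/
structure Pk {G : Type*} [Group G] (r : ℕ) (a : G) (A M : Subgroup G) : Prop where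
  a4 : A4 a M r
  inv : Inv2 a
  AP : A ≤ piCoreOf {r} M
  ne : A ≠ ⊥
  eq : ⁅A, zpowers a⁆ = A
  HN : 𝐂[a] ≤ 𝐍(A)
  NM : 𝐍(A) ≤ M
  c1 : piCoreOf {r} M ⊓ 𝐂[a] ≤ 𝐂(A)
  nr : ∀ b, Inv2 b → a ∈ 𝐂[b] → ⁅A ⊓ 𝐂[b], zpowers a⁆ ≤ 𝐎(𝐂[b])

section
variable {G : Type*} [Group G] [Finite G] {V A M L Y R E : Subgroup G} {a b : G} {r q : ℕ}

theorem four_cent' (hV : Four V) (ha : a ∈ V) (hb : b ∈ V) (a1 : a ≠ 1) (b1 : b ≠ 1) (hab : a ≠ b) :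
    𝐂[a] ⊓ 𝐂[b] ≤ 𝐂(V) := fun _ h =>
  mem_cent_iff_le_cent1.2 (hV.le_of ha hb a1 b1 hab (mem_cent1_comm.1 h.1) (mem_cent1_comm.1 h.2))

theorem A4.comm_le (h : A4 a M r) (hY : Y ≤ M) : ⁅Y, zpowers a⁆ ≤ 𝐎(M) := comm_le_iff.2 fun y hy x hx => by
  have n := piCoreOf_norm {2}ᶜ M
  obtain ⟨o, ho, c, hc, rfl⟩ := (mem_sup_of_norm_right (h.le.trans n)).1 (h.eq.ge (hY hy))
  rw [show o * c * x * (o * c)⁻¹ * x⁻¹ = o * (c * x * c⁻¹ * o⁻¹ * x⁻¹) by group,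
    ← mem_cent_iff.1 (cent_zpowers a ▸ hc : c ∈ 𝐂(zpowers a)) x hx, mul_inv_cancel_right]
  exact mul_mem ho (conj_mem_of_mem_normalizer (n (h.le (zpowers_le.2 (self_mem_cent1 a) hx))) (inv_mem ho))

theorem A4.core_le (h : A4 a M r) : 𝐎(𝐂[a]) ≤ 𝐎(M) := by
  have n := piCoreOf_norm {2}ᶜ M
  have k := (piCoreOf_le {2}ᶜ _).trans h.le
  refine le_sup_right.trans (le_piCoreOf ⟨sup_le (piCoreOf_le _ _) k, h.eq.ge.trans (sup_le (le_sup_left.trans le_normalizer)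
    (norms_sup (h.le.trans n) (piCoreOf_norm _ _)))⟩ ((core_pi _).sup (core_pi _) (.inl (k.trans n))))

theorem A4.cF (h : A4 a M r) : M ⊓ 𝐂(fittingOf M) ≤ fittingOf M := cF_of_lay h.lay

theorem A4.pc_ne (h : A4 a M r) : piCoreOf {r} M ≠ ⊥ := fun e => h.nc (e ▸ bot_le)

theorem A4.pc_le (h : A4 a M r) : piCoreOf {r} M ≤ 𝐎(M) := (pc_fit r M).trans h.fit

theorem Pk.pi (h : Pk r a A M) : PiGrp {r} A := (piCoreOf_piGrp _ _).of_le h.AP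

theorem Pk.odd (h : Pk r a A M) : Odd (Nat.card A) := odd_of_pi h.pi h.a4.ne

theorem Pk.CM (h : Pk r a A M) : 𝐂(A) ≤ M := (norms_of_cents le_rfl).trans h.NM

theorem Pk.hpi (h : Pk r a A M) (ha : a ∈ L) (hA : A ≤ L) (sc : SC M L) (hq : piCoreOf {q} M = ⊥) :
    piCoreOf {q} L = ⊥ := by
  have h1 := b1a h.a4.cF sc hq
  have n := piCoreOf_norm {q} L
  have h2 := comm_cents_of_inv h.inv.sq (hA.trans n) (inv_of_fix h.inv (n ha) (eq_bot_iff.2 (h1 ▸ inf_le_inf_left _ h.a4.le)))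
  rw [h.eq] at h2
  rwa [inf_eq_left.2 ((cents_symm h2).trans h.CM)] at h1

end

namespace Min
variable {G : Type u} [Group G] [Finite G] (m : Min G) {V A B C M N K L Y R E : Subgroup G} {a b c : G} {r q : ℕ}
include m

theorem move (a2 : Inv2 a) : ∃ m' : Min G, m'.t = a := by
  obtain ⟨S, h1, h2, h3, ⟨w⟩⟩ := m.qdt.sw0 trivial a2
  exact ⟨⟨S, a, m.simple, h1, h3, w.tS, a2, w.S_le, m.ind, m.unbal⟩, rfl⟩

/-- a maximal subgroup `M ⊇ C(a)` with `O(M) ⊄ C(a)` -/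
theorem a4_of (a2 : Inv2 a) (hM : IsCoatom M) (hH : 𝐂[a] ≤ M) (nq : ¬ QDT M) (hr : r.Prime) (r2 : r ≠ 2)
    (nc : ¬ piCoreOf {r} M ≤ 𝐂[a]) : A4 a M r := by
  obtain ⟨m, rfl⟩ := m.move a2
  obtain ⟨w⟩ := m.sw
  have hS : SylowIn 2 m.S M := m.syl.of_le (m.S_le.trans hH) le_top
  have tM := hS.le m.tS
  rcases w.types hS m.qd with e | e | ⟨-, N, -, -, ⟨-, -, -, e, -⟩ | ⟨h1, -, e⟩⟩
  rotate_left
  · exact absurd e nq
  · exact absurd (e.of_le (le_inf (inf_le_right.trans hH) inf_le_right)) (m.qdt.nq _ trivial m.inv)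
  · obtain ⟨g, hg, k⟩ := w.fuse_y m.syl h1 fun s _ s2 => m.qdt.one _ trivial _ trivial m.inv s2
    exact absurd k (e g (hH hg.2))
  have hO := piCoreOf_normalIn {2}ᶜ M
  have eq : 𝐎(M) ⊔ 𝐂[m.t] = M := le_antisymm (sup_le hO.le hH) fun g hg => by
    have h1 := Blk.zstar_in hS m.tS m.inv.sq e hg
    obtain ⟨k, hk⟩ := Inv.conj_of_odd m.inv.sq (m.inv.conj g).sq (odd_elt_iff.2 ((core_pi M).piElt h1))
    have h2 := zpow_mem h1 k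
    generalize (m.t * (g * m.t * g⁻¹)) ^ k = o at *
    exact (mul_mem_cancel_left (mem_sup_left (inv_mem h2))).1 (mem_sup_right (mem_cent1_iff.2 (by
      calc o⁻¹ * g * m.t = o⁻¹ * (g * m.t * g⁻¹) * g := by group
        _ = _ := by rw [← hk]; group)))
  have e : ¬ 𝐎(M) ≤ 𝐂[m.t] := fun e => nc ((le_piCoreOf (piCoreOf_normalIn _ M)
    ((piCoreOf_piGrp _ M).compl_singleton (by simpa using r2.symm))).trans e)
  have key : ∀ N, N ⊴ M → N ≤ 𝐂(𝐎(M)) → PiGrp {2}ᶜ N := fun N hN hc =>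
    by_contra fun k => e (mem_cent_iff_le_cent1.1 (hc (w.mem_normal hS hN k)))
  have hE : lay M = ⊥ := by_contra fun k => by
    obtain ⟨K, hK⟩ := exists_compIn k
    exact hK.qs.not_solvable (solv_odd (odd_iff.2 ((key _ (lay_normalIn M) (lay_cents_core M)).of_le hK.le_lay)))
  exact ⟨hM, hH, eq, hE, le_piCoreOf (fittingOf_normalIn M) (piGrp_fittingOf_of_core_eq_bot (by
    rw [compl_compl]
    exact (piCoreOf_piGrp _ M).eq_bot (key _ (piCoreOf_normalIn _ M) (piCoreOf_cents_compl _ M)))), hr, r2, nc⟩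

/-- local balance for a `C(a)`-invariant `r`-subgroup -/
theorem ll' (hL : L ≠ ⊤) (V4 : Four V) (hV : 𝐂(V) ≤ L) (ha : a ∈ V) (a1 : a ≠ 1) (r2 : r ≠ 2) (Ar : PiGrp {r} A)
    (HN : 𝐂[a] ≤ 𝐍(A)) (nr : ∀ b, Inv2 b → a ∈ 𝐂[b] → ⁅A ⊓ 𝐂[b], zpowers a⁆ ≤ 𝐎(𝐂[b])) :
    ⁅A ⊓ L, zpowers a⁆ ≤ piCoreOf {r} L :=
  m.ll m.one hL V4 hV ha a1 r2 inf_le_right (Ar.inf_left _) (norms_inf (inf_le_right.trans HN)
    (inf_le_left.trans le_normalizer)) fun b hb b1 _ => (commutator_mono (inf_le_inf_right _ inf_le_left) le_rfl).trans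
      (nr b (V4.inv2 hb b1) (V4.le_cent1 hb ha))

theorem exists_V (a2 : Inv2 a) : ∃ V, Four V ∧ a ∈ V := by
  obtain ⟨s, hs, s2, st⟩ := m.qdt.exists_four trivial a2
  obtain ⟨V, h1, h2⟩ := four_of a2 s2 st.symm (mem_cent1_iff.1 hs.2).symm
  exact ⟨V, h1, (h2 a).2 (by simp)⟩

theorem exists_pk (A1 : ∀ M, 𝐂[a] ≤ M → QDT M → M = ⊤) (a2 : Inv2 a) (hr : r.Prime) (r2 : r ≠ 2) (Yr : PiGrp {r} Y)
    (HY : 𝐂[a] ≤ 𝐍(Y)) (nc : ¬ Y ≤ 𝐂[a]) (nr : ∀ b, Inv2 b → a ∈ 𝐂[b] → ⁅Y ⊓ 𝐂[b], zpowers a⁆ ≤ 𝐎(𝐂[b])) :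
    ∃ A ≤ Y, ∃ M, Pk r a A M := by
  have nz : 𝐂[a] ≤ 𝐍(zpowers a) := norms_zpowers_of_cent1 le_rfl
  have key : ∀ B ≤ Y, 𝐂[a] ≤ 𝐍(B) → ⁅B, zpowers a⁆ ≤ B ∧ 𝐂[a] ≤ 𝐍(⁅B, zpowers a⁆) ∧
      ⁅⁅B, zpowers a⁆, zpowers a⁆ = ⁅B, zpowers a⁆ := fun B h1 h2 =>
    ⟨comm_le_left (zpowers_le.2 (h2 (self_mem_cent1 a))), norms_commutator h2 nz,
      (copAct_inv a2.sq (odd_of_pi (Yr.of_le h1) r2) (h2 (self_mem_cent1 a))).comm_comm⟩
  obtain ⟨k1, k2, k3⟩ := key Y le_rfl HY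
  obtain ⟨A, AY, ⟨HN, eq, ne⟩, mA⟩ := exists_minimal_le (fun B => 𝐂[a] ≤ 𝐍(B) ∧ ⁅B, zpowers a⁆ = B ∧ B ≠ ⊥)
    (A := ⁅Y, zpowers a⁆) ⟨k2, k3, fun e => nc (cent_zpowers a ▸ comm_eq_bot_iff.1 e)⟩
  replace AY := AY.trans k1
  have Ar := Yr.of_le AY
  obtain ⟨M, hM, NM⟩ := exists_isCoatom_ge (m.norm_ne ne (m.ne_top Ar.solvable))
  obtain ⟨V, V4, ha⟩ := m.exists_V a2
  have nr' : ∀ b, Inv2 b → a ∈ 𝐂[b] → ⁅A ⊓ 𝐂[b], zpowers a⁆ ≤ 𝐎(𝐂[b]) := fun b h1 h2 =>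
    (commutator_mono (inf_le_inf_right _ AY) le_rfl).trans (nr b h1 h2)
  have AP := m.ll' hM.1 V4 ((cent_le_cent1 ha).trans (HN.trans NM)) ha a2.ne r2 Ar HN nr'
  rw [inf_eq_left.2 (le_normalizer.trans NM), eq] at AP
  refine ⟨A, AY, M, m.a4_of a2 hM (HN.trans NM) (fun e => hM.1 (A1 M (HN.trans NM) e)) hr r2 fun e => ne ?_, a2, AP, ne,
    eq, HN, NM, ?_, nr'⟩
  · rw [← eq, comm_eq_bot_iff, cent_zpowers]; exact AP.trans e
  have n1 := inf_le_right.trans HN (a := piCoreOf {r} M ⊓ 𝐂[a])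
  have lt := nil_comm_lt_left (piCoreOf_piGrp {r} M).nilpotent AP ne inf_le_left n1
  obtain ⟨k1, k2, k3⟩ := key _ (lt.le.trans AY) (norms_commutator HN (norms_inf ((HN.trans NM).trans (piCoreOf_norm _ _))
    le_normalizer))
  have e : ⁅⁅A, piCoreOf {r} M ⊓ 𝐂[a]⁆, zpowers a⁆ = ⊥ := by_contra fun e => (k1.trans_lt lt).ne (mA _ ⟨k2, k3, e⟩ (k1.trans lt.le))
  have e' : ⁅⁅piCoreOf {r} M ⊓ 𝐂[a], zpowers a⁆, A⁆ = ⊥ := by
    rw [show ⁅piCoreOf {r} M ⊓ 𝐂[a], zpowers a⁆ = ⊥ from comm_eq_bot_iff.2 (by rw [cent_zpowers]; exact inf_le_right),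
      commutator_bot_left]
  have := three_subgroup e e'
  rw [commutator_comm (zpowers a), eq, comm_eq_bot_iff] at this
  exact cents_symm this

theorem pk_ll (h : Pk r a A M) (hL : L ≠ ⊤) (V4 : Four V) (hV : 𝐂(V) ≤ L) (ha : a ∈ V) :
    ⁅A ⊓ L, zpowers a⁆ ≤ piCoreOf {r} L := m.ll' hL V4 hV ha h.inv.ne h.a4.ne h.pi h.HN h.nr

theorem pk_le (h : Pk r a A M) (hL : L ≠ ⊤) (V4 : Four V) (hV : 𝐂(V) ≤ L) (ha : a ∈ V) (hA : A ≤ L) :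
    A ≤ piCoreOf {r} L := by
  have := m.pk_ll h hL V4 hV ha
  rwa [inf_eq_left.2 hA, h.eq] at this

theorem pk_lay (h : Pk r a A M) (hL : L ≠ ⊤) (V4 : Four V) (hV : 𝐂(V) ≤ L) (ha : a ∈ V) (hA : A ≤ L) (sc : SC M L) :
    lay L = ⊥ := by
  have EM : lay L ≤ M := ((lay_cents_pc r L).trans (cent_mono (m.pk_le h hL V4 hV ha hA))).trans h.CM
  have hF := fittingOf_normalIn M
  have h1 : lay L ≤ 𝐂(fittingOf M ⊓ L) := by
    have nE : fittingOf M ⊓ L ≤ 𝐍(lay L) := inf_le_right.trans (lay_normalIn L).norm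
    have nF : lay L ≤ 𝐍(fittingOf M ⊓ L) := norms_inf (EM.trans hF.norm) ((lay_le L).trans le_normalizer)
    have k : lay L ≤ 𝐂(⁅lay L, fittingOf M ⊓ L⁆) := lay_cents_of_solvable ((comm_normalIn_left nE).subnormalIn.trans
      (lay_normalIn L).subnormalIn)
      (solvable_of_le (solvable_of_nilpotent (fittingOf_nilpotent M)) ((comm_le_right nF).trans inf_le_left))
    have k1 := comm_eq_bot_iff.2 (cents_symm k)
    have := three_subgroup k1 (by rwa [commutator_comm (lay L)] at k1)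
    rwa [show ⁅lay L, lay L⁆ = lay L from lay_der L, comm_eq_bot_iff] at this
  refine lay_eq_bot_of_solvable (solv_odd (odd_iff.2 (by_contra fun e => ?_)))
  obtain ⟨z, hz, z2⟩ := exists_inv2 e
  have Fo := odd_card_of_le (odd_core M) h.a4.fit
  exact z2.not_mem Fo (h.a4.cF ⟨EM hz, sc.cents (copAct_inv z2.sq Fo (hF.norm (EM hz))) (zpowers_le.2 (h1 hz))
    (mem_zpowers z)⟩)

/-- KEY, when `F(M)` is not an `r`-group -/
theorem key_multi (h : Pk r a A M) (hL : IsCoatom L) (V4 : Four V) (hV : 𝐂(V) ≤ L) (ha : a ∈ V) (hA : A ≤ L) (sc : SC M L)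
    (hq : piCoreOf {q} M ≠ ⊥) (qr : q ≠ r) : L = M :=
  haveI := m.simple
  b1c h.a4.coatom hL h.a4.cF (cF_of_lay (m.pk_lay h hL.1 V4 hV ha hA sc))
    sc (fun _ _ e => h.hpi (hV (V4.le_cent ha)) hA sc e) hq h.a4.pc_ne qr

theorem npcV (V4 : Four V) : NormalPCompl 2 𝐂(V) := by
  have := m.qsyl.qg.npc V le_top V4
  rwa [top_inf_eq] at this

/-- the end of the argument -/
theorem pk_false (V4 : Four V) (hb : b ∈ V) (hc : c ∈ V) (bc : b ≠ c) (h : ∀ a ∈ V, a ≠ 1 → ∃ A M, Pk r a A M ∧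
    ∀ L, IsCoatom L → 𝐂(V) ≤ L → A ≤ L → SC M L → L = M) (b1 : b ≠ 1) (c1 : c ≠ 1) : False := by
  choose! A M h key using h
  have CM : ∀ a ∈ V, a ≠ 1 → 𝐂(V) ≤ M a := fun a ha a1 => (cent_le_cent1 ha).trans (h a ha a1).a4.le
  have CA : ∀ a ∈ V, a ≠ 1 → 𝐂(V) ≤ 𝐍(A a) := fun a ha a1 => (cent_le_cent1 ha).trans (h a ha a1).HN
  have cp : ∀ a ∈ V, a ≠ 1 → ∀ b ∈ V, CopAct (A a ⊓ 𝐂[b]) (zpowers a) := fun a ha a1 b hb =>
    copAct_inv (V4.sq a ha) (odd_card_of_le (h a ha a1).odd inf_le_left)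
      (norms_inf (CA a ha a1) (norms_cent1 (cent_le_cent1 hb)) (V4.le_cent ha))
  have k1 : ∀ a ∈ V, a ≠ 1 → ∀ b ∈ V, b ≠ 1 → ⁅A a ⊓ 𝐂[b], zpowers a⁆ ≤ piCoreOf {r} (M b) ⊓ 𝐂[b] := fun a ha a1 b hb b1 =>
    le_inf ((commutator_mono (inf_le_inf_left _ (h b hb b1).a4.le) le_rfl).trans
      (m.pk_ll (h a ha a1) (h b hb b1).a4.coatom.1 V4 (CM b hb b1) ha)) ((comm_le_left (cp a ha a1 b hb).norm).trans inf_le_right)
  have k2 : ∀ a ∈ V, a ≠ 1 → ∀ b ∈ V, b ≠ 1 → a ≠ b → ⁅A a ⊓ 𝐂[b], zpowers a⁆ ≠ ⊥ := fun a ha a1 b hb b1 ab e => by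
    obtain ⟨σ, hσ, -, e1⟩ := m.qdt.swap trivial trivial (V4.inv2 ha a1) (V4.inv2 hb b1) (V4.comm ha hb) ab
    rw [comm_eq_bot_iff, cent_zpowers] at e
    have e2 := cj_mono σ e
    rw [cj_inf, cj_eq_of_mem_normalizer ((h a ha a1).HN hσ.2), cj_centralizer_singleton, e1, cj_eq_of_mem hσ.2] at e2
    refine (h a ha a1).ne ?_
    rw [← (h a ha a1).eq, comm_eq_bot_iff, cent_zpowers]
    refine V4.gen (V4.le_cent.trans (CA a ha a1)) (h a ha a1).odd fun v hv v1 => ?_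
    rcases (V4.mem ha hb a1 b1 ab v).1 hv with rfl | rfl | rfl | rfl
    exacts [absurd rfl v1, inf_le_right, e, e2]
  have k3 : ∀ a ∈ V, a ≠ 1 → ∀ b ∈ V, b ≠ 1 → piCoreOf {r} (M a) ⊓ 𝐂[a] ≤ M b := fun a ha a1 b hb b1 => by
    by_cases ab : a = b
    · rw [← ab]; exact inf_le_left.trans (piCoreOf_le _ _)
    have e := k1 a ha a1 b hb b1
    obtain ⟨L, hL, NL⟩ := exists_isCoatom_ge (m.norm_ne (k2 a ha a1 b hb b1 ab)
      (m.ne_top ((piCoreOf_piGrp _ _).of_le (e.trans inf_le_left)).solvable))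
    rw [key b hb b1 L hL ((norms_commutator (norms_inf (CA a ha a1) (norms_cent1 (cent_le_cent1 hb)))
      (norms_zpowers_of_cent1 (cent_le_cent1 ha))).trans NL) ((norms_of_cents (cents_symm (e.trans (h b hb b1).c1))).trans NL)
      (sc_of (e.trans (inf_le_left.trans (pc_fit _ _))) NL)] at NL
    exact (norms_of_cents ((h a ha a1).c1.trans (cent_mono ((comm_le_left (cp a ha a1 b hb).norm).trans inf_le_left)))).trans NL
  have k4 : ∀ a ∈ V, a ≠ 1 → ∀ b ∈ V, b ≠ 1 → A a ≤ piCoreOf {r} (M b) := fun a ha a1 b hb b1 => by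
    refine m.pk_le (h a ha a1) (h b hb b1).a4.coatom.1 V4 (CM b hb b1) ha
      (V4.gen (V4.le_cent.trans (CA a ha a1)) (h a ha a1).odd fun v hv v1 => ?_)
    by_cases e : a = v
    · rw [← e]; exact (inf_le_inf_right _ (h a ha a1).AP).trans (k3 a ha a1 b hb b1)
    refine ((cp a ha a1 v hv).le_sup_cent ((k1 a ha a1 v hv v1).trans (k3 v hv v1 b hb b1))).trans (sup_le le_rfl ?_)
    rw [cent_zpowers]
    exact (le_inf inf_le_right (inf_le_left.trans inf_le_right)).trans ((four_cent' V4 ha hv a1 v1 e).trans (CM b hb b1))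
  have T : ∀ a ∈ V, a ≠ 1 → A a ≤ piCoreOf {r} (M b) ⊓ piCoreOf {r} (M c) := fun a ha a1 =>
    le_inf (k4 a ha a1 b hb b1) (k4 a ha a1 c hc c1)
  obtain ⟨L, hL, NL⟩ := exists_isCoatom_ge (m.norm_ne (fun e => (h b hb b1).ne (le_bot_iff.1 (e ▸ T b hb b1)))
    (m.ne_top ((piCoreOf_piGrp {r} (M b)).inf_left (piCoreOf {r} (M c))).solvable))
  have CL := (norms_inf ((CM b hb b1).trans (piCoreOf_norm _ _)) ((CM c hc c1).trans (piCoreOf_norm _ _))).trans NL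
  have e1 := key b hb b1 L hL CL ((T b hb b1).trans (le_normalizer.trans NL)) (sc_of (inf_le_left.trans (pc_fit _ _)) NL)
  have e2 := key c hc c1 L hL CL ((T c hc c1).trans (le_normalizer.trans NL)) (sc_of (inf_le_right.trans (pc_fit _ _)) NL)
  obtain ⟨σ, hσ, -, e⟩ := m.qdt.swap trivial trivial (V4.inv2 hc c1) (V4.inv2 hb b1) (V4.comm hc hb) bc.symm
  have := (h b hb b1).a4.comm_le le_rfl (comm_mem (e1 ▸ e2.symm ▸ (h c hc c1).a4.le hσ.2) (mem_zpowers b))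
  rw [e, mul_inv_cancel_right] at this
  exact (V4.inv2 hc c1).not_mem (odd_core _) this

end Min

end CA.ABG
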