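/-
Alperin–Brauer–Gorenstein theorem: the relative ZJ-theorem for the proper subgroups containing `C(V)`.
-/
import Cfsg.Agent.Lib.ABG.A4a

set_option autoImplicit false
set_option linter.unusedSectionVars false

namespace CA.ABG

open Cfsg CA CA.FStar CA.Loc CA.GW Subgroup

universe u

/-- the relative ZJ-theorem for the maximal subgroups `M = O(M) C(a)` of characteristic `r` -/
def RZM (G : Type*) [Group G] (r : ℕ) : Prop :=
  ∀ (V M : Subgroup G) (a : G) (R : Subgroup G), Four V → a ∈ V → a ≠ 1 → A4 a M r →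
    M ⊓ 𝐂(piCoreOf {r} M) ≤ piCoreOf {r} M → SylowIn r R (Ex V M a) → M ≤ 𝐍(𝐙(Je r R))

theorem RZ.toM {G : Type*} [Group G] {r : ℕ} (h : RZ G r) : RZM G r := fun V M a R V4 ha a1 k =>
  h V M a R V4 ha a1 k.coatom ((cent_le_cent1 ha).trans k.le)

theorem QG.tri {G : Type u} [Group G] [Finite G] {X V : Subgroup G} {a : G} {n : ℕ} (h : QG X) (hO : 𝐎(X) = ⊥)
    (ind : ∀ (K : Type u) [Group K] [Finite K] [IsSimpleGroup K], Nat.card K < n → QSyl (⊤ : Subgroup K) → Bal K)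
    (hn : Nat.card X < n) (hV : V ≤ X) (V4 : Four V) (ha : a ∈ V) (a1 : a ≠ 1)
    (VK : ∀ K, K ⊴ X → QS K → K ⊓ 𝐂(K) = ⊥ → V ≤ K ∨ DSyl X) :
    X ≤ 𝐂[a] ∨ (𝐎(X ⊓ 𝐂[a]) ≤ 𝐂(V) ∧ ∃ g ∈ X ⊓ 𝐍(V), g * a * g⁻¹ ≠ a) ∨
      (𝐎(X ⊓ 𝐂[a]) = ⊥ ∧ ∀ Y ≤ X ⊓ 𝐂(V), PiGrp {2}ᶜ Y → Y = ⊥) ∨ ∃ K, K ⊴ X ∧ QS K ∧ X ⊓ 𝐂(K) = ⊥ ∧ DSyl K := by
  have a2 := V4.inv2 ha a1
  rcases h.str hO (ne_bot_of_mem (hV ha) a1) with ⟨z, hz, z2, e⟩ | ⟨U, U4, hU⟩ | ⟨K, KX, hq, hC, -, -⟩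
  · have zV := h.rk V hV V4 z hz z2.sq (mem_cent_iff_le_cent1.2 (hV.trans e))
    refine or_iff_not_imp_left.2 fun k => .inl ?_
    have az : a ≠ z := fun e' => k (e' ▸ e)
    have c : X ⊓ 𝐂[a] ≤ 𝐂(V) := (le_inf inf_le_right (inf_le_left.trans e)).trans (four_cent' V4 ha zV a1 z2.ne az)
    refine ⟨(piCoreOf_le _ _).trans c, by_contra fun k' => k fun g hg => mem_cent1_iff.2 (isol_comm a2
      (mem_bot.1 (hO ▸ Blk.zstar_in' (hV ha) a2.sq (fun g hg e1 => by_contra fun e2 => k' ⟨g, ⟨hg, ?_⟩, e2⟩) hg)))⟩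
    have gX := conj_mem_of_mem_normalizer (le_normalizer hg) (hV ha)
    refine V4.norm_of ha zV a1 z2.ne az (h.rk V hV V4 _ gX (a2.conj g).sq (c ⟨gX, mem_cent1_iff.2 e1.symm.eq⟩)) ?_
    rwa [mem_cent1_iff.1 (e hg), mul_inv_cancel_right]
  · refine .inr (.inr (.inl ⟨h.ll_four hO U4 hU (hV ha) a2 ((piCoreOf_le _ _).trans inf_le_left) (core_pi _)
      (piCoreOf_norm _ _), fun Y hY Yo => ?_⟩))
    have n := hV.trans hU.norm
    obtain ⟨v, hv, v1⟩ := exists_ne_one_mem' (meet_center_nil (U4.piGrp.sup V4.piGrp (Or.inl n)).nilpotent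
      (normalIn_sup_left n) U4.nb)
    have vV := h.rk V hV V4 v (hU.le hv.1) (U4.sq v hv.1) (cent_mono le_sup_right hv.2.2)
    exact ((npc_two (h.npc U hU.le U4) (le_bot_iff.1 (hO ▸ piCoreOf_le_of_normalIn _ hU.cent))).of_le fun y hy =>
      ⟨(hY hy).1, U4.cents_odd (hU.norm (hY hy).1) (odd_elt_iff.2 (Yo.piElt hy)) hv.1 v1 (cent_le_cent1 vV (hY hy).2)⟩).eq_bot Yo
  have ZK := le_bot_iff.1 ((inf_le_inf_right _ KX.le).trans hC.le)
  haveI := qs_simple hq ZK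
  rcases (h.of_le KX.le).syl hq with k | k
  · exact .inr (.inr (.inr ⟨K, KX, hq, hC, k⟩))
  rcases VK K KX hq ZK with VK | k'
  swap
  · exact .inr (.inr (.inr ⟨K, KX, hq, hC, ((dg_of k').of_le KX.le).dsyl hq.not_solvable⟩))
  obtain ⟨b, hb, b1, ba⟩ := V4.exists ha
  have b2 := V4.inv2 hb b1
  refine .inr (.inl ⟨(le_inf ((piCoreOf_le _ _).trans inf_le_right) ?_).trans (four_cent' V4 ha hb a1 b1 ba.symm), ?_⟩)
  · have bY := piCoreOf_norm {2}ᶜ (X ⊓ 𝐂[a]) ⟨hV hb, V4.le_cent1 ha hb⟩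
    have h1 := comm_le_left (zpowers_le.2 bY)
    rw [← cent_zpowers b, ← comm_eq_bot_iff, ← (copAct_inv b2.sq (odd_core _) bY).comm_comm, comm_eq_bot_iff, cent_zpowers]
    refine le_trans ?_ ((ind K ((card_le_of_le' KX.le).trans_lt hn) k).sub (VK hb) (VK ha) b2 a2 (V4.le_cent1 ha hb))
    exact le_trans (le_inf h1 (le_inf ((commutator_mono le_rfl (zpowers_le.2 (VK hb))).trans (comm_le_right
      ((piCoreOf_le _ _).trans (inf_le_left.trans KX.norm)))) (h1.trans ((piCoreOf_le _ _).trans inf_le_right))))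
      (piCoreOf_inf_le _ (inf_le_inf_right _ KX.le))
  have W4 : Four (V.subgroupOf K) := ⟨by rw [card_subgroupOf_of_le VK, V4.card], fun x hx => Subtype.ext (V4.sq _ hx)⟩
  obtain ⟨g, hg, e1⟩ := (qdt_top k).rot W4 le_top (a := ⟨a, VK ha⟩) (b := ⟨b, VK hb⟩) ha hb
    (fun k => a1 (congrArg Subtype.val k)) fun k => b1 (congrArg Subtype.val k)
  have e2 : (g : G) * a * (g : G)⁻¹ = b := congrArg Subtype.val e1
  exact ⟨g, ⟨KX.le g.2, mem_normalizer_of_cj_le (cj_le_iff'.2 fun x hx =>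
    conj_mem_of_mem_normalizer hg.2 (x := ⟨x, VK hx⟩) hx)⟩, e2 ▸ ba⟩

section
variable {G : Type*} [Group G] [Finite G] {K L O E R : Subgroup G} {r : ℕ}

theorem cd_of (hK : K ⊴ L) (ho : PiNum {2}ᶜ (K.relIndex L)) (hO : O ⊴ K) (Oo : PiGrp {2}ᶜ O) (h : DSyl (K /ₛ O)) : CD L :=
  fun T hT x hx y hy x2 y2 => by
    have T2 : PiGrp {2} (T.map L.subtype) := (hT.piGrp Nat.prime_two).map _
    have TK : T.map L.subtype ≤ K := T2.le_of_normal_of_relIndex (map_subtype_le _) hK.le ((map_subtype_le _).trans hK.norm) ho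
    have Tn := TK.trans hO.norm
    have inj : ∀ z ∈ T.map L.subtype, qel O z = 1 → z = 1 := fun z hz e =>
      (T2.piElt hz).eq_one (Oo.piElt ((qel_eq_one_iff (Tn hz)).1 e))
    have mx : (x : G) ∈ T.map L.subtype := ⟨x, hx, rfl⟩
    have my : (y : G) ∈ T.map L.subtype := ⟨y, hy, rfl⟩
    have sq : ∀ z : L, (z : G) ∈ T.map L.subtype → z * z ≠ 1 → qel O (z : G) * qel O (z : G) ≠ 1 := fun z hz z2 e =>
      z2 (Subtype.ext (inj ((z : G) * z) (mul_mem hz hz) ((pel_mul _ (Tn hz) (Tn hz)).trans e)))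
    have c : qel O (x : G) * qel O (y : G) = qel O (y : G) * qel O (x : G) := by
      rcases (dg_of h).two _ (quo_mono O TK) (T2.quo O) with k | ⟨R, k, -⟩
      · exact abelian_iff'.1 (abelian_of_cyclic k) _ (qel_mem_quo _ mx) _ (qel_mem_quo _ my)
      · exact k.comm (k.mem_of_sq (qel_mem_quo _ mx) (sq x mx x2)) (k.mem_of_sq (qel_mem_quo _ my) (sq y my y2))
    refine Subtype.ext (mul_inv_eq_one.1 (inj ((x : G) * y * ((y : G) * x)⁻¹) (mul_mem (mul_mem mx my) (inv_mem (mul_mem my mx))) ?_))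
    show pel _ _ = _
    rw [pel_mul _ (Tn (mul_mem mx my)) (Tn (inv_mem (mul_mem my mx))), pel_inv _ (Tn (mul_mem my mx)),
      pel_mul _ (Tn mx) (Tn my), pel_mul _ (Tn my) (Tn mx), c, mul_inv_cancel]

/-- the relative ZJ-theorem over a simple group with dihedral Sylow 2-subgroups -/
theorem rz_dih [hr : Fact r.Prime] (r2 : r ≠ 2) {U : Subgroup (Quo 𝐎(L))} (hU : U ⊴ L /ₛ 𝐎(L)) (hq : QS U)
    (hC : (L /ₛ 𝐎(L)) ⊓ 𝐂(U) = ⊥) (hd : DSyl U) (cL : L ⊓ 𝐂(piCoreOf {r} L) ≤ piCoreOf {r} L) (OE : 𝐎(L) ≤ E) (EL : E ≤ L)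
    (Eo : PiGrp {2}ᶜ E) (hR : SylowIn r R E) (EZ : E ≤ 𝐍(𝐙(Je r R))) : coq _ U ≤ 𝐍(𝐙(Je r R)) := by
  have hO := piCoreOf_normalIn {2}ᶜ L
  have KL := coq_normalIn hO hU
  have OK : 𝐎(L) ≤ coq _ U := le_coq _
  have L0 := sup_le KL.le EL
  have O0 := hO.of_le (OK.trans le_sup_left) L0
  have K0 := normalIn_sup_left (EL.trans KL.norm)
  have cd : CD ↥(coq _ U ⊔ E) := cd_of K0 (by rw [relIndex_sup_of_norm (EL.trans KL.norm)]; exact Eo.relIndex _)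
    (hO.of_le OK KL.le) (core_pi L) (by rwa [quo_coq])
  have key : ∀ N, N ⊴ coq _ U ⊔ E → U ≤ N /ₛ 𝐎(L) ∨ N ≤ 𝐎(L) := fun N hN => by
    have h1 := hN.quo 𝐎(L)
    have h2 : U ≤ (coq _ U ⊔ E) /ₛ 𝐎(L) := (quo_coq U).ge.trans (quo_mono _ le_sup_left)
    have h3 := quo_mono 𝐎(L) (hN.le.trans L0)
    rcases hq.normal (normalIn_inf_of_norm (h2.trans h1.norm)) with e | e
    swap
    · exact .inl (inf_eq_left.1 e)
    refine .inr ((quo_eq_bot_iff ((hN.le.trans L0).trans hO.norm)).1 (le_bot_iff.1 (hC ▸ le_inf h3 (comm_eq_bot_iff.1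
      (le_bot_iff.1 (hC ▸ ?_))))))
    have k : ⁅N /ₛ 𝐎(L), U⁆ ≤ U ⊓ (N /ₛ 𝐎(L)) := le_inf (comm_le_right (h3.trans hU.norm)) (comm_le_left (h2.trans h1.norm))
    exact le_inf (k.trans (inf_le_left.trans hU.le)) (k.trans e)
  have ns : ∀ N : Subgroup G, Group.IsSolvable N → ¬ U ≤ N /ₛ 𝐎(L) := fun N h e => hq.not_le_of_solvable (solvable_quo h _) e
  have PO : piCoreOf {r} L ≤ 𝐎(L) := le_piCoreOf (piCoreOf_normalIn _ L)
    ((piCoreOf_piGrp _ L).compl_singleton (by simpa using r2.symm))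
  have P0 : piCoreOf {r} L ≤ piCoreOf {r} (coq _ U ⊔ E) := le_piCoreOf ((piCoreOf_normalIn _ L).of_le
    (PO.trans O0.le) L0) (piCoreOf_piGrp _ _)
  refine le_sup_left.trans (relZJ r2 O0 (odd_core L) ((key _ (piCoreOf_normalIn _ _)).resolve_left
    (ns _ (piCoreOf_piGrp _ _).solvable)) ((inf_le_inf L0 (cent_mono P0)).trans (cL.trans P0)) (hR.le.trans le_sup_right)
    hR.piGrp (hR.inf_normal (hO.of_le OE EL)) fun B hB Br => ?_)
  have hC0 := hB.cent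
  have n0 : piEltGen {r}ᶜ ((coq _ U ⊔ E) ⊓ 𝐂(B)) ⊴ coq _ U ⊔ E := ⟨(piEltGen_le _ _).trans hC0.le, norms_piEltGen _ hC0.norm⟩
  rcases key _ n0 with e | e
  · refine .inl (sup_le ((coq_le_coq.2 e).trans ?_) ((le_inf le_sup_right EZ).trans le_sup_right))
    rw [coq_quo (n0.le.trans O0.norm), sup_comm]
    exact sup_le_sup_left (le_inf O0.le (OE.trans EZ)) _
  have e1 : (coq _ U ⊔ E) ⊓ 𝐂(B) ≤ 𝐎(L) := (key _ hC0).resolve_left fun k => by
    obtain ⟨z, hz, z2⟩ := exists_inv2_ns hq.not_solvable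
    obtain ⟨s, hs, s2, -⟩ := lift_inv (hC0.le.trans O0.norm) (by rw [pker_qmk]; exact core_pi L) (k hz) z2
    exact s2.not_mem (odd_core L) (e (mem_piEltGen hs (s2.piElt.mono (by simpa using r2))))
  refine .inr fun x hx h => ?_
  have xL := (hR.le.trans le_sup_right : R ≤ coq _ U ⊔ E) hx
  have k := pmap_le_piCoreOf_of_quadraticD (f := qmk 𝐎(L)) r2 cd (Br.isPGroup hr.out) hB.norm O0.norm
    (by rwa [pker_qmk]) (zpowers_le.2 xL) h
  have k1 := (key _ (coq_normalIn O0 (piCoreOf_normalIn {r} _))).resolve_left fun e => hq.not_le_of_solvable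
    (piCoreOf_piGrp {r} _).solvable (by rwa [quo_coq] at e)
  exact k1 ((le_coq_iff (zpowers_le.2 (O0.norm xL))).2 k (mem_zpowers x))

end

/-- the substitute for the relative ZJ-theorem -/
theorem Min.rzw {G : Type u} [Group G] [Finite G] (m : Min G) {V L M R : Subgroup G} {a : G} {r : ℕ} (h : A4 a M r)
    (V4 : Four V) (ha : a ∈ V) (a1 : a ≠ 1) (hL : L ≠ ⊤) (hV : 𝐂(V) ≤ L) (cL : L ⊓ 𝐂(piCoreOf {r} L) ≤ piCoreOf {r} L)
    (hR : SylowIn r R (Ex V L a)) (ZM : 𝐍(𝐙(Je r R)) ≤ M) : L ≤ M := by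
  haveI := Fact.mk h.prime
  have a2 := V4.inv2 ha a1
  have VL := V4.le_cent.trans hV
  have hO := piCoreOf_normalIn {2}ᶜ L
  have ho := core_pi L
  have hk : PiGrp {2}ᶜ (pker (qmk 𝐎(L))) := by rw [pker_qmk]; exact ho
  have Vn := VL.trans hO.norm
  have Eo := Ex.odd ha hV
  have EL : Ex V L a ≤ L := Ex.le hV
  have OE : 𝐎(L) ≤ Ex V L a := le_sup_left.trans le_sup_left
  have PO : piCoreOf {r} L ≤ Ex V L a := (le_piCoreOf (piCoreOf_normalIn _ L)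
    ((piCoreOf_piGrp _ L).compl_singleton (by simpa using h.ne.symm))).trans OE
  have EZ : Ex V L a ≤ 𝐍(𝐙(Je r R)) := zj_core (odd_iff.2 Eo) (solv_odd (odd_iff.2 Eo))
    (((piCoreOf_piGrp {r} L).of_le ((le_inf ((piCoreOf_le _ _).trans EL) ((piCoreOf_normalIn _ _).cents_of_coprime
      ((piCoreOf_normalIn {r} L).of_le PO EL) ((piCoreOf_piGrp _ _).coprime' (piCoreOf_piGrp _ _)))).trans cL)).eq_bot
      (piCoreOf_piGrp _ _)) hR
  have NE : 𝐍(Ex V L a) ≤ M := (frattini_arg ⟨le_normalizer, le_rfl⟩ hR).ge.trans (sup_le (EZ.trans ZM)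
    (inf_le_right.trans ((norms_center (norm_le_norm_Je R)).trans ZM)))
  have cen := pm_cent hk (Vn ha) a2 (le_normalizer (VL ha))
  have cp := copAct_p_right Vn ho V4.piGrp
  have HL := (piCoreOf_le {2}ᶜ (L ⊓ 𝐂[a])).trans inf_le_left
  have q1 : 𝐎(L ⊓ 𝐂[a]) /ₛ 𝐎(L) ≤ 𝐎((L /ₛ 𝐎(L)) ⊓ 𝐂[qel _ a]) := cen ▸ quo_piCoreOf_le _ _ _
  rcases ((m.qsyl.qg.of_le le_top).quo hO ho).tri (piCoreOf_quo_self _ L) m.ind ((card_quo_le L _).trans_lt
    ((card_lt_of_lt' hL.lt_top).trans_eq card_top)) (quo_mono _ VL) (Four.quo V4 Vn ho) (qel_mem_quo _ ha)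
    (a2.pm (Vn ha) hk).ne (m.vk V4 hV) with e | ⟨e, g, hg, e1⟩ | ⟨e, e1⟩ | ⟨U, hU, hq, hC, hd⟩
  · rw [inf_eq_left.2 e] at cen
    exact ((quo_le_quo_iff hO.norm (inf_le_left.trans hO.norm)).1 cen.ge).trans
      (sup_le (OE.trans (EZ.trans ZM)) (inf_le_right.trans h.le))
  · rw [← cp.quo_inf_norm_of_le hO.le] at hg
    obtain ⟨g, hg', rfl⟩ := (mem_quo (inf_le_left.trans hO.norm)).1 hg
    have gn := hO.norm hg'.1
    have k : 𝐎(L ⊓ 𝐂[a]) ≤ 𝐎(L) ⊔ 𝐎(𝐂(V)) := by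
      have n := (le_inf VL (V4.le_cent1 ha)).trans (piCoreOf_norm {2}ᶜ _)
      exact ((copAct_p_right n (core_pi _) V4.piGrp).le_sup_cent ((quo_cents_iff (HL.trans hO.norm) Vn).1 (q1.trans e))).trans
        (sup_le_sup_left ((m.npcV V4).le_piCoreOf inf_le_right ((core_pi _).inf_left _)) _)
    have gM : g ∈ M := NE (by
      rw [Ex, sup_right_comm, sup_eq_left.2 k]
      exact norms_sup (inf_le_left.trans hO.norm) (norms_piCoreOf _ (norms_cent inf_le_right)) hg')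
    have k1 := h.comm_le le_rfl (comm_mem gM (mem_zpowers a))
    refine absurd ?_ e1
    rw [← pel_conj _ gn (Vn ha), eq_of_mul_inv_eq_one (one_of_odd2 (core_pi M) k1 (V4.sq _ (mul_mem
      (conj_mem_of_mem_normalizer hg'.2 ha) (inv_mem ha))))]
  · have DL := (piCoreOf_le {2}ᶜ _).trans hV
    refine le_trans ?_ NE
    rw [Ex, sup_eq_left.2 ((quo_eq_bot_iff (HL.trans hO.norm)).1 (le_bot_iff.1 (e ▸ q1))), sup_eq_left.2
      ((quo_eq_bot_iff (DL.trans hO.norm)).1 (e1 _ (le_inf (quo_mono _ DL) (quo_cents _ (piCoreOf_le _ _))) ((core_pi _).quo _)))]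
    exact hO.norm
  have KL := coq_normalIn hO hU
  have k := h.comm_le ((rz_dih h.ne hU hq hC hd cL OE EL Eo hR EZ).trans ZM)
  have k1 : PiGrp {2}ᶜ ⁅U, zpowers (qel 𝐎(L) a)⁆ := by
    rw [← quo_zpowers (Vn ha), ← quo_coq U, ← quo_commutator (coq_le_norm U) (zpowers_le.2 (Vn ha))]
    exact ((core_pi M).of_le k).quo _
  have aL := qel_mem_quo 𝐎(L) (VL ha)
  have n := comm_normalIn_left (zpowers_le.2 (hU.norm aL))
  rcases hq.normal n with e | e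
  · refine absurd (mem_bot.1 (hC ▸ mem_inf.2 ⟨aL, cents_symm (comm_eq_bot_iff.1 (le_bot_iff.1 (hC ▸ le_inf
      (n.le.trans hU.le) e))) (mem_zpowers _)⟩)) (a2.pm (Vn ha) hk).ne
  · exact absurd (solv_odd (odd_iff.2 (e ▸ k1))) hq.not_solvable

end CA.ABG
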