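/-
Alperin–Brauer–Gorenstein theorem: the configuration `A4` in characteristic `r`.
-/
import Cfsg.Agent.Lib.ABG.A4e

set_option autoImplicit false
set_option linter.unusedSectionVars false

namespace CA.ABG

open Cfsg CA CA.FStar CA.Loc CA.GW Subgroup

universe u

section
variable {G : Type*} [Group G] [Finite G] {V A M L Y R E : Subgroup G} {a b : G} {r : ℕ}

theorem LL0.inE (l0 : LL0 G r) (V4 : Four V) (ha : a ∈ V) (hb : b ∈ V) (a1 : a ≠ 1) (b1 : b ≠ 1) (ab : a ≠ b)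
    (Eo : PiGrp {2}ᶜ E) (nE : 𝐂(V) ≤ 𝐍(E)) (hR : R ≤ E) (Rr : PiGrp {r} R) (nR : V ≤ 𝐍(R)) :
    ⁅R ⊓ 𝐂[b], zpowers a⁆ ≤ 𝐎(𝐂[b]) :=
  l0 a b (V4.inv2 ha a1) (V4.inv2 hb b1) (V4.le_cent1 hb ha) (E ⊓ 𝐂[b]) inf_le_right (odd_iff.2 (Eo.inf_left _))
    (norms_inf ((four_cent' V4 hb ha b1 a1 ab.symm).trans nE) (inf_le_left.trans le_normalizer)) _
    (commutator_mono (inf_le_inf_right _ hR) le_rfl) ((Rr.inf_left _).of_le (comm_le_left (zpowers_le.2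
      (norms_inf nR (norms_cent1 (V4.le_cent1 hb)) ha))))

theorem A4.ex (h : A4 a M r) (V : Subgroup G) : Ex V M a = 𝐎(M) ⊔ 𝐎(𝐂(V)) := by
  rw [Ex, inf_eq_right.2 h.le, sup_eq_left.2 h.core_le]

end

namespace Min
variable {G : Type u} [Group G] [Finite G] (m : Min G) {V A M L Y R E : Subgroup G} {a b : G} {r : ℕ}
  (l0 : LL0 G r) (V4 : Four V) (ha : a ∈ V) (a1 : a ≠ 1) (r2 : r ≠ 2)
include m l0 V4 ha a1 r2

theorem in_cent (Eo : PiGrp {2}ᶜ E) (nE : 𝐂(V) ≤ 𝐍(E)) (hR : R ≤ E) (RL : R ≤ L) (Rr : PiGrp {r} R) (nR : V ≤ 𝐍(R)) :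
    R ⊓ 𝐂[a] ≤ Ex V L a := by
  obtain ⟨b, hb, b1, ba⟩ := V4.exists ha
  have cp := copAct_inv (V4.sq b hb) (odd_of_pi (Rr.inf_left 𝐂[a]) r2) (norms_inf nR (norms_cent1 (V4.le_cent1 ha)) hb)
  refine (cp.le_sup_cent (V := 𝐎(L ⊓ 𝐂[a])) ?_).trans (sup_le (le_sup_right.trans le_sup_left) (le_trans ?_ le_sup_right))
  · exact (le_inf (l0.inE V4 hb ha b1 a1 ba Eo nE hR Rr nR) ((comm_le_left cp.norm).trans
      (inf_le_inf_right _ RL))).trans (piCoreOf_inf_le _ inf_le_right)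
  rw [cent_zpowers]
  exact (m.npcV V4).le_piCoreOf ((le_inf (inf_le_left.trans inf_le_right) inf_le_right).trans
    (four_cent' V4 ha hb a1 b1 ba.symm)) (odd_iff.1 (odd_of_pi ((Rr.inf_left _).inf_left _) r2))

theorem in_ex (h : A4 a M r) (Eo : PiGrp {2}ᶜ E) (nE : 𝐂(V) ≤ 𝐍(E)) (hR : R ≤ E) (RM : R ≤ M) (Rr : PiGrp {r} R)
    (nR : V ≤ 𝐍(R)) : R ≤ Ex V M a := by
  refine ((copAct_inv (V4.sq a ha) (odd_of_pi Rr r2) (nR ha)).le_sup_cent (h.comm_le RM)).trans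
    (sup_le (le_sup_left.trans le_sup_left) ?_)
  rw [cent_zpowers]
  exact m.in_cent l0 V4 ha a1 r2 Eo nE hR RM Rr nR

theorem in_ex' (h : A4 a M r) (hL : L ≠ ⊤) (hV : 𝐂(V) ≤ L) (hR : R ≤ Ex V M a ⊓ L) (Rr : PiGrp {r} R) (nR : V ≤ 𝐍(R)) :
    R ≤ Ex V L a := by
  have CM := (cent_le_cent1 ha).trans h.le
  have Eo := Ex.odd ha CM
  have nE := Ex.norm ha CM
  have RE := hR.trans inf_le_left
  have RL := hR.trans inf_le_right
  have k := m.in_cent l0 V4 ha a1 r2 Eo nE RE RL Rr nR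
  have fin : ∀ Q ≤ R, a ∈ 𝐍(Q) → ⁅⁅Q, zpowers a⁆, zpowers a⁆ ≤ 𝐎(L) → Q ≤ Ex V L a := fun Q h1 h2 h3 => by
    have cp := copAct_inv (V4.sq a ha) (odd_of_pi (Rr.of_le h1) r2) h2
    rw [cp.comm_comm] at h3
    refine (cp.le_sup_cent h3).trans (sup_le (le_sup_left.trans le_sup_left) ?_)
    rw [cent_zpowers]
    exact (inf_le_inf_right _ h1).trans k
  rcases m.dich hL V4 hV ha a1 with e | e
  · refine V4.gen nR (odd_of_pi Rr r2) fun b hb b1 => ?_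
    by_cases ab : a = b
    · exact ab ▸ k
    have n := norms_inf nR (norms_cent1 (V4.le_cent1 hb)) ha
    exact fin _ inf_le_left n ((commutator_mono ((le_inf (l0.inE V4 ha hb a1 b1 ab Eo nE RE Rr nR) ((comm_le_left
      (zpowers_le.2 n)).trans (inf_le_inf_right _ RL))).trans (piCoreOf_inf_le _ inf_le_right)) le_rfl).trans (e b hb b1))
  · exact fin R le_rfl (nR ha) ((commutator_mono (le_inf (h.comm_le (RE.trans (Ex.le CM))) ((comm_le_left (zpowers_le.2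
      (nR ha))).trans RL)) le_rfl).trans (e _ inf_le_right ((core_pi M).inf_left L) (norms_inf (inf_le_right.trans
        (h.le.trans (piCoreOf_norm _ _))) (inf_le_left.trans le_normalizer))))

omit a1 r2 in
/-- KEY in characteristic `r` -/
theorem key_char (rz : RZM G r) (h : Pk r a A M) (hπ : ∀ q, q.Prime → q ≠ r → piCoreOf {q} M = ⊥) (hL : IsCoatom L)
    (hV : 𝐂(V) ≤ L) (hA : A ≤ L) (sc : SC M L) : L = M := by
  haveI := m.simple
  haveI := Fact.mk h.a4.prime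
  have a1 := h.inv.ne
  have r2 := h.a4.ne
  have CM := (cent_le_cent1 ha).trans h.a4.le
  have Eo := Ex.odd ha CM
  have nE := Ex.norm ha CM
  have EM : Ex V M a ≤ M := Ex.le CM
  have FM := fit_eq_pc hπ
  have FE : fittingOf M ≤ Ex V M a := h.a4.fit.trans (le_sup_left.trans le_sup_left)
  obtain ⟨T, hT⟩ := exists_sylowIn 2 𝐂(V)
  have VT : V ≤ T := hT.normal_le ⟨V4.le_cent, centralizer_le_normalizer _⟩ V4.piGrp
  induction hn : Nat.card G - piPart {r} (Nat.card ↥(Ex V M a ⊓ L)) using Nat.strong_induction_on generalizing L with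
  | _ n ih =>
  have n0 : 𝐂(V) ≤ 𝐍(Ex V M a ⊓ L) := norms_inf nE (hV.trans le_normalizer)
  obtain ⟨R, hR, TR⟩ := (copAct_p_right (hT.le.trans n0) (Eo.inf_left L) hT.piGrp).exists_sylowIn r
  have AE : A ≤ Ex V M a ⊓ L := le_inf (h.AP.trans (FM ▸ FE)) hA
  have R1 : R ≠ ⊥ := fun e => h.ne (h.pi.eq_bot ((hR.eq_bot_iff.1 e).of_le AE))
  have Z1 : 𝐙(Je r R) ≠ ⊥ := center_ne_bot_nil (hR.piGrp.of_le (Je_le r R)).nilpotent (Je_ne_bot (hR.isPGroup Fact.out) R1)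
  have ZR : 𝐙(Je r R) ≤ R := inf_le_left.trans (Je_le r R)
  have nZ : 𝐍(R) ≤ 𝐍(𝐙(Je r R)) := norms_center (norm_le_norm_Je R)
  have EZ : Ex V M a ⊓ L ≤ 𝐍(𝐙(Je r R)) := by
    refine zj_core (odd_iff.2 (Eo.inf_left L)) (solv_odd (odd_iff.2 (Eo.inf_left L))) ?_ hR
    have k := (piCoreOf_le {r}ᶜ (Ex V M a ⊓ L)).trans inf_le_left
    have F' : PiGrp {r} (fittingOf M) := FM ▸ piCoreOf_piGrp _ _
    exact (F'.of_le ((le_inf (k.trans EM) (sc.cents' (k.trans EM) ((piCoreOf_le _ _).trans inf_le_right)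
      (F'.coprime (piCoreOf_piGrp _ _)) ((inf_le_inf_right _ FE).trans (piCoreOf_norm _ _)))).trans h.a4.cF)).eq_bot
      (piCoreOf_piGrp _ _)
  have CZ : 𝐂(V) ≤ 𝐍(𝐙(Je r R)) := ((m.npcV V4).sdprod hT).sup_eq.ge.trans (sup_le ((le_inf le_sup_right
    ((piCoreOf_le _ _).trans hV)).trans EZ) (TR.trans nZ))
  have ZM : 𝐍(𝐙(Je r R)) ≤ M := by
    obtain ⟨P, hP, RP⟩ := exists_sylowIn_ge hR.piGrp (hR.le.trans inf_le_left)
    rcases RP.eq_or_lt with e | e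
    · subst e
      exact norm_le_coatom h.a4.coatom ⟨ZR.trans (hP.le.trans EM), rz V M a R V4 ha a1 h.a4 (FM ▸ h.a4.cF) hP⟩ Z1
    obtain ⟨L', hL', NL⟩ := exists_isCoatom_ge (m.norm_ne Z1 (m.ne_top (hR.piGrp.of_le ZR).solvable))
    have k := card_lt_of_lt' (lt_inf_normalizer_nil hP.piGrp.nilpotent e)
    have k1 := Nat.le_of_dvd (piPart_pos _ _) ((hP.piGrp.inf_left 𝐍(R)).card_dvd_piPart (inf_le_inf hP.le (nZ.trans NL)))
    rw [← ih _ ?_ hL' (CZ.trans NL) (AE.trans (EZ.trans NL)) (sc_of' inf_le_left ((inf_le_inf_right _ FE).trans (EZ.trans NL))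
      ((le_inf (inf_le_left.trans FE) sc).trans (EZ.trans NL))) rfl]
    · exact NL
    rw [← hn, ← hR.card_eq]
    exact Nat.sub_lt_sub_left (k.trans_le (card_le_card_group _)) (k.trans_le k1)
  have VR := VT.trans TR
  obtain ⟨P, hP, VP, RP⟩ := (copAct_p_right (V4.le_cent.trans (Ex.norm ha hV)) (Ex.odd ha hV) V4.piGrp).exists_sylowIn_ge
    (m.in_ex' l0 V4 ha a1 r2 h.a4 hL.1 hV hR.le hR.piGrp VR) hR.piGrp VR
  have e : R = P := RP.eq_or_lt.resolve_right fun e => (lt_inf_normalizer_nil hP.piGrp.nilpotent e).ne' (hR.eq_of_le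
    (le_inf RP le_normalizer) (le_inf (m.in_ex l0 V4 ha a1 r2 h.a4 (Ex.odd ha hV) (Ex.norm ha hV) (inf_le_left.trans hP.le)
      (inf_le_right.trans (nZ.trans ZM)) (hP.piGrp.inf_left _) (norms_inf VP (norms_norm VR)))
      (inf_le_left.trans (hP.le.trans (Ex.le hV)))) (hP.piGrp.inf_left _))
  subst e
  have cL := cF_of_lay (m.pk_lay h hL.1 V4 hV ha hA sc)
  rw [fit_eq_pc fun q hq qr => h.hpi (hV (V4.le_cent ha)) hA sc (hπ q hq qr)] at cL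
  exact ((hL.le_iff.1 (m.rzw h.a4 V4 ha a1 hL.1 hV cL hP ZM)).resolve_left h.a4.coatom.1).symm

omit V4 ha a1 in
/-- A4: every `C(a)`-invariant `r`-subgroup is centralized by `a` -/
theorem a4 (A1 : ∀ (a : G) M, Inv2 a → 𝐂[a] ≤ M → QDT M → M = ⊤) (rz : RZM G r) (hr : r.Prime) (a2 : Inv2 a)
    (Yr : PiGrp {r} Y) (HY : 𝐂[a] ≤ 𝐍(Y)) : Y ≤ 𝐂[a] := by_contra fun nc => by
  obtain ⟨V, V4, ha⟩ := m.exists_V a2
  obtain ⟨b, hb, b1, ba⟩ := V4.exists ha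
  refine m.pk_false V4 hb ha ba (r := r) (fun c hc c1 => ?_) b1 a2.ne
  have c2 := V4.inv2 hc c1
  obtain ⟨g, rfl⟩ := m.one a c a2 c2
  have HY' := cj_mono g HY
  rw [cj_centralizer_singleton, cj_normalizer] at HY'
  obtain ⟨A, -, M, h⟩ := m.exists_pk (A1 _ · c2) c2 hr r2 (Yr.cj g) HY'
    (by rw [← cj_centralizer_singleton, cj_le_cj]; exact nc) fun b b2 hb => by
      have n := norms_inf (inf_le_right.trans HY') (inf_le_left.trans le_normalizer (a := 𝐂[b] ⊓ 𝐂[g * a * g⁻¹]))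
      exact l0 _ b c2 b2 hb _ inf_le_right (odd_of_pi ((Yr.cj g).inf_left _) r2) n _ le_rfl
        (((Yr.cj g).inf_left _).of_le (comm_le_left (zpowers_le.2 (n ⟨hb, self_mem_cent1 _⟩))))
  refine ⟨A, M, h, fun L hL hV hA sc => ?_⟩
  by_cases e : ∀ q, q.Prime → q ≠ r → piCoreOf {q} M = ⊥
  · exact m.key_char l0 V4 hc rz h e hL hV hA sc
  push Not at e
  obtain ⟨q, -, qr, e⟩ := e
  exact m.key_multi h hL V4 hV hc hA sc e qr

omit V4 ha a1 r2 in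
theorem not_a4 (A1 : ∀ (a : G) M, Inv2 a → 𝐂[a] ≤ M → QDT M → M = ⊤) (rz : RZM G r) (a2 : Inv2 a) : ¬ A4 a M r :=
  fun h => h.nc (m.a4 l0 h.ne A1 rz h.prime a2 (piCoreOf_piGrp _ _) (h.le.trans (piCoreOf_norm _ _)))

end Min

end CA.ABG
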