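/-
Alperin–Brauer–Gorenstein theorem: the configuration `A4` in the balanced case.
-/
import Cfsg.Agent.Lib.ABG.A4b

set_option autoImplicit false
set_option linter.unusedSectionVars false

namespace CA.ABG

open Cfsg CA CA.FStar CA.Loc CA.GW Subgroup

universe u

/-- the odd order subgroups normalized by `C(a)` are balanced -/
def BAL (G : Type*) [Group G] : Prop :=
  ∀ (a b : G) (Y : Subgroup G), Inv2 a → Inv2 b → a ∈ 𝐂[b] → Odd (Nat.card Y) → 𝐂[a] ≤ 𝐍(Y) →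
    ⁅Y ⊓ 𝐂[b], zpowers a⁆ ≤ 𝐎(𝐂[b])

/-- odd order subgroups of `C(a)` normalized by `N(V) ∩ C(a)` cover no root group -/
def NR (G : Type*) [Group G] : Prop :=
  ∀ (V : Subgroup G) (a : G) (Y : Subgroup G), Four V → a ∈ V → a ≠ 1 → Y ≤ 𝐂[a] → Odd (Nat.card Y) →
    𝐂[a] ⊓ 𝐍(V) ≤ 𝐍(Y) → ⁅Y, V⁆ ≤ 𝐎(𝐂[a])

/-- the Borel subgroups are maximal -/
def RF (G : Type*) [Group G] : Prop :=
  ∀ (V : Subgroup G) (a : G) (X Y : Subgroup G), Four V → a ∈ V → a ≠ 1 → Y ≤ X → X ≤ 𝐂[a] → 𝐂(V) ≤ X →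
    Odd (Nat.card Y) → 𝐂(V) ≤ 𝐍(Y) → 𝐂[a] ⊓ 𝐍(V) ≤ X ∨ Y ≤ 𝐎(X) ⊔ 𝐎(𝐂(V))

/-- the case where `a` centralizes all abelian `C(a)`-invariant `r`-subgroups -/
def CII (G : Type*) [Group G] (r : ℕ) : Prop :=
  ∀ (V : Subgroup G) (a : G) (A M B R : Subgroup G), Four V → a ∈ V → Pk r a A M →
    (∀ Y : Subgroup G, PiGrp {r} Y → IsMulCommutative Y → 𝐂[a] ≤ 𝐍(Y) → Y ≤ 𝐂[a]) →
    (∀ q, q.Prime → q ≠ r → piCoreOf {q} M = ⊥) →
    Maximal (fun E => E ≤ M ∧ PiGrp {2}ᶜ E ∧ 𝐂(V) ≤ 𝐍(E)) B → SylowIn r R B → 𝐍(𝐙(Je r R)) ≤ M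

/-- the properties of `A` used in KEY -/
structure Tk {G : Type*} [Group G] (r : ℕ) (V : Subgroup G) (a : G) (A M : Subgroup G) : Prop where
  a4 : A4 a M r
  inv : Inv2 a
  AP : A ≤ piCoreOf {r} M
  ne : A ≠ ⊥
  CM : 𝐂(A) ≤ M
  ll : ∀ L, L ≠ ⊤ → 𝐂(V) ≤ L → A ≤ L → A ≤ piCoreOf {r} L

section
variable {G : Type*} [Group G] [Finite G] {V A M L : Subgroup G} {a : G} {r q : ℕ}

theorem Tk.pi (h : Tk r V a A M) : PiGrp {r} A := (piCoreOf_piGrp _ _).of_le h.AP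

theorem lay_of_a4 (h : A4 a M r) (EM : lay L ≤ M) (sc : SC M L) : lay L = ⊥ := by
  have hF := fittingOf_normalIn M
  have h1 : lay L ≤ 𝐂(fittingOf M ⊓ L) := by
    have nE : fittingOf M ⊓ L ≤ 𝐍(lay L) := inf_le_right.trans (lay_normalIn L).norm
    have nF : lay L ≤ 𝐍(fittingOf M ⊓ L) := norms_inf (EM.trans hF.norm) ((lay_le L).trans le_normalizer)
    have k : lay L ≤ 𝐂(⁅lay L, fittingOf M ⊓ L⁆) := lay_cents_of_solvable ((comm_normalIn_left nE).subnormalIn.trans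
      (lay_normalIn L).subnormalIn)
      (solvable_of_le (solvable_of_nilpotent (fittingOf_nilpotent M)) ((comm_le_right nF).trans inf_le_left))
    have k1 := comm_eq_bot_iff.2 (cents_symm k)
    have := three_subgroup k1 (by rwa [commutator_comm (lay L)] at k1)
    rwa [show ⁅lay L, lay L⁆ = lay L from lay_der L, comm_eq_bot_iff] at this
  refine lay_eq_bot_of_solvable (solv_odd (odd_iff.2 (by_contra fun e => ?_)))
  obtain ⟨z, hz, z2⟩ := exists_inv2 e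
  have Fo := odd_card_of_le (odd_core M) h.fit
  exact z2.not_mem Fo (h.cF ⟨EM hz, sc.cents (copAct_inv z2.sq Fo (hF.norm (EM hz))) (zpowers_le.2 (h1 hz))
    (mem_zpowers z)⟩)

theorem Tk.char (h : Tk r V a A M) (hπ : ∀ q, q.Prime → q ≠ r → piCoreOf {q} M = ⊥) (hL : L ≠ ⊤) (hV : 𝐂(V) ≤ L)
    (hA : A ≤ L) (sc : SC M L) : L ⊓ 𝐂(piCoreOf {r} L) ≤ piCoreOf {r} L := by
  have k := h.ll L hL hV hA
  have cL := cF_of_lay (lay_of_a4 h.a4 (((lay_cents_pc r L).trans (cent_mono k)).trans h.CM) sc)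
  rwa [fit_eq_pc fun q hq qr => ?_] at cL
  have h1 := b1a h.a4.cF sc (hπ q hq qr)
  rwa [inf_eq_left.2 ((((piCoreOf_normalIn _ _).cents_of_coprime (piCoreOf_normalIn {r} L) ((piCoreOf_piGrp _ _).coprime
    ((piCoreOf_piGrp _ _).compl_singleton (by simpa using qr)))).trans (cent_mono k)).trans h.CM)] at h1

end

namespace Min
variable {G : Type u} [Group G] [Finite G] (m : Min G) {V A M L Y R E Q T : Subgroup G} {a b : G} {r : ℕ}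
  (V4 : Four V) (ha : a ∈ V)
include m V4 ha

theorem tk (h : Pk r a A M) : Tk r V a A M :=
  ⟨h.a4, h.inv, h.AP, h.ne, h.CM, fun _ hL hV => m.pk_le h hL V4 hV ha⟩

theorem le_DT (a1 : a ≠ 1) (Qa : Q ≤ 𝐂[a]) (QV : Q ≤ 𝐍(V)) (hT : SylowIn 2 T Q) : Q ≤ 𝐎(𝐂(V)) ⊔ T :=
  le_of_forall_sylowIn_le fun p hp _ => by
    by_cases e : p = 2
    · exact ⟨T, e ▸ hT, le_sup_right⟩
    obtain ⟨P, hP⟩ := exists_sylowIn p Q
    have o := odd_of_pi hP.piGrp e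
    exact ⟨P, hP, ((m.npcV V4).le_piCoreOf (fun x hx => V4.cents_odd (QV (hP.le hx)) (odd_of_mem o hx) ha a1
      (Qa (hP.le hx))) (odd_iff.1 o)).trans le_sup_left⟩

theorem in_exB (bal : BAL G) (h : A4 a M r) (a1 : a ≠ 1) (hL : L ≠ ⊤) (hV : 𝐂(V) ≤ L) (hR : R ≤ M ⊓ L)
    (Ro : Odd (Nat.card R)) (nR : V ≤ 𝐍(R)) (k : R ⊓ 𝐂[a] ≤ Ex V L a) : R ≤ Ex V L a := by
  have RM := hR.trans inf_le_left
  have RL := hR.trans inf_le_right
  have HW := h.le.trans (piCoreOf_norm {2}ᶜ M)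
  have fin : ∀ Q ≤ R, a ∈ 𝐍(Q) → ⁅⁅⁅Q, zpowers a⁆, zpowers a⁆, zpowers a⁆ ≤ 𝐎(L) → Q ≤ Ex V L a := fun Q h1 h2 h3 => by
    have cp := copAct_inv (V4.sq a ha) (odd_card_of_le Ro h1) h2
    rw [cp.comm_comm, cp.comm_comm] at h3
    refine (cp.le_sup_cent h3).trans (sup_le (le_sup_left.trans le_sup_left) ?_)
    rw [cent_zpowers]
    exact (inf_le_inf_right _ h1).trans k
  have c1 : ∀ Q, a ∈ 𝐍(Q) → ⁅Q, zpowers a⁆ ≤ Q := fun Q h => comm_le_left (zpowers_le.2 h)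
  have c2 : ∀ Q, a ∈ 𝐍(Q) → a ∈ 𝐍(⁅Q, zpowers a⁆) := fun Q h =>
    zpowers_le.1 (norms_commutator (zpowers_le.2 h) le_normalizer)
  rcases m.dich hL V4 hV ha a1 with e | e
  · refine V4.gen nR Ro fun b hb b1 => ?_
    by_cases ab : a = b
    · exact ab ▸ k
    have n := norms_inf nR (norms_cent1 (V4.le_cent1 hb)) ha
    refine fin _ inf_le_left n ((commutator_mono ((le_inf ((commutator_mono (le_inf (h.comm_le (inf_le_left.trans RM))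
      ((c1 _ n).trans inf_le_right)) le_rfl).trans (bal a b _ (V4.inv2 ha a1) (V4.inv2 hb b1) (V4.le_cent1 hb ha)
        (odd_core M) HW)) ((c1 _ (c2 _ n)).trans ((c1 _ n).trans (inf_le_inf_right _ RL)))).trans
      (piCoreOf_inf_le _ inf_le_right)) le_rfl).trans (e b hb b1))
  · exact fin R le_rfl (nR ha) ((c1 _ (c2 _ (c2 _ (nR ha)))).trans ((commutator_mono (le_inf (h.comm_le RM)
      ((c1 _ (nR ha)).trans RL)) le_rfl).trans (e _ inf_le_right ((core_pi M).inf_left L) (norms_inf (inf_le_right.trans HW)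
        (inf_le_left.trans le_normalizer)))))

/-- KEY in characteristic `r` for the overgroups of `Q` -/
theorem key_gen (h : Tk r V a A M) (hπ : ∀ q, q.Prime → q ≠ r → piCoreOf {q} M = ⊥)
    (CQ : 𝐂(V) ≤ Q) (Qa : Q ≤ 𝐂[a]) (QV : Q ≤ 𝐍(V))
    (hi : ∀ B R, Maximal (fun E => E ≤ M ∧ PiGrp {2}ᶜ E ∧ Q ≤ 𝐍(E)) B → SylowIn r R B → 𝐍(𝐙(Je r R)) ≤ M)
    (hc : ∀ L, IsCoatom L → Q ≤ L → A ≤ L → SC M L → L = M ∨
      ∀ Y ≤ L ⊓ 𝐂[a], PiGrp {2}ᶜ Y → Q ≤ 𝐍(Y) → Y ≤ 𝐎(L ⊓ 𝐂[a]) ⊔ 𝐎(𝐂(V)))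
    (hd : ∀ L, L ≠ ⊤ → Q ≤ L → 𝐎(L) ≠ ⊥ → L ≤ 𝐎(L) ⊔ 𝐂[a] ∨
      ∀ R ≤ M ⊓ L, Odd (Nat.card R) → V ≤ 𝐍(R) → R ⊓ 𝐂[a] ≤ Ex V L a → R ≤ Ex V L a)
    (hL : IsCoatom L) (hQ : Q ≤ L) (hA : A ≤ L) (sc : SC M L) : L = M := by
  haveI := m.simple
  haveI := Fact.mk h.a4.prime
  have a1 := h.inv.ne
  have r2 := h.a4.ne
  have QM := Qa.trans h.a4.le
  have FM := fit_eq_pc hπ
  have F' : PiGrp {r} (fittingOf M) := FM ▸ piCoreOf_piGrp _ _
  have AF : A ≤ fittingOf M := FM ▸ h.AP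
  have DQ := (piCoreOf_le {2}ᶜ _).trans CQ
  have QD : Q ≤ 𝐍(𝐎(𝐂(V))) := norms_piCoreOf _ (norms_cent QV)
  have QW := QM.trans (piCoreOf_norm {2}ᶜ M)
  obtain ⟨T, hT⟩ := exists_sylowIn 2 Q
  have VT : V ≤ T := hT.normal_le ⟨V4.le_cent.trans CQ, QV⟩ V4.piGrp
  have QT := m.le_DT V4 ha a1 Qa QV hT
  suffices H : ∀ (n : ℕ) (L E : Subgroup G), Nat.card G - piPart {r} (Nat.card E) = n → IsCoatom L → Q ≤ L → A ≤ L → SC M L → E ≤ M ⊓ L →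
      PiGrp {2}ᶜ E → Q ≤ 𝐍(E) → 𝐎(𝐂(V)) ≤ E → fittingOf M ⊓ L ≤ E → L = M from
    H _ L ((𝐎(M) ⊔ 𝐎(𝐂(V))) ⊓ L) rfl hL hQ hA sc (inf_le_inf_right _ (sup_le (piCoreOf_le _ _) (DQ.trans QM)))
      (((core_pi _).sup (core_pi _) (.inl (DQ.trans QW))).inf_left L) (norms_inf (norms_sup QW QD) (hQ.trans le_normalizer))
      (le_inf le_sup_right (DQ.trans hQ)) (inf_le_inf_right _ (h.a4.fit.trans le_sup_left))
  intro n
  induction n using Nat.strong_induction_on with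
  | _ n ih =>
  intro L E hn hL hQ hA sc hE Eo nE DE FE
  have hV := CQ.trans hQ
  have EM := hE.trans inf_le_left
  obtain ⟨R, hR, TR⟩ := (copAct_p_right (hT.le.trans nE) Eo hT.piGrp).exists_sylowIn r
  have lt : ∀ E' P : Subgroup G, PiGrp {r} P → P ≤ E' → R < P → Nat.card G - piPart {r} (Nat.card E') < n :=
    fun E' P h1 h2 h3 => by
      have k := card_lt_of_lt' h3
      rw [← hn, ← hR.card_eq]
      exact Nat.sub_lt_sub_left (k.trans_le (card_le_card_group _)) (k.trans_le (Nat.le_of_dvd (piPart_pos _ _)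
        (h1.card_dvd_piPart h2)))
  by_contra ne
  have mx : ∀ E' P : Subgroup G, E' ≤ M ⊓ L → PiGrp {2}ᶜ E' → Q ≤ 𝐍(E') → 𝐎(𝐂(V)) ≤ E' → fittingOf M ⊓ L ≤ E' →
      PiGrp {r} P → P ≤ E' → R ≤ P → R = P := fun E' P h1 h2 h3 h4 h5 h6 h7 h8 =>
    h8.eq_or_lt.resolve_right fun e => ne (ih _ (lt E' P h6 h7 e) L E' rfl hL hQ hA sc h1 h2 h3 h4 h5)
  have AE : A ≤ E := (le_inf AF hA).trans FE
  have R1 : R ≠ ⊥ := fun e => h.ne (h.pi.eq_bot ((hR.eq_bot_iff.1 e).of_le AE))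
  have Z1 : 𝐙(Je r R) ≠ ⊥ := center_ne_bot_nil (hR.piGrp.of_le (Je_le r R)).nilpotent (Je_ne_bot (hR.isPGroup Fact.out) R1)
  have ZR : 𝐙(Je r R) ≤ R := inf_le_left.trans (Je_le r R)
  have nZ : 𝐍(R) ≤ 𝐍(𝐙(Je r R)) := norms_center (norm_le_norm_Je R)
  have EZ : E ≤ 𝐍(𝐙(Je r R)) := by
    refine zj_core (odd_iff.2 Eo) (solv_odd (odd_iff.2 Eo)) ?_ hR
    have k := (piCoreOf_le {r}ᶜ E).trans hE
    exact (F'.of_le ((le_inf (k.trans inf_le_left) (sc.cents' (k.trans inf_le_left) (k.trans inf_le_right)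
      (F'.coprime (piCoreOf_piGrp _ _)) (FE.trans (piCoreOf_norm _ _)))).trans h.a4.cF)).eq_bot (piCoreOf_piGrp _ _)
  have QZ : Q ≤ 𝐍(𝐙(Je r R)) := QT.trans (sup_le (DE.trans EZ) (TR.trans nZ))
  have ZM : 𝐍(𝐙(Je r R)) ≤ M := by
    obtain ⟨B, EB, hB, mB⟩ := exists_maximal_ge (fun E => E ≤ M ∧ PiGrp {2}ᶜ E ∧ Q ≤ 𝐍(E)) (A := 𝐎(M) ⊔ E)
      ⟨sup_le (piCoreOf_le _ _) EM, (core_pi _).sup Eo (.inl (EM.trans (piCoreOf_norm _ _))), norms_sup QW nE⟩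
    have EB' := le_sup_right.trans EB
    obtain ⟨P, hP, RP⟩ := exists_sylowIn_ge hR.piGrp (hR.le.trans EB')
    rcases RP.eq_or_lt with e | e
    · exact hi B R ⟨hB, fun C h1 h2 => (mB C h1 h2).le⟩ (e ▸ hP)
    obtain ⟨L', hL', NL⟩ := exists_isCoatom_ge (m.norm_ne Z1 (m.ne_top (hR.piGrp.of_le ZR).solvable))
    have EL := EZ.trans NL
    exact ih _ (lt _ _ (hP.piGrp.inf_left 𝐍(R)) (inf_le_inf hP.le (nZ.trans NL)) (lt_inf_normalizer_nil hP.piGrp.nilpotent e))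
      L' (B ⊓ L') rfl hL' (QZ.trans NL) (AE.trans EL) (sc_of' inf_le_left (FE.trans EL) ((le_inf inf_le_left sc).trans
      (FE.trans EL))) (inf_le_inf_right _ hB.1) (hB.2.1.inf_left _) (norms_inf hB.2.2 ((QZ.trans NL).trans le_normalizer))
      (le_inf (DE.trans EB') (DE.trans EL)) (inf_le_inf_right _ (h.a4.fit.trans (le_sup_left.trans EB))) ▸ NL
  have VR := VT.trans TR
  have cL := h.char hπ hL.1 hV hA sc
  have hO := piCoreOf_normalIn {2}ᶜ L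
  have OM : 𝐎(L) ≤ M := by
    have k := hE.trans inf_le_right
    have o : PiGrp {2}ᶜ (𝐎(L) ⊔ E) := (core_pi _).sup Eo (.inl (k.trans hO.norm))
    have nO := norms_sup (hQ.trans hO.norm) nE
    have OL := sup_le hO.le k
    obtain ⟨P, hP, RP⟩ := exists_sylowIn_ge hR.piGrp (hR.le.trans (le_sup_right : E ≤ 𝐎(L) ⊔ E))
    have e : R = P := RP.eq_or_lt.resolve_right fun e => (lt_inf_normalizer_nil hP.piGrp.nilpotent e).ne (mx
      (M ⊓ (𝐎(L) ⊔ E)) _ (inf_le_inf_left _ OL) (o.inf_right _) (norms_inf (QM.trans le_normalizer) nO)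
      (le_inf (DE.trans EM) (DE.trans le_sup_right)) (le_inf (FE.trans EM) (FE.trans le_sup_right)) (hP.piGrp.inf_left _)
      (le_inf (inf_le_right.trans (nZ.trans ZM)) (inf_le_left.trans hP.le)) (le_inf RP le_normalizer))
    subst e
    refine le_sup_left.trans ((zj_core (odd_iff.2 o) (solv_odd (odd_iff.2 o)) ?_ hP).trans ZM)
    have PO : piCoreOf {r} L ≤ 𝐎(L) ⊔ E := (le_piCoreOf (piCoreOf_normalIn _ L)
      ((piCoreOf_piGrp _ L).compl_singleton (by simpa using r2.symm))).trans le_sup_left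
    exact ((piCoreOf_piGrp {r} L).of_le ((le_inf ((piCoreOf_le _ _).trans OL) ((piCoreOf_normalIn _ _).cents_of_coprime
      ((piCoreOf_normalIn {r} L).of_le PO OL) ((piCoreOf_piGrp _ _).coprime' (piCoreOf_piGrp _ _)))).trans cL)).eq_bot (piCoreOf_piGrp _ _)
  have hc' := (hc L hL hQ hA sc).resolve_left ne
  have hd' := (hd L hL.1 hQ (ne_bot_of_le_ne_bot h.ne ((h.ll L hL.1 hV hA).trans (le_piCoreOf (piCoreOf_normalIn _ L)
    ((piCoreOf_piGrp _ L).compl_singleton (by simpa using r2.symm)))))).resolve_left fun e =>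
      ne ((hL.le_iff.1 (e.trans (sup_le OM h.a4.le))).resolve_left h.a4.coatom.1).symm
  have inx : ∀ R ≤ E, V ≤ 𝐍(R) → R ≤ Ex V L a := fun R h1 h2 =>
    hd' R (h1.trans hE) (odd_iff.2 (Eo.of_le h1)) h2 ((inf_le_inf_right _ h1).trans
      ((hc' _ (inf_le_inf_right _ (hE.trans inf_le_right)) (Eo.inf_left _) (norms_inf nE (Qa.trans le_normalizer))).trans
        (sup_le_sup_right le_sup_right _)))
  obtain ⟨P, hP, RP⟩ := exists_sylowIn_ge hR.piGrp (inx R hR.le VR)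
  have e := mx (Ex V L a) P (le_inf (sup_le (sup_le OM ((piCoreOf_le _ _).trans (inf_le_right.trans h.a4.le)))
    (DE.trans EM)) (Ex.le hV)) (Ex.odd ha hV) (norms_sup (norms_sup (hQ.trans hO.norm) ((le_inf hQ Qa).trans
      (piCoreOf_norm _ _))) QD) le_sup_right (inx _ FE (norms_inf ((V4.le_cent.trans (CQ.trans QM)).trans
      (fittingOf_normalIn M).norm) ((V4.le_cent.trans hV).trans le_normalizer))) hP.piGrp hP.le RP
  subst e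
  exact ne ((hL.le_iff.1 (m.rzw h.a4 V4 ha a1 hL.1 hV cL hP ZM)).resolve_left h.a4.coatom.1).symm

theorem nr_le (nr : NR G) (a1 : a ≠ 1) (hY : Y ≤ L ⊓ 𝐂[a]) (Yo : PiGrp {2}ᶜ Y) (nY : 𝐂[a] ⊓ 𝐍(V) ≤ 𝐍(Y)) :
    Y ≤ 𝐎(L ⊓ 𝐂[a]) ⊔ 𝐎(𝐂(V)) := by
  have n := (le_inf (V4.le_cent1 ha) le_normalizer).trans nY
  refine ((copAct_p_right n Yo V4.piGrp).le_sup_cent ((le_inf (nr V a Y V4 ha a1 (hY.trans inf_le_right) (odd_iff.2 Yo) nY)
    ((comm_le_left n).trans hY)).trans (piCoreOf_inf_le _ inf_le_right))).trans (sup_le_sup_left ?_ _)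
  exact (m.npcV V4).le_piCoreOf inf_le_right (Yo.inf_left _)

theorem key_plus0 (nr : NR G) (rz : RZM G r) (h : Tk r V a A M) (e : ∀ q, q.Prime → q ≠ r → piCoreOf {q} M = ⊥)
    (hd : ∀ L, L ≠ ⊤ → 𝐂[a] ⊓ 𝐍(V) ≤ L → 𝐎(L) ≠ ⊥ → L ≤ 𝐎(L) ⊔ 𝐂[a] ∨
      ∀ R ≤ M ⊓ L, Odd (Nat.card R) → V ≤ 𝐍(R) → R ⊓ 𝐂[a] ≤ Ex V L a → R ≤ Ex V L a)
    (hL : IsCoatom L) (hQ : 𝐂[a] ⊓ 𝐍(V) ≤ L) (hA : A ≤ L) (sc : SC M L) : L = M := by
  haveI := m.simple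
  haveI := Fact.mk h.a4.prime
  have CQ : 𝐂(V) ≤ 𝐂[a] ⊓ 𝐍(V) := le_inf (cent_le_cent1 ha) (centralizer_le_normalizer _)
  have CM := (cent_le_cent1 ha).trans h.a4.le
  refine m.key_gen V4 ha h e CQ inf_le_left inf_le_right (fun B R hB hR => ?_)
    (fun L _ _ _ _ => .inr fun Y => m.nr_le V4 ha nr h.inv.ne) hd hL hQ hA sc
  have aB := hB.1.2.2 ⟨self_mem_cent1 a, le_normalizer ha⟩
  have k : B ≤ Ex V M a := by
    refine ((copAct_inv h.inv.sq (odd_iff.2 hB.1.2.1) aB).le_sup_cent (h.a4.comm_le hB.1.1)).trans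
      (sup_le (le_sup_left.trans le_sup_left) ?_)
    rw [cent_zpowers]
    exact (m.nr_le V4 ha nr h.inv.ne (inf_le_inf_right _ hB.1.1) (hB.1.2.1.inf_left _) (norms_inf hB.1.2.2
      (inf_le_left.trans le_normalizer))).trans (sup_le_sup_right le_sup_right _)
  have QM := inf_le_left.trans h.a4.le (a := 𝐂[a] ⊓ 𝐍(V))
  rw [hB.eq_of_le ⟨Ex.le CM, Ex.odd ha CM, by
    rw [h.a4.ex]; exact norms_sup (QM.trans (piCoreOf_norm _ _)) (norms_piCoreOf _ (norms_cent inf_le_right))⟩ k] at hR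
  have R1 : R ≠ ⊥ := fun e => h.ne (h.pi.eq_bot ((hR.eq_bot_iff.1 e).of_le (h.AP.trans (h.a4.pc_le.trans
    (le_sup_left.trans le_sup_left)))))
  exact norm_le_coatom h.a4.coatom ⟨(inf_le_left.trans (Je_le r R)).trans (hR.le.trans (Ex.le CM)),
    rz V M a R V4 ha h.inv.ne h.a4 (fit_eq_pc e ▸ h.a4.cF) hR⟩
    (center_ne_bot_nil (hR.piGrp.of_le (Je_le r R)).nilpotent (Je_ne_bot (hR.isPGroup Fact.out) R1))

/-- KEY for the maximal subgroups containing `N(V) ∩ C(a)` -/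
theorem key_plus (bal : BAL G) (nr : NR G) (rz : RZM G r) (h : Pk r a A M) (hL : IsCoatom L) (hQ : 𝐂[a] ⊓ 𝐍(V) ≤ L)
    (hA : A ≤ L) (sc : SC M L) : L = M := by
  have CQ : 𝐂(V) ≤ 𝐂[a] ⊓ 𝐍(V) := le_inf (cent_le_cent1 ha) (centralizer_le_normalizer _)
  by_cases e : ∀ q, q.Prime → q ≠ r → piCoreOf {q} M = ⊥
  · exact m.key_plus0 V4 ha nr rz (m.tk V4 ha h) e (fun L hL hQ _ => .inr fun R =>
      m.in_exB V4 ha bal h.a4 h.inv.ne hL (CQ.trans hQ)) hL hQ hA sc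
  push Not at e
  obtain ⟨q, -, qr, e⟩ := e
  exact m.key_multi h hL V4 (CQ.trans hQ) ha hA sc e qr

/-- KEY -/
theorem key_full (bal : BAL G) (nr : NR G) (rf : RF G) (rz : RZM G r) (h : Pk r a A M)
    (hi : (∀ q, q.Prime → q ≠ r → piCoreOf {q} M = ⊥) → ∀ B R,
      Maximal (fun E => E ≤ M ∧ PiGrp {2}ᶜ E ∧ 𝐂(V) ≤ 𝐍(E)) B → SylowIn r R B → 𝐍(𝐙(Je r R)) ≤ M)
    (hL : IsCoatom L) (hV : 𝐂(V) ≤ L) (hA : A ≤ L) (sc : SC M L) : L = M := by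
  by_cases e : ∀ q, q.Prime → q ≠ r → piCoreOf {q} M = ⊥
  swap
  · push Not at e
    obtain ⟨q, -, qr, e⟩ := e
    exact m.key_multi h hL V4 hV ha hA sc e qr
  refine m.key_gen V4 ha (m.tk V4 ha h) e le_rfl (cent_le_cent1 ha) (centralizer_le_normalizer _) (hi e)
    (fun L hL hV hA sc => or_iff_not_imp_left.2 fun ne Y h1 h2 h3 => ?_)
    (fun L hL hV _ => .inr fun R => m.in_exB V4 ha bal h.a4 h.inv.ne hL hV) hL hV hA sc
  exact (rf V a _ Y V4 ha h.inv.ne h1 inf_le_right (le_inf hV (cent_le_cent1 ha)) (odd_iff.2 h2) h3).resolve_left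
    fun k => ne (m.key_plus V4 ha bal nr rz h hL (k.trans inf_le_left) hA sc)

end Min

section
variable {G : Type*} [Group G] [Finite G] {A M : Subgroup G} {a : G} {r : ℕ}

theorem A4.cj (h : A4 a M r) (g : G) : A4 (g * a * g⁻¹) (cj g M) r :=
  ⟨isCoatom_cj h.coatom g, cj_centralizer_singleton g a ▸ cj_mono g h.le,
    by rw [← cj_centralizer_singleton, ← cj_piCoreOf, ← cj_sup, h.eq], by rw [← cj_lay, h.lay, cj_bot],
    by rw [← cj_fittingOf, ← cj_piCoreOf]; exact cj_mono g h.fit, h.prime, h.ne,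
    by rw [← cj_piCoreOf, ← cj_centralizer_singleton, cj_le_cj]; exact h.nc⟩

theorem Pk.cj (h : Pk r a A M) (g : G) : Pk r (g * a * g⁻¹) (cj g A) (cj g M) := by
  refine ⟨h.a4.cj g, h.inv.conj g, cj_piCoreOf g {r} M ▸ cj_mono g h.AP, by simpa using h.ne,
    by rw [← cj_zpowers, ← cj_commutator, h.eq], by rw [← cj_centralizer_singleton, ← cj_normalizer]; exact cj_mono g h.HN,
    cj_normalizer g A ▸ cj_mono g h.NM,
    by rw [← cj_piCoreOf, ← cj_centralizer_singleton, ← cj_inf, ← cj_centralizer]; exact cj_mono g h.c1, fun b b2 hb => ?_⟩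
  obtain ⟨b, rfl⟩ := (MulAut.conj g).surjective b
  rw [MulAut.conj_apply] at *
  rw [← cj_centralizer_singleton] at hb ⊢
  rw [← cj_zpowers, ← cj_inf, ← cj_commutator, ← cj_piCoreOf]
  exact cj_mono g (h.nr b (by simpa [mul_assoc] using b2.conj g⁻¹) (conj_mem_cj.1 hb))

end

namespace Min
variable {G : Type u} [Group G] [Finite G] (m : Min G) {V A M L Y : Subgroup G} {a b : G} {r : ℕ}
include m

theorem pk_fam (h : Pk r a A M) : ∃ A' M' : G → Subgroup G, ∀ x, Inv2 x → (∃ g, A' x = cj g A) ∧ Pk r x (A' x) (M' x) ∧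
    ∀ g, cj g (A' x) = A' (g * x * g⁻¹) ∧ cj g (M' x) = M' (g * x * g⁻¹) := by
  choose! f hf using fun x => m.one a x h.inv
  refine ⟨fun x => cj (f x) A, fun x => cj (f x) M, fun x x2 => ⟨⟨_, rfl⟩, by simpa [hf x x2] using h.cj (f x), fun g => ?_⟩⟩
  have k : (f (g * x * g⁻¹))⁻¹ * (g * f x) ∈ 𝐂[a] := mem_cent1_iff.2 (by
    have e := hf _ (x2.conj g)
    generalize f (g * x * g⁻¹) = y at e ⊢
    calc _ = y⁻¹ * (g * (f x * a * (f x)⁻¹) * g⁻¹) * (g * f x) := by group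
      _ = _ := by rw [hf x x2, ← e]; group)
  have key : ∀ B : Subgroup G, 𝐂[a] ≤ 𝐍(B) → cj g (cj (f x) B) = cj (f (g * x * g⁻¹)) B := fun B hB => by
    rw [← cj_mul, ← mul_inv_cancel_left (f (g * x * g⁻¹)) (g * f x), cj_mul, cj_eq_of_mem_normalizer (hB k)]
  exact ⟨key A h.HN, key M (h.a4.le.trans le_normalizer)⟩

/-- the balanced case with `A` abelian -/
theorem pk_ab (bal : BAL G) (nr : NR G) (rz : RZM G r) (h0 : Pk r a A M) (ab : IsMulCommutative A) : False := by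
  obtain ⟨V, V4, -⟩ := m.exists_V h0.inv
  obtain ⟨A, M, H⟩ := m.pk_fam h0
  have h := fun a ha a1 => (H a (V4.inv2 ha a1)).2.1
  have eqv := fun a ha a1 => (H a (V4.inv2 ha a1)).2.2
  replace ab : ∀ a ∈ V, a ≠ 1 → IsMulCommutative (A a) := fun a ha a1 => by
    obtain ⟨g, e⟩ := (H a (V4.inv2 ha a1)).1
    rw [e]; exact (abelian_cj g).2 ab
  have key := fun a ha a1 L => m.key_plus V4 ha bal nr rz (h a ha a1) (L := L)
  have CM : ∀ a ∈ V, a ≠ 1 → 𝐂(V) ≤ M a := fun a ha a1 => (cent_le_cent1 ha).trans (h a ha a1).a4.le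
  have CA : ∀ a ∈ V, a ≠ 1 → 𝐂(V) ≤ 𝐍(A a) := fun a ha a1 => (cent_le_cent1 ha).trans (h a ha a1).HN
  have k0 : ∀ a ∈ V, a ≠ 1 → A a ⊓ 𝐂[a] = ⊥ := fun a ha a1 => cent_zpowers a ▸ (copAct_inv (V4.sq a ha) (h a ha a1).odd
    (CA a ha a1 (V4.le_cent ha))).cent_eq_bot_of_abelian (ab a ha a1) (h a ha a1).eq
  have k1 : ∀ a ∈ V, a ≠ 1 → ∀ b ∈ V, b ≠ 1 → A a ⊓ 𝐂[b] ≤ piCoreOf {r} (M b) ⊓ 𝐂[b] := fun a ha a1 b hb b1 => by
    have cp := copAct_inv (V4.sq a ha) (odd_card_of_le (h a ha a1).odd (inf_le_left : A a ⊓ 𝐂[b] ≤ _))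
      (norms_inf (CA a ha a1) (norms_cent1 (cent_le_cent1 hb)) (V4.le_cent ha))
    refine le_inf ((cp.le_sup_cent ((commutator_mono (inf_le_inf_left _ (h b hb b1).a4.le) le_rfl).trans
      (m.pk_ll (h a ha a1) (h b hb b1).a4.coatom.1 V4 (CM b hb b1) ha))).trans (sup_le le_rfl ?_)) inf_le_right
    rw [cent_zpowers]
    exact (inf_le_inf_right _ inf_le_left).trans ((k0 a ha a1).le.trans bot_le)
  have cV : ∀ g ∈ 𝐍(V), ∀ a ∈ V, a ≠ 1 → g * a * g⁻¹ ∈ V ∧ g * a * g⁻¹ ≠ 1 := fun g hg a ha a1 =>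
    ⟨conj_mem_of_mem_normalizer hg ha, ((V4.inv2 ha a1).conj g).ne⟩
  have k4 : ∀ a ∈ V, a ≠ 1 → ∀ b ∈ V, b ≠ 1 → A a ≤ piCoreOf {r} (M b) := fun a ha a1 b hb b1 => by
    by_cases e : a = b
    · rw [← e]; exact (h a ha a1).AP
    set X := ⨆ x : {x // x ∈ V ∧ x ≠ 1}, A x ⊓ 𝐂[b] with hX
    have X1 : X ≤ piCoreOf {r} (M b) ⊓ 𝐂[b] := iSup_le fun x => k1 _ x.2.1 x.2.2 b hb b1
    have X2 : ∀ x ∈ V, x ≠ 1 → A x ⊓ 𝐂[b] ≤ X := fun x hx x1 => le_iSup (fun x : {x // x ∈ V ∧ x ≠ 1} => A x ⊓ 𝐂[b]) ⟨x, hx, x1⟩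
    have c1 : a * b ≠ 1 := ((V4.inv2 ha a1).mul (V4.inv2 hb b1) e (V4.comm ha hb)).ne
    have gen : ∀ N, A a ⊓ 𝐂[b] ≤ N → A a ⊓ 𝐂[a * b] ≤ N → A a ≤ N := fun N h1 h2 =>
      V4.gen (V4.le_cent.trans (CA a ha a1)) (h a ha a1).odd fun v hv v1 => by
        rcases (V4.mem ha hb a1 b1 e v).1 hv with rfl | rfl | rfl | rfl
        exacts [absurd rfl v1, (k0 _ ha a1).le.trans bot_le, h1, h2]
    have X0 : X ≠ ⊥ := fun e0 => by
      obtain ⟨σ, hσ, -, e1⟩ := m.qdt.swap trivial trivial (V4.inv2 ha a1) (V4.inv2 hb b1) (V4.comm ha hb) e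
      have e2 := cj_mono σ ((X2 a ha a1).trans e0.le)
      rw [cj_inf, cj_eq_of_mem_normalizer ((h a ha a1).HN hσ.2), cj_centralizer_singleton, e1, cj_bot] at e2
      exact (h a ha a1).ne (le_bot_iff.1 (gen ⊥ ((X2 a ha a1).trans e0.le) e2))
    obtain ⟨L, hL, NL⟩ := exists_isCoatom_ge (m.norm_ne X0 (m.ne_top ((piCoreOf_piGrp _ _).of_le
      (X1.trans inf_le_left)).solvable))
    rw [key b hb b1 L hL (le_trans (fun g hg => mem_normalizer_of_cj_le (cj_le_iff.2 (iSup_le fun x => cj_le_iff.1 (by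
      rw [cj_inf, (eqv _ x.2.1 x.2.2 g).1, cj_eq_of_mem hg.1]
      exact X2 _ (cV g hg.2 _ x.2.1 x.2.2).1 (cV g hg.2 _ x.2.1 x.2.2).2)))) NL)
      ((norms_of_cents (cents_symm (X1.trans (h b hb b1).c1))).trans NL)
      (sc_of (X1.trans (inf_le_left.trans (pc_fit _ _))) NL)] at NL
    refine m.pk_le (h a ha a1) (h b hb b1).a4.coatom.1 V4 (CM b hb b1) ha (gen _ (inf_le_right.trans (h b hb b1).a4.le)
      ((norms_of_cents (cents_symm (iSup_le fun ⟨x, hx, x1⟩ => ?_))).trans NL))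
    rcases (V4.mem ha hb a1 b1 e x).1 hx with rfl | rfl | rfl | rfl
    · exact absurd rfl x1
    · exact inf_le_left.trans ((abelian_iff.1 (ab _ ha a1)).trans (cent_mono inf_le_left))
    · exact (k0 _ hb b1).le.trans bot_le
    · exact cents_symm (((k1 a ha a1 _ hx x1).trans (h _ hx x1).c1).trans (cent_mono inf_le_left))
  obtain ⟨b, hb, c, hc, b1, c1, bc⟩ := V4.exists_two
  set T := ⨅ x : {x // x ∈ V ∧ x ≠ 1}, piCoreOf {r} (M x) with hT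
  have T1 : ∀ a ∈ V, a ≠ 1 → A a ≤ T := fun a ha a1 => le_iInf fun x => k4 a ha a1 _ x.2.1 x.2.2
  have T2 : ∀ a ∈ V, a ≠ 1 → T ≤ piCoreOf {r} (M a) := fun a ha a1 =>
    iInf_le (fun x : {x // x ∈ V ∧ x ≠ 1} => piCoreOf {r} (M x)) ⟨a, ha, a1⟩
  obtain ⟨L, hL, NL⟩ := exists_isCoatom_ge (m.norm_ne (fun e => (h b hb b1).ne (le_bot_iff.1 (e ▸ T1 b hb b1)))
    (m.ne_top ((piCoreOf_piGrp {r} (M b)).of_le (T2 b hb b1)).solvable))
  have CL : 𝐍(V) ≤ L := le_trans (fun g hg => mem_normalizer_of_cj_le (le_iInf fun x => by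
    have k := cV _ (inv_mem hg) _ x.2.1 x.2.2
    refine (cj_mono g (T2 _ k.1 k.2)).trans (le_of_eq ?_)
    rw [cj_piCoreOf, (eqv _ k.1 k.2 g).2]
    simp [mul_assoc])) NL
  have e := fun a ha a1 => key a ha a1 L hL (inf_le_right.trans CL) ((T1 a ha a1).trans (le_normalizer.trans NL))
    (sc_of ((T2 a ha a1).trans (pc_fit _ _)) NL)
  obtain ⟨σ, hσ, -, e'⟩ := m.qdt.swap trivial trivial (V4.inv2 hc c1) (V4.inv2 hb b1) (V4.comm hc hb) bc.symm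
  have := (h b hb b1).a4.comm_le le_rfl (comm_mem (e b hb b1 ▸ (e c hc c1).symm ▸ (h c hc c1).a4.le hσ.2) (mem_zpowers b))
  rw [e', mul_inv_cancel_right] at this
  exact (V4.inv2 hc c1).not_mem (odd_core _) this

/-- the balanced case; `II` is the case where `a` centralizes all abelian `C(a)`-invariant `r`-subgroups -/
theorem a4_bal (A1 : ∀ (a : G) M, Inv2 a → 𝐂[a] ≤ M → QDT M → M = ⊤) (bal : BAL G) (nr : NR G) (rf : RF G) (rz : RZM G r)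
    (hr : r.Prime) (r2 : r ≠ 2)
    (II : CII G r) (a2 : Inv2 a) (Yr : PiGrp {r} Y) (HY : 𝐂[a] ≤ 𝐍(Y)) : Y ≤ 𝐂[a] := by_contra fun nc => by
  have pk : ∀ a : G, Inv2 a → ∀ Y : Subgroup G, PiGrp {r} Y → 𝐂[a] ≤ 𝐍(Y) → ¬ Y ≤ 𝐂[a] → ∃ A ≤ Y, ∃ M, Pk r a A M :=
    fun a a2 Y Yr HY nc => m.exists_pk (A1 _ · a2) a2 hr r2 Yr HY nc fun b b2 hb => bal a b Y a2 b2 hb (odd_of_pi Yr r2) HY
  obtain ⟨V, V4, ha⟩ := m.exists_V a2
  obtain ⟨b, hb, b1, ba⟩ := V4.exists ha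
  refine m.pk_false V4 hb ha ba (r := r) (fun c hc c1 => ?_) b1 a2.ne
  have c2 := V4.inv2 hc c1
  obtain ⟨g, rfl⟩ := m.one a c a2 c2
  have HY' := cj_mono g HY
  rw [cj_centralizer_singleton, cj_normalizer] at HY'
  obtain ⟨A, -, M, h⟩ := pk _ c2 _ (Yr.cj g) HY' (by rw [← cj_centralizer_singleton, cj_le_cj]; exact nc)
  refine ⟨A, M, h, fun L => m.key_full V4 hc bal nr rf rz h fun e B R => II V _ A M B R V4 hc h (fun Z Zr Za HZ => ?_) e⟩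
  by_contra nc
  obtain ⟨A, AZ, M, h⟩ := pk _ c2 _ Zr HZ nc
  exact m.pk_ab bal nr rz h (abelian_of_le Za AZ)

end Min

end CA.ABG
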