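/-
Alperin–Brauer–Gorenstein theorem, wreathed case: the interface between the structure of involution centralizers and
the local analysis.
-/
import Cfsg.Agent.Lib.ABG.Top
import Cfsg.Agent.Lib.ABG.RelZJ

set_option autoImplicit false

namespace CA.ABG

open Cfsg CA CA.FStar CA.GW CA.Loc Subgroup

section
variable {G : Type*} [Group G]

/-- `X` covers `C(a)/O(C(a))`. -/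
def Cov (X : Subgroup G) (a : G) : Prop := 𝐂[a] ≤ X ⊓ 𝐂[a] ⊔ 𝐎(𝐂[a])

/-- `a ∈ Z*(X)`. -/
def Iso (X : Subgroup G) (a : G) : Prop := X ≤ 𝐎(X) ⊔ X ⊓ 𝐂[a]

/-- `X` fuses the involutions of `V`. -/
def Rot (X V : Subgroup G) : Prop := ∀ a ∈ V, ∀ b ∈ V, a ≠ 1 → b ≠ 1 → ∃ g ∈ X ⊓ 𝐍(V), g * a * g⁻¹ = b

/-- `σ` centralizes `a` and exchanges the two other involutions of `V`. -/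
def Swp (V : Subgroup G) (a σ : G) : Prop := σ ∈ 𝐂[a] ∧ ∀ b ∈ V, b ≠ 1 → b ≠ a → σ * b * σ⁻¹ = a * b

/-- `O(X) (X ⊓ O(C(V)))`. -/
abbrev EX (V X : Subgroup G) : Subgroup G := 𝐎(X) ⊔ X ⊓ 𝐎(𝐂(V))

end

/-- The local facts about `C(a)`; `pos` means `δ = +`, `Rt Y` that `Y` covers one of the two root subgroups of
`C(a)/O(C(a))` normalized by `C(V)`. -/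
structure LocW {G : Type*} [Group G] (V A : Subgroup G) (a : G) (p q k : ℕ) (pos : Prop) where
  Rt : Subgroup G → Prop
  la : ∀ (r : ℕ) (Y : Subgroup G), r.Prime → r ≠ 2 → (pos → r ≠ p) → Y ≤ 𝐂[a] → PiGrp {r} Y → A ≤ 𝐍(Y) →
    ⁅Y, V⁆ ≤ 𝐎(𝐂[a])
  zj : ∀ (r : ℕ) (X R : Subgroup G), r.Prime → r ≠ 2 → (pos → r ≠ p) → A ≤ X → Cov X a → Iso X a →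
    SylowIn r R (EX V X) → R ⊓ 𝐎(X) ⊴ X → X ⊓ 𝐂(R ⊓ 𝐎(X)) ≤ 𝐎(X) → X ≤ 𝐍(𝐙(Je r R))
  nc : pos → ∀ N, N ⊴ 𝐂[a] → V ≤ N → 𝐂[a] ≤ N ⊔ 𝐎(𝐂[a]) ⊔ 𝐂(V)
  ord : pos → (𝐂(V)).relIndex 𝐂[a] = k * (q * (q + 1))
  od : pos → piCoreOf {p} 𝐎(𝐂(V)) ≤ 𝐎(𝐂[a])
  rt_of : ∀ Y, Y ≤ 𝐂[a] → Odd (Nat.card Y) → 𝐂(V) ≤ 𝐍(Y) → ¬ ⁅Y, V⁆ ≤ 𝐎(𝐂[a]) → pos ∧ Rt Y
  rt_not : ∀ Y, Rt Y → ¬ ⁅Y, V⁆ ≤ 𝐎(𝐂[a])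
  rt_gen : ∀ Y X σ, Rt Y → Y ≤ X → 𝐂(V) ≤ X → σ ∈ X → Swp V a σ → Cov X a
  rt_swap : ∀ Y σ, Rt Y → Y ≤ 𝐂[a] → Odd (Nat.card Y) → Swp V a σ → σ ∉ 𝐍(Y)
  rt_ex : pos → ∃ Y, Y ≤ 𝐂[a] ∧ Odd (Nat.card Y) ∧ 𝐂(V) ≤ 𝐍(Y) ∧ Rt Y
  rt_idx : ∀ Y, Rt Y → Y ≤ 𝐂[a] → Odd (Nat.card Y) → 𝐂(V) ≤ 𝐍(Y) →
    ¬ p ∣ (𝐎(𝐂[a]) ⊔ Y ⊔ 𝐂(V)).relIndex 𝐂[a]
  rt_norm : ∀ Y X, Rt Y → Y ≤ 𝐂[a] → Odd (Nat.card Y) → X ≤ 𝐂[a] → X ≤ 𝐍(Y) → X ≤ 𝐎(𝐂[a]) ⊔ Y ⊔ 𝐂(V)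
  ovr : pos → ∀ X, X ≤ 𝐂[a] → 𝐂(V) ≤ X → ¬ p ∣ (𝐎(𝐂[a]) ⊔ 𝐂(V)).relIndex X ∨
    ∃ Y ≤ X, Odd (Nat.card Y) ∧ 𝐂(V) ≤ 𝐍(Y) ∧ Rt Y

/-- The Sylow 2-structure: `V` a four-group, `A` the homocyclic Sylow 2-subgroup of `C(V)`. -/
structure WS {G : Type*} [Group G] (V A : Subgroup G) : Prop where
  four : Four V
  syl : SylowIn 2 A 𝐂(V)
  ab : A ≤ 𝐂(A)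
  VA : V ≤ A
  npc : 𝐂(V) = A ⊔ 𝐎(𝐂(V))
  qdt : QDT (⊤ : Subgroup G)
  rotA : ∀ a ∈ V, ∀ b ∈ V, a ≠ 1 → b ≠ 1 → ∃ g ∈ 𝐍(A) ⊓ 𝐍(V), g * a * g⁻¹ = b
  swp : ∀ a ∈ V, a ≠ 1 → ∃ S σ, SylowIn 2 S ⊤ ∧ IsWreathed S ∧ A ≤ S ∧ S ≤ 𝐂[a] ∧ S ≤ 𝐍(A) ∧ S ≤ 𝐍(V) ∧ σ ∈ S ∧
    Swp V a σ
  rot : ∀ X, A ≤ X → (∃ a ∈ V, a ≠ 1 ∧ Iso X a) ∨ Rot X V

/-- All the input of the local analysis. -/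
structure WI (G : Type*) [Group G] where
  V : Subgroup G
  A : Subgroup G
  p : ℕ
  q : ℕ
  k : ℕ
  pos : Prop
  simple : IsSimpleGroup G
  ws : WS V A
  hp : p.Prime
  p2 : p ≠ 2
  hq : ∃ f, 0 < f ∧ q = p ^ f
  k_eq : ∀ a b : G, Inv2 a → Inv2 b → a ≠ b → b ∈ 𝐂[a] → (𝐂[b]).relIndex 𝐎(𝐂[a]) = k
  k_ne : k ≠ 1
  loc : ∀ a ∈ V, a ≠ 1 → LocW V A a p q k pos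
  kill : ∀ a ∈ V, a ≠ 1 → k ∣ (𝐂[a]).index
  idx : pos → ∀ a ∈ V, a ≠ 1 → (𝐂[a]).index = k ^ 2 * q ^ 2 * (q ^ 2 + q + 1)
  bx : ∀ X, X ≠ ⊤ → A ≤ X → ∀ a ∈ V, a ≠ 1 → ⁅𝐎(𝐂[a]) ⊓ X, V⁆ ≤ 𝐎(X)
  zz : ∀ X, X ≠ ⊤ → ∀ a ∈ V, a ≠ 1 → Cov X a → Iso X a ∨ 𝐎(X) = ⊥
  nf : pos → (∀ a ∈ V, a ≠ 1 → ⁅𝐎(𝐂[a]), V⁆ ≤ piCoreOf {p} 𝐂[a]) →
    ∀ a ∈ V, a ≠ 1 → ∀ x ∈ 𝐎(𝐂(V)), PiElt {p} x → x ∈ 𝐎(𝐂[a])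

end CA.ABG
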