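/-
Alperin–Brauer–Gorenstein theorem: the configuration `A4` with `A` balanced.
-/
import Cfsg.Agent.Lib.ABG.A4c
import Cfsg.Agent.Lib.ABG.WI

set_option autoImplicit false
set_option linter.unusedSectionVars false

namespace CA.ABG

open Cfsg CA CA.FStar CA.Loc CA.GW Subgroup

universe u

/-- the proper overgroups of `N(V) ∩ C(a)` -/
def ZQ (G : Type*) [Group G] : Prop :=
  ∀ (V : Subgroup G) (a : G) (L : Subgroup G), Four V → a ∈ V → a ≠ 1 → L ≠ ⊤ → 𝐂[a] ⊓ 𝐍(V) ≤ L →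
    NormalPCompl 2 (L ⊓ 𝐂[a]) ∨ Iso L a ∨ 𝐎(L) = ⊥

theorem QG.dich2 {G : Type*} [Group G] [Finite G] {X V : Subgroup G} {a : G} (h : QG X) (hO : 𝐎(X) = ⊥) (hV : V ≤ X)
    (V4 : Four V) (ha : a ∈ V) (a1 : a ≠ 1) (VK : ∀ K, K ⊴ X → QS K → K ⊓ 𝐂(K) = ⊥ → V ≤ K ∨ DSyl X)
    (np : NormalPCompl 2 (X ⊓ 𝐂[a])) (nc : ¬ X ⊓ 𝐂[a] ≤ 𝐂(V)) :
    X ≤ 𝐂[a] ∨ ∀ Y ≤ X, PiGrp {2}ᶜ Y → X ⊓ 𝐂[a] ≤ 𝐍(Y) → Y ≤ 𝐂[a] := by
  have a2 := V4.inv2 ha a1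
  rcases h.str hO (ne_bot_of_mem (hV ha) a1) with ⟨z, hz, z2, e⟩ | ⟨U, U4, hU⟩ | ⟨K, KX, hq, hC, -, -⟩
  · have zV := h.rk V hV V4 z hz z2.sq (mem_cent_iff_le_cent1.2 (hV.trans e))
    exact .inl (by_contra fun k => nc ((le_inf inf_le_right (inf_le_left.trans e)).trans
      (four_cent' V4 ha zV a1 z2.ne fun e' => k (e' ▸ e))))
  · exact .inr fun Y hY Yo hN => h.ll_four hO U4 hU (hV ha) a2 hY Yo hN ▸ bot_le
  have ZK := le_bot_iff.1 ((inf_le_inf_right _ KX.le).trans hC.le)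
  rcases VK K KX hq ZK with VK | k
  swap
  · exact .inr fun Y hY => dg_odd (dg_of k) hO (hV ha) a2 hY
  haveI := qs_simple hq ZK
  rcases (h.of_le KX.le).syl hq with k | k
  · refine .inr fun Y hY Yo hN => ?_
    have aY := hN ⟨hV ha, self_mem_cent1 a⟩
    rw [← cent_zpowers a, ← comm_eq_bot_iff, ← (copAct_inv a2.sq (odd_iff.2 Yo) aY).comm_comm, comm_eq_bot_iff, cent_zpowers]
    exact dg_odd (dg_of k) (le_bot_iff.1 (hO ▸ piCoreOf_le_of_normalIn _ KX)) (VK ha) a2 ((commutator_mono le_rfl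
      (zpowers_le.2 (VK ha))).trans (comm_le_right (hY.trans KX.norm))) (Yo.of_le (comm_le_left (zpowers_le.2 aY)))
      ((inf_le_inf_right _ KX.le).trans (norms_commutator hN (norms_zpowers_of_cent1 inf_le_right)))
  have e : ⊤ ⊓ 𝐂[(⟨a, VK ha⟩ : K)] ≤ pmap (MonoidHom.id K) (X ⊓ 𝐂[a]) := fun x hx =>
    ⟨x, ⟨KX.le x.2, mem_cent1_iff.2 (congrArg Subtype.val (mem_cent1_iff.1 hx.2) :)⟩, rfl⟩
  exact absurd ((np.pmap _).of_le e) ((qdt_top k).nq _ trivial ⟨Subtype.ext a2.sq, fun e => a1 (congrArg Subtype.val e)⟩)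

theorem comm_le_of_sup' {G : Type*} [Group G] {O C Y : Subgroup G} {a : G} (hn : C ≤ 𝐍(O)) (hC : C ≤ 𝐂[a]) (ha : a ∈ 𝐍(O))
    (hY : Y ≤ O ⊔ C) : ⁅Y, zpowers a⁆ ≤ O := comm_le_iff.2 fun y hy x hx => by
  obtain ⟨o, ho, c, hc, rfl⟩ := (mem_sup_of_norm_right hn).1 (hY hy)
  rw [show o * c * x * (o * c)⁻¹ * x⁻¹ = o * (c * x * c⁻¹ * o⁻¹ * x⁻¹) by group,
    ← mem_cent_iff.1 (cent_zpowers a ▸ hC hc : c ∈ 𝐂(zpowers a)) x hx, mul_inv_cancel_right]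
  exact mul_mem ho (conj_mem_of_mem_normalizer (zpowers_le.2 ha hx) (inv_mem ho))

namespace Min
variable {G : Type u} [Group G] [Finite G] (m : Min G) {V A M L Y R : Subgroup G} {a b : G} {r : ℕ}
include m

theorem swapN (V4 : Four V) (ha : a ∈ V) (hb : b ∈ V) (a1 : a ≠ 1) (b1 : b ≠ 1) (ab : a ≠ b) :
    ∃ σ ∈ 𝐂[a] ⊓ 𝐍(V), σ * b * σ⁻¹ = a * b := by
  obtain ⟨σ, hσ, -, e⟩ := m.qdt.swap trivial trivial (V4.inv2 ha a1) (V4.inv2 hb b1) (V4.comm ha hb) ab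
  exact ⟨σ, ⟨hσ.2, V4.norm_of ha hb a1 b1 ab (by rwa [mem_cent1_iff.1 hσ.2, mul_inv_cancel_right]) (e ▸ mul_mem ha hb)⟩, e⟩

theorem dich2 (hL : L ≠ ⊤) (V4 : Four V) (ha : a ∈ V) (a1 : a ≠ 1) (hQ : 𝐂[a] ⊓ 𝐍(V) ≤ L)
    (np : NormalPCompl 2 (L ⊓ 𝐂[a])) :
    Iso L a ∨ ∀ Y ≤ L, PiGrp {2}ᶜ Y → L ⊓ 𝐂[a] ≤ 𝐍(Y) → ⁅Y, zpowers a⁆ ≤ 𝐎(L) := by
  have hV := (le_inf (cent_le_cent1 ha) (centralizer_le_normalizer _)).trans hQ
  have VL := V4.le_cent.trans hV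
  have hO := piCoreOf_normalIn {2}ᶜ L
  have ho := core_pi L
  have hk : PiGrp {2}ᶜ (pker (qmk 𝐎(L))) := by rw [pker_qmk]; exact ho
  have Vn := VL.trans hO.norm
  have a2 := V4.inv2 ha a1
  have cen := pm_cent hk (Vn ha) a2 (le_normalizer (VL ha))
  obtain ⟨b, hb, b1, ba⟩ := V4.exists ha
  obtain ⟨σ, hσ, e1⟩ := m.swapN V4 ha hb a1 b1 ba.symm
  refine (((m.qsyl.qg.of_le le_top).quo hO ho).dich2 (piCoreOf_quo_self _ L) (quo_mono _ VL) (Four.quo V4 Vn ho)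
    (qel_mem_quo _ ha) (a2.pm (Vn ha) hk).ne (m.vk V4 hV) (cen ▸ np.quo _) fun e => ?_).imp (fun e => ?_) fun e Y hY Yo hn => ?_
  · have k := mem_cent_iff.1 (e (cen ▸ qel_mem_quo _ (mem_inf.2 ⟨hQ hσ, hσ.1⟩))) _ (qel_mem_quo _ hb)
    have σn := hO.norm (hQ hσ)
    refine (a2.pm (Vn ha) hk).ne (mul_right_cancel (b := qel 𝐎(L) b) ?_)
    rw [← pel_mul _ (Vn ha) (Vn hb), ← e1, pel_conj _ σn (Vn hb), ← k, mul_inv_cancel_right, one_mul]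
  · rw [inf_eq_left.2 e] at cen
    exact (quo_le_quo_iff hO.norm (inf_le_left.trans hO.norm)).1 cen.ge
  · have vn := zpowers_le.2 (Vn ha)
    have FO := hY.trans hO.norm
    rw [← quo_eq_bot_iff (comm_le_of_le FO vn), quo_commutator FO vn, quo_zpowers (Vn ha), comm_eq_bot_iff, cent_zpowers]
    exact e _ (quo_mono _ hY) (Yo.quo _) (cen ▸ quo_norms _ hn)

/-- KEY for the proper subgroups containing `N(V) ∩ C(a)` -/
theorem key_zq (nr : NR G) (rz : RZM G r) (zq : ZQ G) (V4 : Four V) (ha : a ∈ V) (h : Tk r V a A M)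
    (e : ∀ q, q.Prime → q ≠ r → piCoreOf {q} M = ⊥) (h1 : Y ≠ ⊥) (hY : Y ≤ piCoreOf {r} M) (hQ : 𝐂[a] ⊓ 𝐍(V) ≤ 𝐍(Y))
    (hA : A ≤ 𝐍(Y)) : 𝐍(Y) ≤ M := by
  obtain ⟨L, hL, NL⟩ := exists_isCoatom_ge (m.norm_ne h1 (m.ne_top ((piCoreOf_piGrp _ _).of_le hY).solvable))
  refine m.key_plus0 V4 ha nr rz h e (fun L hL hQ hO => ?_) hL (hQ.trans NL) (hA.trans NL)
    (sc_of (hY.trans (pc_fit _ _)) NL) ▸ NL
  refine ((zq V a L V4 ha h.inv.ne hL hQ).elim (m.dich2 hL V4 ha h.inv.ne hQ) fun k => .inl (k.resolve_right hO)).imp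
    (fun k => k.trans (sup_le_sup_left inf_le_right _)) fun k R hR Ro nR hc => ?_
  have cp := copAct_inv h.inv.sq Ro (nR ha)
  refine (cp.le_sup_cent (cp.comm_comm ▸ (commutator_mono (le_inf (h.a4.comm_le (hR.trans inf_le_left))
    (cp.comm_le.trans (hR.trans inf_le_right))) le_rfl).trans (k _ inf_le_right ((core_pi M).inf_left L) (norms_inf
      (inf_le_right.trans (h.a4.le.trans (piCoreOf_norm _ _))) (inf_le_left.trans le_normalizer))))).trans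
    (sup_le (le_sup_left.trans le_sup_left) ?_)
  rwa [cent_zpowers]

/-- the case where `A` is balanced -/
theorem pk_zq (nr : NR G) (rz : RZM G r) (zq : ZQ G) (h0 : Pk r a A M) : False := by
  obtain ⟨V, V4, -⟩ := m.exists_V h0.inv
  obtain ⟨A, M, H⟩ := m.pk_fam h0
  have h := fun a ha a1 => (H a (V4.inv2 ha a1)).2.1
  have eqv := fun a ha a1 => (H a (V4.inv2 ha a1)).2.2
  obtain ⟨b, hb, c, hc, b1, c1, bc⟩ := V4.exists_two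
  by_cases hπ : ∀ a ∈ V, a ≠ 1 → ∀ q, q.Prime → q ≠ r → piCoreOf {q} (M a) = ⊥
  swap
  · push Not at hπ
    obtain ⟨a, ha, a1, q, -, qr, e⟩ := hπ
    refine m.pk_false V4 hb hc bc (fun x hx x1 => ⟨_, _, h x hx x1, fun L hL hV hA sc =>
      m.key_multi (h x hx x1) hL V4 hV hx hA sc ?_ qr⟩) b1 c1
    obtain ⟨g, rfl⟩ := m.one a x (V4.inv2 ha a1) (V4.inv2 hx x1)
    rw [← (eqv a ha a1 g).2, ← cj_piCoreOf]
    simpa using e
  have CM : ∀ a ∈ V, a ≠ 1 → 𝐂(V) ≤ M a := fun a ha a1 => (cent_le_cent1 ha).trans (h a ha a1).a4.le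
  have CA : ∀ a ∈ V, a ≠ 1 → 𝐂(V) ≤ 𝐍(A a) := fun a ha a1 => (cent_le_cent1 ha).trans (h a ha a1).HN
  have ll := fun a ha a1 b hb b1 => m.pk_ll (h a ha a1) (h b hb b1).a4.coatom.1 V4 (CM b hb b1) ha
  have N1 : ∀ a ∈ V, a ≠ 1 → ∀ X ≤ piCoreOf {r} (M a) ⊓ 𝐂[a], X ≠ ⊥ → 𝐂[a] ⊓ 𝐍(V) ≤ 𝐍(X) → 𝐂(X) ≤ M a :=
    fun a ha a1 X h1 h2 h3 => (centralizer_le_normalizer _).trans (m.key_zq nr rz zq V4 ha (m.tk V4 ha (h a ha a1))
      (hπ a ha a1) h2 (h1.trans inf_le_left) h3 (norms_of_cents (cents_symm (h1.trans (h a ha a1).c1))))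
  have cV : ∀ g ∈ 𝐍(V), ∀ a ∈ V, a ≠ 1 → g * a * g⁻¹ ∈ V ∧ g * a * g⁻¹ ≠ 1 := fun g hg a ha a1 =>
    ⟨conj_mem_of_mem_normalizer hg ha, ((V4.inv2 ha a1).conj g).ne⟩
  set M0 := ⨅ x : {x // x ∈ V ∧ x ≠ 1}, M x with hM0
  have M1 : ∀ a ∈ V, a ≠ 1 → M0 ≤ M a := fun a ha a1 => iInf_le (fun x : {x // x ∈ V ∧ x ≠ 1} => M x) ⟨a, ha, a1⟩
  have M2 : ∀ g ∈ 𝐍(V), cj g M0 ≤ M0 := fun g hg => le_iInf fun x => by
    have k := cV _ (inv_mem hg) _ x.2.1 x.2.2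
    refine (cj_mono g (M1 _ k.1 k.2)).trans (le_of_eq ?_)
    rw [(eqv _ k.1 k.2 g).2]
    simp [mul_assoc]
  have cp : ∀ a ∈ V, a ≠ 1 → ∀ X, V ≤ 𝐍(X) → CopAct (A a ⊓ X) (zpowers a) := fun a ha a1 X hX =>
    copAct_inv (V4.sq a ha) (odd_card_of_le (h a ha a1).odd inf_le_left)
      (norms_inf (V4.le_cent.trans (CA a ha a1)) hX ha)
  have VM : V ≤ 𝐍(M0) := (le_iInf fun x => V4.le_cent.trans (CM _ x.2.1 x.2.2)).trans le_normalizer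
  have ex : ∃ a ∈ V, a ≠ 1 ∧ ¬ A a ⊓ M0 ≤ 𝐂[a] := by
    by_cases e : ∀ a ∈ V, a ≠ 1 → piCoreOf {r} (M a) ⊓ 𝐂(V) ≠ ⊥
    · refine ⟨b, hb, b1, fun k => (h b hb b1).ne ?_⟩
      rw [← (h b hb b1).eq, comm_eq_bot_iff]
      refine cents_symm ((copAct_inv (V4.sq b hb) (h b hb b1).odd (CA b hb b1 (V4.le_cent hb))).cents_of_axb
        (h b hb b1).pi (piCoreOf_piGrp {r} 𝐂(V)) ((piCoreOf_le _ _).trans (CA b hb b1))
        ((zpowers_le.2 hb).trans (cents_symm (piCoreOf_le _ _))) (cents_symm ?_)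
        ((V4.piGrp.of_le (zpowers_le.2 hb)).compl_singleton (by simpa using (h b hb b1).a4.ne)))
      rw [cent_zpowers]
      refine le_trans (inf_le_inf_left _ (le_iInf fun ⟨x, hx, x1⟩ => ?_)) k
      have n := (CM x hx x1).trans (piCoreOf_norm {r} _)
      exact (cent_mono (le_piCoreOf ⟨inf_le_right, norms_inf n le_normalizer⟩ ((piCoreOf_piGrp _ _).inf_left _))).trans
        (N1 x hx x1 _ (inf_le_inf_left _ (cent_le_cent1 hx)) (e x hx x1) (norms_inf (inf_le_left.trans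
          ((h x hx x1).a4.le.trans (piCoreOf_norm _ _))) (norms_cent inf_le_right)))
    push Not at e
    obtain ⟨b, hb, b1, e⟩ := e
    obtain ⟨a, ha, a1, ab⟩ := V4.exists hb
    have c2 := (V4.inv2 ha a1).mul (V4.inv2 hb b1) ab (V4.comm ha hb)
    have hc := mul_mem ha hb
    have nC : ∀ x ∈ V, V ≤ 𝐍(𝐂[x]) := fun x hx => (V4.le_cent1 hx).trans le_normalizer
    have k1 : ∀ x ∈ V, x ≠ 1 → ∀ y ∈ V, y ≠ 1 → ⁅A x ⊓ 𝐂[y], zpowers x⁆ ≤ piCoreOf {r} (M y) ⊓ 𝐂[y] :=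
      fun x hx x1 y hy y1 => le_inf ((commutator_mono (inf_le_inf_left _ (h y hy y1).a4.le) le_rfl).trans
        (ll x hx x1 y hy y1)) ((cp x hx x1 _ (nC y hy)).comm_le.trans inf_le_right)
    have k0 := (cp _ hc c2.ne _ (nC b hb)).comm_le.trans inf_le_left
    set Y := ⁅A (a * b) ⊓ 𝐂[b], zpowers (a * b)⁆ with hY
    have aY : V ≤ 𝐍(Y) := norms_commutator (norms_inf (V4.le_cent.trans (CA _ hc c2.ne)) (nC b hb))
      (norms_zpowers_of_cent1 (V4.le_cent1 hc))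
    have gen : ∀ x ∈ V, x ≠ 1 → x ≠ b → ∀ N, A x ⊓ 𝐂[x] ≤ N → ⁅A x ⊓ 𝐂[b], zpowers x⁆ ≤ N →
        ⁅A x ⊓ 𝐂[x * b], zpowers x⁆ ≤ N → A x ≤ N := fun x hx x1 xb N h1 h2 h3 =>
      V4.gen (V4.le_cent.trans (CA x hx x1)) (h x hx x1).odd fun v hv v1 => by
        have k : ⁅A x ⊓ 𝐂[v], zpowers x⁆ ≤ N → A x ⊓ 𝐂[v] ≤ N := fun k => ((cp x hx x1 _ (nC v hv)).le_sup_cent k).trans
          (sup_le le_rfl (by rw [cent_zpowers]; exact (inf_le_inf_right _ inf_le_left).trans h1))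
        rcases (V4.mem hx hb x1 b1 xb v).1 hv with rfl | rfl | rfl | rfl
        exacts [absurd rfl v1, h1, k h2, k h3]
    have YM : Y ≤ M a := by
      have ab' : IsMulCommutative ↥(piCoreOf {r} (M b) ⊓ 𝐂[b]) := abelian_iff'.2 fun x hx y hy => Zas.comm_of_inv
        (inv_of_fix (V4.inv2 ha a1) (norms_inf (V4.le_cent.trans ((CM b hb b1).trans (piCoreOf_norm _ _))) (nC b hb) ha)
          (le_bot_iff.1 (e ▸ le_inf (inf_le_left.trans inf_le_left) ((le_inf inf_le_right (inf_le_left.trans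
            inf_le_right)).trans (four_cent' V4 ha hb a1 b1 ab))))) hx hy
      have Z0 : A a ⊓ 𝐂[a] ≤ 𝐂(A a) := (inf_le_inf_right _ (h a ha a1).AP).trans (h a ha a1).c1
      refine (cents_symm ((h a ha a1).eq.ge.trans ((comm_le_of_sup' (O := A a ⊓ 𝐂(Y)) (C := A a ⊓ 𝐂[a])
        (norms_of_cents (Z0.trans (cent_mono inf_le_left))) inf_le_right (norms_inf (V4.le_cent.trans (CA a ha a1))
          (norms_cent aY) ha) (gen a ha a1 ab _ le_sup_right (le_sup_of_le_left (le_inf ?_ ?_))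
            (le_sup_of_le_left (le_inf ?_ ?_)))).trans inf_le_right))).trans (h a ha a1).CM
      · exact (cp a ha a1 _ (nC b hb)).comm_le.trans inf_le_left
      · exact (k1 a ha a1 b hb b1).trans ((abelian_iff.1 ab').trans (cent_mono (k1 _ hc c2.ne b hb b1)))
      · exact (cp a ha a1 _ (nC _ hc)).comm_le.trans inf_le_left
      · exact (k1 a ha a1 _ hc c2.ne).trans ((h _ hc c2.ne).c1.trans (cent_mono k0))
    have cb : a * b ≠ b := fun e => a1 (mul_eq_right.1 e)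
    refine ⟨_, hc, c2.ne, fun k => (h _ hc c2.ne).ne ?_⟩
    have Y0 : Y = ⊥ := by
      rw [hY, ← (cp _ hc c2.ne _ (nC b hb)).comm_comm, comm_eq_bot_iff, cent_zpowers]
      refine le_trans (le_inf k0 (le_iInf fun ⟨x, hx, x1⟩ => ?_)) k
      rcases (V4.mem ha hb a1 b1 ab x).1 hx with rfl | rfl | rfl | rfl
      exacts [absurd rfl x1, YM, (k1 _ hc c2.ne _ hb b1).trans (inf_le_right.trans (h _ hb b1).a4.le),
        k0.trans (le_normalizer.trans (h _ hc c2.ne).NM)]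
    obtain ⟨σ, hσ, e1⟩ := m.swapN V4 hc hb c2.ne b1 cb
    have e2 := congrArg (cj σ) Y0
    rw [hY, cj_commutator, cj_inf, cj_eq_of_mem_normalizer ((h _ hc c2.ne).HN hσ.1), cj_centralizer_singleton, e1, cj_bot,
      cj_eq_of_mem_normalizer (norms_zpowers_of_cent1 le_rfl hσ.1)] at e2
    rw [← (h _ hc c2.ne).eq, comm_eq_bot_iff, cent_zpowers]
    exact gen _ hc c2.ne cb _ inf_le_right (Y0.le.trans bot_le) (e2.le.trans bot_le)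
  set T := ⨆ x : {x // x ∈ V ∧ x ≠ 1}, ⁅A x ⊓ M0, zpowers (x : G)⁆ with hT
  have T1 : ∀ x ∈ V, x ≠ 1 → ⁅A x ⊓ M0, zpowers x⁆ ≤ T := fun x hx x1 =>
    le_iSup (fun x : {x // x ∈ V ∧ x ≠ 1} => ⁅A x ⊓ M0, zpowers (x : G)⁆) ⟨x, hx, x1⟩
  have T2 : ∀ a ∈ V, a ≠ 1 → T ≤ piCoreOf {r} (M a) := fun a ha a1 => iSup_le fun ⟨x, hx, x1⟩ =>
    (commutator_mono (inf_le_inf_left _ (M1 a ha a1)) le_rfl).trans (ll x hx x1 a ha a1)
  have T3 : 𝐍(V) ≤ 𝐍(T) := fun g hg => mem_normalizer_of_cj_le (cj_le_iff.2 (iSup_le fun ⟨x, hx, x1⟩ => cj_le_iff.1 (by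
    rw [cj_commutator, cj_inf, (eqv x hx x1 g).1, cj_zpowers]
    exact (commutator_mono (inf_le_inf_left _ (M2 g hg)) le_rfl).trans (T1 _ (cV g hg x hx x1).1 (cV g hg x hx x1).2))))
  have T0 : T ≠ ⊥ := fun e => by
    obtain ⟨a, ha, a1, k⟩ := ex
    exact k (cent_zpowers a ▸ comm_eq_bot_iff.1 (le_bot_iff.1 (e ▸ T1 a ha a1)))
  obtain ⟨a, ha, a1, e⟩ : ∃ a ∈ V, a ≠ 1 ∧ T ⊓ 𝐂[a] ≠ ⊥ := by
    by_contra! k
    exact T0 (le_bot_iff.1 (V4.gen (le_normalizer.trans T3) (odd_of_pi ((piCoreOf_piGrp _ _).of_le (T2 b hb b1))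
      (h b hb b1).a4.ne) fun v hv v1 => (k v hv v1).le))
  have k := T3.trans (m.key_zq nr rz zq V4 ha ⟨(h a ha a1).a4, (h a ha a1).inv, T2 a ha a1, T0, (cent_mono inf_le_left).trans
    (N1 a ha a1 _ (inf_le_inf_right _ (T2 a ha a1)) e (norms_inf (inf_le_right.trans T3) (inf_le_left.trans le_normalizer))),
    fun L hL hV TL => iSup_le fun ⟨x, hx, x1⟩ => ((cp x hx x1 _ VM).comm_comm.ge.trans (commutator_mono (le_inf
      ((cp x hx x1 _ VM).comm_le.trans inf_le_left) ((T1 x hx x1).trans TL)) le_rfl)).trans (m.pk_ll (h x hx x1) hL V4 hV hx)⟩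
    (hπ a ha a1) T0 (T2 a ha a1) (inf_le_right.trans T3) le_normalizer)
  obtain ⟨x, hx, x1, xa⟩ := V4.exists ha
  obtain ⟨σ, hσ, e'⟩ := m.swapN V4 hx ha x1 a1 xa
  have := (h a ha a1).a4.comm_le le_rfl (comm_mem (k hσ.2) (mem_zpowers a))
  rw [e', mul_inv_cancel_right] at this
  exact (V4.inv2 hx x1).not_mem (odd_core _) this

/-- `A4` is impossible once the unbalanced minimal subgroups are excluded -/
theorem a4_split (A1 : ∀ (a : G) M, Inv2 a → 𝐂[a] ≤ M → QDT M → M = ⊤) (nr : NR G) (rz : RZM G r) (zq : ZQ G)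
    (U : ∀ (a b : G) (A : Subgroup G), Inv2 a → Inv2 b → a ∈ 𝐂[b] → PiGrp {r} A →
      Minimal (fun B => 𝐂[a] ≤ 𝐍(B) ∧ ⁅B, zpowers a⁆ = B ∧ B ≠ ⊥) A → ⁅A ⊓ 𝐂[b], zpowers a⁆ ≤ 𝐎(𝐂[b]))
    (a2 : Inv2 a) : ¬ A4 a M r := fun h => by
  have HY := h.le.trans (piCoreOf_norm {r} M)
  have cp := copAct_inv a2.sq (odd_of_pi (piCoreOf_piGrp {r} M) h.ne) (HY (self_mem_cent1 a))
  obtain ⟨A, AY, hA, mA⟩ := exists_minimal_le (fun B => 𝐂[a] ≤ 𝐍(B) ∧ ⁅B, zpowers a⁆ = B ∧ B ≠ ⊥)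
    (A := ⁅piCoreOf {r} M, zpowers a⁆) ⟨norms_commutator HY (norms_zpowers_of_cent1 le_rfl), cp.comm_comm,
      fun e => h.nc (cent_zpowers a ▸ comm_eq_bot_iff.1 e)⟩
  have Ar := (piCoreOf_piGrp {r} M).of_le (AY.trans cp.comm_le)
  obtain ⟨A', -, M', k⟩ := m.exists_pk (A1 _ · a2) a2 h.prime h.ne Ar hA.1 (fun e => hA.2.2 (by
    rwa [← hA.2.1, comm_eq_bot_iff, cent_zpowers])) fun b b2 hb => U a b A a2 b2 hb Ar ⟨hA, fun C h1 h2 => (mA C h1 h2).ge⟩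
  exact m.pk_zq nr rz zq k

end Min

end CA.ABG
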