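/-
Alperin–Brauer–Gorenstein, character theory: the group `H = GL₂^ε(q)/Z` (`Br.Abs0` without the element `ρ`).
-/
import Cfsg.Agent.Lib.Br.Abs1

set_option autoImplicit false
set_option linter.unusedSectionVars false

namespace CA.ABG

open Cfsg Subgroup CA CA.Ch CA.Br

/-- The facts about `H = C(t)` (blocks A1-A5). -/
structure HA (G : Type*) [Group G] where
  q : ℕ
  e : ℤ
  he : e = 1 ∨ e = -1
  p : ℕ
  f : ℕ
  hp : p.Prime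
  hf : 0 < f
  hq : q = p ^ f
  odd : Odd q
  t : G
  u : G
  w : G
  H : Subgroup G
  T : Subgroup G
  W : Subgroup G
  Z : Subgroup G
  U : Subgroup G
  Tm : Subgroup G
  Wm : Subgroup G
  H_eq : H = 𝐂[t]
  tt : t * t = 1
  uu : u * u = 1
  ww' : w * w = 1
  ut : u * t = t * u
  wt : w * t = t * w
  wu : w * u * w⁻¹ = t * u
  t_ne : t ≠ 1
  mem_T : ∀ {x : G}, x ∈ T ↔ x * t = t * x ∧ x * u = u * x
  W_le_H : W ≤ H
  U_le_H : U ≤ H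
  t_Z : t ∈ Z
  Z_comm : ∀ {z h : G}, z ∈ Z → h ∈ H → z * h = h * z
  commT : IsMulCommutative T
  commU : IsMulCommutative U
  cyc_W : IsCyclic W
  cyc_Tm : IsCyclic Tm
  card_T : (Nat.card T : ℤ) = (q - e) * Nat.card Z
  card_W : (Nat.card W : ℤ) = (q + e) * Nat.card Z
  card_U : Nat.card U = q
  card_H : (Nat.card H : ℤ) = q * (q ^ 2 - 1) * Nat.card Z
  d_dvd : ∃ k : ℕ, Odd k ∧ (q : ℤ) - e = Nat.card Z * k
  card_Tm : (Nat.card Tm : ℤ) = q - e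
  card_Wm : (Nat.card Wm : ℤ) = q + e
  cent_T : ∀ {x h : G}, x ∈ T → x ∉ Z → h ∈ H → h * x = x * h → h ∈ T
  cent_W : ∀ {x h : G}, x ∈ W → x ∉ Z → h ∈ H → h * x = x * h → h ∈ W
  cent_U : ∀ {x h : G}, x ∈ U → x ≠ 1 → h ∈ H → h * x = x * h → h ∈ Z ⊔ U
  T_inf_W : T ⊓ W = Z
  Z_inf_U : Z ⊓ U = ⊥
  u_not_W : u ∉ W
  fus_T : ∀ {x h : G}, x ∈ T → x ∉ Z → h ∈ H → h * x * h⁻¹ ∈ T → h ∈ T ∨ w * h ∈ T
  fus_W : ∀ {x h : G}, x ∈ W → x ∉ Z → h ∈ H → h * x * h⁻¹ ∈ W → h ∈ W ∨ u * h ∈ W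
  fus_TW : ∀ {x h : G}, x ∈ T → x ∉ Z → h ∈ H → h * x * h⁻¹ ∉ W
  fus_UT : ∀ {z y h : G}, z ∈ Z → y ∈ U → y ≠ 1 → h ∈ H → h * (z * y) * h⁻¹ ∉ T
  fus_UW : ∀ {z y h : G}, z ∈ Z → y ∈ U → y ≠ 1 → h ∈ H → h * (z * y) * h⁻¹ ∉ W
  fus_U : ∀ {z y z' y' h : G}, z ∈ Z → y ∈ U → y ≠ 1 → z' ∈ Z → y' ∈ U → h ∈ H →
    h * (z * y) * h⁻¹ = z' * y' → z = z' ∧ h ∈ 𝐍(U)
  U_trans : ∀ {y y' : G}, y ∈ U → y ≠ 1 → y' ∈ U → y' ≠ 1 → ∃ x ∈ H, x * y * x⁻¹ = y'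
  borel : (e = 1 ∧ H ⊓ 𝐍(U) = T ⊔ U ∧ ∀ y ∈ U, u * y * u⁻¹ = y⁻¹) ∨ (e = -1 ∧ H ⊓ 𝐍(U) = W ⊔ U)
  card_B : (Nat.card ↥(H ⊓ 𝐍(U)) : ℤ) = q * (q - 1) * Nat.card Z
  classes : ∀ {h : G}, h ∈ H → ∃ k ∈ H, k * h * k⁻¹ ∈ T ∨ k * h * k⁻¹ ∈ W ∨
    ∃ z ∈ Z, ∃ y ∈ U, y ≠ 1 ∧ k * h * k⁻¹ = z * y
  inv_T : ∀ {h : G}, h ∈ T → h * h = 1 → h = 1 ∨ h = t ∨ h = u ∨ h = t * u
  u_W_pow : ∀ {x : G}, x ∈ W → u * x * u⁻¹ = x ^ (e * q)
  mem_Tm : ∀ {x : G}, x ∈ Tm ↔ x ∈ T ∧ w * x * w⁻¹ = x⁻¹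
  mem_Wm : ∀ {x : G}, x ∈ Wm ↔ x ∈ W ∧ u * x * u⁻¹ = x⁻¹
  mem_Z_T : ∀ {x : G}, x ∈ Z ↔ x ∈ T ∧ w * x * w⁻¹ = x
  mem_Z_W : ∀ {x : G}, x ∈ Z ↔ x ∈ W ∧ u * x * u⁻¹ = x
  Tm_h90 : ∀ {x : G}, x ∈ Tm → ∃ y ∈ T, x = w * y * w⁻¹ * y⁻¹
  Wm_h90 : ∀ {x : G}, x ∈ Wm → ∃ y ∈ W, x = u * y * u⁻¹ * y⁻¹
  ext_T : ∀ (hT : T ≤ H) (l : Du T), (∀ x : T, (x : G) ∈ Tm → l.ch x = 1) →
    ∃ β : Du H, Du.comp (inclusion hT) β = l
  ext_W : ∀ (l : Du W), (∀ x : W, (x : G) ∈ Wm → l.ch x = 1) → ∃ β : Du H, Du.comp (inclusion W_le_H) β = l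
  inj_T : ∀ (hT : T ≤ H), Function.Injective (Du.comp (inclusion hT))
  inj_W : Function.Injective (Du.comp (inclusion W_le_H))

namespace HA

variable {G : Type*} [Group G] (S : HA G)

/-- `Q = ± q` -/
def Q : ℤ := S.e * S.q
/-- the order of the centre of `H` -/
noncomputable def d : ℕ := Nat.card S.Z
noncomputable def V : Subgroup G := zpowers S.t ⊔ zpowers S.u

theorem e_sq : S.e * S.e = 1 := by rcases S.he with h | h <;> rw [h] <;> rfl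
theorem Q_cases : (S.e = 1 ∧ S.Q = S.q) ∨ (S.e = -1 ∧ S.Q = -S.q) := by
  rcases S.he with h | h
  · exact Or.inl ⟨h, by rw [Q, h, one_mul]⟩
  · exact Or.inr ⟨h, by rw [Q, h, neg_one_mul]⟩
theorem Q_sq : S.Q ^ 2 = (S.q : ℤ) ^ 2 := by rcases S.Q_cases with ⟨-, h⟩ | ⟨-, h⟩ <;> rw [h] <;> ring
theorem q_eq : (S.q : ℤ) = S.e * S.Q := by rw [Q, ← mul_assoc, e_sq, one_mul]
theorem three_le : 3 ≤ S.q := by
  have h1 : S.p ∣ S.q := S.hq ▸ dvd_pow_self _ S.hf.ne'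
  have h2 := Nat.le_of_dvd S.odd.pos h1
  have h3 := S.hp.two_le
  obtain ⟨k, hk⟩ := S.odd
  omega
theorem p_ne_two : S.p ≠ 2 := fun h => by
  have h1 : S.p ∣ S.q := S.hq ▸ dvd_pow_self _ S.hf.ne'
  rw [h] at h1
  exact (Nat.not_even_iff_odd.2 S.odd) (even_iff_two_dvd.2 h1)
theorem card_T' : (Nat.card S.T : ℤ) = S.e * (S.Q - 1) * S.d := by
  rw [S.card_T, mul_sub, ← q_eq, mul_one]; rfl
theorem card_W' : (Nat.card S.W : ℤ) = S.e * (S.Q + 1) * S.d := by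
  rw [S.card_W, mul_add, ← q_eq, mul_one]; rfl
theorem card_H' : (Nat.card S.H : ℤ) = S.e * S.Q * (S.Q ^ 2 - 1) * S.d := by
  rw [S.card_H, ← q_eq, Q_sq]; rfl
theorem card_Tm' : (Nat.card S.Tm : ℤ) = S.e * (S.Q - 1) := by rw [S.card_Tm, mul_sub, ← q_eq, mul_one]
theorem card_Wm' : (Nat.card S.Wm : ℤ) = S.e * (S.Q + 1) := by rw [S.card_Wm, mul_add, ← q_eq, mul_one]

theorem mem_H {x : G} : x ∈ S.H ↔ x * S.t = S.t * x := by rw [S.H_eq, mem_centralizer_singleton_iff]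
theorem u_ne : S.u ≠ 1 := fun h => S.u_not_W (h ▸ one_mem _)
theorem tu_ne : S.t * S.u ≠ 1 := fun h => S.u_ne (by
  have := S.wu; rw [h, mul_inv_eq_one, mul_eq_left] at this; exact this)
theorem t_ne_u : S.t ≠ S.u := fun h => S.tu_ne (by rw [h, S.uu])
theorem t_T : S.t ∈ S.T := S.mem_T.2 ⟨rfl, S.ut.symm⟩
theorem u_T : S.u ∈ S.T := S.mem_T.2 ⟨S.ut, rfl⟩
theorem T_le_H : S.T ≤ S.H := fun _ h => S.mem_H.2 (S.mem_T.1 h).1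
theorem Z_le_T : S.Z ≤ S.T := fun _ h => (S.mem_Z_T.1 h).1
theorem Z_le_W : S.Z ≤ S.W := fun _ h => (S.mem_Z_W.1 h).1
theorem Tm_le_T : S.Tm ≤ S.T := fun _ h => (S.mem_Tm.1 h).1
theorem Wm_le_W : S.Wm ≤ S.W := fun _ h => (S.mem_Wm.1 h).1
theorem w_H : S.w ∈ S.H := S.mem_H.2 S.wt
theorem t_W : S.t ∈ S.W := S.Z_le_W S.t_Z
theorem t_inv : S.t⁻¹ = S.t := inv_eq_of_mul_eq_one_right S.tt
theorem u_inv : S.u⁻¹ = S.u := inv_eq_of_mul_eq_one_right S.uu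
theorem w_inv : S.w⁻¹ = S.w := inv_eq_of_mul_eq_one_right S.ww'
theorem t_Tm : S.t ∈ S.Tm := S.mem_Tm.2 ⟨S.t_T, by rw [S.wt, mul_inv_cancel_right, t_inv]⟩
theorem t_Wm : S.t ∈ S.Wm := S.mem_Wm.2 ⟨S.t_W, by rw [S.ut, mul_inv_cancel_right, t_inv]⟩
theorem u_not_Z : S.u ∉ S.Z := fun h => S.u_not_W (S.Z_le_W h)
theorem w_not_T : S.w ∉ S.T := fun h => S.t_ne (by
  have := S.wu; rw [(S.mem_T.1 h).2, mul_inv_cancel_right] at this; exact mul_eq_right.1 this.symm)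
theorem cyc_Z : IsCyclic S.Z := haveI := S.cyc_W; Subgroup.isCyclic_of_le S.Z_le_W

instance instCommT : IsMulCommutative S.T := S.commT
instance instCommU : IsMulCommutative S.U := S.commU
instance instCommW : IsMulCommutative S.W := haveI := S.cyc_W; IsCyclic.isMulCommutative

theorem mem_ZU {x : G} : x ∈ S.Z ⊔ S.U ↔ ∃ z ∈ S.Z, ∃ y ∈ S.U, x = z * y := by
  refine ⟨fun h => ?_, fun ⟨z, hz, y, hy, e⟩ => e ▸ mul_mem (mem_sup_left hz) (mem_sup_right hy)⟩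
  rw [sup_eq_closure] at h
  induction h using closure_induction with
  | mem x hx =>
    rcases hx with h | h
    exacts [⟨x, h, 1, one_mem _, (mul_one x).symm⟩, ⟨1, one_mem _, x, h, (one_mul x).symm⟩]
  | one => exact ⟨1, one_mem _, 1, one_mem _, (mul_one 1).symm⟩
  | mul x y _ _ hx hy =>
    obtain ⟨a, ha, b, hb, rfl⟩ := hx
    obtain ⟨c, hc, d, hd, rfl⟩ := hy
    refine ⟨a * c, mul_mem ha hc, b * d, mul_mem hb hd, ?_⟩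
    rw [mul_assoc, ← mul_assoc b, ← S.Z_comm hc (S.U_le_H hb)]; group
  | inv x _ hx =>
    obtain ⟨a, ha, b, hb, rfl⟩ := hx
    exact ⟨a⁻¹, inv_mem ha, b⁻¹, inv_mem hb, by rw [S.Z_comm ha (S.U_le_H hb), mul_inv_rev]⟩

theorem conj_T {n x : G} (h1 : n * S.t * n⁻¹ ∈ ({S.t, S.u, S.t * S.u} : Set G))
    (h2 : n * S.u * n⁻¹ ∈ ({S.t, S.u, S.t * S.u} : Set G)) (hx : x ∈ S.T) : n⁻¹ * x * n ∈ S.T := by
  obtain ⟨a, b⟩ := S.mem_T.1 hx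
  have k : ∀ v : G, n * v * n⁻¹ ∈ ({S.t, S.u, S.t * S.u} : Set G) → n⁻¹ * x * n * v = v * (n⁻¹ * x * n) :=
    fun v hv => by
      have : x * (n * v * n⁻¹) = (n * v * n⁻¹) * x := by
        rcases hv with h | h | h <;> rw [h]
        exacts [a, b, by rw [← mul_assoc, a, mul_assoc, b, mul_assoc]]
      calc n⁻¹ * x * n * v = n⁻¹ * (x * (n * v * n⁻¹)) * n := by group
        _ = _ := by rw [this]; group
  exact S.mem_T.2 ⟨k _ h1, k _ h2⟩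

theorem w_T {x : G} (hx : x ∈ S.T) : S.w * x * S.w⁻¹ ∈ S.T := by
  have := S.conj_T (n := S.w) (Or.inl (by rw [S.wt, mul_inv_cancel_right])) (Or.inr (Or.inr S.wu)) hx
  rw [S.w_inv] at this ⊢; exact this
theorem u_W {x : G} (hx : x ∈ S.W) : S.u * x * S.u⁻¹ ∈ S.W := S.u_W_pow hx ▸ zpow_mem hx _

/-- the action of `w` on `T` -/
noncomputable def s : S.T →* S.T := Hyp.cjr S.T S.w fun _ => S.w_T
/-- the action of `u` on `W` -/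
noncomputable def σ : S.W →* S.W := Hyp.cjr S.W S.u fun _ => S.u_W
@[simp] theorem s_coe (x : S.T) : (S.s x : G) = S.w * x * S.w⁻¹ := rfl
@[simp] theorem σ_coe (x : S.W) : (S.σ x : G) = S.u * x * S.u⁻¹ := rfl
noncomputable def tT : S.T := ⟨S.t, S.t_T⟩
noncomputable def uT : S.T := ⟨S.u, S.u_T⟩
noncomputable def tW : S.W := ⟨S.t, S.t_W⟩
section
variable [Finite G]

theorem Z_cent_U : S.Z ≤ 𝐂(S.U) := cents_iff.2 fun _ hz _ hy => S.Z_comm hz (S.U_le_H hy)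
theorem card_ZU : Nat.card ↥(S.Z ⊔ S.U) = S.q * Nat.card S.Z := by
  rw [card_sup_of_disjoint (Or.inr (norms_of_cents S.Z_cent_U)) S.Z_inf_U, S.card_U, mul_comm]
theorem T_inf_ZU : S.T ⊓ (S.Z ⊔ S.U) = S.Z := le_antisymm (fun x ⟨h1, h2⟩ => by
  obtain ⟨z, hz, y, hy, rfl⟩ := S.mem_ZU.1 h2
  by_cases h : y = 1
  · rwa [h, mul_one]
  · exact absurd (by simpa using h1) (S.fus_UT hz hy h (one_mem _))) (le_inf S.Z_le_T le_sup_left)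
theorem W_inf_ZU : S.W ⊓ (S.Z ⊔ S.U) = S.Z := le_antisymm (fun x ⟨h1, h2⟩ => by
  obtain ⟨z, hz, y, hy, rfl⟩ := S.mem_ZU.1 h2
  by_cases h : y = 1
  · rwa [h, mul_one]
  · exact absurd (by simpa using h1) (S.fus_UW hz hy h (one_mem _))) (le_inf S.Z_le_W le_sup_left)
theorem T_inf_U : S.T ⊓ S.U = ⊥ := eq_bot_iff.2 fun _ ⟨h1, h2⟩ =>
  S.Z_inf_U.le ⟨S.T_inf_ZU.le ⟨h1, mem_sup_right h2⟩, h2⟩
theorem W_inf_U : S.W ⊓ S.U = ⊥ := eq_bot_iff.2 fun _ ⟨h1, h2⟩ =>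
  S.Z_inf_U.le ⟨S.W_inf_ZU.le ⟨h1, mem_sup_right h2⟩, h2⟩
theorem U_odd {y : G} (hy : y ∈ S.U) : Odd (orderOf y) :=
  S.odd.of_dvd_nat (S.card_U ▸ orderOf_dvd_card_of_mem hy)
theorem U_sq {y : G} (hy : y ∈ S.U) (h : y * y = 1) : y = 1 :=
  Inv.eq_one_of_pow_coprime (m := 2) (by rw [sq, h]) (pow_orderOf_eq_one y) (Nat.coprime_two_left.2 (S.U_odd hy))
theorem U_ne_bot : S.U ≠ ⊥ := one_lt_card_iff_ne_bot'.1 (by have := S.three_le; rw [S.card_U]; omega)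
theorem inv_W {h : G} (hh : h ∈ S.W) (h2 : h * h = 1) : h = 1 ∨ h = S.t :=
  inv_cyclic S.cyc_W S.t_W S.tt S.t_ne hh h2
theorem inv_ZU {h : G} (hh : h ∈ S.Z ⊔ S.U) (h2 : h * h = 1) : h = 1 ∨ h = S.t := by
  obtain ⟨z, hz, y, hy, rfl⟩ := S.mem_ZU.1 hh
  have e : y * y = (z * z)⁻¹ := by
    rw [eq_inv_iff_mul_eq_one, ← h2, ← S.Z_comm (mul_mem hz hz) (S.U_le_H (mul_mem hy hy)), mul_assoc z y,
      ← mul_assoc y, ← S.Z_comm hz (S.U_le_H hy)]; group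
  have : y = 1 := S.U_sq hy (mem_bot.1 (S.Z_inf_U.le (mem_inf.2 ⟨e ▸ inv_mem (mul_mem hz hz), mul_mem hy hy⟩)))
  rw [this, mul_one] at h2 ⊢
  exact S.inv_W (S.Z_le_W hz) h2
theorem eq_t_of_conj {h k : G} (hk : k ∈ S.H) (e : k * h * k⁻¹ = S.t) : h = S.t := by
  have := S.mem_H.1 hk
  calc h = k⁻¹ * (k * h * k⁻¹) * k := by group
    _ = _ := by rw [e, mul_assoc, ← this]; group
theorem inv_H {h : G} (hh : h ∈ S.H) (h2 : h * h = 1) (h1 : h ≠ 1) : h = S.t ∨ ∃ k ∈ S.H, h = k * S.u * k⁻¹ := by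
  obtain ⟨k, hk, e⟩ := S.classes hh
  have k2 := Inv.conj_mul_self h2 k
  have k1 : k * h * k⁻¹ ≠ 1 := fun e => h1 (by simpa using e)
  rcases e with e | e | ⟨z, hz, y, hy, -, e⟩
  · rcases S.inv_T e k2 with e | e | e | e
    · exact absurd e k1
    · exact Or.inl (S.eq_t_of_conj hk e)
    · exact Or.inr ⟨k⁻¹, inv_mem hk, by rw [← e]; group⟩
    · exact Or.inr ⟨k⁻¹ * S.w, mul_mem (inv_mem hk) S.w_H, by
        rw [← S.wu] at e; calc h = k⁻¹ * (k * h * k⁻¹) * k := by group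
          _ = _ := by rw [e]; group⟩
  · exact Or.inl (S.eq_t_of_conj hk ((S.inv_W e k2).resolve_left k1))
  · exact Or.inl (S.eq_t_of_conj hk ((S.inv_ZU (S.mem_ZU.2 ⟨z, hz, y, hy, e⟩) k2).resolve_left k1))

/-- an involution of `A U` has the form `x y` with `x² = 1` -/
theorem inv_sd {A : Subgroup G} (hA : A ≤ 𝐍(S.U)) (hd : A ⊓ S.U = ⊥) {i : G} (hi : i ∈ A ⊔ S.U) (h2 : i * i = 1) :
    ∃ x ∈ A, ∃ y ∈ S.U, x * x = 1 ∧ i = x * y := by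
  obtain ⟨x, hx, y, hy, rfl⟩ := (mem_sup_of_norm_left hA).1 hi
  refine ⟨x, hx, y, hy, mem_bot.1 (hd.le (mem_inf.2 ⟨mul_mem hx hx, ?_⟩)), rfl⟩
  have : x * x = (x⁻¹ * y * x * y)⁻¹ := by
    rw [eq_inv_iff_mul_eq_one, ← h2]; group
  exact this ▸ inv_mem (mul_mem (conj_inv_mem_of_mem_normalizer (hA hx) hy) hy)

theorem conj_sd {x y y' : G} (hy : y ∈ S.U) (hy' : y' ∈ S.U) : x * y' * y * (x * y')⁻¹ = x * y * x⁻¹ := by
  rw [mul_assoc x, abelian_iff'.1 S.commU _ hy' _ hy]; group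

theorem norm_of_inv {i y : G} (hy : y ∈ S.U) (h1 : y ≠ 1) (hi : i ∈ S.H) (e : i * y * i⁻¹ = y⁻¹) : i ∈ 𝐍(S.U) :=
  (S.fus_U (one_mem _) hy h1 (one_mem _) (inv_mem hy) hi (by simpa using e)).2

theorem refl_U {y : G} (hy : y ∈ S.U) (h1 : y ≠ 1) :
    (Nat.card {i : G // i ∈ S.H ∧ i * i = 1 ∧ i ≠ 1 ∧ i ≠ S.t ∧ i * y * i⁻¹ = y⁻¹} : ℤ) = S.q + S.e * S.q := by
  have yy : y ≠ y⁻¹ := fun e => h1 (S.U_sq hy (by nth_rw 1 [e]; exact inv_mul_cancel y))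
  have ty : ∀ {y}, y ∈ S.U → S.t * y * S.t⁻¹ = y := fun hy => by
    rw [← S.mem_H.1 (S.U_le_H hy), mul_inv_cancel_right]
  rcases S.borel with ⟨he, hB, hu⟩ | ⟨he, hB⟩
  · have hT : S.T ≤ 𝐍(S.U) := le_sup_left.trans (hB.ge.trans inf_le_right)
    have tu : ∀ y ∈ S.U, S.t * S.u * y * (S.t * S.u)⁻¹ = y⁻¹ := fun y hy => by
      calc _ = S.t * (S.u * y * S.u⁻¹) * S.t⁻¹ := by group
        _ = _ := by rw [hu y hy, ty (inv_mem hy)]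
    have key : ∀ x ∈ S.T, x * x = 1 → (∀ y ∈ S.U, x * y * x⁻¹ = y⁻¹) → ∀ y' ∈ S.U,
        x * y' ∈ S.H ∧ x * y' * (x * y') = 1 ∧ x * y' ≠ 1 ∧ x * y' ≠ S.t ∧ x * y' * y * (x * y')⁻¹ = y⁻¹ := by
      intro x hx x2 hi y' hy'
      have e := (S.conj_sd (x := x) hy hy').trans (hi y hy)
      refine ⟨mul_mem (S.T_le_H hx) (S.U_le_H hy'), ?_, fun h => yy ?_, fun h => yy ?_, e⟩
      · have := hi y' hy'
        rw [Inv.inv_eq_self x2] at this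
        rw [← mul_assoc, this, inv_mul_cancel]
      · rw [← e, h]; group
      · rw [← e, h, ty hy]
    have : Nat.card {i : G // i ∈ S.H ∧ i * i = 1 ∧ i ≠ 1 ∧ i ≠ S.t ∧ i * y * i⁻¹ = y⁻¹} =
        Nat.card (S.U ⊕ S.U) := by
      refine (Nat.card_eq_of_bijective (Sum.elim
        (fun a : S.U => ⟨S.u * a, key _ S.u_T S.uu hu _ a.2⟩)
        (fun a : S.U => ⟨S.t * S.u * a, key _ (mul_mem S.t_T S.u_T)
          (by rw [mul_assoc, ← mul_assoc S.u, S.ut, mul_assoc, S.uu, mul_one, S.tt]) tu _ a.2⟩)) ⟨?_, ?_⟩).symm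
      · have ne : ∀ a b : S.U, S.u * a ≠ S.t * S.u * b := fun a b e => S.t_ne (mem_bot.1 (S.T_inf_U.le (mem_inf.2 ⟨S.t_T, by
          rw [← S.ut, mul_assoc, mul_right_inj] at e
          rw [eq_mul_inv_of_mul_eq e.symm]; exact mul_mem a.2 (inv_mem b.2)⟩)))
        rintro (a | a) (b | b) e <;> simp only [Sum.elim_inl, Sum.elim_inr, Subtype.mk.injEq] at e
        · rw [Subtype.ext (mul_left_cancel e)]
        · exact absurd e (ne a b)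
        · exact absurd e.symm (ne b a)
        · rw [Subtype.ext (mul_left_cancel e)]
      · rintro ⟨i, hi, i2, -, -, e⟩
        obtain ⟨x, hx, y', hy', x2, rfl⟩ := S.inv_sd hT S.T_inf_U (hB.le ⟨hi, S.norm_of_inv hy h1 hi e⟩) i2
        rw [S.conj_sd hy hy'] at e
        rcases S.inv_T hx x2 with rfl | rfl | rfl | rfl
        · exact absurd (by simpa using e) yy
        · exact absurd ((ty hy).symm.trans e) yy
        · exact ⟨Sum.inl ⟨y', hy'⟩, rfl⟩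
        · exact ⟨Sum.inr ⟨y', hy'⟩, rfl⟩
    rw [this, Nat.card_sum, S.card_U, he]; push_cast; ring
  · have hW : S.W ≤ 𝐍(S.U) := le_sup_left.trans (hB.ge.trans inf_le_right)
    have : IsEmpty {i : G // i ∈ S.H ∧ i * i = 1 ∧ i ≠ 1 ∧ i ≠ S.t ∧ i * y * i⁻¹ = y⁻¹} := ⟨by
      rintro ⟨i, hi, i2, -, -, e⟩
      obtain ⟨x, hx, y', hy', x2, rfl⟩ := S.inv_sd hW S.W_inf_U (hB.le ⟨hi, S.norm_of_inv hy h1 hi e⟩) i2
      rw [S.conj_sd hy hy'] at e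
      rcases S.inv_W hx x2 with rfl | rfl
      · exact absurd (by simpa using e) yy
      · exact absurd ((ty hy).symm.trans e) yy⟩
    rw [Nat.card_of_isEmpty, he]; simp

theorem lin_comm (β : Du S.H) {x : S.H} {a b : G} (ha : a ∈ S.H) (hb : b ∈ S.H) (e : (x : G) = a * b * a⁻¹ * b⁻¹) :
    β.ch x = 1 := by
  have : x = ⟨a, ha⟩ * ⟨b, hb⟩ * (⟨a, ha⟩ : S.H)⁻¹ * (⟨b, hb⟩ : S.H)⁻¹ := Subtype.ext e
  rw [this, Du.ch_apply, map_mul, map_mul, map_mul, map_inv, map_inv, mul_inv_cancel_comm, mul_inv_cancel, Units.val_one]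
theorem lin_Tm (β : Du S.H) (x : S.H) (h : (x : G) ∈ S.Tm) : β.ch x = 1 :=
  let ⟨_, hy, e⟩ := S.Tm_h90 h; S.lin_comm β S.w_H (S.T_le_H hy) e
theorem lin_Wm (β : Du S.H) (x : S.H) (h : (x : G) ∈ S.Wm) : β.ch x = 1 :=
  let ⟨_, hy, e⟩ := S.Wm_h90 h; S.lin_comm β (S.T_le_H S.u_T) (S.W_le_H hy) e
theorem lin_U (β : Du S.H) (x : S.H) (h : (x : G) ∈ S.U) : β.ch x = 1 := by
  by_cases h1 : (x : G) = 1
  · rw [show x = 1 from Subtype.ext h1, Du.ch_apply_one]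
  obtain ⟨m, hm⟩ := S.U_odd h
  have hy := pow_mem h m
  have e : (x : G) = ((x : G) ^ m)⁻¹ * ((x : G) ^ m)⁻¹ := by
    rw [← mul_inv_rev, eq_inv_iff_mul_eq_one, ← pow_add, ← pow_succ', ← two_mul, ← hm, pow_orderOf_eq_one]
  have y1 : (x : G) ^ m ≠ 1 := fun e' => h1 (by rw [e, e']; simp)
  obtain ⟨k, hk, e'⟩ := S.U_trans hy y1 (inv_mem hy) (inv_ne_one.2 y1)
  exact S.lin_comm β hk (S.U_le_H hy) (by rw [e', ← e])

theorem V_le_T : S.V ≤ S.T := sup_le (zpowers_le.2 S.t_T) (zpowers_le.2 S.u_T)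
theorem t_V : S.t ∈ S.V := mem_sup_left (mem_zpowers _)
theorem u_V : S.u ∈ S.V := mem_sup_right (mem_zpowers _)
theorem mem_zp {a x : G} (h : a * a = 1) (hx : x ∈ zpowers a) : x = 1 ∨ x = a := by
  obtain ⟨n, rfl⟩ := hx
  rcases Int.even_or_odd' n with ⟨k, rfl | rfl⟩
  · exact Or.inl (by simp [zpow_mul, zpow_ofNat, sq, h])
  · exact Or.inr (by simp [zpow_add, zpow_mul, zpow_ofNat, sq, h])
theorem mem_V {x : G} : x ∈ S.V ↔ x = 1 ∨ x = S.t ∨ x = S.u ∨ x = S.t * S.u := by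
  refine ⟨fun h => ?_, ?_⟩
  · obtain ⟨a, ha, b, hb, rfl⟩ := (mem_sup_of_norm_left (norms_of_abelian S.commT (zpowers_le.2 S.u_T)
      (zpowers_le.2 S.t_T))).1 h
    rcases mem_zp S.tt ha with rfl | rfl <;> rcases mem_zp S.uu hb with rfl | rfl <;> simp
  · rintro (rfl | rfl | rfl | rfl)
    exacts [one_mem _, S.t_V, S.u_V, mul_mem S.t_V S.u_V]
theorem mem_V' {x : G} : x ∈ S.V ↔ x ∈ S.T ∧ x * x = 1 := by
  refine ⟨fun h => ⟨S.V_le_T h, ?_⟩, fun h => S.mem_V.2 (S.inv_T h.1 h.2)⟩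
  rcases S.mem_V.1 h with rfl | rfl | rfl | rfl
  exacts [one_mul 1, S.tt, S.uu, by rw [← S.wu]; exact Inv.conj_mul_self S.uu _]
theorem card_V : Nat.card S.V = 4 := by
  rw [V, card_sup_of_disjoint (Or.inr (norms_of_abelian S.commT (zpowers_le.2 S.u_T) (zpowers_le.2 S.t_T))),
    Nat.card_zpowers, Nat.card_zpowers, Inv.orderOf_eq_two S.tt S.t_ne, Inv.orderOf_eq_two S.uu S.u_ne]
  refine eq_bot_iff.2 fun x ⟨h1, h2⟩ => ?_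
  rcases mem_zp S.tt h1 with rfl | rfl
  · exact one_mem _
  · exact (mem_zp S.uu h2).resolve_right S.t_ne_u

end

end HA

end CA.ABG
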