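/-
Alperin–Brauer–Gorenstein, character theory: the setting.
-/
import Cfsg.Agent.Lib.ABG.HA
import Cfsg.Agent.Lib.Br.Om3

set_option autoImplicit false
set_option linter.unusedSectionVars false

namespace CA.ABG

open Cfsg Subgroup CA CA.Ch CA.Br

/-- `HA` with centre a 2-group and an automorphism `r` of `T` which generates `S₃` together with `s`. -/
structure RA (E : Type*) [Group E] extends HA E where
  Z2 : ∀ z ∈ Z, PiElt {2} z
  r : T →* T
  rrr : ∀ x, r (r (r x)) = x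
  srsr : ∀ x, toHA.s (r (toHA.s (r x))) = x
  r_t : r toHA.tT = toHA.uT
  r_u : r toHA.uT = toHA.tT * toHA.uT

/-- The centralizer `H = 𝐂[τ]` has normal subgroups `O ≤ H1`, `O` and `H/H1` of odd order, `H1/O ≅ S.H`. -/
structure PS (G : Type*) [Group G] (E : Type*) [Group E] where
  S : RA E
  τ : G
  H1 : Subgroup G
  O : Subgroup G
  π : H1 →* S.H
  surj : Function.Surjective π
  ker : ∀ x : H1, π x = 1 ↔ (x : G) ∈ O
  O_le : O ≤ H1
  O_odd : Odd (Nat.card O)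
  O_norm : ∀ h ∈ 𝐂[τ], ∀ x ∈ O, h * x * h⁻¹ ∈ O
  H1_le : H1 ≤ 𝐂[τ]
  comm : ∀ a ∈ 𝐂[τ], ∀ b ∈ 𝐂[τ], a * b * a⁻¹ * b⁻¹ ∈ H1
  idx : Odd (H1.relIndex 𝐂[τ])
  cover : ∀ h ∈ 𝐂[τ], ∃ c ∈ 𝐂[τ], h * c⁻¹ ∈ H1 ∧ Odd ((𝐂[c]).relIndex 𝐂[τ])
  τH : τ ∈ H1
  πτ : (π ⟨τ, τH⟩ : E) = S.t
  ττ : τ * τ = 1
  inv_conj : ∀ i : G, i * i = 1 → i ≠ 1 → IsConj τ i
  fus : ∀ (x y : H1) (a : S.T), PiElt {2} x → PiElt {2} y → (π x : E) = a → (π y : E) = S.r a → IsConj (x : G) y

namespace PS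

variable {G E : Type*} [Group G] [Group E] (P : PS G E)

/-- the centralizer of the involution -/
abbrev H : Subgroup G := 𝐂[P.τ]
/-- the number of involutions over the non-central involution `u` -/
noncomputable def k : ℕ := Nat.card {x : P.H1 // x * x = 1 ∧ (P.π x : E) = P.S.u}
/-- the elements having `τ` as a power -/
def R : Set P.H := {h | P.τ ∈ zpowers (h : G)}
/-- `H1 → H` -/
abbrev ι : P.H1 →* P.H := inclusion P.H1_le
/-- linear characters of `H/H1` -/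
def Lin (l : Du P.H) : Prop := ∀ x : P.H1, l.ch (P.ι x) = 1
/-- linear characters of `H` which respect the fusion in `G` -/
def Stable (l : Du P.H) : Prop := ∀ a b : P.H, IsConj (a : G) b → l.ch a = l.ch b

variable [Finite G] [Finite E]

/-- the class function of the principal block of `H` over `g` -/
noncomputable def hat (g : P.S.H → ℂ) : P.H → ℂ := Blk.pi0 2 (ind P.ι (g ∘ P.π))

open Classical in
/-- a set of irreducible characters of `G` satisfying the second main theorem over the block `l B₀(H)` -/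
structure Pr (l : Du P.H) where
  B : Finset (G → ℂ)
  sm : ∀ χ, IsIrr χ → ∀ h ∈ P.R,
    l.ch h * Blk.pi0 2 (l⁻¹.ch * χ ∘ P.H.subtype) h = if χ ∈ B then χ h else 0

theorem mem_H {x : G} : x ∈ P.H ↔ x * P.τ = P.τ * x := mem_centralizer_singleton_iff
theorem τ_ne : P.τ ≠ 1 := fun h => P.S.t_ne (by
  rw [← P.πτ, show (⟨P.τ, P.τH⟩ : P.H1) = 1 from Subtype.ext h, map_one]; rfl)
theorem lin_one : P.Lin 1 := fun _ => rfl
theorem conj_τ {h : G} (hh : h ∈ P.H) : h * P.τ * h⁻¹ = P.τ := by rw [P.mem_H.1 hh, mul_inv_cancel_right]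
theorem rt_conj {h x : G} (hh : h ∈ P.H) : P.τ ∈ zpowers (h * x * h⁻¹) ↔ P.τ ∈ zpowers x := by
  conv_lhs => rw [← P.conj_τ hh]
  exact OmB.zp_conj_iff

theorem tiR : TIEmb P.H.subtype P.R where
  cnj a ha x := (P.rt_conj x.2).2 ha
  ti a ha b hb g e := by
    have h1 := OmB.zp_conj ha g
    have hb' : P.τ ∈ zpowers (g * (a : G) * g⁻¹) := (show (b : G) = g * a * g⁻¹ from e) ▸ hb
    have := OmB.inv_unique h1 hb' (by
      rw [show g * P.τ * g⁻¹ * (g * P.τ * g⁻¹) = g * (P.τ * P.τ) * g⁻¹ by group, P.ττ]; group) P.ττ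
      (fun h => P.τ_ne (by simpa using h)) P.τ_ne
    exact ⟨⟨g, P.mem_H.2 (mul_inv_eq_iff_eq_mul.1 this)⟩, rfl⟩

theorem τ_constt {h : G} (hh : P.τ ∈ zpowers h) : P.τ ∈ zpowers (constt {2} h) := by
  obtain ⟨k, hk⟩ := mem_zpowers_iff.1 hh
  refine mem_zpowers_iff.2 ⟨k, ?_⟩
  rw [← constt_zpow, hk]
  exact constt_eq_self ((piElt_singleton_iff' Nat.prime_two).2 ⟨1, by rw [pow_one, sq, P.ττ]⟩)

theorem cent_le {h : G} (hh : P.τ ∈ zpowers h) : 𝐂[constt {2} h] ≤ P.H := fun _ e =>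
  P.mem_H.2 (OmB.comm_of_zp (P.τ_constt hh) (mem_centralizer_singleton_iff.1 e))

/-- the principal block -/
noncomputable def pr1 : P.Pr 1 where
  B := Blk.B0 G 2
  sm χ hχ h hh := by
    have := Blk.second_main (p := 2) P.H.subtype hχ.isCF (h := h) fun g e =>
      ⟨⟨g, P.cent_le hh (mem_centralizer_singleton_iff.2 e)⟩, rfl⟩
    rw [inv_one, Du.ch_one, Pi.one_apply, one_mul, one_mul, ← this]
    split_ifs with e
    · rw [Blk.pi0_of_mem e]; rfl
    · rw [Blk.pi0_of_not_mem hχ e]; rfl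

end PS

end CA.ABG
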