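/-
Alperin–Brauer–Gorenstein, character theory: Alperin's theorem on isomorphic principal blocks.
-/
import Cfsg.Agent.Lib.ABG.PS
import Cfsg.Agent.Lib.Char.Extend

set_option autoImplicit false
set_option linter.unusedSectionVars false

namespace CA.ABG

open Cfsg Subgroup CA CA.Ch CA.Blk CA.Br

section
variable {H K : Type*} [Group H] [Finite H] [Group K] [Finite K]

theorem eq_one_of_pi {z : ℂ} {m : ℕ} (hm : Odd m) (h : z ^ m = 1) (hp : PI 2 (z - 1)) : z = 1 := by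
  by_contra e
  have ho : OI 2 z := by simpa using hp.oi.add (oi_one 2)
  have k : ∀ i : ℕ, PI 2 (z ^ i - 1) := fun i => by
    induction i with
    | zero => simpa using pi_zero 2
    | succ i ih => convert (ih.mul_right ho).add hp using 1; ring
  have h0 : ∑ i ∈ Finset.range m, z ^ i = 0 := by
    have := mul_geom_sum z m
    rw [h, sub_self] at this
    exact (mul_eq_zero.1 this).resolve_left (sub_ne_zero.2 e)
  have h1 := (PI.sum (s := Finset.range m) fun i _ => k i).neg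
  rw [Finset.sum_sub_distrib, h0] at h1
  simp only [Finset.sum_const, Finset.card_range, nsmul_eq_mul, mul_one, zero_sub, neg_neg] at h1
  exact (Nat.not_even_iff_odd.2 hm) (even_iff_two_dvd.2 (pi_natCast_iff.1 h1))

theorem lin_not_B0 {χ : H → ℂ} (hχ : χ ∈ B0 H 2) {l : H →* ℂˣ} (h : lin l * χ ∈ B0 H 2) {c : H} {m : ℕ} (hm : Odd m)
    (hl : l c ^ m = 1) (hc : Odd (𝐂[c] : Subgroup H).index) : l c = 1 := by
  classical
  haveI := Fintype.ofFinite H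
  let a : GA H := mkA fun g => if IsConj c g then 1 else 0
  have ca : Cen a := cen_mkA fun g x => by
    have : IsConj c (x * g * x⁻¹) ↔ IsConj c g :=
      ⟨fun e => e.trans (isConj_iff.2 ⟨x, rfl⟩).symm, fun e => e.trans (isConj_iff.2 ⟨x, rfl⟩)⟩
    simp only [this]
  have oa : CO 2 a := fun g => by
    simp only [a, co_mkA]; split_ifs
    exacts [oi_one 2, oi_zero 2]
  have h1 := (mem_B0.1 hχ).2 a oa ca
  have h2 := (mem_B0.1 h).2 a oa ca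
  have e1 : om (lin l * χ) a = l c * om χ a := by
    rw [om, om, tau_def, tau_def, ← mul_div_assoc, Finset.mul_sum]
    congr 1
    · refine Finset.sum_congr rfl fun g _ => ?_
      simp only [a, co_mkA, Pi.mul_apply]
      split_ifs with e
      · rw [← (isChar_lin l).isCF.of_isConj e, lin_apply]; ring
      · simp
    · simp [lin_apply]
  have e2 : om 1 a = ((𝐂[c] : Subgroup H).index : ℕ) := by
    have := card_centralizer_mul_card_class c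
    rw [← (𝐂[c] : Subgroup H).card_mul_index] at this
    rw [om, tau_def, ← Nat.eq_of_mul_eq_mul_left Nat.card_pos this, Nat.card_eq_fintype_card, Fintype.card_subtype]
    simp [a, co_mkA]
  have hz : ((l c : ℂˣ) : ℂ) ^ m = 1 := by rw [← Units.val_pow_eq_pow_val, hl, Units.val_one]
  have ho : OI 2 ((l c : ℂˣ) : ℂ) := by
    by_contra e
    have := oi_inv (x := ((l c : ℂˣ) : ℂ)) (p := 2) fun e' => e e'.oi
    obtain ⟨k, rfl⟩ := hm
    refine e ?_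
    convert this.pow (2 * k) using 1
    rw [inv_pow]
    exact eq_inv_of_mul_eq_one_left (by rw [← hz]; ring)
  rw [e1, e2] at h2
  rw [e2] at h1
  refine Units.ext (eq_one_of_pi hm hz (by_contra fun e => ?_))
  refine not_pi_mul e (fun e' => (Nat.not_even_iff_odd.2 hc) (even_iff_two_dvd.2 (pi_natCast_iff.1 e'))) ?_
  convert h2.sub (h1.mul_left ho) using 1; ring

theorem pi0_ind {P : (H → ℂ) → Prop} {φ : H → ℂ} (h : pi0 2 φ = φ) (h0 : P 0) (h1 : ∀ a b, P a → P b → P (a + b))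
    (h2 : ∀ χ ∈ B0 H 2, ∀ c : ℂ, P (c • χ)) : P φ :=
  h ▸ Finset.sum_induction _ P h1 h0 fun χ hχ => h2 χ hχ _

theorem isCF_of_pi0 {φ : H → ℂ} (h : pi0 2 φ = φ) : IsCF φ := h ▸ isCF_pi0 φ

theorem isVC_pi0 {φ : H → ℂ} (h : IsVC φ) : IsVC (pi0 2 φ) :=
  IsVC.sum fun _ hχ => (irr_of_B0 hχ).isVC.smul (h.ip_int (irr_of_B0 hχ).isVC)

/-- the hypothesis of Alperin's theorem -/
structure Alp (f : K →* H) : Prop where
  ab : commutator H ≤ f.range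
  odd : Odd f.range.index
  cov : ∀ h, ∃ c, h * c⁻¹ ∈ f.range ∧ Odd (𝐂[c] : Subgroup H).index

namespace Alp
variable {f : K →* H} [NEmb f] (A : Alp f) {φ χ : H → ℂ} {g g' ψ : K → ℂ}
include A

theorem pi0_lin {l : H →* ℂˣ} (hl : f.range ≤ l.ker) (l1 : l ≠ 1) (h : pi0 2 φ = φ) : pi0 2 (lin l * φ) = 0 := by
  refine pi0_ind (P := fun φ => pi0 2 (lin l * φ) = 0) h (by rw [mul_zero, pi0_zero])
    (fun a b ha hb => by rw [mul_add, pi0_add, ha, hb, add_zero]) fun χ hχ c => ?_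
  rw [mul_smul_comm, pi0_smul, pi0_of_not_mem ((irr_of_B0 hχ).lin_mul l) fun e => l1 (MonoidHom.ext fun x => ?_),
    smul_zero]
  obtain ⟨c, h1, h2⟩ := A.cov x
  have := lin_not_B0 hχ e A.odd (by rw [← map_pow]; exact hl (pow_index_mem _ c)) h2
  have h3 : l (x * c⁻¹) = 1 := hl h1
  rwa [map_mul, map_inv, this, inv_one, mul_one] at h3

theorem pi0_res (h : pi0 2 φ = φ) : pi0 2 (ind f (φ ∘ f)) = φ := by
  classical
  haveI := Fintype.ofFinite (H →* ℂˣ)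
  rw [ind_res f (isCF_of_pi0 h), ind_const_one, irr_filter_commutator _ A.ab,
    Finset.sum_image fun _ _ _ _ e => lin_injective e, Finset.sum_mul, pi0_sum, Finset.sum_eq_single 1]
  · rw [lin_one, Pi.one_apply, one_smul, one_mul, h]
  · intro l hl l1
    rw [smul_mul_assoc, pi0_smul, A.pi0_lin (Finset.mem_filter.1 hl).2 l1 h, smul_zero]
  · intro e
    exact absurd (Finset.mem_filter.2 ⟨Finset.mem_univ _, fun x _ => rfl⟩) e

theorem ip_res (h : pi0 2 φ = φ) (h' : pi0 2 χ = χ) : ⟪φ ∘ f, χ ∘ f⟫ = ⟪φ, χ⟫ := by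
  rw [← ip_ind_left f _ (isCF_of_pi0 h'), ← h', ← ip_pi0_comm, A.pi0_res h, h']

theorem res_B0 (h : χ ∈ B0 H 2) : χ ∘ f ∈ B0 K 2 := by
  have h1 := irr_of_B0 h
  have h2 := pi0_of_mem h
  refine (mem_B0_iff ((h1.isChar.comp f).isIrr (by rw [A.ip_res h2 h2, h1.ip_self]))).2 ?_
  rw [← regI_comp f, A.ip_res h2 pi0_regI]
  exact (mem_B0_iff h1).1 h

theorem ex_B0 (h : ψ ∈ B0 K 2) : ∃ χ ∈ B0 H 2, χ ∘ f = ψ := by
  have h1 := (mem_B0_iff (irr_of_B0 h)).1 h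
  rw [← regI_comp f, ← ip_ind_left f _ isCF_regI] at h1
  obtain ⟨χ, h2, h3, h4⟩ := (isCF_ind f ψ).exists_irr_of_ip h1
  have h5 := (mem_B0_iff h2).2 h4
  rw [ip_ind_left f _ h2.isCF] at h3
  exact ⟨χ, h5, ((irr_of_B0 h).eq_of_ip_ne (irr_of_B0 (A.res_B0 h5)) h3).symm⟩

theorem ex_ext (h : pi0 2 g = g) : ∃ φ, pi0 2 φ = φ ∧ φ ∘ f = g := by
  refine pi0_ind (P := fun g => ∃ φ, pi0 2 φ = φ ∧ φ ∘ f = g) h ⟨0, pi0_zero, rfl⟩ ?_ fun ψ hψ c => ?_
  · rintro _ _ ⟨a, ha, rfl⟩ ⟨b, hb, rfl⟩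
    exact ⟨a + b, by rw [pi0_add, ha, hb], rfl⟩
  · obtain ⟨χ, h1, rfl⟩ := A.ex_B0 hψ
    exact ⟨c • χ, by rw [pi0_smul, pi0_of_mem h1], rfl⟩

theorem pi0_comp (h : pi0 2 φ = φ) : pi0 2 (φ ∘ f) = φ ∘ f :=
  pi0_ind (P := fun φ => pi0 2 (φ ∘ f) = φ ∘ f) h pi0_zero
    (fun a b ha hb => by rw [Pi.add_comp, pi0_add, ha, hb]) fun χ hχ c => by
      rw [Pi.smul_comp, pi0_smul, pi0_of_mem (A.res_B0 hχ)]

theorem res_hat (h : pi0 2 g = g) : pi0 2 (ind f g) ∘ f = g := by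
  obtain ⟨φ, h1, rfl⟩ := A.ex_ext h
  rw [A.pi0_res h1]

end Alp

variable {π : K →* H} (hs : Function.Surjective π) (ho : Odd (Nat.card π.ker)) {φ χ : K → ℂ} {g ψ : H → ℂ}
include hs ho

theorem regI_surj : regI H 2 ∘ π = regI K 2 := funext fun x => by
  by_cases h : PiElt {2}ᶜ x
  · rw [regI_of h, Function.comp, regI_of (h.map π)]
  · rw [regI_of_not h, Function.comp, regI_of_not fun e => h (piElt_of_map π e fun y hy =>
      piElt_two_compl.2 (ho.of_dvd_nat (orderOf_dvd_card_of_mem (show y ∈ π.ker from hy))))]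

theorem comp_B0 (h : IsIrr ψ) : ψ ∘ π ∈ B0 K 2 ↔ ψ ∈ B0 H 2 := by
  rw [mem_B0_iff h, mem_B0_iff (h.comp_surj π hs), ← regI_surj hs ho, ip_comp_surj π hs]

theorem pi0_comp_surj (h : pi0 2 g = g) : pi0 2 (g ∘ π) = g ∘ π :=
  pi0_ind (P := fun g => pi0 2 (g ∘ π) = g ∘ π) h pi0_zero
    (fun a b ha hb => by rw [Pi.add_comp, pi0_add, ha, hb]) fun χ hχ c => by
      rw [Pi.smul_comp, pi0_smul, pi0_of_mem ((comp_B0 hs ho (irr_of_B0 hχ)).2 hχ)]

theorem ex_defl (h : pi0 2 φ = φ) : ∃ g, pi0 2 g = g ∧ g ∘ π = φ := by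
  refine pi0_ind (P := fun φ => ∃ g, pi0 2 g = g ∧ g ∘ π = φ) h ⟨0, pi0_zero, rfl⟩ ?_ fun χ hχ c => ?_
  · rintro _ _ ⟨a, ha, rfl⟩ ⟨b, hb, rfl⟩
    exact ⟨a + b, by rw [pi0_add, ha, hb], rfl⟩
  · obtain ⟨ψ, h1, rfl⟩ := (irr_of_B0 hχ).exists_defl π hs (le_cfker_of_B0 hχ _ fun e =>
      (Nat.not_even_iff_odd.2 ho) (even_iff_two_dvd.2 e))
    exact ⟨c • ψ, by rw [pi0_smul, pi0_of_mem ((comp_B0 hs ho h1).1 hχ)], rfl⟩

/-- `pi0` commutes with inflation over a kernel of odd order -/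
theorem pi0_infl (h : IsCF g) : pi0 2 (g ∘ π) = pi0 2 g ∘ π := by
  obtain ⟨a, h1, h2⟩ := ex_defl hs ho (pi0_pi0 (g ∘ π))
  rw [← h2]
  congr 1
  refine (isCF_of_pi0 h1).ext (isCF_pi0 g) fun χ hχ => ?_
  by_cases e : χ ∈ B0 H 2
  · rw [ip_pi0_comm, pi0_of_mem e, ← ip_comp_surj π hs, h2, ip_pi0_comm, pi0_of_mem ((comp_B0 hs ho hχ).2 e),
      ip_comp_surj π hs]
  · rw [← h1, ip_pi0_comm, ip_pi0_comm, pi0_of_not_mem hχ e, ip_zero_right, ip_zero_right]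

end

namespace PS

variable {G E : Type*} [Group G] [Group E] [Finite G] [Finite E] (P : PS G E) {g g' : P.S.H → ℂ} {φ : P.H → ℂ}

theorem H1_norm {a b : G} (ha : a ∈ P.H) (hb : b ∈ P.H1) : a * b * a⁻¹ ∈ P.H1 := by
  simpa using mul_mem (P.comm a ha b (P.H1_le hb)) hb

instance instNEmbι : NEmb P.ι := nEmb_inclusion _ fun _ hb _ ha => P.H1_norm hb ha

theorem mem_ι {x : P.H} : x ∈ P.ι.range ↔ (x : G) ∈ P.H1 :=
  ⟨fun ⟨y, e⟩ => e ▸ y.2, fun h => ⟨⟨x, h⟩, rfl⟩⟩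

theorem alp : Alp P.ι where
  ab := commutator_le.2 fun a _ b _ => P.mem_ι.2 (P.comm a a.2 b b.2)
  odd := by rw [inclusion_range]; exact P.idx
  cov h := by
    obtain ⟨c, hc, h1, h2⟩ := P.cover h h.2
    refine ⟨⟨c, hc⟩, P.mem_ι.2 h1, ?_⟩
    have : (𝐂[(⟨c, hc⟩ : P.H)] : Subgroup P.H) = (𝐂[c]).subgroupOf P.H := by
      ext x
      rw [mem_subgroupOf, mem_centralizer_singleton_iff, mem_centralizer_singleton_iff, Subtype.ext_iff]; rfl
    rw [this]; exact h2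

theorem odd_ker : Odd (Nat.card P.π.ker) := by
  have : P.π.ker = P.O.subgroupOf P.H1 := by ext x; rw [MonoidHom.mem_ker, P.ker, mem_subgroupOf]
  rw [this, Nat.card_congr (subgroupOfEquivOfLe P.O_le).toEquiv]
  exact P.O_odd

theorem pi0_π (h : pi0 2 g = g) : pi0 2 (g ∘ P.π) = g ∘ P.π := pi0_comp_surj P.surj P.odd_ker h

theorem pi0_hat (g : P.S.H → ℂ) : pi0 2 (P.hat g) = P.hat g := pi0_pi0 _
theorem isCF_hat (g : P.S.H → ℂ) : IsCF (P.hat g) := isCF_pi0 _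

theorem isVC_hat (h : IsVC g) : IsVC (P.hat g) := isVC_pi0 ((h.comp _).induce _)
theorem hat_add (a b : P.S.H → ℂ) : P.hat (a + b) = P.hat a + P.hat b := by
  rw [hat, Pi.add_comp, map_add, pi0_add]; rfl
theorem hat_sub (a b : P.S.H → ℂ) : P.hat (a - b) = P.hat a - P.hat b := by
  rw [hat, Pi.sub_comp, map_sub, pi0_sub]; rfl
theorem hat_smul (c : ℂ) (a : P.S.H → ℂ) : P.hat (c • a) = c • P.hat a := by
  rw [hat, Pi.smul_comp, map_smul, pi0_smul]; rfl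
theorem hat_zero : P.hat 0 = 0 := by rw [hat, Pi.zero_comp, map_zero, pi0_zero]
theorem hat_one : P.hat 1 = 1 := (P.alp.pi0_res (pi0_of_mem (one_mem_B0 _ 2)) :)

theorem hat_comp (h : pi0 2 g = g) : P.hat g ∘ P.ι = g ∘ P.π := P.alp.res_hat (P.pi0_π h)

theorem hat_res (h : pi0 2 g = g) (x : P.H1) : P.hat g (P.ι x) = g (P.π x) := congrFun (P.hat_comp h) x

theorem ip_hat (h : pi0 2 g = g) (h' : pi0 2 g' = g') : ⟪P.hat g, P.hat g'⟫ = ⟪g, g'⟫ := by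
  rw [← P.alp.ip_res (P.pi0_hat g) (P.pi0_hat g'), P.hat_comp h, P.hat_comp h', ip_comp_surj _ P.surj]

theorem exists_res (χ : P.H → ℂ) : ∃ g, IsCF g ∧ pi0 2 g = g ∧ pi0 2 χ = P.hat g := by
  obtain ⟨g, h1, h2⟩ := ex_defl P.surj P.odd_ker (P.alp.pi0_comp (pi0_pi0 χ))
  exact ⟨g, isCF_of_pi0 h1, h1, by rw [hat, h2, P.alp.pi0_res (pi0_pi0 χ)]⟩

theorem hat_pi0 (h : IsCF g) : P.hat (pi0 2 g) = P.hat g := by
  refine (P.isCF_hat _).ext (P.isCF_hat _) fun χ hχ => ?_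
  rw [hat, hat, ip_pi0_comm, ip_pi0_comm, ip_ind_left _ _ (isCF_pi0 χ), ip_ind_left _ _ (isCF_pi0 χ),
    ← pi0_infl P.surj P.odd_ker h, ip_pi0_comm, P.alp.pi0_comp (pi0_pi0 χ)]

theorem pi0_lin {l : Du P.H} (hl : P.Lin l) (l1 : l ≠ 1) (h : pi0 2 φ = φ) : pi0 2 (l.ch * φ) = 0 :=
  P.alp.pi0_lin (l := l.hom) (by rintro _ ⟨x, rfl⟩; exact Units.ext (hl x)) l1 h

theorem zp_π {x : P.H1} : P.S.t ∈ zpowers (P.π x : E) ↔ P.τ ∈ zpowers (x : G) := by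
  constructor
  · intro h
    obtain ⟨k, hk⟩ := mem_zpowers_iff.1 h
    have h1 : ((x ^ k * (⟨P.τ, P.τH⟩ : P.H1)⁻¹ : P.H1) : G) ∈ P.O := (P.ker _).1 (by
      rw [map_mul, map_inv, map_zpow, mul_inv_eq_one]; exact Subtype.ext (hk.trans P.πτ.symm))
    have h2 := OmB.zp_mul_odd (mem_zpowers P.τ) P.ττ (P.mem_H.1 (P.H1_le (P.O_le h1))).symm
      (P.O_odd.of_dvd_nat (orderOf_dvd_card_of_mem h1))
    rw [← P.mem_H.1 (P.H1_le (P.O_le h1))] at h2
    refine zpowers_le.2 (zpow_mem (mem_zpowers _) k) ?_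
    simpa using h2
  · intro h
    obtain ⟨k, hk⟩ := mem_zpowers_iff.1 h
    refine mem_zpowers_iff.2 ⟨k, ?_⟩
    rw [← P.πτ, ← show x ^ k = ⟨P.τ, P.τH⟩ from Subtype.ext hk, map_zpow]; rfl

theorem R_sec {a b : P.H} (h : IsConj (constt {2} a) (constt {2} b)) (hb : b ∈ P.R) : a ∈ P.R := by
  obtain ⟨c, e⟩ := isConj_iff.1 h
  have h1 := P.τ_constt hb
  rw [← show ((constt {2} b : P.H) : G) = constt {2} (b : G) from map_constt P.H.subtype _ _, ← e] at h1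
  have h2 := (P.rt_conj c.2).1 h1
  rw [show ((constt {2} a : P.H) : G) = constt {2} (a : G) from map_constt P.H.subtype _ _] at h2
  exact zpowers_le.2 (constt_mem_zpowers _ _) h2

theorem hat_sup (h : ∀ x : P.S.H, P.S.t ∉ zpowers (x : E) → g x = 0) : ∀ h ∉ P.R, P.hat g h = 0 := fun _ ha =>
  pi0_eq_zero fun y hy => ind_eq_zero _ fun x z e => h _ fun h1 => ha (P.R_sec hy
    ((P.rt_conj z.2).1 ((show (x : G) = z * y * (z : G)⁻¹ from congrArg Subtype.val e) ▸ P.zp_π.1 h1)))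

end PS

end CA.ABG
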