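/-
Alperin-Brauer-Gorenstein, semidihedral case: inequalities for the degree equations.
-/
import Mathlib.Tactic

set_option autoImplicit false

namespace CA.ABG.Ar

/-- the equation between `L`, the base degree `a` and the degree `c` -/
theorem key {N K Q a s y : ℝ} (N0 : N ≠ 0) (Q0 : Q ≠ 0) (a0 : a ≠ 0) (s1 : s - a ≠ 0)
    (E1 : N * (s - Q * a) ^ 2 = K * Q * (Q + 1) ^ 2 * (Q - 1) * a * s * (s - a))
    (E2 : s * y = Q ^ 2 * a * (y + s - a)) :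
    (K * (Q + 1) ^ 2 * (Q ^ 2 - 1) / N * a * (y + s - a) - (y + s - a) + a) ^ 2 =
      (Q ^ 2)⁻¹ * (a + (y + s - a)) ^ 2 - 4 * a * (y + s - a) := by
  have c0 : s - Q ^ 2 * a ≠ 0 := fun e =>
    mul_ne_zero (mul_ne_zero (pow_ne_zero 2 Q0) a0) s1 (by linear_combination -E2 + y * e)
  have h1 : K * (Q + 1) ^ 2 * (Q ^ 2 - 1) / N * a * (y + s - a) - (y + s - a) + a = (s - y) / Q := by
    have hy : y = Q ^ 2 * a * (s - a) / (s - Q ^ 2 * a) := by field_simp; linear_combination E2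
    rw [hy]
    field_simp
    linear_combination -(Q + 1) * E1
  rw [h1]
  field_simp
  linear_combination -4 * E2

theorem low {L ε c : ℝ} (L0 : 0 < L) (e9 : ε ≤ 1 / 9) (hc : 7 ≤ c ∨ c ≤ -9)
    (h : (L * 1 * c - c + 1) ^ 2 = ε * (1 + c) ^ 2 - 4 * 1 * c) : 7 / 20 ≤ L := by
  by_contra hL
  push Not at hL
  have h1 : ε * (1 + c) ^ 2 ≤ 1 / 9 * (1 + c) ^ 2 := mul_le_mul_of_nonneg_right e9 (sq_nonneg _)
  rcases hc with hc | hc
  · have h2 : 13 / 20 * c - 1 ≤ c - L * c - 1 := by nlinarith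
    have h3 : (13 / 20 * c - 1) ^ 2 ≤ (c - L * c - 1) ^ 2 := pow_le_pow_left₀ (by linarith) h2 2
    nlinarith
  · have h2 : 1 - 13 / 20 * c ≤ L * c - c + 1 := by nlinarith
    have h3 : (1 - 13 / 20 * c) ^ 2 ≤ (L * c - c + 1) ^ 2 := pow_le_pow_left₀ (by linarith) h2 2
    nlinarith

theorem upp {L ε c : ℝ} (e9 : ε ≤ 1 / 9) (hc : 7 ≤ c ∨ c ≤ -9)
    (h : (L * 1 * c - c + 1) ^ 2 = ε * (1 + c) ^ 2 - 4 * 1 * c) : L < 2 := by
  by_contra hL
  push Not at hL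
  have h1 : ε * (1 + c) ^ 2 ≤ 1 / 9 * (1 + c) ^ 2 := mul_le_mul_of_nonneg_right e9 (sq_nonneg _)
  rcases hc with hc | hc
  · have h2 : c + 1 ≤ L * c - c + 1 := by nlinarith
    have h3 : (c + 1) ^ 2 ≤ (L * c - c + 1) ^ 2 := pow_le_pow_left₀ (by linarith) h2 2
    nlinarith
  · have h2 : -c - 1 ≤ c - L * c - 1 := by nlinarith
    have h3 : (-c - 1) ^ 2 ≤ (c - L * c - 1) ^ 2 := pow_le_pow_left₀ (by linarith) h2 2
    nlinarith

theorem small {L ε a c : ℝ} (e9 : ε ≤ 1 / 9) (ha : 17 ≤ a ∨ a ≤ -15) (hc : 7 ≤ c ∨ c ≤ -9)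
    (h : (L * a * c - c + a) ^ 2 = ε * (a + c) ^ 2 - 4 * a * c) : L < 7 / 20 := by
  by_contra hL
  push Not at hL
  have h1 : ε * (a + c) ^ 2 ≤ 1 / 9 * (a + c) ^ 2 := mul_le_mul_of_nonneg_right e9 (sq_nonneg _)
  rcases ha with ha | ha <;> rcases hc with hc | hc
  · have p : 0 ≤ a * c := by positivity
    have h2 : a + c ≤ L * a * c - c + a := by nlinarith
    have h3 : (a + c) ^ 2 ≤ (L * a * c - c + a) ^ 2 := pow_le_pow_left₀ (by linarith) h2 2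
    nlinarith
  · obtain ⟨C, rfl⟩ : ∃ C, c = -C := ⟨-c, by ring⟩
    have hC : 9 ≤ C := by linarith
    have p : 153 ≤ a * C := by nlinarith
    have p1 : 17 * C ≤ a * C := by nlinarith
    have p2 : 9 * a ≤ a * C := by nlinarith
    have h2 : 9 / 50 * (a * C) ≤ L * a * C - C - a := by nlinarith
    have h3 : (9 / 50 * (a * C)) ^ 2 ≤ (L * a * C - C - a) ^ 2 := pow_le_pow_left₀ (by linarith) h2 2
    have p3 : (a - C) ^ 2 ≤ (1 / 9 * (a * C)) ^ 2 := by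
      refine sq_le_sq' ?_ ?_ <;> nlinarith
    nlinarith
  · obtain ⟨A, rfl⟩ : ∃ A, a = -A := ⟨-a, by ring⟩
    have hA : 15 ≤ A := by linarith
    have p : 0 < A * c := by positivity
    have h2 : A + c < L * A * c + c + A := by nlinarith
    have h3 : (A + c) ^ 2 < (L * A * c + c + A) ^ 2 := pow_lt_pow_left₀ h2 (by linarith) two_ne_zero
    nlinarith [sq_nonneg (c - A)]
  · obtain ⟨A, rfl⟩ : ∃ A, a = -A := ⟨-a, by ring⟩
    obtain ⟨C, rfl⟩ : ∃ C, c = -C := ⟨-c, by ring⟩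
    have hA : 15 ≤ A := by linarith
    have hC : 9 ≤ C := by linarith
    have p : 9 * A ≤ A * C := by nlinarith
    have h2 : A + C ≤ L * A * C + C - A := by nlinarith
    have h3 : (A + C) ^ 2 ≤ (L * A * C + C - A) ^ 2 := pow_le_pow_left₀ (by linarith) h2 2
    nlinarith

/-- the case `q = 3` -/
theorem three {N k s y : ℤ} (hN : Odd N) (hk : Odd k) (E1 : N * (s - 3) ^ 2 = k ^ 2 * 3 * 16 * 2 * s * (s - 1))
    (E2 : s * y = 9 * (y + s - 1)) : N = 165 * k ^ 2 ∨ N = 117 * k ^ 2 := by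
  have h1 : (s - 9) * (y - 9) = 72 := by linarith
  have h2 : s - 9 ∣ 72 := Dvd.intro _ h1
  have h3 : |s - 9| ≤ 72 := Int.le_of_dvd (by norm_num) ((abs_dvd _ _).2 h2)
  obtain ⟨a, rfl⟩ := hN
  obtain ⟨K, hK⟩ : Odd (k ^ 2) := hk.pow
  rw [hK] at E1 ⊢
  obtain ⟨h4, h5⟩ := abs_le.1 h3
  have h6 : -63 ≤ s := by omega
  have h7 : s ≤ 81 := by omega
  clear h1 E2 h3 h4 h5
  interval_cases s <;> first | (exfalso; revert h2; decide) | (clear h2; omega)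

end CA.ABG.Ar
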