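/-
Alperin–Brauer–Gorenstein theorem, wreathed case: proper subgroups containing the homocyclic group `A` are balanced;
transitivity on the maximal `A`-invariant `r`-subgroups.
-/
import Cfsg.Agent.Lib.ABG.KG
import Cfsg.Agent.Lib.ABG.Top

set_option autoImplicit false
set_option linter.unusedSectionVars false

namespace CA.ABG

open Cfsg CA CA.FStar CA.GW Subgroup

universe u

/-- `A` is an abelian Sylow 2-subgroup of `C_X(V)` and the elements of `V` are squares in `A` -/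
structure WA {G : Type*} [Group G] (X V A : Subgroup G) : Prop where
  four : Four V
  le : V ≤ X
  syl : SylowIn 2 A (X ⊓ 𝐂(V))
  ab : IsMulCommutative A
  sq : ∀ v ∈ V, ∃ x ∈ A, x * x = v

section
variable {G : Type*} [Group G] [Finite G] {X Y V A K L N O : Subgroup G} {a b : G}

theorem WA.VA (h : WA X V A) : V ≤ A := fun v hv => let ⟨_, hx, e⟩ := h.sq v hv; e ▸ mul_mem hx hx

theorem WA.AX (h : WA X V A) : A ≤ X := h.syl.le.trans inf_le_left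

theorem WA.AC (h : WA X V A) : A ≤ 𝐂(V) := h.syl.le.trans inf_le_right

theorem WA.of_le (h : WA X V A) (h1 : A ≤ Y) (h2 : Y ≤ X) : WA Y V A :=
  ⟨h.four, h.VA.trans h1, h.syl.of_le (le_inf h1 h.AC) (inf_le_inf_right _ h2), h.ab, h.sq⟩

theorem WA.quo (h : WA X V A) (hO : O ⊴ X) (ho : PiGrp {2}ᶜ O) : WA (X /ₛ O) (V /ₛ O) (A /ₛ O) := by
  have Vn := h.le.trans hO.norm
  have An := h.AX.trans hO.norm
  refine ⟨Four.quo h.four Vn ho, quo_mono _ h.le, ?_, abelian_quo h.ab _, fun v hv => ?_⟩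
  · rw [← (copAct_p_right Vn ho h.four.piGrp).quo_inf_cent_ker (h.le.trans le_normalizer)]
    exact h.syl.quo An
  · obtain ⟨v, hv', rfl⟩ := (mem_quo Vn).1 hv
    obtain ⟨x, hx, rfl⟩ := h.sq v hv'
    exact ⟨_, qel_mem_quo _ hx, (pel_mul _ (An hx) (An hx)).symm⟩

/-- no normal perfect subgroup containing `V` has dihedral Sylow 2-subgroups -/
theorem WA.not_dsyl (h : WA X V A) (hK : K ⊴ X) (hq : QS K) (VK : V ≤ K) : ¬ DSyl K := fun hd => by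
  have V4 := h.four
  have AK := h.AX.trans hK.norm
  have hY := h.of_le le_sup_right (sup_le hK.le h.AX)
  have KY := normalIn_sup_left AK
  obtain ⟨T, hT, AT⟩ := exists_sylowIn_ge h.syl.piGrp (le_sup_right : A ≤ K ⊔ A)
  have hP := hT.inf_normal KY
  have VP : V ≤ T ⊓ K := le_inf (h.VA.trans AT) VK
  obtain ⟨R, d, R1⟩ := (dg_of hd).dih hq.not_solvable hP
  have R2 := hP.piGrp.of_le d.le
  have nP : A ≤ 𝐍(T ⊓ K) := norms_inf (AT.trans le_normalizer) AK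
  by_cases e : Nat.card R = 2
  · have PV : T ⊓ K = V := (eq_of_le_of_card_eq VP (by rw [V4.card, d.card, e])).symm
    rw [PV] at hP
    obtain ⟨g, hg, gc⟩ := SetLike.not_le_iff_exists.1 fun k => hq.not_solvable (solv_of_npc (SylowIn.normalPCompl_of_cent hP k))
    obtain ⟨q, hq', e1⟩ : ∃ q : ℕ, q.Prime ∧ constt {q} g ∉ 𝐂(V) := by
      by_contra k
      push Not at k
      exact gc (mem_of_forall_constt_mem fun q hq _ => k q hq)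
    have g1 : constt {q} g ∈ K ⊓ 𝐍(V) := constt_mem _ hg
    have q2 : q ≠ 2 := by
      rintro rfl
      exact e1 (V4.le_cent ((hP.of_le (le_inf hP.le le_normalizer) inf_le_left).mem_of_normal inf_le_right g1
        (constt_piElt _ _)))
    have go := odd_elt_iff.2 ((constt_piElt {q} g).mono (show {q} ⊆ ({2}ᶜ : Set ℕ) by simpa using q2.symm))
    generalize constt {q} g = k at *
    obtain ⟨c, hc, e2⟩ := SylowIn.exists_cj hY.syl (hY.syl.cj_of_mem_norm (norms_inf (inf_le_left.trans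
      (KY.le.trans le_normalizer)) (inf_le_right.trans (norms_cent le_rfl)) g1))
    obtain ⟨a, ha, a1, -⟩ := V4.exists (one_mem V)
    obtain ⟨x, hx, rfl⟩ := h.sq a ha
    have gY : c⁻¹ * k ∈ K ⊔ A := mul_mem (inv_mem hc.1) (mem_sup_left g1.1)
    have yA : c⁻¹ * k * x * (c⁻¹ * k)⁻¹ ∈ A := by
      have := mem_cj.1 (e2 ▸ mem_cj'.2 ⟨x, hx, rfl⟩ : k * x * k⁻¹ ∈ cj c A)
      simpa [mul_assoc] using this
    have yK : c⁻¹ * k * x * (c⁻¹ * k)⁻¹ * x⁻¹ ∈ K := by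
      have : IsMulCommutative ↥((K ⊔ A) /ₛ K) := by rw [quo_sup_left AK]; exact abelian_quo h.ab _
      exact (abelian_quo_iff KY.norm).1 this (comm_mem gY (mem_sup_right hx))
    have yV : c⁻¹ * k * x * (c⁻¹ * k)⁻¹ * x⁻¹ ∈ V := (hP.of_le (le_inf VK V4.le_cent) inf_le_left).mem_of_normal
      (inf_le_right.trans (centralizer_le_normalizer _)) ⟨yK, h.AC (mul_mem yA (inv_mem hx))⟩
      (h.syl.piGrp.piElt (mul_mem yA (inv_mem hx)))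
    refine e1 (V4.cents_odd g1.2 go ha a1 (mem_cent1_iff.2 ?_))
    have h1 := V4.sq _ yV
    have h2 := mem_cent_iff.1 (h.AC hx) _ yV
    have h3 := mem_cent_iff.1 hc.2 _ ha
    generalize hy : c⁻¹ * k * x * (c⁻¹ * k)⁻¹ * x⁻¹ = y at h1 h2
    have h4 : c⁻¹ * k * (x * x) * (c⁻¹ * k)⁻¹ = x * x := by
      rw [← conj_mul, eq_mul_of_mul_inv_eq hy, mul_assoc, ← mul_assoc x, ← h2, ← mul_assoc, ← mul_assoc, h1, one_mul]
    have h5 := mem_cent_iff.1 hc.2 _ (conj_mem_of_mem_normalizer g1.2 ha)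
    calc k * (x * x) = c * (c⁻¹ * k * (x * x) * (c⁻¹ * k)⁻¹) * c⁻¹ * k := by group
      _ = _ := by rw [h4, ← h3]; group
  obtain ⟨v, hv, vR⟩ := SetLike.not_le_iff_exists.1 (V4.not_le d.cyc)
  obtain ⟨t, ht, t2, tc⟩ := d.zc R1 hP.piGrp
  have tV : t ∈ V := by
    obtain ⟨u, hu, u1, uv⟩ := V4.exists hv
    by_cases k : u ∈ R
    · exact d.uniq k ht (V4.inv2 hu u1) t2 ▸ hu
    · exact d.uniq (d.mul_mem (VP hu) (VP hv) k vR) ht ((V4.inv2 hu u1).mul (d.inv2 (VP hv) vR) uv (V4.comm hu hv)) t2 ▸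
        mul_mem hu hv
  obtain ⟨ρ, hρ, e1⟩ := d.exists_sqrt R2 ht e t2
  obtain ⟨x, hx, rfl⟩ := h.sq v hv
  have xt : x * t * x⁻¹ = t := by rw [← mem_cent_iff.1 (h.AC hx) t tV, mul_inv_cancel_right]
  have h1 : x * ρ * x⁻¹ * (x * ρ * x⁻¹) = t := by rw [conj_mul, e1, xt]
  have h2 := d.mem_of_sq (conj_mem_of_mem_normalizer (nP hx) (d.le hρ)) (h1 ▸ t2.ne)
  have h3 := d.inv (VP hv) vR hρ
  have h4 : ρ⁻¹ ≠ ρ := fun k => t2.ne (by rw [← e1]; nth_rewrite 1 [← k]; exact inv_mul_cancel ρ)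
  have h5 : x * x * ρ * (x * x)⁻¹ = x * (x * ρ * x⁻¹) * x⁻¹ := by group
  by_cases k : x * ρ * x⁻¹ * ρ⁻¹ = 1
  · rw [mul_inv_eq_one] at k
    exact h4 (by rw [← h3, h5, k, k])
  · have k' := d.uniq (mul_mem h2 (inv_mem hρ)) ht ⟨by
      rw [mul_assoc, ← mul_assoc ρ⁻¹, d.comm (inv_mem hρ) h2, ← mul_assoc, ← mul_assoc, h1, mul_assoc,
        ← _root_.mul_inv_rev, e1, mul_inv_cancel], k⟩ t2
    rw [mul_inv_eq_iff_eq_mul] at k'
    exact h4 (by rw [← h3, h5, k', ← conj_mul, xt, k', ← mul_assoc, t2.sq, one_mul])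

/-- a normal subgroup without isolated involutions contains `V` -/
theorem WA.four_le (h : WA ⊤ V A) (hG : QSyl (⊤ : Subgroup G)) (hL : A ≤ L) (hN : N ⊴ L) (N2 : ¬ PiGrp {2}ᶜ N)
    (ni : ∀ z ∈ N, Inv2 z → ¬ ∀ g ∈ L, z * (g * z * g⁻¹) ∈ 𝐎(L)) : V ≤ N := by
  have V4 := h.four
  obtain ⟨T, hT, AT⟩ := exists_sylowIn_ge h.syl.piGrp hL
  obtain ⟨S, t, hS, TS, ⟨w⟩⟩ := hG.exists hT.piGrp le_top
  have VS := h.VA.trans (AT.trans TS)
  have tV := w.four_mem V4 VS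
  have Tt := TS.trans w.S_le
  have VA : V ≤ w.A := fun v hv => let ⟨_, hx, e⟩ := h.sq v hv; e ▸ w.sq_mem (TS (AT hx))
  have cN : ∀ g ∈ L, ∀ x ∈ N, g * x * g⁻¹ ∈ N := fun g hg x hx => conj_mem_of_mem_normalizer (hN.norm hg) hx
  have tN : t ∈ N := by
    obtain ⟨U, hU, U4⟩ := (four_or_isol hN N2).resolve_right fun ⟨z, hz, z2, k⟩ => ni z hz z2 k
    obtain ⟨g, hg, e⟩ := hT.exists_cj_le U4.piGrp (hU.trans hN.le)
    exact cj_le_iff'.2 (fun x hx => cN g hg x (hU hx)) (w.four_mem (U4.cj g) (e.trans TS))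
  obtain ⟨g, hg, hu, ut⟩ : ∃ g ∈ L, g * t * g⁻¹ ∈ T ∧ g * t * g⁻¹ ≠ t := by
    by_contra e
    push Not at e
    exact ni t tN w.t2 fun g hg => Blk.zstar_in hT (AT (h.VA tV)) w.t2.sq e hg
  obtain ⟨v, hv, v1, vt⟩ := V4.exists tV
  have key : v ∈ N → V ≤ N := V4.le_of tV hv w.t2.ne v1 vt.symm tN
  obtain ⟨r, hr, e⟩ := w.exists_four_elt (w.typ.resolve_left fun e => V4.not_le (e.1 ▸ inferInstance) VA).2
  have rS := w.Z_cent hr
  have rT : r ∈ T := AT (h.syl.mem_of_mem_norm (centralizer_le_normalizer _ (cent_mono (AT.trans TS) rS))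
    ⟨trivial, cent_mono VS rS⟩ (w.two.piElt (w.le (w.Z_le hr))))
  obtain ⟨k, hk, e1, e2⟩ := extremal hT Tt hg
  have tA := w.sq_mem (TS (e2 r ⟨rT, cent_le_cent1 (TS hu) rS⟩))
  rw [conj_mul, e] at tA
  have h1 := cN k hk t tN
  rcases w.rank2 (w.le tA) (VS hv) (w.t2.conj k) (V4.inv2 hv v1) (w.ab _ tA _ (VA hv))
    (fun k => ut (mul_left_cancel (mul_right_cancel (e1.trans k.symm)))) vt with k | k
  exacts [key (k ▸ h1), key (k ▸ mul_mem tN h1)]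

end

theorem WA.bal {G : Type u} [Group G] [Finite G] {X V A : Subgroup G} {a b : G} {n : ℕ} (w : WA X V A) (h : QG X)
    (hO : 𝐎(X) = ⊥)
    (ind : ∀ (K : Type u) [Group K] [Finite K] [IsSimpleGroup K], Nat.card K < n → QSyl (⊤ : Subgroup K) → Bal K)
    (hn : Nat.card X < n) (VK : ∀ K, K ⊴ X → QS K → K ⊓ 𝐂(K) = ⊥ → V ≤ K) (ha : a ∈ V) (hb : b ∈ V) (b1 : b ≠ 1) :
    𝐎(X ⊓ 𝐂[b]) ≤ 𝐂[a] := by
  have V4 := w.four
  have hV := w.le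
  by_cases a1 : a = 1
  · rw [a1]; exact fun x _ => mem_cent1_iff.2 (by simp)
  have a2 := V4.inv2 ha a1
  rcases h.str hO (ne_bot_of_mem (hV ha) a1) with ⟨z, hz, z2, e⟩ | ⟨U, U4, hU⟩ | ⟨K, KX, hq, hC, -, -⟩
  · have zV := h.rk V hV V4 z hz z2.sq (mem_cent_iff_le_cent1.2 (hV.trans e))
    by_cases e1 : b = z
    · rw [e1, inf_eq_left.2 e, hO]; exact bot_le
    refine (piCoreOf_le _ _).trans fun x hx => mem_cent1_iff.2 (mem_cent1_iff.1 (V4.le_of hb zV b1 z2.ne e1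
      (mem_cent1_iff.2 (mem_cent1_iff.1 hx.2).symm) (mem_cent1_iff.2 (mem_cent1_iff.1 (e hx.1)).symm) ha)).symm
  · have VU : V ≤ U := fun v hv => by
      obtain ⟨x, hx, rfl⟩ := w.sq v hv
      refine h.rk U hU.le U4 _ (hV hv) (V4.sq _ hv) ?_
      have n := zpowers_le.2 (hU.norm (w.AX hx))
      have h6 := four_aut U4 n
      have h2 := ((piGrp_zpowers.2 (w.syl.piGrp.piElt hx)).relIndex 𝐂(U))
      have : 𝐂(U).relIndex (zpowers x) ∣ 2 := (Nat.Coprime.symm ((Nat.Prime.coprime_iff_not_dvd Nat.prime_three).2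
        fun k => absurd (h2 3 Nat.prime_three k) (by simp))).dvd_of_dvd_mul_left h6
      obtain ⟨j, hj⟩ := this
      have hN : (𝐂(U).subgroupOf (zpowers x)).Normal := inferInstance
      have := pow_mem (pow_index_mem (H := 𝐂(U).subgroupOf (zpowers x)) ⟨x, mem_zpowers x⟩) j
      rwa [← pow_mul, ← relIndex, ← hj, pow_two] at this
    exact fun x hx => cent_le_cent1 (VU ha) (U4.cents_odd (hU.norm (piCoreOf_le _ _ hx).1)
      (odd_elt_iff.2 ((core_pi _).piElt hx)) (VU hb) b1 (piCoreOf_le _ _ hx).2)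
  have ZK := le_bot_iff.1 ((inf_le_inf_right _ KX.le).trans hC.le)
  replace VK := VK K KX hq ZK
  haveI := qs_simple hq ZK
  have k := ((h.of_le KX.le).syl hq).resolve_left (w.not_dsyl KX hq VK)
  have aY := piCoreOf_norm {2}ᶜ (X ⊓ 𝐂[b]) ⟨hV ha, V4.le_cent1 hb ha⟩
  have h1 := comm_le_left (zpowers_le.2 aY)
  rw [← cent_zpowers a, ← comm_eq_bot_iff, ← (copAct_inv a2.sq (odd_core _) aY).comm_comm, comm_eq_bot_iff, cent_zpowers]
  refine le_trans ?_ ((ind K ((card_le_of_le' KX.le).trans_lt hn) k).sub (VK ha) (VK hb) a2 (V4.inv2 hb b1)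
    (V4.le_cent1 hb ha))
  exact le_trans (le_inf h1 (le_inf ((commutator_mono le_rfl (zpowers_le.2 (VK ha))).trans (comm_le_right
    ((piCoreOf_le _ _).trans (inf_le_left.trans KX.norm)))) (h1.trans ((piCoreOf_le _ _).trans inf_le_right))))
    (piCoreOf_inf_le _ (inf_le_inf_right _ KX.le))

namespace Min
variable {G : Type u} [Group G] [Finite G] (m : Min G) {X V A Y R R' : Subgroup G} {a b : G} {r : ℕ}
include m

theorem wa (V4 : Four V) (hA : SylowIn 2 A 𝐂(V)) (sq : ∀ v ∈ V, ∃ x ∈ A, x * x = v) : WA ⊤ V A := by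
  obtain ⟨S, t, -, AS, ⟨w⟩⟩ := m.qsyl.exists hA.piGrp le_top
  have VA : V ≤ A := fun v hv => let ⟨_, hx, e⟩ := sq v hv; e ▸ mul_mem hx hx
  exact ⟨V4, le_top, by rwa [top_inf_eq], w.cent_ab V4 (VA.trans AS) (le_inf AS hA.le), sq⟩

/-- BX -/
theorem bx' (w : WA ⊤ V A) (hX : X ≠ ⊤) (hA : A ≤ X) (ha : a ∈ V) (a1 : a ≠ 1) (hb : b ∈ V) :
    ⁅𝐎(X ⊓ 𝐂[a]), zpowers b⁆ ≤ 𝐎(X) := by
  have V4 := w.four
  have VL := w.VA.trans hA
  have hO := piCoreOf_normalIn {2}ᶜ X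
  have ho := core_pi X
  have hk : PiGrp {2}ᶜ (pker (qmk 𝐎(X))) := by rw [pker_qmk]; exact ho
  have Vn := VL.trans hO.norm
  have vn := zpowers_le.2 (Vn hb)
  have FO := (piCoreOf_le {2}ᶜ (X ⊓ 𝐂[a])).trans (inf_le_left.trans hO.norm)
  rw [← quo_eq_bot_iff (comm_le_of_le FO vn), quo_commutator FO vn, quo_zpowers (Vn hb), comm_eq_bot_iff, cent_zpowers]
  refine (quo_piCoreOf_le _ _ _).trans ?_
  rw [pm_cent hk (Vn ha) (V4.inv2 ha a1) (le_normalizer (VL ha))]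
  refine ((w.of_le hA le_top).quo hO ho).bal ((m.qsyl.qg.of_le le_top).quo hO ho) (piCoreOf_quo_self _ X) m.ind
    ((card_quo_le X _).trans_lt ((card_lt_of_lt' hX.lt_top).trans_eq card_top)) (fun K hK hq hZ => ?_)
    (qel_mem_quo _ hb) (qel_mem_quo _ ha) ((V4.inv2 ha a1).pm (Vn ha) hk).ne
  refine (le_coq_iff Vn).1 (w.four_le m.qsyl hA (coq_normalIn hO hK) (fun e => hq.not_solvable (solv_odd (odd_iff.2
    (quo_coq K ▸ e.quo _)))) fun z hz z2 e => ?_)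
  obtain ⟨z1, z3⟩ := mem_coq.1 hz
  refine (z2.pm z1 hk).ne (mem_bot.1 (hZ ▸ mem_inf.2 ⟨z3, mem_cent_iff.2 fun g hg => ?_⟩))
  obtain ⟨g, hg', rfl⟩ := (mem_quo hO.norm).1 (hK.le hg)
  have gn := hO.norm hg'
  refine isol_comm (z2.pm z1 hk) ?_
  rw [← pel_inv _ gn, ← pel_mul _ gn z1, ← pel_mul _ (mul_mem gn z1) (inv_mem gn),
    ← pel_mul _ z1 (mul_mem (mul_mem gn z1) (inv_mem gn))]
  exact (qel_eq_one_iff (hO.norm (hO.le (e g hg')))).2 (e g hg')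

theorem bx (w : WA ⊤ V A) (hX : X ≠ ⊤) (hA : A ≤ X) (ha : a ∈ V) (a1 : a ≠ 1) (hb : b ∈ V) :
    ⁅𝐎(𝐂[a]) ⊓ X, zpowers b⁆ ≤ 𝐎(X) :=
  (commutator_mono ((le_inf inf_le_left (le_inf inf_le_right (inf_le_left.trans (piCoreOf_le _ _)))).trans
    (piCoreOf_inf_le _ inf_le_right)) le_rfl).trans (m.bx' w hX hA ha a1 hb)

omit m in
theorem _root_.CA.ABG.comm_le_of_sup {O C : Subgroup G} (hn : C ≤ 𝐍(O)) (hC : C ≤ 𝐂[a]) (ha : a ∈ 𝐍(O))
    (hY : Y ≤ O ⊔ C) : ⁅Y, zpowers a⁆ ≤ O := comm_le_iff.2 fun y hy x hx => by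
  obtain ⟨o, ho, c, hc, rfl⟩ := (mem_sup_of_norm_right hn).1 (hY hy)
  rw [show o * c * x * (o * c)⁻¹ * x⁻¹ = o * (c * x * c⁻¹ * o⁻¹ * x⁻¹) by group,
    ← mem_cent_iff.1 (cent_zpowers a ▸ hC hc : c ∈ 𝐂(zpowers a)) x hx, mul_inv_cancel_right]
  exact mul_mem ho (conj_mem_of_mem_normalizer (zpowers_le.2 ha hx) (inv_mem ho))

variable (w : WA ⊤ V A) (hr : r ≠ 2)
  (la : ∀ a ∈ V, a ≠ 1 → ∀ b ∈ V, ∀ Y ≤ 𝐂[a], PiGrp {r} Y → A ≤ 𝐍(Y) → ⁅Y, zpowers b⁆ ≤ 𝐎(𝐂[a]))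
include w hr la

theorem l1' (hX : X ≠ ⊤) (hA : A ≤ X) (hY : Y ≤ X) (Yr : PiGrp {r} Y) (AY : A ≤ 𝐍(Y)) : ⁅Y, V⁆ ≤ 𝐎(X) := by
  have Yo := odd_of_pi Yr hr
  have n := piCoreOf_norm {2}ᶜ X
  refine comm_le_iff.2 fun y hy b hb => comm_le_of_sup (inf_le_left.trans n) inf_le_right (n (hA (w.VA hb)))
    (w.four.gen (w.VA.trans AY) Yo fun a ha a1 => ?_) (comm_mem hy (mem_zpowers b))
  have AN : A ≤ 𝐍(Y ⊓ 𝐂[a]) := norms_inf AY ((w.AC.trans (cent_le_cent1 ha)).trans le_normalizer)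
  have cp := copAct_inv (w.four.sq b hb) (odd_card_of_le Yo inf_le_left) (AN (w.VA hb))
  refine (cp.le_sup_cent (V := 𝐎(X)) ?_).trans (sup_le_sup_left (by
    rw [cent_zpowers]; exact inf_le_inf_right _ (inf_le_left.trans hY)) _)
  rw [← cp.comm_comm]
  exact (commutator_mono (le_inf (la a ha a1 b hb _ inf_le_right (Yr.inf_left _) AN)
    ((comm_le_left cp.norm).trans (inf_le_left.trans hY))) le_rfl).trans (m.bx w hX hA ha a1 hb)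

/-- L1 -/
theorem l1 (hX : X ≠ ⊤) (hA : A ≤ X) (hY : Y ≤ X) (Yr : PiGrp {r} Y) (AY : A ≤ 𝐍(Y)) :
    Y ≤ 𝐎(X) ⊔ (X ⊓ 𝐎(𝐂(V))) := by
  have h := (m.qsyl.qg.npc V le_top w.four).hall
  rw [top_inf_eq] at h
  refine ((copAct_of_ne (w.VA.trans AY) Yr w.four.piGrp hr).le_sup_cent (m.l1' w hr la hX hA hY Yr AY)).trans
    (sup_le_sup_left (le_inf (inf_le_left.trans hY) ?_) _)
  exact h.le_of_normal (piCoreOf_norm _ _) inf_le_right (odd_iff.1 (odd_of_pi (Yr.inf_left _) hr))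

/-- L2: the maximal `A`-invariant `r`-subgroups that meet nontrivially are conjugate under `C(A)` -/
theorem trans (Rr : PiGrp {r} R) (AR : A ≤ 𝐍(R)) (mR : ∀ Y, PiGrp {r} Y → A ≤ 𝐍(Y) → R ≤ Y → Y = R)
    (Rr' : PiGrp {r} R') (AR' : A ≤ 𝐍(R')) (mR' : ∀ Y, PiGrp {r} Y → A ≤ 𝐍(Y) → R' ≤ Y → Y = R')
    (h : R ⊓ R' ≠ ⊥) : ∃ c ∈ 𝐂(A), R' = cj c R := by
  induction hn : Nat.card G - Nat.card ↥(R ⊓ R') using Nat.strong_induction_on generalizing R R' with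
  | _ n ih =>
  by_cases e : R ≤ R'
  · exact ⟨1, one_mem _, by rw [mR R' Rr' AR' e, cj_one]⟩
  by_cases e' : R' ≤ R
  · exact ⟨1, one_mem _, by rw [mR' R Rr AR e', cj_one]⟩
  have AI := norms_inf AR AR'
  have hX := m.norm_ne h (m.ne_top (Rr.inf_left R').solvable)
  have AX : A ≤ 𝐍(𝐍(R ⊓ R')) := AI.trans le_normalizer
  have AD : A ≤ 𝐍(𝐎(𝐂(V))) := w.AC.trans (piCoreOf_norm _ _)
  have Eo : PiGrp {2}ᶜ (𝐎(𝐍(R ⊓ R')) ⊔ (𝐍(R ⊓ R') ⊓ 𝐎(𝐂(V)))) :=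
    (core_pi _).sup ((core_pi _).inf_right _) (.inl (inf_le_left.trans (piCoreOf_norm _ _)))
  have cp := copAct_p_right (norms_sup (AI.trans (piCoreOf_norm _ _)) (norms_inf AX AD)) Eo w.syl.piGrp
  obtain ⟨Q, hQ, AQ, RQ⟩ := cp.exists_sylowIn_ge (m.l1 w hr la hX AI inf_le_right (Rr.inf_left _) (norms_inf AR AX))
    (Rr.inf_left _) (norms_inf AR AX)
  obtain ⟨c, hc, RQ'⟩ := cp.sylowIn_le_cj hQ AQ (m.l1 w hr la hX AI inf_le_right (Rr'.inf_left _) (norms_inf AR' AX))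
    (Rr'.inf_left _) (norms_inf AR' AX)
  obtain ⟨P, QP, ⟨Pr, AP⟩, mP⟩ := exists_maximal_ge (fun Y => PiGrp {r} Y ∧ A ≤ 𝐍(Y)) (A := Q) ⟨hQ.piGrp, AQ⟩
  have cA : ∀ c ∈ 𝐂(A), ∀ Y, A ≤ 𝐍(Y) → A ≤ 𝐍(cj c Y) := fun c hc Y hY => by
    rw [← cj_normalizer, ← cj_eq_of_mem_normalizer (centralizer_le_normalizer _ hc)]; exact cj_mono c hY
  have lt : ∀ Y Y' : Subgroup G, R ⊓ R' < Y ⊓ Y' → Nat.card G - Nat.card ↥(Y ⊓ Y') < n ∧ Y ⊓ Y' ≠ ⊥ := fun Y Y' k =>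
    ⟨hn ▸ Nat.sub_lt_sub_left ((card_lt_of_lt' k).trans_le (card_le_card_group _)) (card_lt_of_lt' k), k.ne_bot⟩
  obtain ⟨k1, k2⟩ := lt R P ((lt_inf_normalizer_nil Rr.nilpotent (inf_lt_left.2 e)).trans_le
    (le_inf inf_le_left (RQ.trans QP)))
  obtain ⟨k3, k4⟩ := lt (cj c P) R' ((lt_inf_normalizer_nil Rr'.nilpotent (inf_lt_right.2 e')).trans_le
    (le_inf (RQ'.trans (cj_mono c QP)) inf_le_left))
  obtain ⟨x, hx, rfl⟩ := ih _ k1 Rr AR mR Pr AP (fun Y h1 h2 => mP Y ⟨h1, h2⟩) k2 rfl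
  obtain ⟨y, hy, rfl⟩ := ih _ k3 (Pr.cj c) (cA c hc.2 _ AP) (fun Y h1 h2 h3 => by
    rw [← mP _ ⟨h1.cj c⁻¹, cA _ (inv_mem hc.2) _ h2⟩ (cj_le_iff.1 h3), cj_cj_inv]) Rr' AR' mR' k4 rfl
  exact ⟨y * (c * x), mul_mem hy (mul_mem hc.2 hx), by rw [cj_mul, cj_mul]⟩

end Min

end CA.ABG
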