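/-
Odd subgroups of a `QT` group normalized by the centralizer of a noncentral involution.
-/
import Cfsg.Agent.Lib.ABG.QE

set_option autoImplicit false
set_option linter.unusedSectionVars false

namespace CA.ABG
open Cfsg CA CA.FStar CA.GW Matrix.SpecialLinearGroup CA.SL2 CA.Br Subgroup
open scoped MatrixGroups

section
variable {F : Type*} [Field F]

theorem norm_alg (h2 : (2 : F) ≠ 0) {A B : L2 F} (hB : ¬ aSc B) (h : A * B * A⁻¹ * B = B * (A * B * A⁻¹)) :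
    A * B = B * A ∨ aTr A = 0 ∨ aDisc B = 0 := by
  obtain ⟨b, b1, b2, b3⟩ := par hB h
  have e := a_cj A B
  have t := a_tr_of e
  have d := a_det_of e
  generalize A * B * A⁻¹ = C at b1 b2 b3 e t d
  simp only [aTr, aDet] at t d
  by_cases h0 : aDisc B = 0
  · exact .inr (.inr h0)
  rcases mul_self_eq_one_iff.1 (mul_right_cancel₀ h0 (by
    rw [aDisc, aTr, aDet]
    linear_combination (C 0 0 + C 1 1 + B 0 0 + B 1 1) * t - 4 * d - (C 0 0 - C 1 1 + b * (B 0 0 - B 1 1)) * b3 -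
      4 * C 1 0 * b1 - 4 * b * B 0 1 * b2) : b * b = 1) with rfl | rfl
  · exact .inl (by
      rw [← e, ext2 (g := C) (h := B) (mul_left_cancel₀ h2 (by linear_combination t + b3)) (by rw [b1, one_mul])
        (by rw [b2, one_mul]) (mul_left_cancel₀ h2 (by linear_combination t - b3))])
  obtain ⟨e0, e1, e2, e3⟩ := a_ent e
  have c0 : C 0 0 = B 1 1 := mul_left_cancel₀ h2 (by linear_combination t + b3)
  have c1 : C 1 1 = B 0 0 := mul_left_cancel₀ h2 (by linear_combination t - b3)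
  simp only [mul_ent, c0, c1, b1, b2] at e0 e1 e2 e3
  refine .inr (.inl (by_contra fun ht => hB ⟨mul_left_cancel₀ ht ?_, mul_left_cancel₀ ht ?_, mul_left_cancel₀ ht ?_⟩)) <;> rw [aTr]
  · linear_combination -e1
  · linear_combination -e2
  · linear_combination e3 - e0

theorem upper_of (h2 : (2 : F) ≠ 0) {A : L2 F} (h : piH A (up 1) * up 1 = up 1 * piH A (up 1)) : A 1 0 = 0 := by
  obtain ⟨e0, e1, -⟩ := s_ent h
  obtain ⟨-, -, -, f⟩ := a_ent (piH_eq_iff.1 (rfl : piH A (up 1) = _))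
  have t := a_tr_of (piH_eq_iff.1 (rfl : piH A (up 1) = _)).symm
  simp only [mul_apply', mul_ent, toGL_ent, aTr, up_00, up_01, up_10, up_11] at e0 e1 f t
  have c1 : piH A (up 1) 1 1 = 1 := mul_left_cancel₀ h2 (by linear_combination t - e1)
  rw [c1, show piH A (up 1) 1 0 = 0 by linear_combination -e0] at f
  linear_combination f

theorem piH_cj (A M : L2 F) (g : SL(2, F)) : piH M (piH A g) = piH A (piH (A⁻¹ * M * A) g) := by
  rw [← MulAut.mul_apply, ← MulAut.mul_apply, ← map_mul, ← map_mul, ← mul_assoc, mul_inv_cancel_left]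

/-- the root group -/
noncomputable def upHom (F : Type*) [Field F] : Multiplicative F →* SL(2, F) :=
  MonoidHom.mk' (fun a => up a.toAdd) fun _ _ => up_add _ _

theorem u_ent' (g : SL(2, F)) : piH (dg (1, -1)) g 0 0 = g 0 0 ∧ piH (dg (1, -1)) g 0 1 = -g 0 1 ∧
    piH (dg (1, -1)) g 1 0 = -g 1 0 ∧ piH (dg (1, -1)) g 1 1 = g 1 1 := by
  simp only [← toGL_ent, toGL_piH, a_u_inv]; simp [mul_ent]

theorem u_up (b : F) : piH (dg (1, -1)) (up b) = (up b)⁻¹ := by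
  obtain ⟨e0, e1, e2, e3⟩ := u_ent' (up b)
  rw [← up_neg]
  exact sext e0 (e1.trans (by simp [up_01])) (e2.trans (by simp [up_10])) e3

theorem u_comm {g : SL(2, F)} (h : g 1 0 = 0) : g * (piH (dg (1, -1)) g)⁻¹ = up (2 * g 0 0 * g 0 1) := by
  obtain ⟨e0, e1, e2, e3⟩ := u_ent' g
  have d := det_eq g
  rw [h, mul_zero, sub_zero] at d
  refine mul_inv_eq_of_eq_mul (sext ?_ ?_ ?_ ?_) <;> simp only [mul_apply', e0, e1, e2, e3, up_00, up_01, up_10, up_11, h]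
  exacts [by ring, by linear_combination (-2 * g 0 1) * d, by ring, by ring]

variable [Fintype F]
local notation "𝔮" => Fintype.card F

theorem tr_two (hF : Odd 𝔮) {y : SL(2, F)} (yo : Odd (orderOf y)) (h : aDisc (toGL y : L2 F) = 0) : tr y = 2 := by
  obtain ⟨p, hp, f, hp', hq⟩ := FiniteField.card' F
  have po : Odd p := (Nat.odd_pow_iff f.ne_zero).1 (hq ▸ hF)
  rw [aDisc, aDet_toGL, show aTr (toGL y : L2 F) = tr y from rfl] at h
  refine (sq_eq_sq_iff_eq_or_eq_neg.1 (show tr y ^ 2 = 2 ^ 2 by linear_combination h)).resolve_right fun e => ?_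
  have := pow_char_of_tr p (u := -y) (by rw [tr_neg, e, neg_neg])
  rw [po.neg_pow, neg_eq_iff_eq_neg] at this
  exact neg_ne_self (two_ne_zero_of_odd hF) 1 (eq_one_of_odd (this ▸ yo.of_dvd_nat (orderOf_pow_dvd p)) (by simp))

theorem nsc_of_odd {y : SL(2, F)} (yo : Odd (orderOf y)) (y1 : y ≠ 1) : ¬ aSc (toGL y : L2 F) := fun e => by
  rw [← piH_eq_one, piH_toGL, pm_conj] at e
  rcases e with e | rfl
  exacts [y1 e, y1 (eq_one_of_odd yo (by simp))]

theorem ll0m (hF : Odd 𝔮) {s T : MulAut SL(2, F)} {τ σ y : SL(2, F)} {n : ℕ} (t : TorS s T τ σ n) (s2 : Inv2 s)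
    {Y R : Subgroup SL(2, F)} (hY : Odd (Nat.card Y)) (RY : R ≤ Y) (hy : y ∈ R) (y1 : y ≠ 1) (ab : ∀ a ∈ R, a * y = y * a)
    (hT : ∀ a ∈ R, T a ∈ R) (hn : Y ≤ 𝐍(R)) : Y ≤ zpowers τ ∨ n + 1 = 𝔮 ∧ ∃ A : L2 F, s = piH (A * dg (1, -1) * A⁻¹) ∧
      (∀ b, piH A (up b) ∈ R) ∧ ∀ g ∈ Y, ∃ b, g * (s g)⁻¹ = piH A (up b) := by
  have : Finite (MulAut SL(2, F)) := inferInstance
  have h2 := two_ne_zero_of_odd hF
  have yo := odd_of_mem hY (RY hy)
  have ys := nsc_of_odd yo y1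
  have q1 : 1 < 𝔮 := Fintype.one_lt_card
  have hk : ∀ k : ℕ, ∀ a ∈ R, (T ^ k) a ∈ R := fun k => by
    induction k with
    | zero => simp
    | succ k ih => exact fun a ha => by rw [pow_succ]; exact ih _ (hT a ha)
  obtain ⟨k, hs⟩ := (Submonoid.mem_powers_iff _ _).1 (mem_powers_iff_mem_zpowers.2 t.self)
  obtain ⟨M, rfl⟩ := t.TP
  have cm : ∀ {B : L2 F}, piH B y ∈ R → B * toGL y * B⁻¹ * toGL y = toGL y * (B * toGL y * B⁻¹) := fun h => by
    rw [← toGL_piH, ← map_mul, ab _ h, map_mul]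
  have cY : ∀ g ∈ Y, piH (toGL g) y ∈ R := fun g hg => by rw [piH_toGL]; exact conj_mem_of_mem_normalizer (hn hg) hy
  by_cases hd : aDisc (toGL y : L2 F) = 0
  swap
  · refine .inl fun g hg => (t.fix g).1 ?_
    have c1 : M * toGL y = toGL y * M := (norm_alg h2 ys (cm (hT y hy))).resolve_right fun e => hd (e.resolve_left fun e => hd ?_)
    · have c2 : toGL g * toGL y = toGL y * toGL g := (norm_alg h2 ys (cm (cY g hg))).resolve_right fun e => hd
        (e.resolve_left fun e => neg_ne_self h2 1 (eq_one_of_odd (sq_neg e ▸ sq g ▸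
          (odd_of_mem hY hg).of_dvd_nat (orderOf_pow_dvd 2)) (by simp)))
      rw [← hs, ← map_pow, piH_eq_iff]
      exact Commute.pow_left (comm2 ys c1 c2) k
    have n2 := Nat.le_of_dvd two_pos (t.ordT ▸ orderOf_dvd_of_pow_eq_one (by rw [sq, ← map_mul]; exact piH_eq_one.2 (sc_sq e)))
    have q3 : 𝔮 = 3 := by have := t.hn; obtain ⟨l, hl⟩ := hF; omega
    have : CharP F 3 := charP_of_card_eq_prime q3
    have o3 : orderOf y ∣ 3 := (Nat.Coprime.pow_right 3 (Nat.coprime_two_right.2 yo)).dvd_of_dvd_mul_right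
      (by simpa [card_SL_two', q3] using orderOf_dvd_natCard y)
    obtain ⟨x, hx⟩ := exists_US_of_pow 3 (orderOf_dvd_iff_pow_eq_one.1 o3)
    rw [aDisc, aDet_toGL, show aTr (toGL y : L2 F) = tr y from rfl, tr_of_mem_US hx]; ring
  obtain ⟨K, hK⟩ := a_conj (g := toGL (up 1)) (fun e => one_ne_zero ((up_01 (1 : F)).symm.trans e.1)) ys
    ((tr_up 1).trans (tr_two hF yo hd).symm) (by rw [aDet_toGL, aDet_toGL])
  have uK : ∀ {A B : L2 F}, piH A (up 1) = y → piH B y ∈ R → (A⁻¹ * B * A) 1 0 = 0 := fun {A B} e h => upper_of h2 ((piH A).injective (by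
    rw [map_mul (piH A), map_mul (piH A), ← piH_cj, e, ab _ h]))
  have yK : piH K (up 1) = y := toGL_injective (by rw [toGL_piH, hK])
  have S1 := uK yK (B := M ^ k) (by rw [map_pow]; exact hk k y hy)
  have S2 : aTr (K⁻¹ * M ^ k * K) = 0 := (a_tr_of (h := K⁻¹) (mul_inv_cancel_right _ K)).trans
    (tr_zero (fun e => s2.ne (by rw [← hs, ← map_pow, piH_eq_one.2 e])) (piH_eq_one.1 (by rw [map_mul, map_pow, hs, s2.sq])))
  have S3 := a_det_ne (K⁻¹ * M ^ k * K)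
  rw [aDet, S1, mul_zero, sub_zero] at S3
  set a := Units.mk0 _ (left_ne_zero_of_mul S3)
  set A := K * toGL (up (-(K⁻¹ * M ^ k * K) 0 1 / (2 * a)))
  have yA : piH A (up 1) = y := by
    rw [map_mul, MulAut.mul_apply, piH_toGL, MulAut.conj_apply, ← up_add, add_comm, up_add, mul_inv_cancel_right, yK]
  have sA : s = piH (A * dg (1, -1) * A⁻¹) := by
    rw [← hs, ← map_pow, piH_eq]
    refine ⟨a, ?_⟩
    rw [← mul_assoc, eq_mul_inv_iff_mul_eq, sc_comm, mul_assoc K, mul_assoc K, ← mul_assoc, ← inv_mul_eq_iff_eq_mul, ← mul_assoc,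
      ← mul_assoc]
    have a0 := a.ne_zero
    have a1 : (K⁻¹ * M ^ k * K) 0 0 = a := rfl
    have a2 := s11 S2
    generalize K⁻¹ * M ^ k * K = S at S1 a1 a2
    refine ext2 ?_ ?_ ?_ ?_ <;> simp [mul_ent, toGL_ent, up_00, up_01, up_10, up_11, S1, a1, a2]
    field_simp; ring
  have T1 := uK yA (hT y hy)
  obtain ⟨N, hN⟩ : ∃ N, A⁻¹ * M * A = N := ⟨_, rfl⟩
  rw [hN] at T1
  have T3 := a_det_ne N
  rw [aDet, T1, mul_zero, sub_zero] at T3
  have T2 : N 0 1 = 0 := by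
    have := t.Ts
    rw [sA, ← map_mul, ← map_mul] at this
    rcases comm_pm (C := N) (S := dg (1, -1)) (by
      rw [← map_mul, ← map_mul, ← hN, show A⁻¹ * M * A * dg (1, -1) = A⁻¹ * (M * (A * dg (1, -1) * A⁻¹)) * A by group, map_mul,
        map_mul, this, ← map_mul, ← map_mul]; congr 1; group) with e | e
    · exact mul_left_cancel₀ h2 (by have := (a_ent e).2.1; simp [mul_ent] at this; linear_combination -this)
    · exact absurd (mul_left_cancel₀ h2 (by have := (a_ent e).1; simp [mul_ent] at this; linear_combination this))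
        (left_ne_zero_of_mul T3)
  set γ := Units.mk0 _ (left_ne_zero_of_mul T3) * (Units.mk0 _ (right_ne_zero_of_mul T3))⁻¹
  have eT : piH N = piH (dg (γ, 1)) := piH_eq.2 ⟨Units.mk0 _ (right_ne_zero_of_mul T3), ext2
    (by have := right_ne_zero_of_mul T3; simp [mul_ent, γ]; field_simp) (by simp [mul_ent, T2]) (by simp [mul_ent, T1]) (by simp [mul_ent])⟩
  have act : ∀ (l : ℕ) b, (piH M ^ l) (piH A (up b)) = piH A (up ((γ ^ l : Fˣ) * b)) := fun l b => by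
    rw [← map_pow, piH_cj, show A⁻¹ * M ^ l * A = N ^ l by simpa [hN] using (conj_pow (a := A⁻¹) (b := M)).symm, map_pow, eT,
      ← map_pow, ← map_pow]
    exact congrArg _ (piH_eq_iff.2 (ext2 (by simp [mul_ent, toGL_ent, up_00, up_10]) (by simp [mul_ent, toGL_ent, up_01, up_11, up_00])
      (by simp [mul_ent, toGL_ent, up_10]) (by simp [mul_ent, toGL_ent, up_11, up_10])))
  have γo : n ∣ orderOf γ := t.ordT ▸ orderOf_dvd_of_pow_eq_one (by
    rw [show piH M = piH A * piH N * (piH A)⁻¹ by simp [← hN, mul_assoc], conj_pow, eT, ← map_pow, ← map_pow, Prod.pow_mk,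
      pow_orderOf_eq_one]; simp [Prod.mk_one_one])
  have γd : orderOf γ ∣ 𝔮 - 1 := a_card_units (F := F) ▸ orderOf_dvd_natCard γ
  have n1 : n + 1 = 𝔮 := t.hn.resolve_right fun e => by have := Nat.le_of_dvd (by omega) (γo.trans γd); omega
  refine .inr ⟨n1, A, sA, fun b => ?_, fun g hg => ?_⟩
  · by_cases b0 : b = 0
    · rw [b0, show up (0 : F) = 1 by simp, map_one]; exact one_mem _
    have : Units.mk0 b b0 ∈ zpowers γ := by
      rw [eq_top_of_card_eq (zpowers γ) (by rw [Nat.card_zpowers, a_card_units]; exact Nat.dvd_antisymm γd (by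
        rwa [← n1, Nat.add_sub_cancel]))]; trivial
    obtain ⟨l, hl⟩ := (Submonoid.mem_powers_iff _ _).1 (mem_powers_iff_mem_zpowers.2 this)
    simpa [← yA, act, hl] using hk l y hy
  obtain ⟨g, rfl⟩ := (piH A).surjective g
  have g1 := uK yA (cY _ hg)
  rw [toGL_piH, show ∀ B : L2 F, A⁻¹ * (A * B * A⁻¹) * A = B from fun B => by group, toGL_ent] at g1
  exact ⟨_, by rw [sA, piH_cj, ← map_inv, ← map_mul, show ∀ B : L2 F, A⁻¹ * (A * B * A⁻¹) * A = B from fun B => by group, u_comm g1]⟩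

end

variable {G : Type*} [Group G] [Finite G] {X Z Y Q : Subgroup G} {F : Type} [Field F] [Fintype F] {h : QT F X Z}
  {s d x y : G} {τ σ : SL(2, F)} {n m : ℕ}

/-- `Q` is one of the two root groups of `L` inverted by `s` -/
def QT.Root (h : QT F X Z) (s : G) (Q : Subgroup G) : Prop :=
  ∃ A : L2 F, pel h.Φ s = piH (A * dg (1, -1) * A⁻¹) ∧ ∀ x, x ∈ Q ↔ ∃ b, x = h.ι (piH A (up b))

namespace QT.Root
variable (r : h.Root s Q)
include r

theorem ex : ∃ (A : L2 F) (f : Multiplicative F →* G), pel h.Φ s = piH (A * dg (1, -1) * A⁻¹) ∧ Function.Injective f ∧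
    Q = f.range ∧ ∀ b, f b = h.ι (piH A (up b.toAdd)) :=
  let ⟨A, h1, h2⟩ := r
  ⟨A, h.ι.comp ((piH A).toMonoidHom.comp (upHom F)), h1, h.inj.comp ((piH A).injective.comp fun _ _ e => up_injective (F := F) e),
    Subgroup.ext fun x => (h2 x).trans (exists_congr fun _ => eq_comm), fun _ => rfl⟩

theorem le_L : Q ≤ h.L := fun x hx => let ⟨_, _, h2⟩ := r; let ⟨_, e⟩ := (h2 x).1 hx; ⟨_, e.symm⟩

theorem card : Nat.card Q = Fintype.card F := by
  obtain ⟨-, f, -, hf, rfl, -⟩ := r.ex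
  rw [← Nat.card_congr (MonoidHom.ofInjective hf).toEquiv, Nat.card_eq_fintype_card, Fintype.card_multiplicative]

theorem comm (hx : x ∈ Q) (hy : y ∈ Q) : x * y = y * x := by
  obtain ⟨-, f, -, -, rfl, -⟩ := r.ex
  obtain ⟨a, rfl⟩ := hx
  obtain ⟨b, rfl⟩ := hy
  rw [← map_mul, mul_comm, map_mul]

theorem pow_char (p : ℕ) [CharP F p] (hx : x ∈ Q) : x ^ p = 1 := by
  obtain ⟨A, -, h2⟩ := r
  obtain ⟨b, rfl⟩ := (h2 x).1 hx
  rw [← map_pow, ← map_pow, pow_char_of_tr p (tr_up b), map_one, map_one]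

theorem piGrp {p : ℕ} (hp : p.Prime) [CharP F p] : PiGrp {p} Q :=
  piGrp_iff_forall_piElt.2 fun _ hx => piElt_of_pow_eq_one ((piNum_prime hp).2 rfl) (r.pow_char p hx)

theorem inv (hs : s ∈ X) (hx : x ∈ Q) : s * x * s⁻¹ = x⁻¹ := by
  obtain ⟨A, h1, h2⟩ := r
  obtain ⟨b, rfl⟩ := (h2 x).1 hx
  rw [h.act s hs, h1, piH_cj, show ∀ B : L2 F, A⁻¹ * (A * B * A⁻¹) * A = B from fun B => by group, u_up, map_inv, map_inv]

theorem sylow {p : ℕ} (hp : p.Prime) [CharP F p] : SylowIn p Q h.L := sylowIn_mk hp r.le_L ((r.piGrp hp).isPGroup hp) fun e => by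
  have c := card_mul_relIndex r.le_L
  rw [r.card, h.card_L, Nat.mul_right_inj Fintype.card_ne_zero] at c
  obtain ⟨f, -, hf⟩ := FiniteField.card F p
  have : p ∣ Fintype.card F ^ 2 := hf ▸ (dvd_pow_self p f.ne_zero).pow two_ne_zero
  exact hp.one_lt.ne' (Nat.dvd_one.1 ((Nat.dvd_sub_iff_right (Nat.one_le_pow _ _ Fintype.card_pos) this).1 (c ▸ e)))

/-- two different conjugates of `Q` generate `L` -/
theorem gen (hx : x ∈ X) (h1 : x ∉ 𝐍(Q)) : Q ⊔ cj x Q = h.L := by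
  obtain ⟨p, hp, -, hp', -⟩ := FiniteField.card' F
  have : Fact p.Prime := ⟨hp'⟩
  have k : ∀ {Q}, SylowIn p Q h.L → ∃ S : Sylow p SL(2, F), Q = (S : Subgroup _).map h.ι := fun {Q} hQ => by
    obtain ⟨S, hS⟩ := SylowIn.exists_sylow_top (p := p) (P := Q.comap h.ι) ((isPiHallOf_map_iff h.inj).1 (by
      rwa [map_comap_eq_self hQ.le, ← MonoidHom.range_eq_map]))
    exact ⟨S, by rw [hS, map_comap_eq_self hQ.le]⟩
  obtain ⟨S, hS⟩ := k (r.sylow hp')
  obtain ⟨S', hS'⟩ := k ((r.sylow hp').cj_of_mem_norm (h.LN.2 hx))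
  rw [hS', hS, ← Subgroup.map_sup, sylow_SL_sup p S S' (fun e => h1 (mem_normalizer_iff_cj.2 (by rw [hS', ← e, ← hS]))),
    ← MonoidHom.range_eq_map]

theorem le_or (h1 : Q ≤ Y) (hY : Y ≤ X) : h.L ≤ Y ∨ Y ≤ 𝐍(Q) := or_iff_not_imp_right.2 fun e => by
  obtain ⟨x, hx, h2⟩ := SetLike.not_le_iff_exists.1 e
  exact r.gen (hY hx) h2 ▸ sup_le h1 (cj_le_of_le h1 hx)

theorem ne_bot : Q ≠ ⊥ := fun e => by
  have := r.card
  rw [e, card_bot] at this
  exact Fintype.one_lt_card.ne this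

theorem conj (hs : s ∈ X) {g : G} (hg : g ∈ h.P) : h.Root (g * s * g⁻¹) (cj g Q) := by
  obtain ⟨A, h1, h2⟩ := r
  obtain ⟨B, hB⟩ := h.mP hg
  refine ⟨B * A, by rw [pel_conj _ (h.PX hg) hs, h1, ← hB, ← map_inv, ← map_mul, ← map_mul]; congr 1; group,
    fun x => mem_cj'.trans ⟨?_, ?_⟩⟩
  · rintro ⟨y, hy, rfl⟩
    obtain ⟨b, rfl⟩ := (h2 y).1 hy
    exact ⟨b, by rw [h.act g (h.PX hg), ← hB, map_mul]; rfl⟩
  · rintro ⟨b, rfl⟩
    exact ⟨_, (h2 _).2 ⟨b, rfl⟩, by rw [h.act g (h.PX hg), ← hB, map_mul]; rfl⟩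

/-- an element of `L` conjugating `s` to `s t` does not normalize `Q` -/
theorem swap (hs : s ∈ X) {g : SL(2, F)} (e : h.ι g * s * (h.ι g)⁻¹ = s * h.t) : h.ι g ∉ 𝐍(Q) := fun hn => by
  have h2 := two_ne_zero_of_odd h.odd
  have c := fun a (ha : a ∈ Q) b (hb : b ∈ Q) => r.comm ha hb
  obtain ⟨A, h1, hQ⟩ := r
  obtain ⟨g, rfl⟩ := (piH A).surjective g
  have m := (hQ _).2 ⟨1, rfl⟩
  have g1 := upper_of h2 (A := toGL g) ((piH A).injective (h.inj (by
    simpa only [piH_toGL, MulAut.conj_apply, map_mul, map_inv] using c _ (conj_mem_of_mem_normalizer hn m) _ m)))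
  have e1 := h.act s hs (piH A g)
  rw [h1, piH_cj, show ∀ B : L2 F, A⁻¹ * (A * B * A⁻¹) * A = B from fun B => by group] at e1
  have e2 : g * (piH (dg (1, -1)) g)⁻¹ = -1 := (piH A).injective (h.inj (by
    rw [piH_neg, map_one, map_mul, map_inv, map_mul, map_inv, ← e1, _root_.mul_inv_rev, _root_.mul_inv_rev, inv_inv, ← mul_assoc,
      ← mul_assoc, e, h.cen h.neg s hs, mul_inv_cancel_right]))
  have := (s_ent ((u_comm g1).symm.trans e2)).1
  rw [up_00, neg_ent, one_ent00] at this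
  exact h2 (by linear_combination this)

end QT.Root

theorem QT.Tor.exT (t : h.Tor s d τ σ n m) : ∃ x ∈ h.P ⊓ 𝐂[s], TorS (pel h.Φ s) (pel h.Φ x) τ σ n := by
  have : Finite (MulAut SL(2, F)) := inferInstance
  obtain ⟨T, t', dT⟩ := t.tor
  obtain ⟨k, hk⟩ := (Submonoid.mem_powers_iff _ _).1 (mem_powers_iff_mem_zpowers.2 dT)
  obtain ⟨l, rfl⟩ : Odd k := Nat.not_even_iff_odd.1 fun e => h.gen_LZ t.gen ((h.φK t.gen.mem).1 (hk ▸ (t'.TK k).2 e))
  refine ⟨(h.ι τ ^ l)⁻¹ * d, t.PC ▸ mul_mem (mem_sup_left (inv_mem (pow_mem (mem_zpowers _) l))) (mem_sup_right (mem_zpowers d)), ?_⟩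
  rwa [pel_mul _ (inv_mem (pow_mem (h.mem τ) l)) t.gen.mem, pel_inv _ (pow_mem (h.mem τ) l), pel_pow _ (h.mem τ), h.φι, t'.cj, ← hk,
    ← pow_mul, pow_succ, inv_mul_cancel_left]

theorem QT.Tor.ll0 (t : h.Tor s d τ σ n m) (hY : Y ≤ X) (ho : Odd (Nat.card Y)) (hn : X ⊓ 𝐂[s] ≤ 𝐍(Y)) :
    Y ≤ 𝐂[s] ∨ n + 1 = Fintype.card F ∧ h.Root s ⁅Y, zpowers s⁆ := by
  have sC : s ∈ X ⊓ 𝐂[s] := ⟨t.sX, self_mem_cent1 s⟩
  have cp := copAct_inv t.s2.sq ho (hn sC)
  have n1 : X ⊓ 𝐂[s] ≤ 𝐍(⁅Y, zpowers s⁆) := norms_commutator hn (inf_le_right.trans (by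
    rw [← cent_zpowers]; exact centralizer_le_normalizer _))
  have o1 : Odd (Nat.card ↥⁅Y, zpowers s⁆) := ho.of_dvd_nat (card_dvd_of_le cp.comm_le)
  have L1 : ⁅Y, zpowers s⁆ ≤ h.L := fun x hx => h.odd_mem (sup_le h.LP h.ZP (h.der (commutator_mono hY (zpowers_le.2 t.sX) hx)))
    (odd_of_mem o1 hx)
  have cc := cp.comm_comm
  have fin : ⁅Y, zpowers s⁆ ≤ 𝐂[s] → Y ≤ 𝐂[s] := fun e => by
    rw [← cent_zpowers] at e ⊢
    exact cents_symm (cp.cents_of_comm_cents e)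
  generalize ⁅Y, zpowers s⁆ = W at n1 o1 L1 cc fin
  by_cases W1 : W = ⊥
  · exact .inl (fin (W1 ▸ bot_le))
  obtain ⟨y, hy, y1⟩ := (bot_or_exists_ne_one _).resolve_left
    (center_ne_bot_nil (fittingOf_nilpotent W) (fittingOf_ne_bot (solv_odd o1) W1))
  have RW : 𝐙(fittingOf W) ≤ W := inf_le_left.trans (fittingOf_le W)
  have nR : ∀ {A}, A ≤ 𝐍(W) → A ≤ 𝐍(𝐙(fittingOf W)) := fun h => norms_center (norms_fittingOf h)
  obtain ⟨y, rfl⟩ := L1 (RW hy)
  obtain ⟨x, xC, t'⟩ := t.exT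
  replace xC : x ∈ X ⊓ 𝐂[s] := ⟨h.PX xC.1, xC.2⟩
  rcases ll0m h.odd t' (h.φinv t.sX t.s2 t.sZ) (Y := W.comap h.ι) (R := 𝐙(fittingOf W).comap h.ι)
    (o1.of_dvd_nat (card_comap_dvd_of_injective _ _ h.inj)) (comap_mono RW) hy (fun e => y1 (by rw [e, map_one]))
    (fun a ha => h.inj (by rw [map_mul, map_mul]; exact hy.2 _ ha.1))
    (fun a ha => by rw [mem_comap, ← h.act x xC.1]; exact conj_mem_of_mem_normalizer (nR n1 xC) ha)
    ((comap_mono (nR le_normalizer)).trans (le_normalizer_comap _)) with e | ⟨e, A, h1, h2, h3⟩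
  · refine .inl (fin fun a ha => ?_)
    obtain ⟨a, rfl⟩ := L1 ha
    obtain ⟨k, rfl⟩ := e ha
    exact (t.cent.ge ⟨k, (map_zpow _ _ _).symm⟩).2
  refine .inr ⟨e, A, h1, fun a => ⟨fun ha => ?_, by rintro ⟨b, rfl⟩; exact RW (h2 b)⟩⟩
  let U : Subgroup G := (h.ι.comp ((piH A).toMonoidHom.comp (upHom F))).range
  refine (cc.ge.trans (commutator_le.2 fun a ha b hb => ?_) : W ≤ U) ha |>.imp' _ fun b hb => hb.symm
  rcases (mem_zpowers_sq t.s2.sq).1 hb with rfl | rfl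
  · simp
  obtain ⟨a, rfl⟩ := L1 ha
  obtain ⟨c, hc⟩ := h3 a ha
  exact ⟨.ofAdd c, by rw [commutatorElement_def, mul_assoc, mul_assoc, ← mul_assoc b, ← map_inv, h.act b t.sX, ← map_mul, map_inv, hc]; rfl⟩

/-- `LL0` above the odd normal subgroup `O` -/
theorem QT.Tor.ll0' {H O : Subgroup G} {Z : Subgroup (Quo O)} {h : QT F (H /ₛ O) Z} {d : Quo O} (t : h.Tor (qel O s) d τ σ n m)
    (hO : O ⊴ H) (oo : Odd (Nat.card O)) (hs : s ∈ H) (s2 : s * s = 1) (hY : Y ≤ H) (ho : Odd (Nat.card Y))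
    (hn : H ⊓ 𝐂[s] ≤ 𝐍(Y)) : ⁅Y, zpowers s⁆ ≤ O ∨ n + 1 = Fintype.card F ∧ h.Root (qel O s) (⁅Y, zpowers s⁆ /ₛ O) := by
  have sN := zpowers_le.2 (hO.2 hs)
  have e : zpowers s /ₛ O = zpowers (qel O s) := pmap_zpowers _ (hO.2 hs)
  rw [quo_commutator (hY.trans hO.2) sN, e, ← quo_eq_bot_iff ((commutator_le_sup _ _).trans (sup_le (hY.trans hO.2) sN)),
    quo_commutator (hY.trans hO.2) sN, e, commutator_eq_bot_iff_le_centralizer, cent_zpowers]
  refine t.ll0 (quo_mono O hY) (ho.of_dvd_nat (card_quo_dvd _ _)) ?_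
  rw [← cent_zpowers, ← e, ← (copAct_inv s2 oo (hO.2 hs)).quo_inf_cent_of_le hO.1, cent_zpowers]
  exact pmap_norms _ hn

theorem QT.Tor.ll0r {H O : Subgroup G} {Z : Subgroup (Quo O)} {h : QT F (H /ₛ O) Z} {d : Quo O} (t : h.Tor (qel O s) d τ σ n m)
    (hO : O ⊴ H) (oo : Odd (Nat.card O)) (hs : s ∈ H) (s2 : s * s = 1) (hY : Y ≤ H) {r : ℕ} (r2 : r ≠ 2) (hr : PiGrp {r} Y)
    (hn : H ⊓ 𝐂[s] ≤ 𝐍(Y)) (e : n + 1 = Fintype.card F → ¬ r ∣ Fintype.card F) : ⁅Y, zpowers s⁆ ≤ O := by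
  refine (t.ll0' hO oo hs s2 hY (odd_iff.2 fun p hp hd (e : p = 2) => r2 ((hr p hp hd).symm.trans e)) hn).resolve_right
    fun ⟨e1, e2⟩ => e e1 ?_
  obtain ⟨p, hp, hd⟩ := Nat.exists_prime_and_dvd (Fintype.one_lt_card (α := F)).ne'
  exact hr p hp ((e2.card ▸ hd).trans ((card_quo_dvd _ _).trans (card_dvd_of_le (comm_le_left
    (zpowers_le.2 (hn ⟨hs, self_mem_cent1 s⟩)))))) ▸ hd

end CA.ABG
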