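/-
Root groups of a `QT` group; odd subgroups normalized by a Sylow 2-subgroup of the centralizer of a noncentral involution.
-/
import Cfsg.Agent.Lib.ABG.LL0

set_option autoImplicit false
set_option linter.unusedSectionVars false

namespace CA.ABG
open Cfsg CA CA.FStar CA.GW Matrix.SpecialLinearGroup CA.SL2 CA.Br Subgroup
open scoped MatrixGroups

section
variable {F : Type*} [Field F]

theorem cj_cancel (A B : L2 F) : A⁻¹ * (A * B * A⁻¹) * A = B := by group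

theorem piH_up {N : L2 F} (h : N 1 0 = 0) (b : F) : ∃ c, piH N (up b) = up c := by
  obtain ⟨-, -, e2, e3⟩ := a_ent (piH_eq_iff.1 (rfl : piH N (up b) = _))
  have d := a_det_ne N
  simp only [mul_ent, toGL_ent, aDet, up_00, up_01, up_10, up_11, h, mul_zero, sub_zero, zero_mul, zero_add, add_zero,
    mul_one] at e2 e3 d
  have e : piH N (up b) 1 0 = 0 := (mul_eq_zero.1 e2.symm).resolve_right (left_ne_zero_of_mul d)
  rw [e] at e3
  exact ⟨_, eq_up_of e (mul_right_cancel₀ (right_ne_zero_of_mul d) (by linear_combination -e3))⟩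

theorem dg_ent (l : Fˣ) (g : SL(2, F)) : piH (dg (l, 1)) g 0 0 = g 0 0 ∧ piH (dg (l, 1)) g 0 1 = l * g 0 1 ∧
    l * piH (dg (l, 1)) g 1 0 = g 1 0 ∧ piH (dg (l, 1)) g 1 1 = g 1 1 := by
  obtain ⟨e0, e1, e2, e3⟩ := a_ent (piH_eq_iff.1 (rfl : piH (dg (l, 1)) g = _))
  simp [mul_ent, toGL_ent] at e0 e1 e2 e3
  exact ⟨mul_left_cancel₀ l.ne_zero (by linear_combination -e0), e1.symm, by linear_combination -e2, e3.symm⟩

/-- the Weyl element -/
noncomputable def wS (F : Type*) [Field F] : SL(2, F) := mk2 0 1 (-1) 0 (by simp)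

theorem wS_up (b : F) : piH (toGL (wS F)) (up b) = lo (-b) := piH_eq_iff.2 (ext2
  (by simp [mul_ent, toGL_ent, wS, up_00, up_10, lo_00, lo_01]) (by simp [mul_ent, toGL_ent, wS, up_01, up_11, lo_00, lo_01])
  (by simp [mul_ent, toGL_ent, wS, up_00, up_10, lo_10, lo_11]) (by simp [mul_ent, toGL_ent, wS, up_01, up_11, lo_10, lo_11]))

theorem wS_u (A : L2 F) : piH (A * toGL (wS F) * dg (1, -1) * (A * toGL (wS F))⁻¹) = piH (A * dg (1, -1) * A⁻¹) := by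
  have : toGL (wS F) * dg (1, -1) = dg (-1, -1) * dg (1, -1) * toGL (wS F) :=
    ext2 (by simp [mul_ent, toGL_ent, wS]) (by simp [mul_ent, toGL_ent, wS]) (by simp [mul_ent, toGL_ent, wS])
      (by simp [mul_ent, toGL_ent, wS])
  rw [mul_assoc A, this, _root_.mul_inv_rev, mul_assoc, mul_assoc, mul_inv_cancel_left]
  simp only [map_mul, piH_sc, one_mul, mul_assoc]

theorem u_inv {g : SL(2, F)} (h2 : (2 : F) ≠ 0) (t : tr g = 2) (h : piH (dg (1, -1)) g = g⁻¹) :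
    (∃ b, g = up b) ∨ ∃ b, g = lo b := by
  obtain ⟨e0, e1, e2, e3⟩ := u_ent' g
  obtain ⟨f0, f1, -, -⟩ := s_ent (eq_inv_iff_mul_eq_one.1 h)
  have d := det_eq g
  simp only [mul_apply', e0, e1, one_ent00, one_ent01] at f0 f1
  rw [tr] at t
  have k : (g 0 0 - 1) * g 0 0 = 0 := mul_left_cancel₀ h2 (by linear_combination f0 - d + g 0 0 * t)
  have a1 : g 0 0 = 1 := by
    refine sub_eq_zero.1 ((mul_eq_zero.1 k).resolve_right fun e => h2 ?_)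
    rw [e] at f0 f1 t
    have b0 : g 0 1 ≠ 0 := fun e => by simp [e] at f0
    exact mul_left_cancel₀ b0 (by linear_combination -f1 - g 0 1 * t)
  have d1 : g 1 1 = 1 := by linear_combination t - a1
  rcases mul_eq_zero.1 (show g 0 1 * g 1 0 = 0 by linear_combination -f0 + (g 0 0 + 1) * a1) with e | e
  · exact .inr ⟨g 1 0, sext (by rw [a1, lo_00]) (by rw [e, lo_01]) (lo_10 _).symm (by rw [d1, lo_11])⟩
  · exact .inl ⟨_, eq_up_of e d1⟩

theorem inv_ent (g : SL(2, F)) : g⁻¹ 0 0 = g 1 1 ∧ g⁻¹ 0 1 = -g 0 1 ∧ g⁻¹ 1 0 = -g 1 0 ∧ g⁻¹ 1 1 = g 0 0 := by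
  rw [Matrix.SpecialLinearGroup.SL2_inv_expl]; exact ⟨rfl, rfl, rfl, rfl⟩

theorem over_m (h2 : (2 : F) ≠ 0) {Y : Subgroup SL(2, F)} (hl : ∀ l : Fˣ, ∀ g ∈ Y, piH (dg (l, 1)) g ∈ Y) {y : SL(2, F)}
    (hy : y ∈ Y) (y1 : y ≠ 1) (t : tr y = 2) : (∀ b, up b ∈ Y) ∨ ∀ b, lo b ∈ Y := by
  have sq : ∀ {g : SL(2, F)}, tr g = 2 → g 0 1 * g 1 0 = -(g 0 0 - 1) ^ 2 := fun {g} t => by
    rw [tr] at t; linear_combination -det_eq g + g 0 0 * t
  have one : ∀ {g : SL(2, F)}, tr g = 2 → g 0 1 * g 1 0 = 0 → g 0 0 = 1 ∧ g 1 1 = 1 := fun {g} t e => by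
    have a : g 0 0 = 1 := sub_eq_zero.1 (pow_eq_zero_iff two_ne_zero |>.1 (neg_eq_zero.1 ((sq t).symm.trans e)))
    rw [tr] at t; exact ⟨a, by linear_combination t - a⟩
  have hu : ∀ g ∈ Y, g ≠ 1 → tr g = 2 → g 1 0 = 0 → ∀ b, up b ∈ Y := fun g hg g1 t e b => by
    obtain ⟨a, d⟩ := one t (by rw [e, mul_zero])
    have c : g 0 1 ≠ 0 := fun c => g1 (sext a c e d)
    by_cases b0 : b = 0
    · rw [b0, show up (0 : F) = 1 by simp]; exact one_mem _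
    obtain ⟨e0, e1, e2, e3⟩ := dg_ent (Units.mk0 (b / g 0 1) (div_ne_zero b0 c)) g
    convert hl (Units.mk0 (b / g 0 1) (div_ne_zero b0 c)) g hg using 1
    exact sext (by rw [e0, a, up_00]) (by rw [e1, up_01, Units.val_mk0, div_mul_cancel₀ _ c])
      (by rw [up_10, (mul_eq_zero.1 (e2.trans e)).resolve_left (Units.ne_zero _)]) (by rw [e3, d, up_11])
  by_cases c : y 1 0 = 0
  · exact .inl (hu y hy y1 t c)
  by_cases b : y 0 1 = 0
  · refine .inr fun b' => ?_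
    obtain ⟨a, d⟩ := one t (by rw [b, zero_mul])
    by_cases b0 : b' = 0
    · rw [b0, show lo (0 : F) = 1 by simp]; exact one_mem _
    obtain ⟨e0, e1, e2, e3⟩ := dg_ent (Units.mk0 (y 1 0 / b') (div_ne_zero c b0)) y
    convert hl (Units.mk0 (y 1 0 / b') (div_ne_zero c b0)) y hy using 1
    exact sext (by rw [e0, a, lo_00]) (by rw [e1, lo_01, b, mul_zero])
      (by rw [lo_10]; exact mul_left_cancel₀ (div_ne_zero c b0) ((div_mul_cancel₀ _ b0).trans e2.symm)) (by rw [e3, d, lo_11])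
  have key : ∀ y ∈ Y, tr y = 2 → y 0 1 * y 1 0 ≠ 0 → y 1 1 ≠ 0 → ∀ b, up b ∈ Y := fun y hy t bc d => by
    have a : y 0 0 - 1 ≠ 0 := fun e => bc (by rw [sq t, e]; simp)
    set l := Units.mk0 (-y 1 1 / (y 0 0 - 1)) (div_ne_zero (neg_ne_zero.2 d) a)
    have hl' : (l : F) * (y 0 0 - 1) = -y 1 1 := div_mul_cancel₀ _ a
    obtain ⟨e0, e1, e2, e3⟩ := dg_ent l y
    have tt : tr (piH (dg (l, 1)) y) = 2 := by rw [tr, e0, e3]; exact t
    refine hu _ (mul_mem (mul_mem hy (hl l y hy)) (inv_mem hy)) (fun e => bc ?_) (by rw [tr_conj, tt]) ?_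
    · rw [← e2, conj_eq_one_iff.1 e, one_ent10, mul_zero, mul_zero]
    have s := sq t
    rw [tr] at t
    simp only [mul_apply', e0, e1, e3, inv_ent]
    refine mul_left_cancel₀ l.ne_zero ?_
    linear_combination (y 1 1) ^ 2 * e2 - (l : F) ^ 2 * y 1 0 * s - l * y 1 0 * y 1 1 * t +
      y 1 0 * (l * (y 0 0 - 1) + y 1 1) * hl'
  by_cases d : y 1 1 = 0
  · rw [tr] at t
    refine .inl (key _ (inv_mem hy) (by simpa only [tr, inv_ent, add_comm] using t) (by simp [inv_ent, b, c]) ?_)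
    simpa only [inv_ent, show y 0 0 = 2 by linear_combination t - d] using h2
  · exact .inl (key y hy t (mul_ne_zero b c) d)

variable [Fintype F] {s T : MulAut SL(2, F)} {τ σ y : SL(2, F)} {n : ℕ}
local notation "𝔮" => Fintype.card F

theorem TorS.split (h2 : (2 : F) ≠ 0) (t : TorS s T τ σ n) {A : L2 F} (e : s = piH (A * dg (1, -1) * A⁻¹)) : n + 1 = 𝔮 := by
  refine t.hn.resolve_right fun h => ?_
  have k : ∀ g, piH A g ∈ zpowers τ → g 0 1 = 0 ∧ g 1 0 = 0 := fun g hg => by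
    have := (t.fix _).2 hg
    rw [e, piH_cj, cj_cancel, (piH A).injective.eq_iff] at this
    obtain ⟨-, e1, e2, -⟩ := u_ent' g
    rw [this] at e1 e2
    exact ⟨mul_left_cancel₀ h2 (by linear_combination e1), mul_left_cancel₀ h2 (by linear_combination e2)⟩
  have := Nat.card_le_card_of_injective (fun g : zpowers τ => (piH A).symm g 0 0) fun a b e => by
    obtain ⟨a1, a2⟩ := k ((piH A).symm a) (by simp)
    obtain ⟨b1, b2⟩ := k ((piH A).symm b) (by simp)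
    have da := det_eq ((piH A).symm a)
    have db := det_eq ((piH A).symm b)
    simp only at e
    rw [a1] at da
    rw [b1, ← e] at db
    exact Subtype.ext ((piH A).symm.injective (sext e (a1.trans b1.symm) (a2.trans b2.symm)
      (by linear_combination -((piH A).symm a 1 1) * db + (piH A).symm b 1 1 * da)))
  rw [Nat.card_zpowers, t.ord, Nat.card_eq_fintype_card] at this
  omega

theorem TorS.memK (hF : Odd 𝔮) (t : TorS s T τ σ n) (s2 : Inv2 s) : s ∈ Kh F ↔ 4 ∣ n := by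
  have : Finite (MulAut SL(2, F)) := inferInstance
  obtain ⟨k, rfl⟩ := (Submonoid.mem_powers_iff _ _).1 (mem_powers_iff_mem_zpowers.2 t.self)
  obtain ⟨a, rfl⟩ : ∃ a, n = 2 * a := by obtain ⟨a, ha⟩ := hF; rcases t.hn with h | h; exacts [⟨a, by omega⟩, ⟨a + 1, by omega⟩]
  obtain ⟨j, rfl⟩ := Nat.dvd_of_mul_dvd_mul_left two_pos (t.ordT ▸ orderOf_dvd_of_pow_eq_one (by
    rw [two_mul, pow_add, s2.sq]) : 2 * a ∣ 2 * k)
  have : ¬ Even j := fun ⟨l, e⟩ => s2.ne (by rw [e, ← two_mul, ← mul_assoc, mul_comm a, pow_mul, ← t.ordT, pow_orderOf_eq_one, one_pow])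
  rw [t.TK, Nat.even_mul, or_iff_left this, even_iff_two_dvd]
  omega

theorem TorS.root (hF : Odd 𝔮) (t : TorS s T τ σ n) (s2 : Inv2 s) (hn : n + 1 = 𝔮) : ∃ A : L2 F, s = piH (A * dg (1, -1) * A⁻¹) := by
  have h2 := two_ne_zero_of_odd hF
  have u2 : Inv2 (piH (dg (1, -1) : L2 F)) := ⟨by rw [← map_mul, ← map_mul]; simp [Prod.mk_one_one], fun e => h2 (by
    have := (piH_eq_one.1 e).2.2; simp at this; linear_combination this)⟩
  obtain ⟨T', τ', σ', n', t'⟩ := torS hF ⟨_, rfl⟩ u2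
  obtain rfl : n' = n := by have := t'.split h2 (A := 1) (by simp); omega
  have sP : s ∈ Ph F := zpowers_le.2 t.TP t.self
  obtain ⟨g, hg⟩ := inv_conj hF ⟨_, rfl⟩ sP u2 s2 (by
    by_cases e : 4 ∣ n'
    · exact mul_mem ((t'.memK hF u2).2 e) ((t.memK hF s2).2 e)
    · exact mul_mem_K hF ⟨_, rfl⟩ sP (mt (t'.memK hF u2).1 e) (mt (t.memK hF s2).1 e))
  exact ⟨toGL g, by rw [map_mul, map_mul, map_inv, piH_toGL, hg]⟩

theorem lam (hF : Odd 𝔮) (t : TorS s T τ σ n) (s2 : Inv2 s) {D : MulAut SL(2, F)} (DP : D ∈ Ph F) (sD : s ∈ zpowers D)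
    (D2 : D * D ≠ 1) {Y R : Subgroup SL(2, F)} (hY : Odd (Nat.card Y)) (RY : R ≤ Y) (hy : y ∈ R) (y1 : y ≠ 1)
    (ab : ∀ a ∈ R, a * y = y * a) (hT : ∀ a ∈ R, D a ∈ R) (hn : Y ≤ 𝐍(R)) :
    Y ≤ zpowers τ ∨ ∃ A : L2 F, s = piH (A * dg (1, -1) * A⁻¹) ∧ ∀ g ∈ Y, ∃ b, g * (s g)⁻¹ = piH A (up b) := by
  have : Finite (MulAut SL(2, F)) := inferInstance
  have h2 := two_ne_zero_of_odd hF
  have yo := odd_of_mem hY (RY hy)
  have ys := nsc_of_odd yo y1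
  have hk : ∀ k : ℕ, ∀ a ∈ R, (D ^ k) a ∈ R := fun k => by
    induction k with
    | zero => simp
    | succ k ih => exact fun a ha => by rw [pow_succ]; exact ih _ (hT a ha)
  obtain ⟨k, hs⟩ := (Submonoid.mem_powers_iff _ _).1 (mem_powers_iff_mem_zpowers.2 sD)
  obtain ⟨M, rfl⟩ := DP
  have cm : ∀ {B : L2 F}, piH B y ∈ R → B * toGL y * B⁻¹ * toGL y = toGL y * (B * toGL y * B⁻¹) := fun h => by
    rw [← toGL_piH, ← map_mul, ab _ h, map_mul]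
  have cY : ∀ g ∈ Y, piH (toGL g) y ∈ R := fun g hg => by rw [piH_toGL]; exact conj_mem_of_mem_normalizer (hn hg) hy
  by_cases hd : aDisc (toGL y : L2 F) = 0
  swap
  · refine .inl fun g hg => (t.fix g).1 ?_
    have c1 : M * toGL y = toGL y * M := (norm_alg h2 ys (cm (hT y hy))).resolve_right fun e => hd (e.resolve_left fun e =>
      D2 (by rw [← map_mul]; exact piH_eq_one.2 (sc_sq e)))
    have c2 : toGL g * toGL y = toGL y * toGL g := (norm_alg h2 ys (cm (cY g hg))).resolve_right fun e => hd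
      (e.resolve_left fun e => neg_ne_self h2 1 (eq_one_of_odd (sq_neg e ▸ sq g ▸
        (odd_of_mem hY hg).of_dvd_nat (orderOf_pow_dvd 2)) (by simp)))
    rw [← hs, ← map_pow, piH_eq_iff]
    exact Commute.pow_left (comm2 ys c1 c2) k
  obtain ⟨K, hK⟩ := a_conj (g := toGL (up 1)) (fun e => one_ne_zero ((up_01 (1 : F)).symm.trans e.1)) ys
    ((tr_up 1).trans (tr_two hF yo hd).symm) (by rw [aDet_toGL, aDet_toGL])
  have uK : ∀ {A B : L2 F}, piH A (up 1) = y → piH B y ∈ R → (A⁻¹ * B * A) 1 0 = 0 := fun {A B} e h => upper_of h2 ((piH A).injective (by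
    rw [map_mul (piH A), map_mul (piH A), ← piH_cj, e, ab _ h]))
  have yK : piH K (up 1) = y := toGL_injective (by rw [toGL_piH, hK])
  have S1 := uK yK (B := M ^ k) (by rw [map_pow]; exact hk k y hy)
  have S2 : aTr (K⁻¹ * M ^ k * K) = 0 := (a_tr_of (h := K⁻¹) (mul_inv_cancel_right _ K)).trans
    (tr_zero (fun e => s2.ne (by rw [← hs, ← map_pow, piH_eq_one.2 e])) (piH_eq_one.1 (by rw [map_mul, map_pow, hs, s2.sq])))
  have S3 := a_det_ne (K⁻¹ * M ^ k * K)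
  rw [aDet, S1, mul_zero, sub_zero] at S3
  set a := Units.mk0 _ (left_ne_zero_of_mul S3)
  set A := K * toGL (up (-(K⁻¹ * M ^ k * K) 0 1 / (2 * a)))
  have yA : piH A (up 1) = y := by
    rw [map_mul, MulAut.mul_apply, piH_toGL, MulAut.conj_apply, ← up_add, add_comm, up_add, mul_inv_cancel_right, yK]
  have sA : s = piH (A * dg (1, -1) * A⁻¹) := by
    rw [← hs, ← map_pow, piH_eq]
    refine ⟨a, ?_⟩
    rw [← mul_assoc, eq_mul_inv_iff_mul_eq, sc_comm, mul_assoc K, mul_assoc K, ← mul_assoc, ← inv_mul_eq_iff_eq_mul, ← mul_assoc,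
      ← mul_assoc]
    have a0 := a.ne_zero
    have a1 : (K⁻¹ * M ^ k * K) 0 0 = a := rfl
    have a2 := s11 S2
    generalize K⁻¹ * M ^ k * K = S at S1 a1 a2
    refine ext2 ?_ ?_ ?_ ?_ <;> simp [mul_ent, toGL_ent, up_00, up_01, up_10, up_11, S1, a1, a2]
    field_simp; ring
  refine .inr ⟨A, sA, fun g hg => ?_⟩
  obtain ⟨g, rfl⟩ := (piH A).surjective g
  have g1 := uK yA (cY _ hg)
  rw [toGL_piH, cj_cancel, toGL_ent] at g1
  exact ⟨_, by rw [sA, piH_cj, ← map_inv, ← map_mul, cj_cancel, u_comm g1]⟩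

end

theorem le_or_le_of_union {G : Type*} [Group G] {A B C : Subgroup G} (h : ∀ x ∈ C, x ∈ A ∨ x ∈ B) : C ≤ A ∨ C ≤ B := by
  by_contra! e
  obtain ⟨a, ha, a1⟩ := SetLike.not_le_iff_exists.1 e.1
  obtain ⟨b, hb, b1⟩ := SetLike.not_le_iff_exists.1 e.2
  rcases h _ (mul_mem ha hb) with k | k
  · exact a1 ((mul_mem_cancel_right ((h b hb).resolve_right b1)).1 k)
  · exact b1 ((mul_mem_cancel_left ((h a ha).resolve_left a1)).1 k)

variable {G : Type*} [Group G] [Finite G] {X Z Y Q Q' : Subgroup G} {F : Type} [Field F] [Fintype F] {h : QT F X Z}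
  {s d x y : G} {τ σ : SL(2, F)} {n m : ℕ}

theorem charP_of_dvd {p : ℕ} (hp : p.Prime) (h : p ∣ Fintype.card F) : CharP F p := by
  obtain ⟨r, hr, f, hr', hq⟩ := FiniteField.card' F
  rwa [(Nat.prime_dvd_prime_iff_eq hp hr').1 (hp.dvd_of_dvd_pow (hq ▸ h))]

theorem QT.mkRoot (h : QT F X Z) {A : L2 F} (e : pel h.Φ s = piH (A * dg (1, -1) * A⁻¹)) :
    ∃ Q, h.Root s Q ∧ ∀ x, x ∈ Q ↔ ∃ b, x = h.ι (piH A (up b)) :=
  have k := fun x => (show x ∈ (h.ι.comp ((piH A).toMonoidHom.comp (upHom F))).range ↔ ∃ b, x = h.ι (piH A (up b)) from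
    exists_congr fun _ => eq_comm)
  ⟨_, ⟨A, e, k⟩, k⟩

theorem QT.Root.hn (r : h.Root s Q) (t : h.Tor s d τ σ n m) : n + 1 = Fintype.card F :=
  let ⟨_, e, _⟩ := r; let ⟨_, t', _⟩ := t.tor; t'.split (two_ne_zero_of_odd h.odd) e

theorem QT.Tor.root (t : h.Tor s d τ σ n m) (e : n + 1 = Fintype.card F) : ∃ Q, h.Root s Q :=
  let ⟨_, t', _⟩ := t.tor; let ⟨_, e⟩ := t'.root h.odd (h.φinv t.sX t.s2 t.sZ) e; (h.mkRoot e).imp fun _ => And.left

namespace QT.Root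
variable (r : h.Root s Q)
include r

/-- the opposite root group -/
theorem opp' (hs : s ∈ X) {p : ℕ} (hp : p.Prime) [CharP F p] : ∃ Q', h.Root s Q' ∧ Q ⊓ Q' = ⊥ ∧
    ∀ Y : Subgroup G, (∀ y ∈ Y, y ∈ h.L ∧ s * y * s⁻¹ = y⁻¹ ∧ y ^ p = 1) → Y ≤ Q ∨ Y ≤ Q' := by
  have : Fact p.Prime := ⟨hp⟩
  obtain ⟨A, h1, h2⟩ := r
  obtain ⟨Q', r', h3⟩ := h.mkRoot (h1.trans (wS_u A).symm)
  simp only [map_mul, MulAut.mul_apply, wS_up] at h3
  refine ⟨Q', r', eq_bot_iff.2 fun x hx => ?_, fun Y r => le_or_le_of_union fun y hy => ?_⟩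
  · obtain ⟨b, rfl⟩ := (h2 x).1 hx.1
    obtain ⟨c, e⟩ := (h3 _).1 hx.2
    have := (s_ent ((piH A).injective (h.inj e))).2.1
    rw [up_01, lo_01] at this
    simp [this]
  obtain ⟨⟨g, rfl⟩, e1, e2⟩ := r y hy
  obtain ⟨g, rfl⟩ := (piH A).surjective g
  rw [h.act s hs, h1, piH_cj, cj_cancel, ← map_inv, ← map_inv] at e1
  rw [← map_pow, ← map_pow, map_eq_one_iff _ h.inj, map_eq_one_iff _ (piH A).injective] at e2
  obtain ⟨x, hx⟩ := exists_US_of_pow p e2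
  rcases u_inv (two_ne_zero_of_odd h.odd) (tr_of_mem_US hx) ((piH A).injective (h.inj e1)) with ⟨b, rfl⟩ | ⟨b, rfl⟩
  exacts [.inl ((h2 _).2 ⟨b, rfl⟩), .inr ((h3 _).2 ⟨-b, by rw [neg_neg]⟩)]

theorem odd : Odd (Nat.card Q) := r.card ▸ h.odd

theorem not_cent (hs : s ∈ X) : ¬ Q ≤ 𝐂[s] := fun e => r.ne_bot (eq_bot_iff.2 fun x hx => eq_one_of_odd (odd_of_mem r.odd hx) (by
  have := r.inv hs hx
  rw [← mem_cent1_iff.1 (e hx), mul_inv_cancel_right] at this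
  exact eq_inv_iff_mul_eq_one.1 this))

theorem sq_norm (hs : s ∈ X) (hx : x ∈ X ⊓ 𝐂[s]) : x * x ∈ 𝐍(Q) := by
  obtain ⟨p, hp, -, hp', -⟩ := FiniteField.card' F
  obtain ⟨Q', r', -, k⟩ := r.opp' hs hp'
  have k' : ∀ {Y}, h.Root s Y → cj x Y = Q ∨ cj x Y = Q' := fun {Y} rY => by
    refine (k _ fun y hy => ?_).imp (eq_of_le_of_card_ge · (by rw [card_cj, r.card, rY.card]))
      (eq_of_le_of_card_ge · (by rw [card_cj, r'.card, rY.card]))
    replace hy := mem_cj'.1 hy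
    obtain ⟨y, hy, rfl⟩ := hy
    refine ⟨conj_mem_of_mem_normalizer (h.LN.2 hx.1) (rY.le_L hy), ?_, by rw [conj_pow, rY.pow_char p hy]; simp⟩
    calc _ = (s * x) * y * (s * x)⁻¹ := by group
      _ = x * (s * y * s⁻¹) * x⁻¹ := by rw [← mem_cent1_iff.1 hx.2]; group
      _ = _ := by rw [rY.inv hs hy]; group
  rw [mem_normalizer_iff_cj, cj_mul]
  rcases k' r with e | e
  · rw [e, e]
  · rcases k' r' with e' | e'
    · rw [e, e']
    · rw [cj_injective x (e.trans e'.symm), e', e']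

end QT.Root

theorem QT.norm_up (h : QT F X Z) {A B : L2 F} (h2 : ∀ x, x ∈ Q ↔ ∃ b, x = h.ι (piH A (up b))) (hx : x ∈ X)
    (e : pel h.Φ x = piH B) (u : (A⁻¹ * B * A) 1 0 = 0) : x ∈ 𝐍(Q) := mem_norm_of fun y hy => by
  obtain ⟨b, rfl⟩ := (h2 y).1 hy
  obtain ⟨c, hc⟩ := piH_up u b
  exact (h2 _).2 ⟨c, by rw [h.act x hx, e, piH_cj, hc]⟩

theorem up_of_comm (h2 : (2 : F) ≠ 0) {A B : L2 F} (e : B * (A * dg (1, -1) * A⁻¹) = A * dg (1, -1) * A⁻¹ * B) :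
    (A⁻¹ * B * A) 1 0 = 0 := by
  have := (a_ent (show A⁻¹ * B * A * dg (1, -1) = dg (1, -1) * (A⁻¹ * B * A) by
    calc _ = A⁻¹ * (B * (A * dg (1, -1) * A⁻¹)) * A := by group
      _ = _ := by rw [e]; group)).2.2.1
  generalize A⁻¹ * B * A = N at this
  simp [mul_ent] at this
  exact mul_left_cancel₀ h2 (by linear_combination this)

namespace QT.Root
variable (r : h.Root s Q) (t : h.Tor s d τ σ n m)
include r t

/-- the centralizer of `s` normalizes the root groups -/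
theorem norm : X ⊓ 𝐂[s] ≤ 𝐍(Q) := by
  have h2 := two_ne_zero_of_odd h.odd
  have k : h.P ⊓ 𝐂[s] ≤ 𝐍(Q) := by
    obtain ⟨A, h1, hQ⟩ := r
    obtain ⟨T, t', -⟩ := t.tor
    rw [t.PC]
    refine sup_le (zpowers_le.2 (h.norm_up hQ (h.mem τ) ((h.φι τ).trans (piH_toGL τ).symm) (up_of_comm h2 ?_))) (zpowers_le.2 ?_)
    · exact (piH_eq_iff.1 (h1 ▸ (t'.fix τ).2 (mem_zpowers τ))).symm
    obtain ⟨B, hB⟩ := h.mP (h.gen_P t.gen)
    rcases comm_pm (C := B) (S := A * dg (1, -1) * A⁻¹) (by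
      rw [hB, ← h1, ← pel_mul _ t.gen.mem t.sX, mem_cent1_iff.1 (t.dC (mem_zpowers d)), pel_mul _ t.sX t.gen.mem]) with e | e
    · exact h.norm_up hQ t.gen.mem hB.symm (up_of_comm h2 e)
    have d2 : d * d = 1 := mem_bot.1 (t.gen.dz ▸ ⟨mul_mem (mem_zpowers d) (mem_zpowers d),
      (h.φ1 (mul_mem t.gen.mem t.gen.mem)).1 (by
        rw [pel_mul _ t.gen.mem t.gen.mem, ← hB, ← map_mul]; exact piH_eq_one.2 (sc_sq (tr_anti h2 e)))⟩)
    rw [← ((mem_zpowers_sq d2).1 t.sd).resolve_left t.s2.ne]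
    exact h.norm_up hQ t.sX h1 (up_of_comm h2 rfl)
  intro x hx
  rw [← constt_mul_compl {2} x]
  refine mul_mem (k ⟨h.two_mem (constt_mem _ hx.1) (constt_piElt _ x), constt_mem _ hx.2⟩) ?_
  obtain ⟨j, hj⟩ := odd_elt_iff.2 (constt_piElt {2}ᶜ x)
  have e := pow_orderOf_eq_one (constt {2}ᶜ x)
  rw [hj, pow_succ, pow_mul, sq] at e
  rw [eq_inv_of_mul_eq_one_right e]
  exact inv_mem (pow_mem (r.sq_norm t.sX (constt_mem _ hx)) j)

theorem swap' (hx : x ∈ X) (e : x * s * x⁻¹ = s * h.t) : x ∉ 𝐍(Q) := fun hn => r.swap t.sX t.swap (by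
  have : x⁻¹ * h.ι σ ∈ X ⊓ 𝐂[s] := ⟨X.mul_mem (inv_mem hx) (h.mem σ), mem_cent1_iff.2 (by
    rw [mul_assoc, eq_mul_of_mul_inv_eq t.swap, ← e]; group)⟩
  exact (mul_mem_cancel_left (inv_mem hn)).1 (r.norm t this))

theorem opp : Q ⊓ cj (h.ι σ) Q = ⊥ ∧ h.Root s (cj (h.ι σ) Q) ∧ ∀ Y, h.Root s Y → Y = Q ∨ Y = cj (h.ι σ) Q := by
  obtain ⟨p, hp, -, hp', -⟩ := FiniteField.card' F
  obtain ⟨Q', r', e, k⟩ := r.opp' t.sX hp'
  have k' : ∀ Y, h.Root s Y → Y = Q ∨ Y = Q' := fun Y rY =>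
    (k _ fun y hy => ⟨rY.le_L hy, rY.inv t.sX hy, rY.pow_char p hy⟩).imp (eq_of_le_of_card_ge · (by rw [r.card, rY.card]))
      (eq_of_le_of_card_ge · (by rw [r'.card, rY.card]))
  obtain ⟨A, h1, h2⟩ := r.conj t.sX (h.LP ⟨σ, rfl⟩)
  rw [t.swap, pel_mul _ t.sX (h.ZX h.neg), (h.φ1 (h.ZX h.neg)).2 h.neg, mul_one] at h1
  rw [(k' _ ⟨A, h1, h2⟩).resolve_left fun e => r.swap t.sX t.swap (mem_normalizer_iff_cj.2 e)]
  exact ⟨e, r', k'⟩

/-- the Borel subgroup -/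
theorem nz : X ⊓ 𝐍(Q) = Q ⊔ X ⊓ 𝐂[s] := by
  refine le_antisymm (fun x hx => ?_) (sup_le (le_inf (r.le_L.trans h.LX) le_normalizer) (le_inf inf_le_left (r.norm t)))
  obtain ⟨_, ⟨g, rfl⟩, c, hc, rfl⟩ := (mem_sup_of_norm_right (inf_le_left.trans h.LN.2)).1 ((h.fratt t.gen t.sX t.s2 t.sZ).le hx.1)
  refine mul_mem ?_ (mem_sup_right hc)
  have hn := (mul_mem_cancel_right (r.norm t hc)).1 hx.2
  have c := fun a (ha : a ∈ Q) b (hb : b ∈ Q) => r.comm ha hb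
  obtain ⟨A, h1, hQ⟩ := r
  obtain ⟨g, rfl⟩ := (piH A).surjective g
  have m := (hQ _).2 ⟨1, rfl⟩
  have g1 : g 1 0 = 0 := upper_of (two_ne_zero_of_odd h.odd) (A := toGL g) ((piH A).injective (h.inj (by
    simpa only [piH_toGL, MulAut.conj_apply, map_mul, map_inv] using c _ (conj_mem_of_mem_normalizer hn m) _ m)))
  rw [← inv_mul_cancel_left (up (-(g 0 1 * g 0 0))) g, map_mul, map_mul, ← up_neg]
  refine mul_mem (mem_sup_left ((hQ _).2 ⟨_, rfl⟩)) (mem_sup_right ⟨h.mem _, mem_cent1_iff.2 ?_⟩)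
  rw [eq_comm, ← mul_inv_eq_iff_eq_mul, h.act s t.sX, h1, piH_cj, cj_cancel]
  obtain ⟨e0, e1, e2, e3⟩ := u_ent' (up (-(g 0 1 * g 0 0)) * g)
  have dt := det_eq g
  refine congrArg _ (congrArg _ (sext e0 (e1.trans ?_) (e2.trans ?_) e3)) <;>
    simp only [mul_apply', up_00, up_01, up_10, up_11, g1] at dt ⊢
  exacts [by linear_combination (2 * g 0 1) * dt, by ring]

theorem idx {p : ℕ} (hp : p.Prime) [CharP F p] (h1 : Q ≤ Y) (h2 : X ⊓ 𝐂[s] ≤ Y) (h3 : Y ≤ X) : ¬ p ∣ Y.relIndex X := fun e =>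
  (r.sylow hp).not_dvd hp (by
    rw [show X = Y ⊔ h.L from le_antisymm ((h.fratt t.gen t.sX t.s2 t.sZ).le.trans (sup_le le_sup_right (h2.trans le_sup_left)))
      (sup_le h3 h.LX), relIndex_sup_of_norm' (h3.trans h.LN.2)] at e
    exact e.trans (relIndex_dvd_of_le_left _ h1))

end QT.Root

namespace QT.Tor
variable (t : h.Tor s d τ σ n m)
include t

/-- OVER -/
theorem ovr (e : n + 1 = Fintype.card F) {p : ℕ} (hp : p.Prime) [CharP F p] (hn : X ⊓ 𝐂[s] ≤ 𝐍(Y)) (hy : y ∈ Y ⊓ h.L)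
    (y1 : y ≠ 1) (yp : y ^ p = 1) : ∃ Q ≤ Y, h.Root s Q := by
  have : Fact p.Prime := ⟨hp⟩
  obtain ⟨Q, r⟩ := t.root e
  have r0 := r
  obtain ⟨A, h1, hQ⟩ := r0
  obtain ⟨Q', r', h3⟩ := h.mkRoot (h1.trans (wS_u A).symm)
  simp only [map_mul, MulAut.mul_apply, wS_up] at h3
  obtain ⟨hy, g, rfl⟩ := hy
  obtain ⟨g, rfl⟩ := (piH A).surjective g
  rw [← map_pow, ← map_pow, map_eq_one_iff _ h.inj, map_eq_one_iff _ (piH A).injective] at yp
  obtain ⟨x, hx⟩ := exists_US_of_pow p yp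
  refine (over_m (two_ne_zero_of_odd h.odd) (Y := Y.comap (h.ι.comp (piH A).toMonoidHom)) (y := g) (fun l g hg => ?_) hy
    (fun e => y1 (by simp [e])) (tr_of_mem_US hx)).elim (fun k => ⟨Q, fun x hx => let ⟨b, e⟩ := (hQ x).1 hx; e ▸ k b, r⟩)
    fun k => ⟨Q', fun x hx => let ⟨b, e⟩ := (h3 x).1 hx; e ▸ k (-b), r'⟩
  obtain ⟨x, xP, hx⟩ := (h.gen_full t.gen).ex (A * dg (l, 1) * A⁻¹)
  have xX := h.PX xP
  have c : x * s * x⁻¹ * s⁻¹ ∈ Z := (h.φeq (mul_mem (mul_mem xX t.sX) (inv_mem xX)) t.sX).1 (by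
    rw [pel_conj _ xX t.sX, hx, h1, ← map_inv, ← map_mul, ← map_mul]
    congr 1
    calc _ = A * (dg (l, 1) * dg (1, -1) * (dg (l, 1))⁻¹) * A⁻¹ := by group
      _ = _ := by rw [← map_inv, ← map_mul, ← map_mul, mul_inv_cancel_comm])
  have xC : x ∈ 𝐂[s] := by_contra fun e => r.swap' t xX (by
    have c' := h.cen c s t.sX
    rw [← h.inv_Z t.gen c ⟨by
      rw [t.s2.inv] at c' ⊢
      conv_lhs => rw [mul_assoc _ s, c', mul_assoc _ s s, t.s2.sq, mul_one, (t.s2.conj x).sq],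
      fun e' => e (mem_cent1_iff.2 (mul_inv_eq_iff_eq_mul.1 (mul_inv_eq_one.1 e')))⟩, c', inv_mul_cancel_right])
    (h.norm_up hQ xX hx (by rw [cj_cancel]; simp))
  have := conj_mem_of_mem_normalizer (hn ⟨xX, xC⟩) (mem_comap.1 hg)
  change x * h.ι (piH A g) * x⁻¹ ∈ Y at this
  rwa [h.act x xX, hx, piH_cj, cj_cancel] at this

theorem idx : (𝐂[s]).relIndex X * n = Fintype.card F * (Fintype.card F ^ 2 - 1) := by
  rw [← inf_relIndex_left, h.fratt t.gen t.sX t.s2 t.sZ, ← h.card_L, ← card_inf_mul_relIndex 𝐂[s], inf_comm 𝐂[s], t.cent,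
    Nat.card_zpowers, t.ord', mul_comm, ← h.fratt t.gen t.sX t.s2 t.sZ]
  conv_lhs => rw [show ∀ K : Subgroup G, K.relIndex X = K.relIndex (X ⊓ 𝐂[s] ⊔ h.L) from fun K => by
    rw [sup_comm, ← h.fratt t.gen t.sX t.s2 t.sZ], relIndex_sup_of_norm' (inf_le_left.trans h.LN.2), inf_comm,
    ← inf_relIndex_right, inf_assoc, inf_eq_right.2 h.LX, inf_relIndex_right]

theorem d_mem {A : Subgroup G} (hA : SylowIn 2 A (X ⊓ 𝐂[s])) : d ∈ A := by
  have hd : d ∈ X ⊓ 𝐂[s] := ⟨t.gen.mem, t.dC (mem_zpowers d)⟩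
  obtain ⟨g, hg, e⟩ := hA.exists_conj_mem hd (h.gen_two t.gen)
  rwa [t.two_cent hd (h.gen_two t.gen) hg, mul_inv_cancel_right] at e

/-- LA -/
theorem la (h4 : 4 ∣ Nat.card Z) (hY : Y ≤ X) (ho : Odd (Nat.card Y)) (hn : d ∈ 𝐍(Y)) :
    Y ≤ 𝐂[s] ∨ ∃ Q, h.Root s Q ∧ ⁅Y, zpowers s⁆ ≤ Q := by
  have sN : s ∈ 𝐍(Y) := zpowers_le.2 hn t.sd
  have cp := copAct_inv t.s2.sq ho sN
  have n1 : zpowers d ≤ 𝐍(⁅Y, zpowers s⁆) := norms_commutator (zpowers_le.2 hn) (t.dC.trans (by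
    rw [← cent_zpowers]; exact centralizer_le_normalizer _))
  have o1 : Odd (Nat.card ↥⁅Y, zpowers s⁆) := ho.of_dvd_nat (card_dvd_of_le cp.comm_le)
  have L1 : ⁅Y, zpowers s⁆ ≤ h.L := fun x hx => h.odd_mem (sup_le h.LP h.ZP (h.der (commutator_mono hY (zpowers_le.2 t.sX) hx)))
    (odd_of_mem o1 hx)
  have cc := cp.comm_comm
  have fin : ⁅Y, zpowers s⁆ ≤ 𝐂[s] → Y ≤ 𝐂[s] := fun e => by
    rw [← cent_zpowers] at e ⊢
    exact cents_symm (cp.cents_of_comm_cents e)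
  generalize ⁅Y, zpowers s⁆ = W at n1 o1 L1 cc fin
  by_cases W1 : W = ⊥
  · exact .inl (fin (W1 ▸ bot_le))
  obtain ⟨y, hy, y1⟩ := (bot_or_exists_ne_one _).resolve_left
    (center_ne_bot_nil (fittingOf_nilpotent W) (fittingOf_ne_bot (solv_odd o1) W1))
  have RW : 𝐙(fittingOf W) ≤ W := inf_le_left.trans (fittingOf_le W)
  have nR : ∀ {A}, A ≤ 𝐍(W) → A ≤ 𝐍(𝐙(fittingOf W)) := fun h => norms_center (norms_fittingOf h)
  obtain ⟨y, rfl⟩ := L1 (RW hy)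
  obtain ⟨T, t', -⟩ := t.tor
  have dX := t.gen.mem
  rcases lam h.odd t' (h.φinv t.sX t.s2 t.sZ) (h.mP (h.gen_P t.gen))
    (let ⟨k, e⟩ := t.sd; ⟨k, by rw [← e]; exact (pel_zpow _ dX k).symm⟩)
    (fun e => by
      have := orderOf_dvd_of_pow_eq_one ((pow_two d).trans (mem_bot.1 (t.gen.dz ▸ ⟨mul_mem (mem_zpowers d) (mem_zpowers d),
        (h.φ1 (mul_mem dX dX)).1 (by rw [pel_mul _ dX dX, e])⟩)))
      have := Nat.le_of_dvd two_pos (h4.trans (t.gen.ord ▸ this))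
      omega) (Y := W.comap h.ι) (R := 𝐙(fittingOf W).comap h.ι)
    (o1.of_dvd_nat (card_comap_dvd_of_injective _ _ h.inj)) (comap_mono RW) hy (fun e => y1 (by rw [e, map_one]))
    (fun a ha => h.inj (by rw [map_mul, map_mul]; exact hy.2 _ ha.1))
    (fun a ha => by rw [mem_comap, ← h.act d dX]; exact conj_mem_of_mem_normalizer (nR n1 (mem_zpowers d)) ha)
    ((comap_mono (nR le_normalizer)).trans (le_normalizer_comap _)) with e | ⟨A, h1, h3⟩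
  · refine .inl (fin fun a ha => ?_)
    obtain ⟨a, rfl⟩ := L1 ha
    obtain ⟨k, rfl⟩ := e ha
    exact (t.cent.ge ⟨k, (map_zpow _ _ _).symm⟩).2
  obtain ⟨U, r, hU⟩ := h.mkRoot h1
  refine .inr ⟨U, r, cc.ge.trans (commutator_le.2 fun a ha b hb => ?_)⟩
  rcases (mem_zpowers_sq t.s2.sq).1 hb with rfl | rfl
  · simp
  obtain ⟨a, rfl⟩ := L1 ha
  obtain ⟨c, hc⟩ := h3 a ha
  exact (hU _).2 ⟨c, by
    rw [commutatorElement_def, mul_assoc, mul_assoc, ← mul_assoc b, ← map_inv, h.act b t.sX, ← map_mul, map_inv, hc]⟩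

theorem lar (h4 : 4 ∣ Nat.card Z) (hY : Y ≤ X) {r : ℕ} (r2 : r ≠ 2) (hr : PiGrp {r} Y) (hn : d ∈ 𝐍(Y))
    (e : n + 1 = Fintype.card F → ¬ r ∣ Fintype.card F) : Y ≤ 𝐂[s] := by
  have ho := odd_iff.2 fun p hp hd (e : p = 2) => r2 ((hr p hp hd).symm.trans e)
  refine (t.la h4 hY ho hn).elim id fun ⟨Q, hQ, k⟩ => ?_
  rw [← cent_zpowers, ← commutator_eq_bot_iff_le_centralizer]
  by_contra e1
  obtain ⟨p, hp, hd⟩ := Nat.exists_prime_and_dvd (mt card_eq_one.1 e1)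
  exact e (hQ.hn t) (hr p hp (hd.trans (card_dvd_of_le (comm_le_left (zpowers_le.2 (zpowers_le.2 hn t.sd))))) ▸
    hd.trans (hQ.card ▸ card_dvd_of_le k))

/-- a normal subgroup of `C_X(s)` of odd order prime to `n` is trivial -/
theorem od {p : ℕ} (hp : p.Prime) (p2 : p ≠ 2) (pn : ¬ p ∣ n) (hY : Y ⊴ X ⊓ 𝐂[s]) (Yp : PiGrp {p} Y) : Y = ⊥ := by
  have TX : zpowers (h.ι τ) ≤ X ⊓ 𝐂[s] := t.cent ▸ inf_le_inf_right _ h.LX
  have T' : PiGrp {p}ᶜ (zpowers (h.ι τ)) := piGrp_zpowers.2 (by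
    rw [PiElt, t.ord']; exact (piNum_compl_singleton hp).2 pn)
  refine eq_bot_iff.2 fun x hx => (Yp.piElt hx).eq_one (T'.piElt (t.odd_mem ⟨t.al hp p2 (hY.1 hx) (Yp.piElt hx)
    fun a ha _ _ => ?_, (hY.1 hx).2⟩ (odd_elt_iff.2 ((Yp.piElt hx).mono (Set.singleton_subset_iff.2 p2)))))
  refine mul_inv_eq_one.1 ((Yp.piElt ?_).eq_one (T'.piElt ?_))
  · rw [show x * a * (a * x)⁻¹ = x * (a * x⁻¹ * a⁻¹) by group]
    exact mul_mem hx (conj_mem_of_mem_normalizer (hY.2 (TX ha)) (inv_mem hx))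
  · rw [show x * a * (a * x)⁻¹ = x * a * x⁻¹ * a⁻¹ by group]
    exact mul_mem (conj_mem_of_mem_normalizer (t.norm (hY.1 hx) le_rfl) ha) (inv_mem ha)

end QT.Tor

end CA.ABG
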