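/-
Alperin–Brauer–Gorenstein, character theory: `GU₂(q)/Z` satisfies `HA`.
-/
import Cfsg.Agent.Lib.ABG.HGL
import Cfsg.Agent.Lib.ABG.Defs
import Cfsg.Agent.Lib.Br.U2

set_option autoImplicit false
set_option linter.unusedSectionVars false
set_option linter.unusedSimpArgs false
set_option linter.unnecessarySeqFocus false

namespace CA.ABG
open Cfsg Subgroup CA CA.Ch CA.Br Matrix

section
variable {F : Type*} [Field F] [StarRing F]

/-- `π : GU₂(q) → G` maps onto the centralizer of `t = π (-1)` with central kernel of odd order, and `ρ` permutes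
the three involutions `t`, `u`, `t u`. -/
structure HyU (G : Type*) [Group G] (F : Type*) [Field F] [StarRing F] [Fintype F] (q : ℕ) where
  hF : Cl.IsFq2 F q
  odd : Odd q
  π : U2 F →* G
  ker : ∀ g, π g = 1 → ∃ c : Fˣ, Odd (orderOf c) ∧ (g : L2 F) = dg (c, c)
  cent : π.range = 𝐂[π tU]
  δ : F
  δ0 : δ ≠ 0
  hδ : star δ = -δ
  w0 : U2 F
  ww : w0 * w0 = 1
  wu : w0 * uU δ0 hδ * w0⁻¹ = tU * uU δ0 hδ

namespace HyU

variable {G : Type*} [Group G] [Fintype F] {q : ℕ} (S : HyU G F q)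

noncomputable def u0 : U2 F := uU S.δ0 S.hδ
noncomputable def t : G := S.π tU
noncomputable def u : G := S.π S.u0
noncomputable def w : G := S.π S.w0
noncomputable def H : Subgroup G := S.π.range
/-- the image of `SU₂(q) = SL₂(q)` -/
noncomputable def L : Subgroup G := ((GeneralLinearGroup.det.ker).subgroupOf (U2 F)).map S.π
noncomputable def T : Subgroup G := (𝐂[S.u0]).map S.π
noncomputable def W : Subgroup G := (dg.range.subgroupOf (U2 F)).map S.π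
noncomputable def Z : Subgroup G :=
  ((dg.comp ((MonoidHom.id Fˣ).prod (MonoidHom.id Fˣ))).range.subgroupOf (U2 F)).map S.π
noncomputable def U : Subgroup G := (xp.range.subgroupOf (U2 F)).map S.π
noncomputable def Tm : Subgroup G := (𝐂[S.u0] ⊓ (GeneralLinearGroup.det.ker).subgroupOf (U2 F)).map S.π
noncomputable def Wm : Subgroup G := ((dg.range ⊓ GeneralLinearGroup.det.ker).subgroupOf (U2 F)).map S.π

end HyU
end

variable {F : Type*} [Field F] [StarRing F] [Fintype F] {q : ℕ} {G : Type*} [Group G] [Finite G]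

namespace HyU
variable (S : HyU G F q)

include S in
theorem two_ne : (2 : F) ≠ 0 := u_two S.odd S.hF
/-- the parametrization of `C(u0)` by eigenvalues -/
noncomputable def τ : unitary F × unitary F →* U2 F := tE S.δ0 S.hδ S.two_ne

theorem T_eq : S.T = (S.π.comp S.τ).range := by
  rw [T, u0, uT_eq _ _ S.two_ne, MonoidHom.map_range]; rfl
theorem W_eq : S.W = (S.π.comp wE).range := by rw [W, uW_eq, MonoidHom.map_range]
theorem Z_eq : S.Z = (S.π.comp zE).range := by rw [Z, uZ_eq, MonoidHom.map_range]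
theorem U_eq : S.U = (S.π.comp xE).range := by rw [U, uU_eq, MonoidHom.map_range]
theorem Tm_eq : S.Tm = (S.π.comp (S.τ.comp ((MonoidHom.id _).prod invMonoidHom))).range := by
  rw [Tm, u0, uTm_eq _ _ S.two_ne, MonoidHom.map_range]; rfl
theorem Wm_eq : S.Wm = (S.π.comp (wE.comp (Units.map (Cl.fixedField F).subtype.toMonoidHom))).range := by
  rw [Wm, uWm_eq, MonoidHom.map_range]
theorem mem_T' {x : G} : x ∈ S.T ↔ ∃ a, S.π (S.τ a) = x := by rw [T_eq]; rfl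
theorem mem_W' {x : G} : x ∈ S.W ↔ ∃ a, S.π (wE a) = x := by rw [W_eq]; rfl
theorem mem_Z' {x : G} : x ∈ S.Z ↔ ∃ a, S.π (zE a) = x := by rw [Z_eq]; rfl
theorem mem_U' {x : G} : x ∈ S.U ↔ ∃ a, S.π (xE a) = x := by rw [U_eq]; rfl
theorem mem_Tm' {x : G} : x ∈ S.Tm ↔ ∃ a, S.π (S.τ (a, a⁻¹)) = x := by rw [Tm_eq]; rfl
theorem mem_L' {x : G} : x ∈ S.L ↔ ∃ g : U2 F, dt g.1 = 1 ∧ S.π g = x :=
  exists_congr fun _ => and_congr_left fun _ => uD_one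

theorem ker_sc {g : U2 F} (h : S.π g = 1) : aSc g.1 := u_ker_sc S.π S.ker h
theorem ker_le_Z : S.π.ker ≤ zE.range := fun _ h => mem_zE.2 (S.ker_sc h)
theorem ker_le_W : S.π.ker ≤ wE.range := fun _ h => mem_wE.2 ⟨(S.ker_sc h).1, (S.ker_sc h).2.1⟩
theorem ker_le_T : S.π.ker ≤ 𝐂[S.u0] := fun _ h => mem_cent1_iff.2 (u_sc_comm (S.ker_sc h) _)
theorem a_T {g : U2 F} : S.π g ∈ S.T ↔ g.1 0 0 = g.1 1 1 ∧ g.1 0 1 = S.δ * S.δ * g.1 1 0 :=
  (g_mem S.π S.ker_le_T).trans (mem_cu _ _)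
theorem a_W {g : U2 F} : S.π g ∈ S.W ↔ g.1 0 1 = 0 ∧ g.1 1 0 = 0 := by
  rw [W, uW_eq, g_mem S.π S.ker_le_W, mem_wE]
theorem a_Z {g : U2 F} : S.π g ∈ S.Z ↔ aSc g.1 := by rw [Z, uZ_eq, g_mem S.π S.ker_le_Z, mem_zE]
theorem a_eq {g h : U2 F} (e : S.π g = S.π h) : ∃ c, S.π (zE c) = 1 ∧ g = zE c * h := by
  have h1 : S.π (g * h⁻¹) = 1 := by rw [map_mul, map_inv, e, mul_inv_cancel]
  obtain ⟨c, hc⟩ := S.ker_le_Z h1
  exact ⟨c, hc ▸ h1, by rw [hc, inv_mul_cancel_right]⟩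
theorem a_pc (h x : U2 F) : S.π h * S.π x * (S.π h)⁻¹ = S.π (h * x * h⁻¹) := by rw [map_mul, map_mul, map_inv]

theorem sl_inj {g : U2 F} (hd : dt (g : L2 F) = 1) (h : S.π g = 1) : g = 1 := by
  obtain ⟨c, hc, e⟩ := S.ker g h
  rw [e] at hd
  rw [Hyp.eq_one_of_sq hc (Units.ext (by simpa [dt] using hd)), Prod.mk_one_one, map_one] at e
  exact Subtype.ext e
theorem comm_of_comm {g h : U2 F} (e : S.π g * S.π h = S.π h * S.π g) : g * h = h * g := by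
  have := S.sl_inj (g := g * h * (h * g)⁻¹)
    (uD_one.1 (by rw [map_mul, map_inv, map_mul, map_mul, mul_comm (uD g), mul_inv_cancel]))
    (by rw [map_mul, map_inv, map_mul, map_mul, e, mul_inv_cancel])
  exact mul_inv_eq_one.1 this

theorem H_eq : S.H = 𝐂[S.t] := S.cent
theorem mem_H {x : G} : x ∈ S.H ↔ x * S.t = S.t * x := by rw [H_eq, mem_centralizer_singleton_iff]
theorem T_le_H : S.T ≤ S.H := map_le_range _ _
theorem W_le_H : S.W ≤ S.H := map_le_range _ _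
theorem U_le_H : S.U ≤ S.H := map_le_range _ _
theorem Z_le_H : S.Z ≤ S.H := map_le_range _ _
theorem L_le_H : S.L ≤ S.H := map_le_range _ _
theorem tt : S.t * S.t = 1 := by
  rw [t, ← map_mul, ← zE_neg, ← map_mul, show (-1 : unitary F) * -1 = 1 from Subtype.ext (by simp), map_one, map_one]
theorem uu : S.u * S.u = 1 := by rw [u, ← map_mul, u0, uU_sq, map_one]
theorem ww' : S.w * S.w = 1 := by rw [w, ← map_mul, S.ww, map_one]
theorem ut : S.u * S.t = S.t * S.u := S.mem_H.1 ⟨_, rfl⟩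
theorem wt : S.w * S.t = S.t * S.w := S.mem_H.1 ⟨_, rfl⟩
theorem wu' : S.w * S.u * S.w⁻¹ = S.t * S.u := by rw [w, u, a_pc, u0, S.wu, map_mul]; rfl
theorem t_ne : S.t ≠ 1 := u_t_ne S.π S.ker S.two_ne
theorem mem_T {x : G} : x ∈ S.T ↔ x * S.t = S.t * x ∧ x * S.u = S.u * x := by
  refine ⟨fun h => ⟨S.mem_H.1 (S.T_le_H h), ?_⟩, fun ⟨h1, h2⟩ => ?_⟩
  · obtain ⟨g, hg, rfl⟩ := h
    rw [u, ← map_mul, mem_cent1_iff.1 hg, map_mul]
  · obtain ⟨g, rfl⟩ := S.mem_H.2 h1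
    exact mem_map_of_mem _ (mem_cent1_iff.2 (S.comm_of_comm h2))
theorem t_Z : S.t ∈ S.Z := S.a_Z.2 tU_sc
theorem Z_comm {z h : G} (hz : z ∈ S.Z) (hh : h ∈ S.H) : z * h = h * z := by
  obtain ⟨c, rfl⟩ := S.Z_le_H hz
  obtain ⟨g, rfl⟩ := hh
  rw [← map_mul, u_sc_comm (S.a_Z.1 hz), map_mul]
theorem Z_le_T : S.Z ≤ S.T := fun _ h => S.mem_T.2 ⟨S.Z_comm h ⟨_, rfl⟩, S.Z_comm h ⟨_, rfl⟩⟩
theorem Z_le_W : S.Z ≤ S.W := fun _ h => by
  obtain ⟨c, rfl⟩ := S.Z_le_H h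
  exact S.a_W.2 ⟨(S.a_Z.1 h).1, (S.a_Z.1 h).2.1⟩
theorem u_T : S.u ∈ S.T := S.mem_T.2 ⟨S.ut, rfl⟩
theorem w_H : S.w ∈ S.H := ⟨_, rfl⟩
theorem u_H : S.u ∈ S.H := ⟨_, rfl⟩
theorem commT : IsMulCommutative S.T := S.T_eq ▸ inferInstance
theorem commU : IsMulCommutative S.U := S.U_eq ▸ inferInstance
theorem commW : IsMulCommutative S.W := S.W_eq ▸ inferInstance
theorem cyc_W : IsCyclic S.W := S.W_eq ▸ isCyclic_of_surjective _ (MonoidHom.rangeRestrict_surjective _)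
theorem cyc_Tm : IsCyclic S.Tm :=
  haveI : IsCyclic (unitary F) := isCyclic_of_injective_ringHom (unitary F).subtype Subtype.val_injective
  S.Tm_eq ▸ isCyclic_of_surjective _ (MonoidHom.rangeRestrict_surjective _)

/-! ### orders -/
theorem a_ker_pos : 0 < Nat.card S.π.ker := Nat.card_pos
theorem a_d : Nat.card S.Z * Nat.card S.π.ker = q + 1 := by
  rw [Z, uZ_eq, a_card_map _ S.ker_le_Z, a_card_range zE_inj, card_unitary S.hF]
include S in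
theorem q_pos : 1 ≤ q := S.odd.pos
theorem card_T : Nat.card S.T = (q + 1) * Nat.card S.Z := by
  refine Nat.eq_of_mul_eq_mul_right S.a_ker_pos ?_
  rw [mul_assoc, S.a_d, T, a_card_map _ S.ker_le_T, u0, uT_eq _ _ S.two_ne, a_card_range (tE_inj _ _ _), Nat.card_prod,
    card_unitary S.hF]
theorem card_W : Nat.card S.W = (q - 1) * Nat.card S.Z := by
  refine Nat.eq_of_mul_eq_mul_right S.a_ker_pos ?_
  rw [mul_assoc, S.a_d, W, uW_eq, a_card_map _ S.ker_le_W, a_card_range wE_inj, a_card_units, S.hF.card_sub_one,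
    mul_comm]
theorem card_H : Nat.card S.H = q * (q ^ 2 - 1) * Nat.card S.Z := by
  refine Nat.eq_of_mul_eq_mul_right S.a_ker_pos ?_
  rw [mul_assoc, S.a_d, H, MonoidHom.range_eq_map, a_card_map _ le_top, card_top, card_U2 S.hF]
theorem xE_inj' : Function.Injective (S.π.comp xE) :=
  (injective_iff_map_eq_one _).2 fun a h => xE_inj ((S.sl_inj (by simp [dt]) h).trans (map_one _).symm)
theorem card_U : Nat.card S.U = q := by
  rw [U_eq, a_card_range S.xE_inj', ← S.hF.card_fixedField]; rfl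
theorem card_Tm : Nat.card S.Tm = q + 1 := by
  rw [Tm_eq, a_card_range, card_unitary S.hF]
  refine (injective_iff_map_eq_one _).2 fun a h => ?_
  have := S.sl_inj (g := S.τ (a, a⁻¹)) ((tE_dt _ _ _ a a⁻¹).trans (congrArg Subtype.val (mul_inv_cancel a))) h
  exact (Prod.ext_iff.1 (tE_inj _ _ _ (this.trans (map_one _).symm))).1
theorem card_Wm : Nat.card S.Wm = q - 1 := by
  rw [Wm_eq, a_card_range, Nat.card_units, S.hF.card_fixedField]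
  refine (injective_iff_map_eq_one _).2 fun a h => ?_
  have e : star ((a : Cl.fixedField F) : F) = a := a.1.2
  have := S.sl_inj (g := wE (Units.map (Cl.fixedField F).subtype.toMonoidHom a)) (by simp [dt, e]) h
  exact Units.ext (Subtype.ext (u_ent this).1)
theorem a_dT (g : U2 F) : ∃ k, S.π k ∈ S.T ∧ uD k = uD g :=
  ⟨S.τ (⟨dt g.1, Unitary.mem_iff_star_mul_self.2 (u_dt g)⟩, 1), S.mem_T'.2 ⟨_, rfl⟩,
    Units.ext (by rw [uD_val, uD_val, τ, tE_dt]; simp)⟩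
theorem a_dW (g : U2 F) : ∃ k, S.π k ∈ S.W ∧ uD k = uD g := by
  obtain ⟨a, a0, ha⟩ := u_h90 S.δ0 S.hδ (u_dt g)
  refine ⟨wE (Units.mk0 a a0), S.mem_W'.2 ⟨_, rfl⟩, Units.ext ?_⟩
  have : star a ≠ 0 := by simpa using a0
  rw [uD_val, uD_val, dt]
  simp only [wE_00, wE_01, wE_10, wE_11, Units.val_mk0]
  field_simp; linear_combination -ha
theorem card_L : Nat.card S.L = q * (q ^ 2 - 1) := by
  rw [L, g_card _ fun g hg => S.sl_inj (uD_one.1 hg)]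
  have h1 := (uD : U2 F →* Fˣ).ker.card_mul_index
  have h2 : (uD : U2 F →* Fˣ).range = Unitary.toUnits.range := by
    ext c
    constructor
    · rintro ⟨g, rfl⟩
      exact ⟨⟨dt g.1, Unitary.mem_iff_star_mul_self.2 (u_dt g)⟩, Units.ext (uD_val g).symm⟩
    · rintro ⟨a, rfl⟩
      exact ⟨S.τ (a, 1), Units.ext (by rw [uD_val, τ, tE_dt]; simp)⟩
  rw [index_ker, h2, a_card_range Unitary.toUnits_injective, card_unitary S.hF, card_U2 S.hF] at h1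
  exact Nat.eq_of_mul_eq_mul_right (Nat.succ_pos q) h1

theorem W_norm_U : S.W ≤ 𝐍(S.U) := fun x hx => by
  obtain ⟨a, rfl⟩ := S.mem_W'.1 hx
  refine mem_normalizer_of_cj_le (cj_le_iff'.2 fun y hy => ?_)
  obtain ⟨c, rfl⟩ := S.mem_U'.1 hy
  rw [a_pc, wE_xE]
  exact S.mem_U'.2 ⟨_, rfl⟩
theorem mem_ZU {x : G} : x ∈ S.Z ⊔ S.U ↔ ∃ z ∈ S.Z, ∃ y ∈ S.U, x = z * y := by
  simp only [mem_sup_of_norm_left (S.Z_le_W.trans S.W_norm_U), eq_comm]
theorem mem_B {x : G} : x ∈ S.W ⊔ S.U ↔ ∃ z ∈ S.W, ∃ y ∈ S.U, x = z * y := by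
  simp only [mem_sup_of_norm_left S.W_norm_U, eq_comm]
theorem a_B {g : U2 F} : S.π g ∈ S.W ⊔ S.U ↔ g.1 1 0 = 0 := by
  refine ⟨fun h => ?_, fun h => ?_⟩
  · obtain ⟨_, ha, _, hb, h⟩ := S.mem_B.1 h
    obtain ⟨a, rfl⟩ := S.mem_W'.1 ha
    obtain ⟨b, rfl⟩ := S.mem_U'.1 hb
    obtain ⟨c, -, rfl⟩ := S.a_eq (h.trans (map_mul S.π _ _).symm)
    simp [mm_ent]
  · obtain ⟨a, c, rfl⟩ := u_upper h
    exact S.mem_B.2 ⟨_, S.mem_W'.2 ⟨a, rfl⟩, _, S.mem_U'.2 ⟨c, rfl⟩, map_mul _ _ _⟩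
theorem a_ZU {g : U2 F} : S.π g ∈ S.Z ⊔ S.U ↔ g.1 1 0 = 0 ∧ g.1 0 0 = g.1 1 1 := by
  refine ⟨fun h => ?_, fun h => ?_⟩
  · obtain ⟨_, ha, _, hb, h⟩ := S.mem_ZU.1 h
    obtain ⟨a, rfl⟩ := S.mem_Z'.1 ha
    obtain ⟨b, rfl⟩ := S.mem_U'.1 hb
    obtain ⟨c, -, rfl⟩ := S.a_eq (h.trans (map_mul S.π _ _).symm)
    simp [mm_ent]
  · obtain ⟨a, c, rfl⟩ := u_upper h.1
    exact S.mem_ZU.2 ⟨_, S.a_Z.2 ⟨rfl, rfl, by simpa [mm_ent] using h.2⟩, _, S.mem_U'.2 ⟨c, rfl⟩, map_mul _ _ _⟩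
theorem W_inf_U : S.W ⊓ S.U = ⊥ := eq_bot_iff.2 fun _ ⟨h, h'⟩ => by
  obtain ⟨a, rfl⟩ := S.mem_U'.1 h'
  obtain rfl : a = 1 := Multiplicative.toAdd.injective (Subtype.ext (S.a_W.1 h).1)
  rw [map_one, map_one]; exact one_mem _
theorem card_B : Nat.card ↥(S.W ⊔ S.U) = q * (q - 1) * Nat.card S.Z := by
  rw [card_sup_of_disjoint (Or.inr S.W_norm_U) S.W_inf_U, card_U, card_W]; ring

/-! ### centralizers and fusion -/
theorem a_T10 {x : U2 F} (hx : S.π x ∈ S.T) (hz : S.π x ∉ S.Z) : x.1 1 0 ≠ 0 := fun e => by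
  obtain ⟨x1, x2⟩ := S.a_T.1 hx
  exact hz (S.a_Z.2 ⟨by rw [x2, e, mul_zero], e, x1⟩)
theorem cent_T {x h : G} (hx : x ∈ S.T) (hz : x ∉ S.Z) (hh : h ∈ S.H) (e : h * x = x * h) : h ∈ S.T := by
  obtain ⟨x, rfl⟩ := S.T_le_H hx
  obtain ⟨h, rfl⟩ := hh
  have n := S.a_T10 hx hz
  obtain ⟨x1, x2⟩ := S.a_T.1 hx
  obtain ⟨e0, -, e2, -⟩ := u_ent (S.comm_of_comm e)
  simp only [u_mul, x1, x2] at e0 e2
  exact S.a_T.2 ⟨mul_left_cancel₀ n (by linear_combination -e2), mul_left_cancel₀ n (by linear_combination e0)⟩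
theorem cent_W {x h : G} (hx : x ∈ S.W) (hz : x ∉ S.Z) (hh : h ∈ S.H) (e : h * x = x * h) : h ∈ S.W := by
  obtain ⟨x, rfl⟩ := S.W_le_H hx
  obtain ⟨h, rfl⟩ := hh
  obtain ⟨x1, x2⟩ := S.a_W.1 hx
  have n : x.1 0 0 - x.1 1 1 ≠ 0 := fun e => hz (S.a_Z.2 ⟨x1, x2, sub_eq_zero.1 e⟩)
  obtain ⟨-, e1, e2, -⟩ := u_ent (S.comm_of_comm e)
  simp only [u_mul, x1, x2] at e1 e2
  exact S.a_W.2 ⟨mul_left_cancel₀ n (by linear_combination -e1), mul_left_cancel₀ n (by linear_combination e2)⟩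
theorem a_xE_ne {a : Multiplicative (Cl.fixedField F)} (h : S.π (xE a) ≠ 1) : (a.toAdd : F) ≠ 0 := fun e => by
  obtain rfl : a = 1 := Multiplicative.toAdd.injective (Subtype.ext e)
  exact h (by rw [map_one, map_one])
theorem cent_U {x h : G} (hx : x ∈ S.U) (h1 : x ≠ 1) (hh : h ∈ S.H) (e : h * x = x * h) : h ∈ S.Z ⊔ S.U := by
  obtain ⟨a, rfl⟩ := S.mem_U'.1 hx
  obtain ⟨h, rfl⟩ := hh
  have n := S.a_xE_ne h1
  obtain ⟨e0, e1, -, -⟩ := u_ent (S.comm_of_comm e)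
  simp only [u_mul, xE_00, xE_01, xE_10, xE_11] at e0 e1
  exact S.a_ZU.2 ⟨mul_left_cancel₀ n (by linear_combination -e0), mul_left_cancel₀ n (by linear_combination e1)⟩
theorem T_inf_W : S.T ⊓ S.W = S.Z := by
  refine le_antisymm (fun x hx => ?_) (le_inf S.Z_le_T S.Z_le_W)
  obtain ⟨x, rfl⟩ := S.T_le_H hx.1
  exact S.a_Z.2 ⟨(S.a_W.1 hx.2).1, (S.a_W.1 hx.2).2, (S.a_T.1 hx.1).1⟩
theorem u_not_W : S.u ∉ S.W := fun h => S.δ0 (S.a_W.1 h).1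
theorem w_not_T : S.w ∉ S.T := fun h => S.t_ne (by
  have := S.wu'; rw [(S.mem_T.1 h).2, mul_inv_cancel_right] at this; exact mul_eq_right.1 this.symm)
theorem inv_T {h : G} (hh : h ∈ S.T) (h2 : h * h = 1) : h = 1 ∨ h = S.t ∨ h = S.u ∨ h = S.t * S.u := by
  obtain ⟨g, rfl⟩ := S.T_le_H hh
  obtain ⟨g', e1, e⟩ := u_lift S.π S.ker h2
  rw [← e1] at hh ⊢
  obtain ⟨⟨a, b⟩, rfl⟩ := (uT_eq _ _ S.two_ne).le ((g_mem S.π S.ker_le_T).1 hh)
  obtain ⟨e0, e3⟩ := Prod.ext_iff.1 (tE_inj _ _ _ (((map_mul _ _ _).trans e).trans (map_one _).symm))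
  have ha : a = 1 ∨ a = -1 := (mul_self_eq_one_iff.1 (congrArg Subtype.val e0)).imp Subtype.ext Subtype.ext
  have hb : b = 1 ∨ b = -1 := (mul_self_eq_one_iff.1 (congrArg Subtype.val e3)).imp Subtype.ext Subtype.ext
  rcases ha with rfl | rfl <;> rcases hb with rfl | rfl
  · left; rw [Prod.mk_one_one, map_one, map_one]
  · exact Or.inr (Or.inr (Or.inl (congrArg _ (tE_one_neg _ _ _))))
  · refine Or.inr (Or.inr (Or.inr ?_))
    rw [← w_tE _ _ _ S.wu, tE_one_neg, S.wu, map_mul]; rfl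
  · exact Or.inr (Or.inl (by rw [tE_diag, zE_neg]; rfl))
theorem a_cj_Z {x h : G} (hh : h ∈ S.H) (e : h * x * h⁻¹ ∈ S.Z) : x ∈ S.Z := by
  have := S.Z_comm e hh
  rwa [show x = h * x * h⁻¹ from mul_left_cancel (a := h) (by rw [← this]; group)]
theorem fus_T {x h : G} (hx : x ∈ S.T) (hz : x ∉ S.Z) (hh : h ∈ S.H) (e : h * x * h⁻¹ ∈ S.T) :
    h ∈ S.T ∨ S.w * h ∈ S.T := by
  have ht := S.mem_H.1 hh
  have h1 : h * S.u * h⁻¹ ∈ S.T := S.cent_T e (fun e => hz (S.a_cj_Z hh e)) (mul_mem (mul_mem hh S.u_H) (inv_mem hh)) (by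
    calc _ = h * (S.u * x) * h⁻¹ := by group
      _ = _ := by rw [← (S.mem_T.1 hx).2]; group)
  have uZ : S.u ∉ S.Z := fun h => S.u_not_W (S.Z_le_W h)
  rcases S.inv_T h1 (Inv.conj_mul_self S.uu h) with e | e | e | e
  · exact absurd (S.a_cj_Z hh (e ▸ one_mem _)) uZ
  · exact absurd (S.a_cj_Z hh (e ▸ S.t_Z)) uZ
  · exact Or.inl (S.mem_T.2 ⟨ht, mul_inv_eq_iff_eq_mul.1 e⟩)
  · refine Or.inr (S.mem_T.2 ⟨S.mem_H.1 (mul_mem S.w_H hh), mul_inv_eq_iff_eq_mul.1 ?_⟩)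
    rw [Abs0.conj_mul', e, ← mul_assoc, S.wt, mul_assoc S.t, mul_assoc S.t, S.wu', ← mul_assoc, S.tt, one_mul]
theorem fus_W {x h : G} (hx : x ∈ S.W) (hz : x ∉ S.Z) (hh : h ∈ S.H) (e : h * x * h⁻¹ ∈ S.W) :
    h ∈ S.W ∨ S.u * h ∈ S.W := by
  obtain ⟨x, rfl⟩ := S.W_le_H hx
  obtain ⟨h, rfl⟩ := hh
  obtain ⟨x1, x2⟩ := S.a_W.1 hx
  have n : x.1 0 0 - x.1 1 1 ≠ 0 := fun e => hz (S.a_Z.2 ⟨x1, x2, sub_eq_zero.1 e⟩)
  rw [a_pc] at e
  obtain ⟨g1, g2⟩ := S.a_W.1 e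
  obtain ⟨e0, e1, e2, e3⟩ := a_ent (u_cj h x)
  simp only [mul_ent (h * x * h⁻¹).1, mul_ent h.1 x.1, x1, x2, g1, g2] at e0 e1 e2 e3
  have hd := det_ne h.1
  rw [u, ← map_mul, a_W, a_W]
  simp only [u_mul, u0, uU_00, uU_01, uU_10, uU_11, zero_mul, zero_add, add_zero]
  have k1 : h.1 0 0 * h.1 0 1 = 0 := mul_left_cancel₀ n (by linear_combination h.1 0 0 * e1 - h.1 0 1 * e0)
  have k2 : h.1 1 0 * h.1 1 1 = 0 := mul_left_cancel₀ n (by linear_combination h.1 1 0 * e3 - h.1 1 1 * e2)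
  by_cases c : h.1 0 0 = 0
  · right
    rw [(mul_eq_zero.1 k2).resolve_left fun c' => hd (by rw [c, c']; ring), c]; simp
  · left
    have c1 := (mul_eq_zero.1 k1).resolve_left c
    exact ⟨c1, (mul_eq_zero.1 k2).resolve_right fun c' => hd (by rw [c1, c']; ring)⟩
theorem fus_TW {x h : G} (hx : x ∈ S.T) (hz : x ∉ S.Z) (hh : h ∈ S.H) : h * x * h⁻¹ ∉ S.W := by
  obtain ⟨x, rfl⟩ := S.T_le_H hx
  obtain ⟨h, rfl⟩ := hh
  intro e
  rw [a_pc] at e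
  have n := S.a_T10 hx hz
  obtain ⟨x1, x2⟩ := S.a_T.1 hx
  obtain ⟨g1, g2⟩ := S.a_W.1 e
  have t := a_disc_of (u_cj h x)
  have d : dt _ = dt _ := a_det_of (u_cj h x)
  have s0 := u_st (h * x * h⁻¹) 0 0
  have s1 := u_st (h * x * h⁻¹) 1 1
  have s2 := u_st x 1 0
  rw [d] at s0 s1
  generalize h * x * h⁻¹ = g at *
  simp only [aDisc, aTr, aDet, x1, x2, g1, g2] at t
  have two := S.two_ne
  have k : (g.1 0 0 - g.1 1 1) * (g.1 0 0 - g.1 1 1) = (2 * S.δ * x.1 1 0) * (2 * S.δ * x.1 1 0) := by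
    linear_combination t
  refine mul_ne_zero (mul_ne_zero two S.δ0) n (u_skew two ?_)
  rcases mul_self_eq_mul_self_iff.1 k with k | k <;> have k' := congrArg star k <;>
    simp only [star_sub, star_neg, star_mul', star_ofNat, S.hδ] at k'
  · linear_combination -k - s0 + s1 + dt x.1 * k' - 2 * S.δ * s2
  · linear_combination k + s0 - s1 - dt x.1 * k' - 2 * S.δ * s2
theorem a_zy {z y : G} (hz : z ∈ S.Z) (hy : y ∈ S.U) (h1 : y ≠ 1) :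
    ∃ x : U2 F, z * y = S.π x ∧ ¬ aSc x.1 ∧ aDisc x.1 = 0 := by
  obtain ⟨c, rfl⟩ := S.mem_Z'.1 hz
  obtain ⟨a, rfl⟩ := S.mem_U'.1 hy
  have c0 : (c : F) ≠ 0 := (Unitary.toUnits c).ne_zero
  refine ⟨zE c * xE a, (map_mul _ _ _).symm, fun h => S.a_xE_ne h1 (by simpa [mm_ent, c0] using h.1), ?_⟩
  simp [aDisc, aTr, aDet, mm_ent]; ring
theorem fus_UW {z y h : G} (hz : z ∈ S.Z) (hy : y ∈ S.U) (h1 : y ≠ 1) (hh : h ∈ S.H) : h * (z * y) * h⁻¹ ∉ S.W := by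
  obtain ⟨x, ex, hs, hd⟩ := S.a_zy hz hy h1
  obtain ⟨h, rfl⟩ := hh
  intro e
  rw [ex, a_pc] at e
  obtain ⟨g1, g2⟩ := S.a_W.1 e
  rw [← a_disc_of (u_cj h x)] at hd
  simp only [aDisc, aTr, aDet, g1, g2] at hd
  exact hs (a_sc_of (u_cj h x) ⟨g1, g2, sub_eq_zero.1 (pow_eq_zero_iff two_ne_zero |>.1 (by linear_combination hd))⟩)
theorem fus_UT {z y h : G} (hz : z ∈ S.Z) (hy : y ∈ S.U) (h1 : y ≠ 1) (hh : h ∈ S.H) : h * (z * y) * h⁻¹ ∉ S.T := by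
  obtain ⟨x, ex, hs, hd⟩ := S.a_zy hz hy h1
  obtain ⟨h, rfl⟩ := hh
  intro e
  rw [ex, a_pc] at e
  have n := S.a_T10 e fun k => hs (a_sc_of (u_cj h x) (S.a_Z.1 k))
  obtain ⟨g1, g2⟩ := S.a_T.1 e
  rw [← a_disc_of (u_cj h x)] at hd
  simp only [aDisc, aTr, aDet, g1, g2] at hd
  exact mul_ne_zero (mul_ne_zero (mul_ne_zero S.two_ne S.two_ne) (mul_ne_zero S.δ0 S.δ0)) (mul_ne_zero n n)
    (by linear_combination hd)
theorem fus_U {z y z' y' h : G} (hz : z ∈ S.Z) (hy : y ∈ S.U) (h1 : y ≠ 1) (hz' : z' ∈ S.Z) (hy' : y' ∈ S.U)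
    (hh : h ∈ S.H) (e : h * (z * y) * h⁻¹ = z' * y') : z = z' ∧ h ∈ S.W ⊔ S.U := by
  obtain ⟨c, rfl⟩ := S.mem_Z'.1 hz
  obtain ⟨a, rfl⟩ := S.mem_U'.1 hy
  obtain ⟨c', rfl⟩ := S.mem_Z'.1 hz'
  obtain ⟨a', rfl⟩ := S.mem_U'.1 hy'
  obtain ⟨h, rfl⟩ := hh
  rw [← map_mul, ← map_mul S.π (zE _), a_pc] at e
  obtain ⟨k, hk, e⟩ := S.a_eq e
  have ee := u_cj h (zE c * xE a)
  rw [e] at ee
  have t := a_tr_of ee
  obtain ⟨-, -, -, e3⟩ := a_ent ee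
  simp only [aTr, mul_ent, u_mul, zE_00, zE_01, zE_10, zE_11, xE_00, xE_01, xE_10, xE_11] at t e3
  have k1 : (k : F) * c' = c := mul_left_cancel₀ S.two_ne (by linear_combination t)
  obtain rfl : c = k * c' := Subtype.ext k1.symm
  refine ⟨by rw [map_mul, map_mul, hk, one_mul], S.a_B.2 ?_⟩
  have c0 : ((k * c' : unitary F) : F) ≠ 0 := (Unitary.toUnits (k * c')).ne_zero
  exact mul_left_cancel₀ (mul_ne_zero c0 (S.a_xE_ne h1))
    (by simp only [Submonoid.coe_mul] at e3 ⊢; linear_combination -e3)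
theorem U_trans {y y' : G} (hy : y ∈ S.U) (h1 : y ≠ 1) (hy' : y' ∈ S.U) (h1' : y' ≠ 1) :
    ∃ x ∈ S.W, x * y * x⁻¹ = y' := by
  obtain ⟨a, rfl⟩ := S.mem_U'.1 hy
  obtain ⟨a', rfl⟩ := S.mem_U'.1 hy'
  have n := S.a_xE_ne h1
  have n' := S.a_xE_ne h1'
  obtain ⟨c, hc⟩ := S.hF.exists_norm_eq (c := (a'.toAdd : F) / a.toAdd) (by rw [star_div₀, a.toAdd.2, a'.toAdd.2])
  have c0 : c ≠ 0 := fun e => div_ne_zero n' n (by rw [← hc, e, zero_mul])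
  refine ⟨_, S.mem_W'.2 ⟨Units.mk0 c c0, rfl⟩, ?_⟩
  rw [a_pc, wE_xE]
  exact congrArg _ (u_ext rfl (by simp [hc, n]) rfl rfl)
theorem a_y0 : S.π (xR 1 (star_one F)) ≠ 1 := fun e =>
  one_ne_zero ((u_ent (S.sl_inj (by simp [dt]) e)).2.1.trans one_01)
theorem a_B_norm : S.W ⊔ S.U ≤ 𝐍(S.U) := sup_le S.W_norm_U le_normalizer
theorem a_fus {y h : G} (hy : y ∈ S.U) (h1 : y ≠ 1) (hh : h ∈ S.H) (e : h * y * h⁻¹ ∈ S.U) : h ∈ S.W ⊔ S.U :=
  (S.fus_U (one_mem _) hy h1 (one_mem _) e hh (by rw [one_mul, one_mul])).2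
theorem norm_U : S.H ⊓ 𝐍(S.U) = S.W ⊔ S.U :=
  le_antisymm (fun _ h => S.a_fus (S.mem_U'.2 ⟨_, rfl⟩) S.a_y0 h.1
    (conj_mem_of_mem_normalizer h.2 (S.mem_U'.2 ⟨_, rfl⟩))) (le_inf (sup_le S.W_le_H S.U_le_H) S.a_B_norm)

theorem classes {h : G} (hh : h ∈ S.H) : ∃ k ∈ S.H, k * h * k⁻¹ ∈ S.T ∨ k * h * k⁻¹ ∈ S.W ∨
    ∃ z ∈ S.Z, ∃ y ∈ S.U, y ≠ 1 ∧ k * h * k⁻¹ = z * y := by
  obtain ⟨g, rfl⟩ := hh
  have h2 := S.two_ne
  have h0 := S.δ0
  by_cases hs : aSc g.1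
  · exact ⟨1, one_mem _, Or.inl (by simpa using S.Z_le_T (S.a_Z.2 hs))⟩
  have sD : star (aDet g.1) * aDet g.1 = 1 := u_dt g
  have sT : star (aTr g.1) * aDet g.1 = aTr g.1 := by
    rw [aTr, star_add, ← dt_aDet]; linear_combination u_st g 0 0 + u_st g 1 1
  have D0 := a_det_ne g.1
  have sΔ : star (aDisc g.1) * aDet g.1 ^ 2 = aDisc g.1 := by
    simp only [aDisc, star_sub, star_pow, star_mul', star_ofNat]
    linear_combination (star (aTr g.1) * aDet g.1 + aTr g.1) * sT - 4 * aDet g.1 * sD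
  by_cases hd : aDisc g.1 = 0
  · simp only [aDisc] at hd
    have e : aTr g.1 / 2 * (aTr g.1 / 2) = aDet g.1 := by field_simp; linear_combination hd
    have hc : aTr g.1 / 2 ≠ 0 := fun k => D0 (by rw [← e, k, zero_mul])
    have hu : star (aTr g.1 / 2) * (aTr g.1 / 2) = 1 := mul_right_cancel₀ hc (by
      rw [mul_assoc, e, star_div₀, star_ofNat]; field_simp; exact sT)
    obtain ⟨k, hk⟩ := u_conj S.hF (g' := zE ⟨_, Unitary.mem_iff_star_mul_self.2 hu⟩ * xR 1 (star_one F)) hs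
      (fun h => hc (by simpa [mm_ent] using h.1)) (by simp [aTr, mm_ent]; field_simp; ring)
      (by rw [← e]; simp [aDet, mm_ent])
    exact ⟨_, ⟨k, rfl⟩, Or.inr (Or.inr ⟨_, S.mem_Z'.2 ⟨_, rfl⟩, _, S.mem_U'.2 ⟨_, rfl⟩, S.a_y0,
      by rw [a_pc, hk, map_mul]; rfl⟩)⟩
  obtain ⟨s, hs'⟩ := u_sq S.hF S.odd hd sΔ sD
  have s0 : s ≠ 0 := fun e => hd (by rw [hs', e, mul_zero])
  have k : star s * aDet g.1 * (star s * aDet g.1) = s * s := by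
    rw [hs', star_mul'] at sΔ; linear_combination sΔ
  simp only [aDisc] at hs'
  rcases mul_self_eq_mul_self_iff.1 k with k | k
  · have e : (aTr g.1 + s) / 2 * ((aTr g.1 - s) / 2) - 0 * 0 = aDet g.1 := by field_simp; linear_combination hs'
    obtain ⟨k, hk⟩ := u_conj S.hF (g' := ⟨m2 ((aTr g.1 + s) / 2) 0 0 ((aTr g.1 - s) / 2) (e ▸ D0), mem_U2'.2 (by
        simp only [dt, m2_00, m2_01, m2_10, m2_11, e, star_div₀, star_add, star_sub, star_ofNat, star_zero]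
        refine ⟨?_, zero_mul _, zero_mul _, ?_⟩ <;> field_simp
        exacts [by linear_combination sT + k, by linear_combination sT - k])⟩) hs
      (fun h => s0 (by
        have := h.2.2; simp only [m2_00, m2_11] at this; field_simp at this
        exact mul_left_cancel₀ h2 (by linear_combination this)))
      (by simp only [aTr, m2_00, m2_11]; field_simp; ring) e.symm
    exact ⟨_, ⟨k, rfl⟩, Or.inr (Or.inl (by rw [a_pc, hk]; exact S.a_W.2 ⟨rfl, rfl⟩))⟩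
  · have e : aTr g.1 / 2 * (aTr g.1 / 2) - S.δ * S.δ * (s / (2 * S.δ)) * (s / (2 * S.δ)) = aDet g.1 := by
      field_simp; linear_combination hs'
    obtain ⟨k, hk⟩ := u_conj S.hF (g' := ⟨m2 (aTr g.1 / 2) (S.δ * S.δ * (s / (2 * S.δ))) (s / (2 * S.δ)) (aTr g.1 / 2)
      (e ▸ D0), mem_U2'.2 (by
        simp only [dt, m2_00, m2_01, m2_10, m2_11, e, star_div₀, star_mul', star_ofNat, S.hδ]
        refine ⟨?_, ?_, ?_, ?_⟩ <;> field_simp
        exacts [sT, by linear_combination -k, by linear_combination -k, sT])⟩) hs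
      (fun h => s0 (by simpa [h2, h0] using h.2.1)) (by simp only [aTr, m2_00, m2_11]; field_simp; ring) e.symm
    exact ⟨_, ⟨k, rfl⟩, Or.inl (by rw [a_pc, hk]; exact S.a_T.2 ⟨rfl, rfl⟩)⟩

/-! ### the tori -/
theorem a_u_wE (a : Fˣ) : S.u * S.π (wE a) * S.u⁻¹ = S.π (wE (star a)⁻¹) := by rw [u, a_pc, u0, uU_wE]
theorem a_w_τ (a b : unitary F) : S.w * S.π (S.τ (a, b)) * S.w⁻¹ = S.π (S.τ (b, a)) := by
  rw [w, a_pc, τ, w_tE _ _ _ S.wu]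
theorem u_W_pow {x : G} (hx : x ∈ S.W) : S.u * x * S.u⁻¹ = x ^ (-1 * (q : ℤ)) := by
  obtain ⟨a, rfl⟩ := S.mem_W'.1 hx
  rw [a_u_wE, neg_one_mul, _root_.zpow_neg, zpow_natCast, ← map_pow, ← map_pow, ← map_inv, ← map_inv,
    show star a = a ^ q from Units.ext (by simp [S.hF.star_eq])]
theorem mem_Tm {x : G} : x ∈ S.Tm ↔ x ∈ S.T ∧ S.w * x * S.w⁻¹ = x⁻¹ := by
  refine ⟨fun h => ⟨map_mono inf_le_left h, ?_⟩, fun ⟨h, e⟩ => ?_⟩
  · obtain ⟨c, rfl⟩ := S.mem_Tm'.1 h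
    rw [a_w_τ, ← map_inv, ← map_inv]; simp
  · obtain ⟨⟨a, b⟩, rfl⟩ := S.mem_T'.1 h
    rw [a_w_τ, eq_inv_iff_mul_eq_one, ← map_mul, ← map_mul, Prod.mk_mul_mk, mul_comm b, τ, tE_diag] at e
    obtain ⟨_, h1, h2⟩ := u_sqrt S.π S.ker e
    obtain ⟨c, rfl⟩ := S.ker_le_Z h1
    replace h2 := zE_inj ((map_mul _ _ _).trans h2)
    refine S.mem_Tm'.2 ⟨a * c⁻¹, ?_⟩
    have : (a, b) = (a * c⁻¹, (a * c⁻¹)⁻¹) * (c, c) :=
      Prod.ext (by simp) (by simp only [Prod.mk_mul_mk]; rw [eq_comm, inv_mul_eq_iff_eq_mul, mul_right_comm, ← h2]; simp)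
    rw [this, map_mul, map_mul, τ, tE_diag, h1, mul_one]
theorem mem_Wm {x : G} : x ∈ S.Wm ↔ x ∈ S.W ∧ S.u * x * S.u⁻¹ = x⁻¹ := by
  refine ⟨fun h => ⟨map_mono (comap_mono inf_le_left) h, ?_⟩, fun ⟨h, e⟩ => ?_⟩
  · rw [Wm_eq] at h
    obtain ⟨c, rfl⟩ := h
    simp only [MonoidHom.comp_apply]
    rw [a_u_wE, ← map_inv, ← map_inv, show star (Units.map (Cl.fixedField F).subtype.toMonoidHom c) =
      Units.map (Cl.fixedField F).subtype.toMonoidHom c from Units.ext c.1.2]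
  · obtain ⟨a, rfl⟩ := S.mem_W'.1 h
    rw [a_u_wE, eq_inv_iff_mul_eq_one, ← map_mul, ← map_mul] at e
    obtain ⟨_, h1, h2⟩ := u_sqrt S.π S.ker e
    obtain ⟨c, rfl⟩ := S.ker_le_Z h1
    have h3 := (u_ent h2).1
    simp only [u_mul, zE_00, zE_01, zE_10, wE_00, Units.val_mul, Units.val_inv_eq_inv_val, Units.coe_star] at h3
    have c0 : (c : F) ≠ 0 := (Unitary.toUnits c).ne_zero
    have a0 : star (a : F) ≠ 0 := by simp
    have h4 : star ((a : F) / c) = a / c := by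
      rw [star_div₀, ← inv_inv (star (c : F)), u_inv_star]; field_simp at h3 ⊢; linear_combination h3
    rw [Wm_eq]
    refine ⟨Units.mk0 ⟨_, h4⟩ fun e => div_ne_zero a.ne_zero c0 (congrArg Subtype.val e), ?_⟩
    rw [← one_mul (S.π (wE a)), ← inv_one, ← h1, ← map_inv, ← map_inv, ← map_mul, zE, MonoidHom.comp_apply _ _ c⁻¹,
      ← map_mul]
    exact congrArg (S.π.comp wE) (Units.ext (by simp [div_eq_inv_mul]))
theorem mem_Z_T {x : G} : x ∈ S.Z ↔ x ∈ S.T ∧ S.w * x * S.w⁻¹ = x := by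
  refine ⟨fun h => ⟨S.Z_le_T h, by rw [← S.Z_comm h S.w_H, mul_inv_cancel_right]⟩, fun ⟨h, e⟩ => ?_⟩
  by_contra hz
  exact S.w_not_T (S.cent_T h hz S.w_H (mul_inv_eq_iff_eq_mul.1 e))
theorem mem_Z_W {x : G} : x ∈ S.Z ↔ x ∈ S.W ∧ S.u * x * S.u⁻¹ = x := by
  refine ⟨fun h => ⟨S.Z_le_W h, by rw [← S.Z_comm h S.u_H, mul_inv_cancel_right]⟩, fun ⟨h, e⟩ => ?_⟩
  by_contra hz
  exact S.u_not_W (S.cent_W h hz S.u_H (mul_inv_eq_iff_eq_mul.1 e))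
theorem Tm_h90 {x : G} (hx : x ∈ S.Tm) : ∃ y ∈ S.T, x = S.w * y * S.w⁻¹ * y⁻¹ := by
  obtain ⟨c, rfl⟩ := S.mem_Tm'.1 hx
  refine ⟨S.π (S.τ (1, c)), S.mem_T'.2 ⟨_, rfl⟩, ?_⟩
  rw [a_w_τ, ← map_inv, ← map_inv, ← map_mul, ← map_mul]; simp
theorem Wm_h90 {x : G} (hx : x ∈ S.Wm) : ∃ y ∈ S.W, x = S.u * y * S.u⁻¹ * y⁻¹ := by
  rw [Wm_eq] at hx
  obtain ⟨c, rfl⟩ := hx
  have c0 : ((c : Cl.fixedField F) : F) ≠ 0 := fun e => c.ne_zero (Subtype.ext e)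
  obtain ⟨a, ha⟩ := S.hF.exists_norm_eq (c := ((c : Cl.fixedField F) : F)) c.1.2
  have a0 : a ≠ 0 := fun e => c0 (by rw [← ha, e, zero_mul])
  refine ⟨S.π (wE (Units.mk0 a a0)⁻¹), S.mem_W'.2 ⟨_, rfl⟩, ?_⟩
  rw [a_u_wE, ← map_inv, ← map_inv, ← map_mul, ← map_mul]
  exact congrArg (S.π.comp wE) (Units.ext (by simp [← ha, mul_comm]))

include S in
theorem a_lin (β : U2 F →* ℂˣ) (g : U2 F) (h : uD g = 1) : β g = 1 := u_lin S.hF S.two_ne β g h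
theorem ext_T (l : Du S.T) (h : ∀ x : S.T, (x : G) ∈ S.Tm → l.ch x = 1) :
    ∃ β : Du S.H, Du.comp (inclusion S.T_le_H) β = l :=
  g_ext S.π uD _ S.a_dT l fun _ hg hd => h _ (mem_map_of_mem _ ⟨(g_mem S.π S.ker_le_T).1 hg, hd⟩)
theorem ext_W (l : Du S.W) (h : ∀ x : S.W, (x : G) ∈ S.Wm → l.ch x = 1) :
    ∃ β : Du S.H, Du.comp (inclusion S.W_le_H) β = l :=
  g_ext S.π uD _ S.a_dW l fun _ hg hd => h _ (mem_map_of_mem _
    ⟨(exists_dg (S.a_W.1 hg).1 (S.a_W.1 hg).2).imp fun _ => Eq.symm, hd⟩)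
theorem inj_T : Function.Injective (Du.comp (inclusion S.T_le_H)) := g_inj S.π uD S.a_lin _ S.a_dT
theorem inj_W : Function.Injective (Du.comp (inclusion S.W_le_H)) := g_inj S.π uD S.a_lin _ S.a_dW

include S in
theorem exists_pf : ∃ pf : ℕ × ℕ, pf.1.Prime ∧ 0 < pf.2 ∧ q = pf.1 ^ pf.2 := by
  obtain ⟨p, -, n, hp, hn⟩ := FiniteField.card' F
  obtain ⟨k, -, e⟩ := (Nat.dvd_prime_pow hp).1 (show q ∣ p ^ (n : ℕ) by rw [← hn, S.hF.card]; exact dvd_pow_self _ two_ne_zero)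
  refine ⟨(p, k), hp, Nat.pos_of_ne_zero fun h => ?_, e⟩
  have := S.hF.two_le
  rw [e, show k = 0 from h] at this; simp at this
theorem d_dvd : ∃ k, Odd k ∧ q + 1 = Nat.card S.Z * k := by
  refine ⟨_, ?_, S.a_d.symm⟩
  rw [← Nat.not_even_iff_odd, even_iff_two_dvd]
  intro h
  obtain ⟨x, hx, h2⟩ := exists_orderOf_eq_prime Nat.prime_two h
  exact absurd (h2 ▸ u_ker_odd S.π S.ker hx) (by decide)

/-- the abstract facts -/
noncomputable def toHA : HA G where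
  q := q
  e := -1
  he := Or.inr rfl
  p := S.exists_pf.choose.1
  f := S.exists_pf.choose.2
  hp := S.exists_pf.choose_spec.1
  hf := S.exists_pf.choose_spec.2.1
  hq := S.exists_pf.choose_spec.2.2
  odd := S.odd
  t := S.t
  u := S.u
  w := S.w
  H := S.H
  T := S.T
  W := S.W
  Z := S.Z
  U := S.U
  Tm := S.Tm
  Wm := S.Wm
  H_eq := S.H_eq
  tt := S.tt
  uu := S.uu
  ww' := S.ww'
  ut := S.ut
  wt := S.wt
  wu := S.wu'
  t_ne := S.t_ne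
  mem_T := S.mem_T
  W_le_H := S.W_le_H
  U_le_H := S.U_le_H
  t_Z := S.t_Z
  Z_comm := S.Z_comm
  commT := S.commT
  commU := S.commU
  cyc_W := S.cyc_W
  cyc_Tm := S.cyc_Tm
  card_T := by rw [S.card_T]; push_cast; ring
  card_W := by rw [S.card_W]; push_cast [S.q_pos]; ring
  card_U := S.card_U
  card_H := by rw [S.card_H]; push_cast [Nat.one_le_pow 2 q S.q_pos]; ring
  d_dvd := let ⟨k, h, e⟩ := S.d_dvd; ⟨k, h, by rw [← Nat.cast_mul, ← e]; push_cast; ring⟩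
  card_Tm := by rw [S.card_Tm]; push_cast; ring
  card_Wm := by rw [S.card_Wm]; push_cast [S.q_pos]; ring
  cent_T := S.cent_T
  cent_W := S.cent_W
  cent_U := S.cent_U
  T_inf_W := S.T_inf_W
  Z_inf_U := eq_bot_iff.2 ((inf_le_inf_right _ S.Z_le_W).trans S.W_inf_U.le)
  u_not_W := S.u_not_W
  fus_T := S.fus_T
  fus_W := S.fus_W
  fus_TW := S.fus_TW
  fus_UT := S.fus_UT
  fus_UW := S.fus_UW
  fus_U := fun a b c d e f g => (S.fus_U a b c d e f g).imp_right fun h => S.a_B_norm h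
  U_trans := fun a b c d => let ⟨x, h, e⟩ := S.U_trans a b c d; ⟨x, S.W_le_H h, e⟩
  borel := Or.inr ⟨rfl, S.norm_U⟩
  card_B := by rw [S.norm_U, S.card_B]; push_cast [S.q_pos]; ring
  classes := S.classes
  inv_T := S.inv_T
  u_W_pow := S.u_W_pow
  mem_Tm := S.mem_Tm
  mem_Wm := S.mem_Wm
  mem_Z_T := S.mem_Z_T
  mem_Z_W := S.mem_Z_W
  Tm_h90 := S.Tm_h90
  Wm_h90 := S.Wm_h90
  ext_T := fun _ => S.ext_T
  ext_W := S.ext_W
  inj_T := fun _ => S.inj_T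
  inj_W := S.inj_W

end HyU

theorem exists_HA_gu (hq : Odd q) (hF : Cl.IsFq2 F q) (Z : Subgroup (Cfsg.GU 2 F q)) [Z.Normal]
    (hZc : Z ≤ center (Cfsg.GU 2 F q)) (hZo : Odd (Nat.card Z)) (e : G ≃* (Cfsg.GU 2 F q ⧸ Z)) :
    ∃ S : HA G, S.H = ⊤ ∧ S.q = q ∧ S.e = -1 := by
  obtain ⟨φ⟩ := exists_uEquiv hF
  replace φ := φ.trans (Unit.guEquiv hF 2).symm
  have two := u_two hq hF
  obtain ⟨δ, h0, hδ⟩ := Cl.exists_skew hF.exists_star_ne
  let π : U2 F →* G := e.symm.toMonoidHom.comp ((QuotientGroup.mk' Z).comp φ.toMonoidHom)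
  have hs : Function.Surjective π := e.symm.surjective.comp ((QuotientGroup.mk'_surjective Z).comp φ.surjective)
  have hr : π.range = ⊤ := MonoidHom.range_eq_top.2 hs
  have ker : ∀ g, π g = 1 → ∃ c : Fˣ, Odd (orderOf c) ∧ (g : L2 F) = dg (c, c) := fun g hg => by
    have h1 : φ g ∈ Z := (QuotientGroup.eq_one_iff _).1 (e.symm.map_eq_one_iff.1 hg)
    have h2 : ∀ k, k * g = g * k := fun k => φ.injective (by
      rw [map_mul, map_mul]; exact mem_center_iff.1 (hZc h1) _)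
    obtain ⟨e0, e1, -, -⟩ := u_ent (h2 (xR 1 (star_one F)))
    have e2 := ((mem_cu h0 hδ).1 (mem_cent1_iff.2 (h2 _).symm)).2
    simp only [u_mul, xR_00, xR_01, xR_10, xR_11] at e0 e1
    have e3 : g.1 1 0 = 0 := by linear_combination e0
    obtain ⟨c, hc⟩ := a_sc_dg (g := g.1) ⟨by rw [e2, e3, mul_zero], e3, by linear_combination -e1⟩
    refine ⟨c, ?_, hc⟩
    rw [← orderOf_injective (aS : Fˣ →* L2 F) (fun a b e => (Prod.ext_iff.1 (dg_injective e)).1) c, aS_apply, ← hc,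
      orderOf_coe, ← φ.orderOf_eq]
    exact hZo.of_dvd_nat (Subgroup.orderOf_dvd_natCard Z h1)
  obtain ⟨x, hx⟩ := hF.exists_norm_eq (c := (δ * δ)⁻¹) (by simp [hδ])
  have hd : δ * (x + star x) / 2 * -(δ * (x + star x) / 2) - -(δ * δ * ((x - star x) / 2)) * ((x - star x) / 2) = -1 := by
    field_simp at hx ⊢; linear_combination -4 * hx
  let w : U2 F := ⟨m2 (δ * (x + star x) / 2) (-(δ * δ * ((x - star x) / 2))) ((x - star x) / 2)
    (-(δ * (x + star x) / 2)) (by rw [hd]; simp), mem_U2'.2 (by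
      simp only [dt, m2_00, m2_01, m2_10, m2_11, hd, star_div₀, star_mul', star_neg, star_add, star_sub, star_star,
        star_ofNat, hδ]
      refine ⟨?_, ?_, ?_, ?_⟩ <;> ring)⟩
  have ww : w * w = 1 := by
    refine u_ext ?_ ?_ ?_ ?_ <;> simp only [u_mul, w, m2_00, m2_01, m2_10, m2_11, u_one, one_00, one_01, one_10, one_11]
    exacts [by linear_combination -hd, by ring, by ring, by linear_combination -hd]
  have wu : w * uU h0 hδ * w⁻¹ = tU * uU h0 hδ := by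
    rw [mul_inv_eq_iff_eq_mul]
    refine u_ext ?_ ?_ ?_ ?_ <;> simp only [u_mul, w, m2_00, m2_01, m2_10, m2_11, uU_00, uU_01, uU_10, uU_11,
      tU_00, tU_01, tU_10, tU_11] <;> field_simp <;> ring
  let S : HyU G F q := ⟨hF, hq, π, ker, hr.trans (eq_top_iff.2 fun x _ => by
    obtain ⟨g, rfl⟩ := hs x
    rw [mem_cent1_iff, ← map_mul, ← map_mul, u_sc_comm tU_sc]).symm, δ, h0, hδ, w, ww, wu⟩
  exact ⟨S.toHA, hr, rfl, rfl⟩

/-- `GL₂^ε(q)/Z` satisfies `HA` -/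
theorem exists_HA {E : Type*} [Group E] [Finite E] (h : IsGLQ E ∨ IsGUQ E) : ∃ S : HA E, S.H = ⊤ := by
  rcases h with ⟨F, _, _, Z, _, h1, h2, h3, ⟨e⟩⟩ | ⟨F, _, _, q, Z, _, h1, h0, h2, h3, ⟨e⟩⟩
  · exact (exists_HA_gl h1 Z h2 h3 e).imp fun _ h => h.1
  · letI := CA.Cl.starRingOfCard h0
    exact (exists_HA_gu h1 (CA.Cl.isFq2_starRingOfCard h0) Z h2 h3 e).imp fun _ h => h.1

end CA.ABG
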