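/-
Identification of `H` with `GL₂^ε(q)/Z`.
-/
import Cfsg.Agent.Lib.ABG.QE
import Cfsg.Agent.Lib.ABG.Defs
import Cfsg.Agent.Lib.Br.U2a
import Mathlib.FieldTheory.Finite.GaloisField

set_option autoImplicit false
set_option linter.unusedSectionVars false

namespace CA.ABG
open Cfsg CA CA.FStar CA.GW Matrix.SpecialLinearGroup CA.SL2 CA.Br Subgroup
open scoped MatrixGroups

theorem act_zpow {S M : Type*} [Group S] [Group M] {j : S →* M} {δ : M} {β : MulAut S} (h : ∀ g, δ * j g * δ⁻¹ = j (β g))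
    (k : ℤ) : ∀ g, δ ^ k * j g = j ((β ^ k) g) * δ ^ k := by
  have h' : ∀ g, δ⁻¹ * j g = j (β⁻¹ g) * δ⁻¹ := fun g => by
    have := h (β⁻¹ g)
    rw [MulAut.apply_inv_self] at this
    rw [← this]; group
  induction k using Int.induction_on with
  | zero => simp
  | succ k ih => intro g; rw [zpow_add_one, mul_assoc, eq_mul_of_mul_inv_eq (h g), ← mul_assoc, ih, zpow_add_one, mul_assoc]; rfl
  | pred k ih => intro g; rw [zpow_sub_one, mul_assoc, h', ← mul_assoc, ih, zpow_sub_one, mul_assoc]; rfl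

theorem pow_K {F : Type*} [Field F] [Fintype F] (hF : Odd (Fintype.card F)) {a : MulAut SL(2, F)} (ha : a ∈ Ph F) (a1 : a ∉ Kh F)
    (k : ℕ) : a ^ k ∈ Kh F ↔ Even k := by
  induction k with
  | zero => simp
  | succ k ih =>
    rw [Nat.even_add_one, ← ih, pow_succ]
    exact ⟨fun e e' => a1 ((mul_mem_cancel_left e').1 e), fun e => mul_mem_K hF (pow_mem ha k) ha e a1⟩

/-- homomorphisms out of `S ⋊ ⟨δ⟩` -/
theorem sd_hom {S M H : Type*} [Group S] [Group M] [Group H] {j : S →* M} (inj : Function.Injective j) (ι : S →* H) {δ : M} {η : H}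
    (β : MulAut S) (h1 : ∀ g, δ * j g * δ⁻¹ = j (β g)) (h2 : ∀ g, η * ι g * η⁻¹ = ι (β g))
    (h3 : ∀ k : ℤ, δ ^ k ∈ j.range → δ ^ k = 1 ∧ η ^ k = 1) (h4 : ∀ x, ∃ g, ∃ k : ℤ, x = j g * δ ^ k) :
    ∃ π : M →* H, ∀ g (k : ℤ), π (j g * δ ^ k) = ι g * η ^ k := by
  choose a b hab using h4
  have wd : ∀ g (k : ℤ), ι (a (j g * δ ^ k)) * η ^ b (j g * δ ^ k) = ι g * η ^ k := fun g k => by
    have e := hab (j g * δ ^ k)
    generalize a (j g * δ ^ k) = g' at e ⊢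
    generalize b (j g * δ ^ k) = k' at e ⊢
    have e1 : δ ^ (k' - k) = j (g'⁻¹ * g) := by
      rw [map_mul, map_inv, eq_inv_mul_iff_mul_eq, _root_.zpow_sub, ← mul_assoc, ← e, mul_inv_cancel_right]
    obtain ⟨e2, e3⟩ := h3 _ ⟨_, e1.symm⟩
    rw [_root_.zpow_sub, mul_inv_eq_one] at e3
    rw [e3, inv_mul_eq_one.1 (inj (e1.symm.trans (e2.trans (map_one j).symm)))]
  refine ⟨MonoidHom.mk' (fun x => ι (a x) * η ^ b x) fun x y => ?_, wd⟩
  conv_lhs => rw [hab x, hab y, mul_assoc, ← mul_assoc (δ ^ _), act_zpow h1, mul_assoc, ← mul_assoc, ← map_mul, ← _root_.zpow_add, wd]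
  rw [map_mul, _root_.zpow_add, mul_assoc, mul_assoc, ← mul_assoc (η ^ _), act_zpow h2, mul_assoc]

variable {G : Type*} [Group G] [Finite G] {X Z : Subgroup G} {F : Type} [Field F] [Fintype F] {h : QT F X Z}
  {s d : G} {τ σ : SL(2, F)} {n m : ℕ}

namespace QT.Tor

theorem model (t : h.Tor s d τ σ n m) (hP : X ≤ h.P) {H : Type*} [Group H] (ψ : X →* H) {o : H} (oc : ∀ x, o * x = x * o)
    (om : o ^ m = 1) (sj : ∀ x, ∃ y, ∃ k : ℤ, x = ψ y * o ^ k) (dj : ∀ y (k : ℤ), ψ y * o ^ k = 1 → y = 1)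
    {M A : Type*} [Group M] [Finite M] [CommGroup A] {j : SL(2, F) →* M} (inj : Function.Injective j) (ν : M →* A)
    (ker : ∀ x, ν x = 1 ↔ x ∈ j.range) {δ c : M} {α : MulAut SL(2, F)} (αP : α ∈ Ph F) (αK : α ∉ Kh F)
    (act : ∀ g, δ * j g * δ⁻¹ = j (α g)) (αo : ∀ k : ℕ, α ^ k = 1 → n ∣ k) (δn : δ ^ n = 1) (νo : orderOf (ν δ) = n)
    (gen : ∀ x, ν x ∈ zpowers (ν δ)) (cc : c ∈ center M) (νc : ν c = ν δ ^ 2) (cn : c ^ n = 1) :
    ∃ (N : Subgroup M) (_ : N.Normal), N ≤ center M ∧ Odd (Nat.card N) ∧ Nonempty (H ≃* M ⧸ N) := by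
  have : Finite (MulAut SL(2, F)) := inferInstance
  obtain ⟨T, t', dT⟩ := t.tor
  obtain ⟨e, he⟩ := h.card_Z
  have n0 : 0 < n := t.ord ▸ orderOf_pos τ
  have nn : n = 2 ^ e * m + 2 ^ e * m := by rw [t.nm, he]; ring
  have itr : ∀ {δ : M} {α : MulAut SL(2, F)}, (∀ g, δ * j g * δ⁻¹ = j (α g)) → ∀ (k : ℕ) g,
      δ ^ k * j g * (δ ^ k)⁻¹ = j ((α ^ k) g) := fun act k g => by simpa [mul_inv_eq_iff_eq_mul] using act_zpow act k g
  have αn : orderOf α = n := Nat.dvd_antisymm (orderOf_dvd_of_pow_eq_one (MulEquiv.ext fun g => inj (by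
    rw [← itr act, δn]; simp))) (αo _ (pow_orderOf_eq_one α))
  have half : ∀ {α : MulAut SL(2, F)}, orderOf α = n → Inv2 (α ^ (2 ^ e * m)) ∧
      ∀ y ∈ zpowers α, Inv2 y → y = α ^ (2 ^ e * m) := fun {α} ho => by
    have i : Inv2 (α ^ (2 ^ e * m)) := ⟨by rw [← pow_add, ← nn, ← ho, pow_orderOf_eq_one], fun e1 => by
      have := Nat.le_of_dvd (by omega) (ho ▸ orderOf_dvd_of_pow_eq_one e1)
      omega⟩
    refine ⟨i, fun y hy y2 => ?_⟩
    obtain ⟨k, rfl⟩ := (Submonoid.mem_powers_iff _ _).1 (mem_powers_iff_mem_zpowers.2 hy)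
    have := y2.sq
    rw [← pow_add, ← two_mul, ← orderOf_dvd_iff_pow_eq_one, ho, nn, ← two_mul] at this
    obtain ⟨j, rfl⟩ := Nat.dvd_of_mul_dvd_mul_left two_pos this
    exact ((mem_zpowers_sq i.sq).1 (by rw [pow_mul α (2 ^ e * m)]; exact pow_mem (mem_zpowers _) _)).resolve_left y2.ne
  have s2 := h.φinv t.sX t.s2 t.sZ
  have sT := (half t'.ordT).2 _ t'.self s2
  have TK : T ∉ Kh F := fun e => by simpa using (t'.TK 1).1 (by rwa [pow_one])
  obtain ⟨g, hg⟩ := inv_conj h.odd (pow_mem αP _) (sT ▸ pow_mem t'.TP _) (half αn).1 s2 (by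
    rw [sT]
    by_cases e : Even (2 ^ e * m)
    · exact mul_mem ((pow_K h.odd αP αK _).2 e) ((t'.TK _).2 e)
    · exact mul_mem_K h.odd (pow_mem αP _) (pow_mem t'.TP _) (mt (pow_K h.odd αP αK _).1 e) (mt (t'.TK _).1 e))
  set γ := MulAut.conj g * α * (MulAut.conj g)⁻¹ with hγ
  rw [← conj_pow, ← hγ] at hg
  have γn : orderOf γ = n := αn ▸ (MulAut.conj (MulAut.conj g)).orderOf_eq α
  have γT : γ ∈ zpowers T := by_contra fun e1 => by
    have := t'.dich γ (mul_mem (mul_mem (Kh_le ⟨g, rfl⟩) αP) (inv_mem (Kh_le ⟨g, rfl⟩))) (by rw [← hg, ← pow_succ, pow_succ']) e1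
    rcases (mem_zpowers_sq this).1 (hg ▸ pow_mem (mem_zpowers γ) _ : pel h.Φ s ∈ zpowers γ) with h1 | h1
    exacts [s2.ne h1, e1 (h1 ▸ t'.self)]
  rw [← eq_of_le_of_card_ge (zpowers_le.2 γT) (by rw [Nat.card_zpowers, Nat.card_zpowers, γn, t'.ordT])] at dT
  obtain ⟨i, hi⟩ := (Submonoid.mem_powers_iff _ _).1 (mem_powers_iff_mem_zpowers.2 dT)
  have k1 : ∀ k : ℕ, n ∣ i * k ↔ 2 ^ (e + 1) ∣ k := fun k => by
    rw [← γn, orderOf_dvd_iff_pow_eq_one, pow_mul, hi, ← pel_pow _ t.gen.mem, h.φ1 (pow_mem t.gen.mem k), ← he, ← t.gen.ord,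
      orderOf_dvd_iff_pow_eq_one]
    exact ⟨fun e => mem_bot.1 (t.gen.dz ▸ ⟨pow_mem (mem_zpowers d) k, e⟩), fun e => e ▸ one_mem _⟩
  set ε := (j g * δ * (j g)⁻¹) ^ i with hε
  have cm : ∀ x, Commute x (c ^ 2 ^ (e + 1)) := fun x => Commute.pow_right (mem_center_iff.1 cc x) _
  have ε1 : ε ^ 2 ^ (e + 1) = 1 := by
    obtain ⟨k, hk⟩ := (k1 _).2 dvd_rfl
    rw [← pow_mul, hk, pow_mul, conj_pow, δn]; simp
  have c1 : (c ^ 2 ^ (e + 1)) ^ m = 1 := by rw [← pow_mul, ← he, ← t.nm, cn]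
  have cop : (2 ^ (e + 1)).Coprime m := Nat.Coprime.pow_left _ (Nat.coprime_two_left.2 t.mo)
  have νe : ν (ε * c ^ 2 ^ (e + 1)) = ν δ ^ (i + 2 * 2 ^ (e + 1)) := by
    rw [map_mul, map_pow, map_pow, map_mul, map_mul, map_inv, mul_inv_cancel_comm, νc, ← pow_mul, pow_add (ν δ)]
  have νo' : orderOf (ν (ε * c ^ 2 ^ (e + 1))) = n := by
    rw [νe, orderOf_pow' _ (by positivity), νo, Nat.Coprime.gcd_eq_one, Nat.div_one]
    have io : Odd i := Nat.not_even_iff_odd.1 fun ⟨l, hl⟩ => h.gen_LZ t.gen ((h.φK t.gen.mem).1 (by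
      have γP : γ ^ l ∈ Ph F := pow_mem (zpowers_le.2 t'.TP γT) l
      rw [← hi, hl, pow_add]
      exact by_contra fun e => e (mul_mem_K h.odd γP γP (fun a => e (mul_mem a a)) fun a => e (mul_mem a a))))
    have mi : m ∣ i := cop.symm.dvd_of_dvd_mul_right ((Dvd.intro_left _ (he ▸ t.nm).symm).trans ((k1 _).2 dvd_rfl))
    rw [t.nm, he]
    exact Nat.Coprime.mul_left (Nat.Coprime.pow_left _ (Nat.coprime_two_left.2 (io.add_even (even_two_mul _))))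
      ((Nat.coprime_add_iff_right mi).2 (by rw [← pow_succ']; exact Nat.Coprime.pow_right _ (Nat.coprime_two_right.2 t.mo)))
  let D : X := ⟨d, t.gen.mem⟩
  have D1 : D ^ 2 ^ (e + 1) = 1 := Subtype.ext (by rw [← he, ← t.gen.ord]; exact pow_orderOf_eq_one d)
  have co : Commute (ψ D) o := (oc _).symm
  let ι : SL(2, F) →* H := ψ.comp (h.ι.codRestrict X h.mem)
  have dec : ∀ x, ∃ g, ∃ k : ℤ, x = j g * (ε * c ^ 2 ^ (e + 1)) ^ k := fun x => by
    have : Finite (zpowers (ν δ)) := Nat.finite_of_card_ne_zero (by rw [Nat.card_zpowers, νo]; omega)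
    obtain ⟨k, hk⟩ := eq_of_le_of_card_ge (zpowers_le.2 (gen (ε * c ^ 2 ^ (e + 1))))
      (by rw [Nat.card_zpowers, Nat.card_zpowers, νo, νo']) ▸ gen x
    obtain ⟨y, hy⟩ := (ker (x * ((ε * c ^ 2 ^ (e + 1)) ^ k)⁻¹)).1 (by rw [map_mul, map_inv, map_zpow, ← hk, mul_inv_cancel])
    exact ⟨y, k, by rw [hy, inv_mul_cancel_right]⟩
  obtain ⟨π, hπ⟩ := sd_hom inj ι (δ := ε * c ^ 2 ^ (e + 1)) (η := ψ D * o) (pel h.Φ d) (fun x => by
      rw [← hi, ← itr (δ := j g * δ * (j g)⁻¹) (α := γ) (fun x => by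
        simp only [hγ, MulAut.mul_apply, MulAut.conj_apply, MulAut.conj_inv_apply, map_mul, map_inv, ← act]; group),
        mul_assoc ε, ← (cm _).eq, ← hε]
      group)
    (fun x => by
      rw [mul_assoc (ψ D), oc, show ι (pel h.Φ d x) = ψ (D * h.ι.codRestrict X h.mem x * D⁻¹) from
        congrArg ψ (Subtype.ext (h.act d D.2 x).symm), map_mul, map_mul, map_inv]
      simp [ι, mul_assoc])
    (fun k hk => by
      rw [← ker, map_zpow, ← orderOf_dvd_iff_zpow_eq_one, νo', t.nm, he] at hk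
      obtain ⟨l, rfl⟩ := hk
      rw [_root_.zpow_mul, _root_.zpow_mul, _root_.zpow_natCast, _root_.zpow_natCast, (cm ε).mul_pow, co.mul_pow, pow_mul ε, ε1,
        pow_mul' (c ^ _), c1, pow_mul (ψ D), ← map_pow, D1, pow_mul' o, om]
      simp) dec
  have hk : ∀ x ∈ π.ker, x ∈ zpowers (c ^ 2 ^ (e + 1)) := fun x hx => by
    obtain ⟨y, k, rfl⟩ := dec x
    rw [MonoidHom.mem_ker, hπ, co.mul_zpow, ← mul_assoc, ← map_zpow, MonoidHom.comp_apply, ← map_mul] at hx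
    have e1 : h.ι y * d ^ k = 1 := congrArg Subtype.val (dj _ _ hx)
    have e2 : d ^ k = 1 := mem_bot.1 (h.gen_L t.gen ▸ ⟨⟨y⁻¹, by rw [map_inv, inv_eq_of_mul_eq_one_right e1]⟩, k, rfl⟩)
    rw [e2, mul_one, ← map_one h.ι, h.inj.eq_iff] at e1
    rw [← orderOf_dvd_iff_zpow_eq_one, t.gen.ord, he] at e2
    obtain ⟨l, rfl⟩ := e2
    rw [e1, map_one, one_mul, (cm ε).mul_zpow, _root_.zpow_mul ε, _root_.zpow_natCast, ε1, _root_.one_zpow, one_mul]
    exact ⟨_, rfl⟩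
  refine ⟨π.ker, inferInstance, fun x hx => zpowers_le.2 (pow_mem cc _) (hk x hx), odd_iff.2 (piGrp_iff_forall_piElt.2 fun x hx =>
    (odd_elt_iff.1 (t.mo.of_dvd_nat (orderOf_dvd_of_pow_eq_one c1))).of_mem_zpowers (hk x hx)),
    ⟨(QuotientGroup.quotientKerEquivOfSurjective π fun x => ?_).symm⟩⟩
  have r1 : ψ D * o ∈ π.range := ⟨_, (hπ 1 1).trans (by simp)⟩
  have r2 : ψ D ∈ π.range := by
    have := pow_mem r1 m
    rw [co.mul_pow, om, mul_one, ← map_pow] at this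
    obtain ⟨k, hk⟩ : D ∈ zpowers (D ^ m) := mem_zpowers_pow_iff.2 (cop.symm.coprime_dvd_right (orderOf_dvd_of_pow_eq_one D1))
    rw [← hk, map_zpow]
    exact zpow_mem this k
  obtain ⟨y, k, rfl⟩ := sj x
  obtain ⟨a, _, ⟨l, rfl⟩, e⟩ := h.decP t.gen (hP y.2)
  rw [show y = h.ι.codRestrict X h.mem a * D ^ l from Subtype.ext e, map_mul, map_zpow]
  exact mul_mem (mul_mem (⟨_, (hπ a 0).trans (by simp [ι])⟩ : _ ∈ π.range) (zpow_mem r2 l)) (zpow_mem ((mul_mem_cancel_left r2).1 r1) k)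

theorem glq (t : h.Tor s d τ σ n m) (hP : X ≤ h.P) {H : Type*} [Group H] (ψ : X →* H) {o : H} (oc : ∀ x, o * x = x * o)
    (om : o ^ m = 1) (sj : ∀ x, ∃ y, ∃ k : ℤ, x = ψ y * o ^ k) (dj : ∀ y (k : ℤ), ψ y * o ^ k = 1 → y = 1)
    (hn : n + 1 = Fintype.card F) : IsGLQ H := by
  obtain ⟨g, go, hg⟩ := exists_gen (F := F)
  rw [← hn, Nat.add_sub_cancel] at go
  have g1 : g ^ n = 1 := go ▸ pow_orderOf_eq_one g
  obtain ⟨N, _, h1, h2, h3⟩ := t.model hP ψ oc om sj dj (M := L2 F) toGL_injective Matrix.GeneralLinearGroup.det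
    (fun x => ⟨fun e => sl_ex (a_det_one.1 e), by rintro ⟨y, rfl⟩; exact coeToGL_det y⟩) (δ := dg (1, g)) (c := dg (g, g))
    ⟨_, rfl⟩ (by rw [piH_mem_K]; simpa [aDet] using gen_nsq h.odd hg) (fun x => (toGL_piH _ x).symm)
    (fun k e => by
      rw [← map_pow, piH_eq_one, ← map_pow] at e
      rw [← go, orderOf_dvd_iff_pow_eq_one]
      exact Units.ext (by simpa using e.2.2.symm))
    (by rw [← map_pow, Prod.pow_mk, g1, one_pow, Prod.mk_one_one, map_one]) (by rw [a_det_dg, one_mul, go])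
    (fun x => by rw [a_det_dg, one_mul]; obtain ⟨k, hk⟩ := hg (Matrix.GeneralLinearGroup.det x); exact hk ▸ pow_mem (mem_zpowers g) k)
    (mem_center_iff.2 fun x => (sc_comm g x).symm) (by rw [a_det_dg, a_det_dg, one_mul, _root_.sq])
    (by rw [← map_pow, Prod.pow_mk, g1, Prod.mk_one_one, map_one])
  exact ⟨F, _, _, N, _, h.odd, h1, h2, h3⟩

theorem guq (t : h.Tor s d τ σ n m) (hP : X ≤ h.P) {H : Type*} [Group H] (ψ : X →* H) {o : H} (oc : ∀ x, o * x = x * o)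
    (om : o ^ m = 1) (sj : ∀ x, ∃ y, ∃ k : ℤ, x = ψ y * o ^ k) (dj : ∀ y (k : ℤ), ψ y * o ^ k = 1 → y = 1)
    (hn : n = Fintype.card F + 1) : IsGUQ H := by
  obtain ⟨p, hp, f, hp', hq⟩ := FiniteField.card' F
  have : Fact p.Prime := ⟨hp'⟩
  let K := GaloisField p (f * 2)
  let : Fintype K := Fintype.ofFinite _
  have hK : Fintype.card K = Fintype.card F ^ 2 := by
    rw [← Nat.card_eq_fintype_card, GaloisField.card p _ (by simp), hq, pow_mul]
  let := Cl.starRingOfCard hK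
  have hF := Cl.isFq2_starRingOfCard hK
  obtain ⟨e, he⟩ := hF.exists_embedding rfl
  obtain ⟨δ, h0, hδ⟩ := Cl.exists_skew hF.exists_star_ne
  have h2 : (2 : K) ≠ 0 := by rw [← map_ofNat e 2]; exact (map_ne_zero e).2 (two_ne_zero_of_odd h.odd)
  obtain ⟨ρ, hρ⟩ := hF.exists_primitive
  rw [← hn] at hρ
  let u : unitary K := ⟨ρ, Unitary.mem_iff_self_mul_star.2 (by rw [hF.norm_eq, ← hn, hρ.pow_eq_one])⟩
  have u1 : u ^ n = 1 := Subtype.ext hρ.pow_eq_one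
  let μ : L2 F →* L2 K := Matrix.GeneralLinearGroup.map e
  have μe : ∀ g i j, μ g i j = e (g i j) := fun _ _ _ => rfl
  have μd : ∀ g, dt (μ g) = e (aDet g) := fun g => by simp [dt, aDet, μe]
  have μs : ∀ g : L2 K, (∀ i j, star (g i j) = g i j) → ∃ A, μ A = g := fun g hg => by
    choose a ha using fun i j => (he _).1 (hg i j)
    refine ⟨m2 (a 0 0) (a 0 1) (a 1 0) (a 1 1) fun e0 => dt_ne g ?_, ext2 (ha 0 0) (ha 0 1) (ha 1 0) (ha 1 1)⟩
    simpa [ha, dt] using congrArg e e0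
  let j : SL(2, F) →* U2 K := (μ.comp toGL).codRestrict _ fun g i j => by
    rw [MonoidHom.comp_apply, μd, aDet_toGL, map_one, mul_one]; exact (he _).2 ⟨_, rfl⟩
  set D := tE h0 hδ h2 (1, u)
  have dD : dt D.1 = ρ := (tE_dt h0 hδ h2 1 u).trans (one_mul ρ)
  obtain ⟨a, a0, ha⟩ := u_h90 h0 hδ (u_dt D)
  set b := Units.mk0 a a0
  obtain ⟨A, hA⟩ := μs (dg (b⁻¹, b⁻¹) * D.1) fun i k => by
    have e1 : (dg (b⁻¹, b⁻¹) * D.1) i k = a⁻¹ * D.1 i k := by fin_cases i <;> simp [mul_ent, b]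
    have := dt_ne D.1
    rw [e1, star_mul', star_inv₀, eq_div_of_mul_eq this ha, eq_div_of_mul_eq this (u_st D i k), inv_div, mul_comm, div_mul_div_cancel₀ this,
      div_eq_inv_mul]
  have eD : D.1 = dg (b, b) * μ A := by rw [hA, ← mul_assoc, ← map_mul]; simp [Prod.mk_one_one]
  have uo : orderOf (uD D) = n := by rw [← orderOf_units, uD_val, dD, ← hρ.eq_orderOf]
  obtain ⟨N, _, h1, h3, ⟨h4⟩⟩ := t.model hP ψ oc om sj dj (j := j) (fun x y e1 => toGL_injective (ext2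
      (e.injective (u_ent e1).1) (e.injective (u_ent e1).2.1) (e.injective (u_ent e1).2.2.1) (e.injective (u_ent e1).2.2.2))) uD
    (fun x => ⟨fun e1 => by
      obtain ⟨B, hB⟩ := μs x.1 fun i k => by simpa [uD_one.1 e1] using u_st x i k
      obtain ⟨y, rfl⟩ := sl_ex (A := B) (e.injective (by rw [← μd, hB, uD_one.1 e1, map_one]))
      exact ⟨y, Subtype.ext hB⟩, by rintro ⟨y, rfl⟩; exact uD_one.2 ((μd _).trans (by rw [aDet_toGL, map_one]))⟩)
    (δ := D) (c := zE u) (α := piH A) ⟨_, rfl⟩ (fun e1 => by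
      obtain ⟨c, hc⟩ := piH_mem_K.1 e1
      have e2 : ρ = (a * e c) ^ 2 := by
        rw [← dD, eD, dt_mul, μd, hc, dt_aDet, aDet_dg, map_mul]; simp only [b, Units.val_mk0]; ring
      have e3 : (a * e c) ^ n = 1 := by
        rw [hn, ← hF.norm_eq, star_mul', (he _).2 ⟨c, rfl⟩]
        exact mul_left_cancel₀ a0 (by rw [dD, e2] at ha; linear_combination ha)
      obtain ⟨k, hk⟩ : Even n := hn ▸ h.odd.add_one
      have := Nat.le_of_dvd (by omega) ((hρ.pow_eq_one_iff_dvd k).1 (by rw [e2, ← pow_mul, two_mul, ← hk, e3]))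
      omega)
    (fun x => Subtype.ext (by
      change D.1 * μ (toGL x) * D.1⁻¹ = μ (toGL (piH A x))
      rw [toGL_piH, map_mul, map_mul, map_inv, eD, mul_assoc (dg _), sc_comm, sc_comm b (μ A)]; group))
    (fun k e1 => by
      rw [← map_pow, piH_eq_one] at e1
      have e2 : (D ^ k).1 0 1 = 0 := by
        rw [Subgroup.coe_pow, eD, Commute.mul_pow (sc_comm _ _), ← map_pow, ← map_pow, mul_ent, μe, e1.1]; simp
      rw [← map_pow, Prod.pow_mk, tE_01, one_pow, div_eq_zero_iff, or_iff_left h2, mul_eq_zero, or_iff_right h0, sub_eq_zero] at e2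
      exact (hρ.pow_eq_one_iff_dvd k).1 e2.symm)
    (by rw [← map_pow, Prod.pow_mk, u1, one_pow, Prod.mk_one_one, map_one]) uo
    (fun x => by
      have : NeZero n := ⟨by omega⟩
      obtain ⟨k, -, hk⟩ := hρ.eq_pow_of_pow_eq_one (ξ := dt x.1) (by rw [hn, ← hF.norm_eq, mul_comm, u_dt])
      exact Units.ext (by rw [Units.val_pow_eq_pow_val, uD_val, uD_val, dD, hk] : (uD D ^ k : Kˣ).1 = uD x) ▸ pow_mem (mem_zpowers _) k)
    (mem_center_iff.2 fun x => (u_sc_comm (mem_zE.1 ⟨u, rfl⟩) x).symm)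
    (Units.ext (by rw [Units.val_pow_eq_pow_val, uD_val, uD_val, dD, dt]; simp [_root_.sq, u])) (by rw [← map_pow, u1, map_one])
  obtain ⟨φ⟩ := exists_uEquiv hF
  replace φ := φ.trans (Unit.guEquiv hF 2).symm
  have : (N.map (φ : U2 K →* _)).Normal := Subgroup.Normal.map inferInstance _ fun y => φ.surjective y
  refine ⟨K, _, _, _, N.map (φ : U2 K →* _), this, h.odd, hK, ?_, by rwa [card_map_of_injective φ.injective],
    ⟨h4.trans (QuotientGroup.congr _ _ φ rfl)⟩⟩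
  rintro _ ⟨x, hx, rfl⟩
  refine mem_center_iff.2 fun y => ?_
  obtain ⟨y, rfl⟩ := φ.surjective y
  simpa using congrArg φ (mem_center_iff.1 (h1 hx) y)

/-- Sylow `r`-subgroups of `P` are cyclic for `r ∣ m` -/
theorem cyc (t : h.Tor s d τ σ n m) {r : ℕ} (hr : r.Prime) (rm : r ∣ m) {Y : Subgroup G} (hY : Y ≤ h.P) (Yr : PiGrp {r} Y) :
    IsCyclic Y := by
  obtain ⟨R, hR⟩ := exists_sylowIn r (zpowers (h.ι τ))
  have le : zpowers (h.ι τ) ≤ h.P := zpowers_le.2 (h.LP ⟨τ, rfl⟩)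
  have r2 : ¬ r ∣ 2 := fun e => t.mo.not_two_dvd_nat ((Nat.prime_dvd_prime_iff_eq hr Nat.prime_two).1 e ▸ rm)
  have rn : r ∣ n := t.nm ▸ rm.mul_left _
  obtain ⟨g, -, hg⟩ := (hR.of_not_dvd_relIndex le hr fun e => by
    have c := card_mul_relIndex le
    obtain ⟨k, hk⟩ := h.card_Z
    rw [Nat.card_zpowers, t.ord', h.card_P t.gen, h.card_L, hk] at c
    obtain ⟨n', h1, h2⟩ : ∃ n', Fintype.card F ^ 2 - 1 = n * n' ∧ (n + 2 = n' ∨ n = n' + 2) := by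
      rcases t.hn with e | e
      · exact ⟨n + 2, by rw [← e]; exact Nat.sub_eq_of_eq_add (by ring), .inl rfl⟩
      · obtain ⟨q, hq⟩ : ∃ q, Fintype.card F = q + 1 := ⟨_, (Nat.succ_pred_eq_of_pos Fintype.card_pos).symm⟩
        exact ⟨q, by rw [e, hq]; exact Nat.sub_eq_of_eq_add (by ring), .inr (by omega)⟩
    rw [h1, mul_left_comm, mul_assoc, Nat.mul_right_inj (t.ord ▸ (orderOf_pos τ).ne')] at c
    rcases (Nat.Prime.dvd_mul hr).1 (c ▸ e) with e | e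
    · rcases (Nat.Prime.dvd_mul hr).1 e with e | e
      · rcases t.hn with e' | e'
        · exact hr.one_lt.ne' (Nat.dvd_one.1 ((Nat.dvd_add_right rn).1 (e' ▸ e)))
        · exact hr.one_lt.ne' (Nat.dvd_one.1 ((Nat.dvd_add_right e).1 (e' ▸ rn)))
      · rcases h2 with e' | e'
        · exact r2 ((Nat.dvd_add_right rn).1 (e' ▸ e))
        · exact r2 ((Nat.dvd_add_right e).1 (e' ▸ rn))
    · exact r2 (hr.dvd_of_dvd_pow e)).exists_cj_le Yr hY
  exact (cjEquiv g Y).isCyclic.2 (cyclic_of_le (cyclic_of_le inferInstance hR.le) hg)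

theorem split {H O : Subgroup G} {Z : Subgroup (Quo O)} {h : QT F (H /ₛ O) Z} {s d : Quo O} (t : h.Tor s d τ σ n m)
    (hP : H /ₛ O ≤ h.P) (OH : O ≤ H) (cen : O ≤ 𝐂(H)) (hO : Nat.card O ∣ m) : ∃ E, SDProd O E H := by
  have hN : H ≤ 𝐍(O) := (cents_symm cen).trans (centralizer_le_normalizer _)
  by_cases O1 : O = ⊥
  · exact ⟨H, sup_eq_right.2 OH, hN, O1 ▸ bot_inf_eq H⟩
  have oo : Odd (Nat.card O) := t.mo.of_dvd_nat hO
  have hD : ⁅H, H⁆ ⊴ H := der_normalIn H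
  have h1 : O ⊓ ⁅H, H⁆ = ⊥ := by_contra fun e => by
    obtain ⟨r, hr, hd⟩ := Nat.exists_prime_and_dvd (mt card_eq_one.1 e)
    obtain ⟨x, hx, xo⟩ := exists_orderOf_eq_prime hr hd
    obtain ⟨R, hR, xR⟩ := exists_sylowIn_ge (piGrp_zpowers.2 ((piElt_of_orderOf_prime hr xo).2 rfl)) (zpowers_le.2 (OH hx.1))
    exact hr.one_lt.ne' (xo ▸ orderOf_eq_one_iff.2 (mem_bot.1 (hR.inf_der_inf_cent_of_abelian (abelian_of_cyclic_quo
      (cen.trans (PG.cent_anti hR.le)) (t.cyc hr ((hd.trans (card_dvd_of_le inf_le_left)).trans hO) ((quo_mono O hR.le).trans hP)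
      (hR.piGrp.quo O))) ▸ ⟨⟨xR (mem_zpowers x), hx.2⟩, cen hx.1⟩)))
  have EH : coq ⁅H, H⁆ (piCoreOf {2} (H /ₛ ⁅H, H⁆)) ≤ H := coq_le_of_le_quo hD.1 (piCoreOf_le _ _)
  refine ⟨_, le_antisymm (sup_le OH EH) fun x hx => ?_, EH.trans hN, eq_bot_iff.2 fun x hx =>
    h1 ▸ ⟨hx.1, (qel_eq_one_iff (hD.2 (OH hx.1))).1 (((piCoreOf_piGrp _ _).piElt (mem_coq.1 hx.2).2).eq_one
      ((odd_elt_iff.1 (odd_of_mem oo hx.1)).pel _))⟩⟩
  rw [← constt_mul_compl {2} x]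
  refine mul_mem (mem_sup_right (mem_coq.2 ⟨hD.2 (constt_mem _ hx), (mem_piCoreOf_of_nilpotent (nilpotent_of_abelian
    (abelian_quo_der H)) (qel_mem_quo _ (constt_mem _ hx))).2 ((constt_piElt _ x).pel _)⟩)) (sup_le_sup_left (le_coq _) O ?_)
  obtain ⟨a, a0, a1⟩ := Sp.exists_sq_ne_one_of_four_le (F := F) (by
    obtain ⟨k, hk⟩ := h.card_Z
    have := Nat.le_of_dvd t.mo.pos hO
    have := (O.one_lt_card_iff_ne_bot).2 O1
    have := t.hn
    have : 2 * 3 ≤ n := t.nm ▸ Nat.mul_le_mul (by rw [hk, pow_succ']; exact Nat.le_mul_of_pos_right _ (by positivity))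
      (by obtain ⟨l, hl⟩ := t.mo; omega)
    rw [Nat.card_eq_fintype_card]; omega)
  have hL : h.L ≤ ⁅H, H⁆ /ₛ O := by
    rw [quo_der hN, QT.L, MonoidHom.range_eq_map, ← Matrix.SL2.commutator_eq_top a0 a1, _root_.commutator, map_commutator,
      ← MonoidHom.range_eq_map]
    exact commutator_mono h.LX h.LX
  rw [← coq_quo (hD.1.trans hN)]
  exact mem_coq.2 ⟨hN (constt_mem _ hx), hL (h.odd_mem (hP (qel_mem_quo O (constt_mem _ hx)))
    (odd_elt_iff.2 ((constt_piElt _ x).pel _)))⟩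

theorem ident {H O : Subgroup G} {Z : Subgroup (Quo O)} {h : QT F (H /ₛ O) Z} {s d : Quo O} (t : h.Tor s d τ σ n m)
    (hP : H /ₛ O ≤ h.P) (OH : O ≤ H) (cen : O ≤ 𝐂(H)) (cyc : IsCyclic O) (hO : Nat.card O ∣ m) : IsGLQ H ∨ IsGUQ H := by
  obtain ⟨E, sd⟩ := t.split hP OH cen hO
  have EH : E ≤ H := sd.right_le
  obtain ⟨e⟩ := sd.nonempty_equiv_quo
  obtain ⟨o, ho⟩ := IsCyclic.exists_generator (α := O)
  have a1 : ∀ x : H, (⟨o, OH o.2⟩ : H) * x = x * ⟨o, OH o.2⟩ := fun x => Subtype.ext (cen o.2 x x.2).symm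
  have a2 : (⟨o, OH o.2⟩ : H) ^ m = 1 := Subtype.ext (congrArg O.subtype (orderOf_dvd_iff_pow_eq_one.1
    ((orderOf_dvd_natCard o).trans hO)))
  have a3 : ∀ x : H, ∃ y, ∃ k : ℤ, x = (inclusion EH).comp e.symm.toMonoidHom y * ⟨o, OH o.2⟩ ^ k := fun x => by
    obtain ⟨a, ha, b, hb, e1⟩ := (mem_sup_of_norm (.inr sd.2.1)).1 ((sup_comm O E ▸ sd.1).ge x.2)
    obtain ⟨k, hk⟩ := ho ⟨b, hb⟩
    exact ⟨e ⟨a, ha⟩, k, Subtype.ext (by simpa [← e1] using (congrArg Subtype.val hk).symm)⟩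
  have a4 : ∀ y (k : ℤ), (inclusion EH).comp e.symm.toMonoidHom y * ⟨o, OH o.2⟩ ^ k = 1 → y = 1 := fun y k e1 =>
    e.symm.map_eq_one_iff.1 (Subtype.ext (mem_bot.1 (sd.2.2 ▸ ⟨by
      rw [show (e.symm y : G) = _ from eq_inv_of_mul_eq_one_left (congrArg Subtype.val e1)]
      exact O.inv_mem (zpow_mem o.2 k), (e.symm y).2⟩)))
  exact t.hn.imp (t.glq hP _ a1 a2 a3 a4) (t.guq hP _ a1 a2 a3 a4)

end QT.Tor

end CA.ABG
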