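/-
Alperin–Brauer–Gorenstein, character theory: construction of the setting `PS`.
-/
import Cfsg.Agent.Lib.ABG.PS
import Cfsg.Agent.Lib.ABG.HGU
import Cfsg.Agent.Lib.ABG.SylG
import Cfsg.Agent.Lib.ABG.Id

set_option autoImplicit false
set_option linter.unusedSectionVars false

namespace CA.ABG

open Cfsg Subgroup CA CA.FStar CA.GW CA.Ch

section
variable {G : Type*} [Group G] [Finite G] {S X O : Subgroup G} {t x y c : G}

/-- 2-elements congruent modulo a normal subgroup of odd order are conjugate -/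
theorem conj2 (hO : Odd (Nat.card O)) (hx : x ∈ 𝐍(O)) (x2 : PiElt {2} x) (y2 : PiElt {2} y) (h : x * y⁻¹ ∈ O) :
    ∃ o ∈ O, o * x * o⁻¹ = y := by
  have hn : zpowers x ≤ 𝐍(O) := zpowers_le.2 hx
  have hN : O ⊔ zpowers x ≤ 𝐍(O) := sup_le le_normalizer hn
  have hy : y ∈ O ⊔ zpowers x := by
    simpa using mul_mem (mem_sup_left (inv_mem h)) (mem_sup_right (mem_zpowers x) : x ∈ O ⊔ zpowers x)
  obtain ⟨P, hP, yP⟩ := exists_sylowIn_ge (piGrp_zpowers.2 y2) (zpowers_le.2 hy)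
  obtain ⟨g, hg, e⟩ := hP.exists_conj_mem (mem_sup_right (mem_zpowers x)) x2
  obtain ⟨o, ho, _, ⟨k, rfl⟩, rfl⟩ := (mem_sup_of_norm (.inl hn)).1 hg
  have e1 : o * x ^ k * x * (o * x ^ k)⁻¹ = o * x * o⁻¹ := by group
  refine ⟨o, ho, mul_inv_eq_one.1 ((hP.piGrp.piElt (mul_mem (e1 ▸ e) (inv_mem (yP (mem_zpowers y))))).eq_one
    ((odd_iff.1 hO).piElt ?_))⟩
  have := mul_mem (mul_mem ho (conj_mem_of_mem_normalizer hx (inv_mem ho))) h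
  rwa [show o * (x * o⁻¹ * x⁻¹) * (x * y⁻¹) = o * x * o⁻¹ * y⁻¹ by group] at this

theorem card_cls (O : Subgroup G) (x : G) : Nat.card {y // ∃ o ∈ O, o * x * o⁻¹ = y} = (𝐂[x]).relIndex O := by
  letI := MulAction.compHom G ((MulAut.conj (G := G)).comp O.subtype)
  have : MulAction.stabilizer O x = (𝐂[x]).subgroupOf O := by
    ext o; rw [mem_subgroupOf, mem_cent1_iff, ← mul_inv_eq_iff_eq_mul]; rfl
  rw [relIndex, ← this, MulAction.index_stabilizer, ← Nat.card_coe_set_eq]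
  exact Nat.card_congr (Equiv.subtypeEquivRight fun y => ⟨fun ⟨o, ho, e⟩ => ⟨⟨o, ho⟩, e⟩, fun ⟨o, e⟩ => ⟨o, o.2, e⟩⟩)

theorem SW.cent_odd (w : SW S t) (hS : SylowIn 2 S X) (hX : X ≤ 𝐂[t]) (hc : c ∈ X) (hn : c ∈ 𝐍(S))
    (ho : Odd (orderOf c)) : c ∈ 𝐂(S) := by
  have hA : w.A = S ⊓ 𝐂(⁅S, S⁆) := by
    have h1 : ⁅S, S⁆ ≤ w.A := commutator_le.2 fun a ha b hb =>
      comm_mem_idx ⟨w.le, w.norm⟩ w.idx ha hb
    refine le_antisymm (le_inf w.le fun a ha => mem_cent_iff.2 fun b hb => w.ab _ (h1 hb) _ ha) fun s hs => by_contra fun e => ?_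
    have h2 : w.d ∈ ⁅S, S⁆ := by
      have := commutator_mem_commutator (inv_mem (w.le w.xA)) w.yS
      rwa [commutatorElement_def, inv_inv, mul_assoc, mul_assoc, ← mul_assoc w.y, w.hd] at this
    have h3 := w.cj_out hs.1 e w.dA
    rw [← mem_cent_iff.1 hs.2 _ h2, mul_inv_cancel_right, w.yd] at h3
    exact w.dd_ne (by nth_rw 1 [h3]; exact inv_mul_cancel _)
  have zS : zpowers c ≤ 𝐍(S) := zpowers_le.2 hn
  have nA : zpowers c ≤ 𝐍(w.A) := hA ▸ norms_inf zS (norms_cent (norms_commutator zS zS))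
  have cA := w.odd_cent hS hX (w.two.of_le w.le) w.abelian (w.le.trans hS.le) (zpowers_le.2 hc) nA
    (by rwa [Nat.card_zpowers])
  have h4 := conj_mem_of_mem_normalizer hn w.yS
  obtain ⟨a, ha, e⟩ := w.out h4 fun e => w.yA (by
    simpa [mul_assoc] using conj_mem_of_mem_normalizer (inv_mem (nA (mem_zpowers c))) e)
  have ca := mem_cent_iff.1 (cA (mem_zpowers c))
  have k : ∀ n : ℕ, c ^ n * w.y * (c ^ n)⁻¹ = a ^ n * w.y := fun n => by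
    induction n with
    | zero => simp
    | succ n ih =>
      calc _ = c * (c ^ n * w.y * (c ^ n)⁻¹) * c⁻¹ := by group
        _ = c * a ^ n * c⁻¹ * (c * w.y * c⁻¹) := by rw [ih]; group
        _ = _ := by rw [← ca _ (pow_mem ha n), e]; group
  have a1 : a = 1 := (w.two.piElt (w.le ha)).eq_one (odd_elt_iff.1 (ho.of_dvd_nat (orderOf_dvd_of_pow_eq_one (by
    simpa [pow_orderOf_eq_one] using (k (orderOf c)).symm))))
  rw [a1, one_mul, mul_inv_eq_iff_eq_mul] at e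
  refine mem_cent_iff.2 fun s hs => ?_
  by_cases h : s ∈ w.A
  · exact ca s h
  · obtain ⟨b, hb, rfl⟩ := w.out hs h
    rw [mul_assoc, ← e, ← mul_assoc, ca b hb, mul_assoc]

/-- `X = N C_X(S)` for `N` normal of odd index -/
theorem SW.cover (w : SW S t) (hS : SylowIn 2 S X) (hX : X ≤ 𝐂[t]) {N : Subgroup G} (hN : N ⊴ X)
    (h2 : ∀ x ∈ X, PiElt {2} x → x ∈ N) (hx : x ∈ X) : ∃ c ∈ X, x * c⁻¹ ∈ N ∧ c ∈ 𝐂(S) := by
  have SN : S ≤ N := fun s hs => h2 s (hS.le hs) (w.two.piElt hs)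
  obtain ⟨n, hn, g, hg, rfl⟩ := frattini_exists_mul hN (hS.of_le SN hN.1) x hx
  refine ⟨constt {2}ᶜ g, constt_mem _ hg.1, ?_, w.cent_odd hS hX (constt_mem _ hg.1) (constt_mem _ hg.2)
    (odd_elt_iff.2 (constt_piElt _ _))⟩
  nth_rw 1 [← constt_mul_compl {2} g]
  rw [← mul_assoc, mul_inv_cancel_right]
  exact mul_mem hn (h2 _ (constt_mem _ hg.1) (constt_piElt _ _))

end

namespace QT
open scoped MatrixGroups
variable {G : Type*} [Group G] [Finite G] {X Z : Subgroup G} {F : Type} [Field F] [Fintype F] (h : QT F X Z) {x d : G}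

theorem pel_res (hx : x ∈ h.P) : pel (h.Φ.comp (inclusion h.PX)) x = pel h.Φ x := by
  rw [pel_of_mem _ hx, pel_of_mem _ (h.PX hx)]; rfl

theorem res_P : pcomap (h.Φ.comp (inclusion h.PX)) (Ph F) = h.P :=
  le_antisymm (pcomap_le_dom _ _) fun _ hx => mem_pcomap.2 ⟨hx, h.pel_res hx ▸ h.mP hx⟩

/-- the restriction to `P` -/
noncomputable def res : QT F h.P Z where
  ι := h.ι
  Φ := h.Φ.comp (inclusion h.PX)
  odd := h.odd
  inj := h.inj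
  mem g := h.LP ⟨g, rfl⟩
  act x hx g := h.pel_res hx ▸ h.act x (h.PX hx) g
  sem x hx := h.pel_res hx ▸ h.sem x (h.PX hx)
  ker := by
    ext x
    rw [mem_pker]
    exact ⟨fun ⟨a, b⟩ => (h.φ1 (h.PX a)).1 (h.pel_res a ▸ b), fun e => ⟨h.ZP e, h.pel_res (h.ZP e) ▸ (h.φ1 (h.ZX e)).2 e⟩⟩
  cen := h.cen.trans (PG.cent_anti h.PX)
  two := h.two
  oddi := by rw [h.res_P, relIndex_self]; exact odd_one

theorem ident_P (hd : Gen X Z d) : IsGLQ h.P ∨ IsGUQ h.P := by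
  obtain ⟨i, hZ, -⟩ := h.gen_half hd
  obtain ⟨d', τ, σ, n, m, t⟩ := h.res.tor ⟨h.gen_P hd, hd.ord, hd.dz⟩ (pow_mem (h.gen_P hd) _) i hZ
  have a3 : ∀ x : h.P, ∃ y, ∃ k : ℤ, x = MonoidHom.id h.P y * 1 ^ k := fun x => ⟨x, 0, by simp⟩
  have a4 : ∀ y (k : ℤ), MonoidHom.id h.P y * 1 ^ k = 1 → y = 1 := fun y k e => by simpa using e
  exact t.hn.imp (t.glq h.res_P.ge _ (by simp) (one_pow m) a3 a4) (t.guq h.res_P.ge _ (by simp) (one_pow m) a3 a4)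

end QT

/-- the setting without the fusion in `G` -/
structure PB (G : Type*) [Group G] (E : Type*) [Group E] where
  S : HA E
  τ : G
  s : G
  V : Subgroup G
  H1 : Subgroup G
  O : Subgroup G
  f : H1 →* E
  top : S.H = ⊤
  surj : Function.Surjective f
  ker : pker f = O
  O_odd : Odd (Nat.card O)
  O_norm : 𝐂[τ] ≤ 𝐍(O)
  H1_le : H1 ≤ 𝐂[τ]
  two : ∀ x ∈ 𝐂[τ], PiElt {2} x → x ∈ H1
  four : Four V
  τV : τ ∈ V
  sV : s ∈ V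
  fτ : pel f τ = S.t
  fs : pel f s = S.u
  tc : ∀ c ∈ 𝐂(V), ∀ x ∈ 𝐂(V), PiElt {2} x → pel f (c * x * c⁻¹) = pel f x
  Z2 : ∀ z ∈ S.Z, PiElt {2} z
  comm : ∀ a ∈ 𝐂[τ], ∀ b ∈ 𝐂[τ], a * b * a⁻¹ * b⁻¹ ∈ H1
  idx : Odd (H1.relIndex 𝐂[τ])
  cover : ∀ h ∈ 𝐂[τ], ∃ c ∈ 𝐂[τ], h * c⁻¹ ∈ H1 ∧ Odd ((𝐂[c]).relIndex 𝐂[τ])

namespace PB
variable {G E : Type*} [Group G] [Group E] [Finite G] [Finite E] (B : PB G E) {x y n : G}

theorem O_le : B.O ≤ B.H1 := B.ker ▸ pker_le_dom _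
theorem τ1 : B.τ ≠ 1 := fun e => B.S.t_ne (by rw [← B.fτ, e, pel_one])
theorem s1 : B.s ≠ 1 := fun e => B.S.u_ne (by rw [← B.fs, e, pel_one])
theorem τs : B.τ ≠ B.s := fun e => B.S.t_ne_u (by rw [← B.fτ, e, B.fs])
theorem τ2 : Inv2 B.τ := B.four.inv2 B.τV B.τ1
theorem s2 : Inv2 B.s := B.four.inv2 B.sV B.s1
theorem C_le : 𝐂(B.V) ≤ 𝐂[B.τ] := fun _ h => mem_cent1_iff.2 (mem_cent_iff'.1 h _ B.τV)
theorem C_two (hx : x ∈ 𝐂(B.V)) (x2 : PiElt {2} x) : x ∈ B.H1 := B.two x (B.C_le hx) x2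
theorem V_le : B.V ≤ B.H1 := fun _ h => B.C_two (B.four.le_cent h) (B.four.piGrp.piElt h)
theorem mem_C (h1 : x ∈ 𝐂[B.τ]) (h2 : x * B.s = B.s * x) : x ∈ 𝐂(B.V) :=
  mem_cent_iff_le_cent1.2 (B.four.le_of B.τV B.sV B.τ1 B.s1 B.τs (mem_cent1_comm.1 h1) (mem_cent1_iff.2 h2.symm))
theorem mem_O (hx : x ∈ B.H1) (hy : y ∈ B.H1) (e : pel B.f x = pel B.f y) : x * y⁻¹ ∈ B.O :=
  B.ker ▸ mem_pker.2 ⟨mul_mem hx (inv_mem hy), by rw [pel_mul _ hx (inv_mem hy), pel_inv _ hy, e, mul_inv_cancel]⟩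
theorem f_O (hx : x ∈ B.O) : pel B.f x = 1 := (mem_pker.1 (B.ker ▸ hx)).2
theorem conj (hx : x ∈ B.H1) (hy : y ∈ B.H1) (x2 : PiElt {2} x) (y2 : PiElt {2} y) (e : pel B.f x = pel B.f y) :
    ∃ o ∈ B.O, o * x * o⁻¹ = y := conj2 B.O_odd (B.O_norm (B.H1_le hx)) x2 y2 (B.mem_O hx hy e)

theorem lift_conj {a : E} (hy : y ∈ B.V) (e : a * B.S.u * a⁻¹ = pel B.f y) :
    ∃ x ∈ B.H1, pel B.f x = a ∧ x * B.s * x⁻¹ = y := by
  obtain ⟨⟨x, hx⟩, rfl⟩ := B.surj a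
  have hs := B.V_le B.sV
  obtain ⟨o, ho, e1⟩ := B.conj (mul_mem (mul_mem hx hs) (inv_mem hx)) (B.V_le hy) (piElt_conj.2 B.s2.piElt)
    (B.four.piGrp.piElt hy) (by rw [pel_conj _ hx hs, B.fs, pel_of_mem _ hx, e])
  exact ⟨o * x, mul_mem (B.O_le ho) hx, by rw [pel_mul _ (B.O_le ho) hx, B.f_O ho, one_mul, pel_of_mem _ hx],
    by rw [← e1]; group⟩

theorem mem_T (hx : x ∈ B.H1) (h : x ∈ 𝐂(B.V)) : pel B.f x ∈ B.S.T := by
  have k : ∀ v ∈ B.V, pel B.f x * pel B.f v = pel B.f v * pel B.f x := fun v hv => by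
    rw [← pel_mul _ hx (B.V_le hv), ← pel_mul _ (B.V_le hv) hx, mem_cent_iff.1 h v hv]
  exact B.S.mem_T.2 ⟨B.fτ ▸ k _ B.τV, B.fs ▸ k _ B.sV⟩

theorem lift_T {a : E} (ha : a ∈ B.S.T) : ∃ x ∈ B.H1, x ∈ 𝐂(B.V) ∧ pel B.f x = a := by
  obtain ⟨x, hx, e1, e2⟩ := B.lift_conj B.sV (a := a) (by rw [B.fs, (B.S.mem_T.1 ha).2, mul_inv_cancel_right])
  exact ⟨x, hx, B.mem_C (B.H1_le hx) (mul_inv_eq_iff_eq_mul.1 e2), e1⟩

theorem lift {A : Subgroup G} (hA : SylowIn 2 A 𝐂(B.V)) {a : E} (ha : a ∈ B.S.T) (a2 : PiElt {2} a) :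
    ∃ x ∈ A, pel B.f x = a := by
  obtain ⟨x, hx, hc, e1⟩ := B.lift_T ha
  obtain ⟨c, h1, h2⟩ := hA.exists_conj_mem (constt_mem {2} hc) (constt_piElt _ _)
  exact ⟨_, h2, by rw [B.tc c h1 _ (constt_mem _ hc) (constt_piElt _ _), pel_constt _ _ hx, e1, constt_eq_self a2]⟩

theorem cj_C (hn : n ∈ 𝐍(B.V)) (hx : x ∈ 𝐂(B.V)) : n * x * n⁻¹ ∈ 𝐂(B.V) :=
  conj_mem_of_mem_normalizer (normalizer_le_normalizer_centralizer _ hn) hx

theorem wd (hn : n ∈ 𝐍(B.V)) (hx : x ∈ 𝐂(B.V)) (hy : y ∈ 𝐂(B.V)) (x2 : PiElt {2} x) (y2 : PiElt {2} y)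
    (e : pel B.f x = pel B.f y) : pel B.f (n * x * n⁻¹) = pel B.f (n * y * n⁻¹) := by
  obtain ⟨o, ho, rfl⟩ := conj2 (O := B.O ⊓ 𝐂(B.V)) (B.O_odd.of_dvd_nat (card_dvd_of_le inf_le_left))
    (norms_inf (B.C_le.trans B.O_norm) le_normalizer hx) x2 y2
    (mem_inf.2 ⟨B.mem_O (B.C_two hx x2) (B.C_two hy y2) e, mul_mem hx (inv_mem hy)⟩)
  rw [← B.tc _ (B.cj_C hn ho.2) _ (B.cj_C hn hx) (piElt_conj.2 x2)]
  congr 1; group

theorem ext_T {K : Type*} [Group K] {φ ψ : B.S.T →* K} (h1 : ∀ a : B.S.T, PiElt {2}ᶜ a → φ a = ψ a)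
    (h2 : ∀ x ∈ 𝐂(B.V), PiElt {2} x → ∀ a : B.S.T, pel B.f x = a → φ a = ψ a) : φ = ψ := MonoidHom.ext fun a => by
  obtain ⟨A, hA⟩ := exists_sylowIn 2 𝐂(B.V)
  obtain ⟨x, hx, e⟩ := B.lift hA (constt {2} a).2 ((constt_piElt _ _).map B.S.T.subtype)
  rw [← constt_mul_compl {2} a, map_mul, map_mul, h1 _ (constt_piElt _ _), h2 x (hA.le hx) (hA.piGrp.piElt hx) _ e]

theorem exists_act (hn : n ∈ 𝐍(B.V)) : ∃ r : B.S.T →* B.S.T, (∀ a, PiElt {2}ᶜ a → r a = a) ∧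
    ∀ x ∈ 𝐂(B.V), PiElt {2} x → ∀ a : B.S.T, pel B.f x = a → pel B.f (n * x * n⁻¹) = r a := by
  obtain ⟨A, hA⟩ := exists_sylowIn 2 𝐂(B.V)
  choose L h1 h2 using fun a : B.S.T => B.lift hA (constt {2} a).2 ((constt_piElt _ _).map B.S.T.subtype)
  have c := fun a => hA.le (h1 a)
  have p := fun a => hA.piGrp.piElt (h1 a)
  have m := fun a => B.C_two (B.cj_C hn (c a)) (piElt_conj.2 (p a))
  refine ⟨MonoidHom.mk' (fun a => ⟨_, B.mem_T (m a) (B.cj_C hn (c a))⟩ * constt {2}ᶜ a) fun a b => ?_, fun a ha => ?_,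
    fun x hx x2 a e => ?_⟩
  · have cm : ∀ a b : B.S.T, a * b = b * a := fun a b => Subtype.ext (abelian_iff'.1 B.S.commT _ a.2 _ b.2)
    rw [Commute.mul_mul_mul_comm (cm _ _), ← constt_mul _ (cm a b)]
    congr 1
    refine Subtype.ext ?_
    rw [coe_mul, ← pel_mul _ (m a) (m b), conj_mul]
    refine B.wd hn (c _) (mul_mem (c a) (c b)) (p _) (hA.piGrp.piElt (mul_mem (h1 a) (h1 b))) ?_
    rw [pel_mul _ (B.C_two (c a) (p a)) (B.C_two (c b) (p b)), h2, h2, h2, constt_mul _ (cm a b), coe_mul]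
  · rw [MonoidHom.mk'_apply, constt_eq_self ha, mul_eq_right]
    refine Subtype.ext ((B.wd hn (c a) (one_mem _) (p a) (piElt_one _) ?_).trans (by simp [pel_one]))
    rw [h2, constt_eq_one ha, pel_one]; rfl
  · have a2 : PiElt {2} a := piElt_coe.1 (e ▸ x2.pel _)
    rw [MonoidHom.mk'_apply, constt_eq_one (π := {2}ᶜ) (by rwa [compl_compl]), mul_one]
    exact B.wd hn hx (c a) x2 (p a) (by rw [h2, constt_eq_self a2, e])

theorem exists_w : ∃ w ∈ B.H1, w ∈ 𝐍(B.V) ∧ pel B.f w = B.S.w ∧ w * B.s * w⁻¹ = B.τ * B.s := by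
  obtain ⟨w, hw, e1, e2⟩ := B.lift_conj (mul_mem B.τV B.sV) (a := B.S.w) (by
    rw [B.S.wu, pel_mul _ (B.V_le B.τV) (B.V_le B.sV), B.fτ, B.fs])
  refine ⟨w, hw, B.four.norm_of B.τV B.sV B.τ1 B.s1 B.τs ?_ (e2 ▸ mul_mem B.τV B.sV), e1, e2⟩
  rw [mem_cent1_iff.1 (B.H1_le hw), mul_inv_cancel_right]; exact B.τV

theorem exists_ra {ρ : G} (hn : ρ ∈ 𝐍(B.V)) (h1 : ρ * B.τ * ρ⁻¹ = B.s) (h2 : ρ * B.s * ρ⁻¹ = B.τ * B.s) :
    ∃ R : RA E, R.toHA = B.S ∧ ∀ x ∈ 𝐂(B.V), PiElt {2} x → ∀ a : R.T, pel B.f x = a → pel B.f (ρ * x * ρ⁻¹) = R.r a := by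
  obtain ⟨r, r1, r2⟩ := B.exists_act hn
  obtain ⟨w, hw, wn, w1, w2⟩ := B.exists_w
  have wt : w * B.τ * w⁻¹ = B.τ := by rw [mem_cent1_iff.1 (B.H1_le hw), mul_inv_cancel_right]
  have c := B.four.comm B.τV B.sV
  have h3 : ρ * (B.τ * B.s) * ρ⁻¹ = B.τ := by rw [← conj_mul, h1, h2, c, ← mul_assoc, B.s2.sq, one_mul]
  have s2 : ∀ x ∈ 𝐂(B.V), PiElt {2} x → ∀ a : B.S.T, pel B.f x = a → pel B.f (w * x * w⁻¹) = B.S.s a :=
    fun x hx x2 a e => by rw [pel_conj _ hw (B.C_two hx x2), w1, e, HA.s_coe]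
  have key : ∀ c : G, c * B.τ * c⁻¹ = B.τ → c * B.s * c⁻¹ = B.s → c ∈ 𝐂(B.V) := fun c a b =>
    B.mem_C (mem_cent1_iff.2 (mul_inv_eq_iff_eq_mul.1 a)) (mul_inv_eq_iff_eq_mul.1 b)
  have k3 := key (ρ * ρ * ρ)
    (by rw [show ρ * ρ * ρ * B.τ * (ρ * ρ * ρ)⁻¹ = ρ * (ρ * (ρ * B.τ * ρ⁻¹) * ρ⁻¹) * ρ⁻¹ by group, h1, h2, h3])
    (by rw [show ρ * ρ * ρ * B.s * (ρ * ρ * ρ)⁻¹ = ρ * (ρ * (ρ * B.s * ρ⁻¹) * ρ⁻¹) * ρ⁻¹ by group, h2, h3, h1])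
  have w3 : w * (B.τ * B.s) * w⁻¹ = B.s := by rw [← conj_mul, wt, w2, ← mul_assoc, B.τ2.sq, one_mul]
  have k2 := key (w * ρ * w * ρ)
    (by rw [show w * ρ * w * ρ * B.τ * (w * ρ * w * ρ)⁻¹ = w * (ρ * (w * (ρ * B.τ * ρ⁻¹) * w⁻¹) * ρ⁻¹) * w⁻¹ by group,
      h1, w2, h3, wt])
    (by rw [show w * ρ * w * ρ * B.s * (w * ρ * w * ρ)⁻¹ = w * (ρ * (w * (ρ * B.s * ρ⁻¹) * w⁻¹) * ρ⁻¹) * w⁻¹ by group,
      h2, w3, h2, w3])
  have e3 : r.comp (r.comp r) = MonoidHom.id _ := B.ext_T (fun a ha => by simp [r1 a ha]) fun x hx x2 a e => by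
    have a1 := r2 x hx x2 a e
    have a2 := r2 _ (B.cj_C hn hx) (piElt_conj.2 x2) _ a1
    have a3 := r2 _ (B.cj_C hn (B.cj_C hn hx)) (piElt_conj.2 (piElt_conj.2 x2)) _ a2
    refine Subtype.ext (a3.symm.trans (Eq.trans ?_ ((B.tc _ k3 x hx x2).trans e)))
    congr 1; group
  have e2 : B.S.s.comp (r.comp (B.S.s.comp r)) = MonoidHom.id _ := B.ext_T (fun a ha => by
      simp only [MonoidHom.comp_apply, r1 a ha, r1 _ (ha.map B.S.s), MonoidHom.id_apply]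
      exact Subtype.ext (by simp only [HA.s_coe, B.S.w_inv, ← mul_assoc, B.S.ww', one_mul]; rw [mul_assoc, B.S.ww', mul_one]))
    fun x hx x2 a e => by
    have a1 := r2 x hx x2 a e
    have a2 := s2 _ (B.cj_C hn hx) (piElt_conj.2 x2) _ a1
    have a3 := r2 _ (B.cj_C wn (B.cj_C hn hx)) (piElt_conj.2 (piElt_conj.2 x2)) _ a2
    have a4 := s2 _ (B.cj_C hn (B.cj_C wn (B.cj_C hn hx))) (piElt_conj.2 (piElt_conj.2 (piElt_conj.2 x2))) _ a3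
    refine Subtype.ext (a4.symm.trans (Eq.trans ?_ ((B.tc _ k2 x hx x2).trans e)))
    congr 1; group
  refine ⟨⟨B.S, B.Z2, r, fun x => DFunLike.congr_fun e3 x, fun x => DFunLike.congr_fun e2 x, Subtype.ext ?_,
    Subtype.ext ?_⟩, rfl, r2⟩
  · rw [← r2 _ (B.four.le_cent B.τV) B.τ2.piElt _ B.fτ, h1, B.fs]; rfl
  · rw [← r2 _ (B.four.le_cent B.sV) B.s2.piElt _ B.fs, h2, pel_mul _ (B.V_le B.τV) (B.V_le B.sV), B.fτ, B.fs]; rfl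

/-- the setting -/
theorem exists_ps {M : Subgroup G} (h : QDT M) (hM : 𝐂[B.τ] ≤ M) (one : ∀ i, Inv2 i → IsConj B.τ i) :
    ∃ P : PS G E, P.S.toHA = B.S ∧ P.τ = B.τ ∧ P.O = B.O ∧ P.H1 = B.H1 ∧ (∀ x : P.H1, (P.π x : E) = pel B.f x) ∧
      ∀ (x y : P.H1) (a : P.S.T), PiElt {2} x → PiElt {2} y → (P.π x : E) = a → (P.π y : E) = P.S.r a →
        ∃ g ∈ M, g * x * g⁻¹ = y := by
  obtain ⟨ρ, hρ, h1, h2, -⟩ := h.rot3 B.four (B.V_le.trans (B.H1_le.trans hM)) B.τV B.sV B.τ1 B.s1 B.τs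
  obtain ⟨R, e, r⟩ := B.exists_ra hρ.2 h1 h2
  have m : ∀ a, a ∈ R.H := fun a => by rw [e, B.top]; exact mem_top a
  have fus : ∀ (x y : B.H1) (a : R.T), PiElt {2} x → PiElt {2} y → B.f x = a → B.f y = R.r a →
      ∃ g ∈ M, g * x * g⁻¹ = y := fun x y a x2 y2 e1 e2 => by
    obtain ⟨A, hA⟩ := exists_sylowIn 2 𝐂(B.V)
    obtain ⟨z, hz, e3⟩ := B.lift hA (e ▸ a.2) (e1 ▸ x2.map B.f)
    have z1 := hA.le hz
    have z2 := hA.piGrp.piElt hz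
    obtain ⟨o, ho, e4⟩ := B.conj x.2 (B.C_two z1 z2) (piElt_coe.2 x2) z2 (by rw [pel_coe, e1, e3])
    obtain ⟨o', ho', e5⟩ := B.conj (B.C_two (B.cj_C hρ.2 z1) (piElt_conj.2 z2)) y.2 (piElt_conj.2 z2) (piElt_coe.2 y2)
      (by rw [pel_coe, e2, r z z1 z2 a e3])
    have k := B.O_le.trans (B.H1_le.trans hM)
    exact ⟨o' * ρ * o, mul_mem (mul_mem (k ho') hρ.1) (k ho), by rw [← e5, ← e4]; group⟩
  refine ⟨⟨R, B.τ, B.H1, B.O, B.f.codRestrict _ fun _ => m _, fun a => ?_, fun x => ?_, B.O_le, B.O_odd,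
    fun h hh x hx => conj_mem_of_mem_normalizer (B.O_norm hh) hx, B.H1_le, B.comm, B.idx, B.cover, B.V_le B.τV, ?_,
    B.τ2.sq, fun i a b => one i ⟨a, b⟩, fun x y a x2 y2 e1 e2 => ?_⟩, e, rfl, rfl, rfl, fun x => (pel_coe _ x).symm, fus⟩
  · obtain ⟨x, hx⟩ := B.surj a
    exact ⟨x, Subtype.ext hx⟩
  · rw [← B.ker, mem_pker, pel_coe, Subtype.ext_iff]
    exact ⟨fun e => ⟨x.2, e⟩, fun e => e.2⟩
  · show B.f _ = R.toHA.t
    rw [e, ← B.fτ, pel_of_mem _ (B.V_le B.τV)]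
  · obtain ⟨g, -, e⟩ := fus x y a x2 y2 e1 e2
    exact isConj_iff.2 ⟨g, e⟩

end PB

namespace PS
variable {G E : Type*} [Group G] [Group E] [Finite G] [Finite E] (P : PS G E) {M : Subgroup G} (hM : 𝐂[P.τ] ≤ M)

theorem τM (hM : 𝐂[P.τ] ≤ M) : P.τ ∈ M := hM (mem_cent1_iff.2 rfl)

theorem cent_sub {x : M} : (𝐂[x] : Subgroup M) = (𝐂[(x : G)]).subgroupOf M := by
  ext y; rw [mem_subgroupOf, mem_cent1_iff, mem_cent1_iff, Subtype.ext_iff]; rfl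

/-- restriction to a subgroup containing the centralizer -/
noncomputable def sub (one : ∀ i ∈ M, Inv2 i → ∃ g ∈ M, g * P.τ * g⁻¹ = i)
    (fus : ∀ (x y : P.H1) (a : P.S.T), PiElt {2} x → PiElt {2} y → (P.π x : E) = a → (P.π y : E) = P.S.r a →
      ∃ g ∈ M, g * x * g⁻¹ = y) : PS M E where
  S := P.S
  τ := ⟨P.τ, P.τM hM⟩
  H1 := P.H1.subgroupOf M
  O := P.O.subgroupOf M
  π := P.π.comp (subgroupOfEquivOfLe (P.H1_le.trans hM)).toMonoidHom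
  surj := P.surj.comp (subgroupOfEquivOfLe (P.H1_le.trans hM)).surjective
  ker x := P.ker _
  O_le := comap_mono P.O_le
  O_odd := by rw [Nat.card_congr (subgroupOfEquivOfLe (P.O_le.trans (P.H1_le.trans hM))).toEquiv]; exact P.O_odd
  O_norm h hh x hx := P.O_norm h (by rwa [cent_sub] at hh) x hx
  H1_le := by rw [cent_sub]; exact comap_mono P.H1_le
  comm a ha b hb := P.comm a (by rwa [cent_sub] at ha) b (by rwa [cent_sub] at hb)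
  idx := by rw [cent_sub, relIndex_subgroupOf hM]; exact P.idx
  cover h hh := by
    rw [cent_sub] at hh
    obtain ⟨c, hc, h1, h2⟩ := P.cover h hh
    exact ⟨⟨c, hM hc⟩, by rwa [cent_sub], h1, by rwa [cent_sub, cent_sub, relIndex_subgroupOf hM]⟩
  τH := P.τH
  πτ := P.πτ
  ττ := Subtype.ext P.ττ
  inv_conj i a b := by
    obtain ⟨g, hg, e⟩ := one i i.2 ⟨congrArg Subtype.val a, fun e => b (Subtype.ext e)⟩
    exact isConj_iff.2 ⟨⟨g, hg⟩, Subtype.ext e⟩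
  fus x y a x2 y2 e1 e2 := by
    obtain ⟨g, hg, e⟩ := fus _ _ a (x2.map (subgroupOfEquivOfLe (P.H1_le.trans hM)).toMonoidHom)
      (y2.map (subgroupOfEquivOfLe (P.H1_le.trans hM)).toMonoidHom) e1 e2
    exact isConj_iff.2 ⟨⟨g, hg⟩, Subtype.ext e⟩

theorem sub_k (one fus) : (P.sub hM one fus).k = P.k :=
  Nat.card_congr ((subgroupOfEquivOfLe (P.H1_le.trans hM)).toEquiv.subtypeEquiv fun x => and_congr_left' (by
    rw [MulEquiv.toEquiv_eq_coe, EquivLike.coe_coe, ← map_mul, MulEquiv.map_eq_one_iff]; rfl))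

theorem sub_index (one fus) : (P.sub hM one fus).H.index = P.H.relIndex M := by
  rw [H, cent_sub]; rfl

theorem k_eq' {s : P.H1} (s2 : s * s = 1) (hs : (P.π s : E) = P.S.u) : P.k = (𝐂[(s : G)]).relIndex P.O := by
  have n : ∀ x : P.H1, (x : G) ∈ 𝐍(P.O) := fun x => mem_normalizer_of_cj_le (by
    rintro _ ⟨y, hy, rfl⟩; exact P.O_norm _ (P.H1_le x.2) y hy)
  rw [← card_cls, k]
  refine Nat.card_congr (Equiv.ofBijective (fun x => ⟨x.1, conj2 P.O_odd (n s) (two_of_sq (congrArg Subtype.val s2))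
    (two_of_sq (congrArg Subtype.val x.2.1)) ((P.ker (s * x.1⁻¹)).1 (by
      rw [map_mul, map_inv, mul_inv_eq_one]; exact Subtype.ext (hs.trans x.2.2.symm)))⟩)
    ⟨fun a b e => Subtype.ext (Subtype.ext (by simpa only [Subtype.mk.injEq] using e)), ?_⟩)
  rintro ⟨_, o, ho, rfl⟩
  exact ⟨⟨⟨o, P.O_le ho⟩ * s * (⟨o, P.O_le ho⟩ : P.H1)⁻¹, Inv.conj_mul_self s2 _, by
    rw [map_mul, map_mul, map_inv, (P.ker _).2 ho, one_mul, inv_one, mul_one, hs]⟩, rfl⟩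

end PS

section
variable {G : Type*} [Group G] [Finite G] {M S : Subgroup G} {t : G}

theorem QDT.qe' (h : QDT M) (t2 : Inv2 t) (hM : 𝐂[t] ≤ M) : ∃ (Z : Subgroup (Quo 𝐎(𝐂[t]))) (F : Type) (_ : Field F)
    (_ : Fintype F) (e : QE F (𝐂[t] /ₛ 𝐎(𝐂[t])) Z), e.t = qel _ t := by
  have := h.qe (hM (mem_cent1_iff.2 rfl)) t2
  rwa [inf_eq_right.2 hM] at this

variable {Z : Subgroup (Quo 𝐎(𝐂[t]))} {F : Type} [Field F] [Fintype F] (e : QE F (𝐂[t] /ₛ 𝐎(𝐂[t])) Z)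

theorem exists_pb (h : QDT M) (t2 : Inv2 t) (hM : 𝐂[t] ≤ M) (et : e.t = qel _ t) :
    ∃ B : PB G e.P, B.τ = t ∧ B.O = 𝐎(𝐂[t]) ∧ B.H1 = coq _ e.P ∧ B.S.d = Nat.card Z ∧ B.S.q = Fintype.card F ∧
      ∀ x ∈ B.H1, ((pel B.f x : e.P) : Quo 𝐎(𝐂[t])) = qel _ x := by
  obtain ⟨S, top⟩ := exists_HA (e.ident_P e.gen)
  have n := piCoreOf_norm {2}ᶜ 𝐂[t]
  have oo := odd_core 𝐂[t]
  have tt : t ∈ 𝐂[t] := mem_cent1_iff.2 rfl
  let f := pcomp (MonoidHom.id e.P) (qmk 𝐎(𝐂[t]))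
  have cf : ∀ x ∈ coq _ e.P, ((pel f x : e.P) : Quo 𝐎(𝐂[t])) = qel _ x := fun x hx => by
    rw [pel_pcomp _ _ hx, pel_of_mem _ (mem_coq.1 hx).2]; rfl
  have ker : pker f = 𝐎(𝐂[t]) := by rw [pker_pcomp, pker_id]; exact coq_bot _
  have surj : Function.Surjective f := fun a => by
    obtain ⟨x, hx, e1⟩ := exists_qel a.1
    have h1 : x ∈ coq _ e.P := mem_coq.2 ⟨hx, e1 ▸ a.2⟩
    exact ⟨⟨x, h1⟩, Subtype.ext (by rw [← pel_of_mem, cf x h1, e1])⟩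
  have le : coq _ e.P ≤ 𝐂[t] := coq_le_of_le_quo (piCoreOf_le _ _) e.PX
  have two : ∀ x ∈ 𝐂[t], PiElt {2} x → x ∈ coq _ e.P := fun x hx x2 =>
    mem_coq.2 ⟨n hx, e.two_mem (qel_mem_quo _ hx) (x2.qel _)⟩
  have mH : ∀ a, a ∈ S.H := fun a => top ▸ mem_top a
  have cz : ∀ z : e.P, (∀ a : e.P, z * a = a * z) → (z : Quo 𝐎(𝐂[t])) ∈ Z := fun z hz =>
    e.cent_L.le ⟨e.PX z.2, mem_cent_iff'.2 fun a ha => congrArg Subtype.val (hz ⟨a, e.LP ha⟩)⟩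
  have St : (S.t : Quo 𝐎(𝐂[t])) = qel _ t := et ▸ e.inv_Z e.gen (cz _ fun a => (S.mem_H.1 (mH a)).symm)
    ⟨congrArg Subtype.val S.tt, fun e => S.t_ne (Subtype.ext e)⟩
  have fτ : pel f t = S.t := Subtype.ext (by rw [cf t (two t tt t2.piElt), St])
  obtain ⟨s, hs, s2, fs⟩ := lift_inv (f := f) le_rfl (by rw [ker]; exact odd_iff.1 oo) (u := S.u)
    (by obtain ⟨x, e1⟩ := surj S.u; rw [← e1, ← pel_coe]; exact pel_mem_pmap _ x.2) ⟨S.uu, S.u_ne⟩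
  have ts : t ≠ s := fun e => S.t_ne_u (fτ.symm.trans ((congrArg (pel f) e).trans fs))
  obtain ⟨V, hV, mV⟩ := four_of t2 s2 ts (mem_cent1_iff.1 (le hs)).symm
  have tV : t ∈ V := (mV _).2 (.inr (.inl rfl))
  have sV : s ∈ V := (mV _).2 (.inr (.inr (.inl rfl)))
  have s2' := inv2_qel s2 (n (le hs)) oo
  obtain ⟨d, τ, σ, n', m, tor⟩ := e.tor e.gen (qel_mem_quo _ (le hs)) s2' fun h1 => S.t_ne_u (Subtype.ext (by
    rw [St, ← fs, cf s hs, ← et, e.inv_Z e.gen h1 s2']))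
  have ct : ∀ c ∈ 𝐂(V), c ∈ 𝐂[t] := fun c hc => mem_cent1_iff.2 (mem_cent_iff'.1 hc _ tV)
  have cs : ∀ c ∈ 𝐂(V), qel 𝐎(𝐂[t]) c ∈ (𝐂[t] /ₛ 𝐎(𝐂[t])) ⊓ 𝐂[qel _ s] := fun c hc =>
    ⟨qel_mem_quo _ (ct c hc), mem_cent1_iff.2 (by
      rw [← pel_mul _ (n (ct c hc)) (n (le hs)), ← pel_mul _ (n (le hs)) (n (ct c hc)), mem_cent_iff'.1 hc _ sV])⟩
  have eZ : S.Z = Z.subgroupOf e.P := by
    ext z
    refine ⟨fun hz => cz z fun a => S.Z_comm hz (mH a), fun hz => ?_⟩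
    have k : ∀ a : e.P, z * a = a * z := fun a => Subtype.ext (mem_cent_iff'.1 (e.cen hz) _ (e.PX a.2))
    exact S.mem_Z_T.2 ⟨S.mem_T.2 ⟨k _, k _⟩, by rw [← k, mul_inv_cancel_right]⟩
  have dZ : S.d = Nat.card Z := by rw [HA.d, eZ, Nat.card_congr (subgroupOfEquivOfLe e.ZP).toEquiv]
  obtain ⟨T, -, hT, -, ⟨w⟩⟩ := h.sw0 (hM tt) t2
  rw [inf_eq_right.2 hM] at hT
  refine ⟨⟨S, t, s, V, coq _ e.P, _, f, top, surj, ker, oo, n, le, two, hV, tV, sV, fτ, fs, fun c hc x hx x2 => ?_,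
    fun z hz => piElt_coe.1 (e.two.piElt (mem_subgroupOf.1 (eZ ▸ hz))), fun a ha b hb => ?_, ?_, fun x hx => ?_⟩,
    rfl, rfl, rfl, dZ, ?_, cf⟩
  · have h1 := mul_mem (mul_mem hc hx) (inv_mem hc)
    refine Subtype.ext ?_
    rw [cf _ (two _ (ct _ h1) (piElt_conj.2 x2)), cf _ (two _ (ct _ hx) x2), pel_conj _ (n (ct c hc)) (n (ct x hx)),
      tor.two_cent (cs x hx) (x2.qel _) (cs c hc), mul_inv_cancel_right]
  · refine mem_coq.2 ⟨n (mul_mem (mul_mem (mul_mem ha hb) (inv_mem ha)) (inv_mem hb)), ?_⟩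
    rw [pel_comm _ (n ha) (n hb)]
    exact sup_le e.LP e.ZP (e.der (commutator_mem_commutator (qel_mem_quo _ ha) (qel_mem_quo _ hb)))
  · rw [relIndex_coq n]; exact e.oddi
  · obtain ⟨c, hc, h1, h2⟩ := w.cover hT le_rfl (coq_normalIn (piCoreOf_normalIn _ _) e.PN) two hx
    exact ⟨c, hc, h1, Nat.not_even_iff_odd.1 fun e => hT.not_dvd Nat.prime_two (e.two_dvd.trans
      (relIndex_dvd_of_le_left _ (mem_cent_iff_le_cent1.1 h2)))⟩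
  · have h1 := S.card_H
    rw [top, card_top, e.card_P e.gen, e.card_L, ← HA.d, dZ] at h1
    have h2 : (0 : ℤ) < Nat.card Z := by exact_mod_cast Nat.card_pos
    have h3 : 1 ≤ Fintype.card F ^ 2 := Nat.one_le_pow _ _ Fintype.card_pos
    push_cast [h3] at h1
    have h4 := mul_right_cancel₀ h2.ne' h1
    have h5 := S.three_le
    have h6 : 1 ≤ Fintype.card F := Fintype.card_pos
    show S.q = _
    zify at h5 h6 ⊢
    rcases lt_trichotomy (S.q : ℤ) (Fintype.card F) with h | h | h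
    · nlinarith [mul_pos (sub_pos.2 h) (show (0 : ℤ) < S.q ^ 2 + S.q * Fintype.card F + Fintype.card F ^ 2 - 1 by nlinarith)]
    · exact h
    · nlinarith [mul_pos (sub_pos.2 h) (show (0 : ℤ) < S.q ^ 2 + S.q * Fintype.card F + Fintype.card F ^ 2 - 1 by nlinarith)]

/-- the setting of the character theory, for `G` and for `M` -/
theorem exists_ps (h : QDT M) (t2 : Inv2 t) (hM : 𝐂[t] ≤ M) (et : e.t = qel _ t) (one : ∀ i, Inv2 i → IsConj t i) :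
    ∃ (P : PS G e.P) (P' : PS M e.P), P.τ = t ∧ P.O = 𝐎(𝐂[t]) ∧ P.H1 = coq _ e.P ∧ P.S.d = Nat.card Z ∧
      P.S.q = Fintype.card F ∧ P.S.H = ⊤ ∧ (∀ x : P.H1, ((P.π x : e.P) : Quo 𝐎(𝐂[t])) = qel _ (x : G)) ∧
      (∀ s ∈ 𝐂[t], Inv2 s → s ≠ t → P.k = (𝐂[s]).relIndex 𝐎(𝐂[t])) ∧
      P'.S = P.S ∧ P'.k = P.k ∧ P'.H.index = (𝐂[t]).relIndex M := by
  obtain ⟨B, e0, e1, e2, e3, e4, e5⟩ := exists_pb e h t2 hM et
  obtain ⟨P, a1, a2, a3, a4, a5, a6⟩ := B.exists_ps h (by rw [e0]; exact hM) (by rw [e0]; exact one)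
  replace a2 := a2.trans e0
  have hM' : 𝐂[P.τ] ≤ M := by rw [a2]; exact hM
  have tM := P.τM hM'
  have t2' : Inv2 P.τ := by rw [a2]; exact t2
  refine ⟨P, P.sub hM' (fun i hi i2 => h.one _ tM i hi t2' i2) a6, a2, a3.trans e1, a4.trans e2, a1 ▸ e3, a1 ▸ e4,
    a1 ▸ B.top, fun x => by rw [a5, e5 _ (a4 ▸ x.2)], fun s hs s2 st => ?_, rfl, P.sub_k _ _ _,
    (P.sub_index _ _ _).trans (by rw [PS.H, a2])⟩
  have sH := B.V_le B.sV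
  have sC : B.s ∈ 𝐂[t] := (congrArg (fun x => B.s ∈ 𝐂[x]) e0).mp (B.H1_le sH)
  obtain ⟨g, hg, rfl⟩ := h.conj_cent (hM (mem_cent1_iff.2 rfl)) t2 ⟨hM sC, sC⟩ ⟨hM hs, hs⟩ B.s2 s2
    (fun e => B.τs (e0.trans e.symm)) st
  rw [P.k_eq' (s := ⟨B.s, a4 ▸ sH⟩) (Subtype.ext B.s2.sq) (by rw [a5, a1]; exact B.fs), a3, e1, ← cj_centralizer_singleton,
    ← relIndex_cj g, mem_normalizer_iff_cj.1 (piCoreOf_norm _ _ hg.2)]

variable (hS : SylowIn 2 S 𝐂[t]) (hq : QD S) (w : SW S t)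
include e hS hq w

theorem QE.center_le : 𝐙(S) /ₛ 𝐎(𝐂[t]) ≤ Z := by
  have n := piCoreOf_norm {2}ᶜ 𝐂[t]
  have hX : 𝐂[t] /ₛ 𝐎(𝐂[t]) ≤ 𝐂[qel _ t] := by
    rw [← cent_zpowers (qel _ t), ← quo_zpowers (n (hS.le w.tS))]
    exact quo_cents _ (cent_zpowers t).ge
  have h2 := hS.quo (hS.le.trans n)
  obtain ⟨w'⟩ := (hq.quo (hS.le.trans n) (odd_core _)).sw (qel_mem_quo _ w.tS) (inv2_qel w.t2 (n (hS.le w.tS)) (odd_core _))
    (h2.le.trans hX)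
  refine le_trans (le_inf ((quo_mono _ inf_le_left).trans h2.le) ?_) e.cent_L.le
  exact (le_inf (quo_mono _ inf_le_left) (quo_cents _ inf_le_right)).trans (w'.center.le.trans
    ((w'.Z_cen h2 hX (piCoreOf_quo_self _ _)).trans (PG.cent_anti e.LX)))

theorem QE.four_dvd (h : t ∈ zpowers (w.z * w.z)) : 4 ∣ Nat.card Z := by
  obtain ⟨c, hc, e1⟩ := w.exists_four_elt h
  have n := piCoreOf_norm {2}ᶜ 𝐂[t]
  have cn := n (hS.le (w.center.ge hc).1)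
  have t2 := inv2_qel w.t2 (n (hS.le w.tS)) (odd_core 𝐂[t])
  have e2 : qel 𝐎(𝐂[t]) c * qel 𝐎(𝐂[t]) c = qel _ t := by rw [← pel_mul _ cn cn, e1]
  have : orderOf (qel 𝐎(𝐂[t]) c) = 2 ^ (1 + 1) := orderOf_eq_prime_pow (by rw [pow_one, sq, e2]; exact t2.ne)
    (by rw [show 2 ^ (1 + 1) = 2 * 2 from rfl, pow_mul, sq, sq, e2, t2.sq])
  exact (this ▸ orderOf_dvd_card_of_mem (e.center_le hS hq w (qel_mem_quo _ (w.center.ge hc))) :)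

theorem QE.card_two (h : w.z = t) : Nat.card Z = 2 := by
  have n := piCoreOf_norm {2}ᶜ 𝐂[t]
  have t2 := inv2_qel w.t2 (n (hS.le w.tS)) (odd_core 𝐂[t])
  have h2 := hS.quo (hS.le.trans n)
  refine Eq.trans (congrArg (fun Y : Subgroup _ => Nat.card Y) ?_) t2.card
  refine le_antisymm (fun z hz => ?_) (zpowers_le.2 (e.center_le hS hq w (qel_mem_quo _ (w.center.ge w.tz))))
  obtain ⟨c, hc, rfl⟩ := (mem_quo (hS.le.trans n)).1 (SylowIn.le_of_norm' h2 e.two e.ZX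
    (norms_of_cents (e.cen.trans (PG.cent_anti h2.le))) hz)
  have cn := n (hS.le hc)
  rw [← quo_zpowers (n (hS.le w.tS)), ← h, ← w.center]
  refine qel_mem_quo _ ⟨hc, mem_cent_iff.2 fun a ha => ?_⟩
  have an := n (hS.le ha)
  refine mul_inv_eq_one.1 ((w.two.piElt (mul_mem (mul_mem ha hc) (inv_mem (mul_mem hc ha)))).eq_one
    ((odd_iff.1 (odd_core 𝐂[t])).piElt ((qel_eq_iff' (mul_mem an cn) (mul_mem cn an)).1 ?_)))
  rw [pel_mul _ an cn, pel_mul _ cn an, mem_cent_iff.1 (e.cen hz) _ (qel_mem_quo _ (hS.le ha))]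

end

theorem HA.Q_one {E : Type*} [Group E] (S : HA E) (h : 4 ∣ S.d) : S.Q % 4 = 1 := by
  obtain ⟨k, -, e⟩ := S.d_dvd
  obtain ⟨c, hc⟩ := h
  rw [← HA.d, hc] at e
  push_cast at e
  rw [mul_assoc] at e
  rcases S.Q_cases with ⟨a, b⟩ | ⟨a, b⟩ <;> omega

theorem HA.Q_three {E : Type*} [Group E] (S : HA E) (h : S.d = 2) : S.Q % 4 = 3 := by
  obtain ⟨k, ⟨c, hc⟩, e⟩ := S.d_dvd
  rw [← HA.d, h, hc] at e
  push_cast at e
  rcases S.Q_cases with ⟨a, b⟩ | ⟨a, b⟩ <;> omega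

end CA.ABG
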