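/-
Matrix facts on `SL₂(F)` and ring identities for pairs of quadratic elements.
-/
import Cfsg.Agent.Lib.ABG.QE
import Cfsg.Agent.Lib.ABG.RelZJ

set_option autoImplicit false
set_option linter.unusedSectionVars false

namespace CA.ABG
open Cfsg CA CA.GW Matrix.SpecialLinearGroup CA.SL2 CA.Br Subgroup
open scoped MatrixGroups commutatorElement

variable {F : Type*} [Field F] [Fintype F]

theorem mk2_00 (a b c d : F) (h) : mk2 a b c d h 0 0 = a := by simp
theorem mk2_01 (a b c d : F) (h) : mk2 a b c d h 0 1 = b := by simp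
theorem mk2_10 (a b c d : F) (h) : mk2 a b c d h 1 0 = c := by simp
theorem mk2_11 (a b c d : F) (h) : mk2 a b c d h 1 1 = d := by simp

theorem sl_normal (hF : ∃ a : F, a ≠ 0 ∧ a ^ 2 ≠ 1) (N : Subgroup SL(2, F)) [hN : N.Normal] {g : SL(2, F)} (hg : g ∈ N)
    (h1 : ¬ (g = 1 ∨ g = -1)) : N = ⊤ := by
  have := Matrix.ProjectiveSpecialLinearGroup.rank_two_simple' hF
  have hs := QuotientGroup.mk'_surjective (center SL(2, F))
  rcases (hN.map _ hs).eq_bot_or_eq_top with h | h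
  · exact absurd ((pm_mk g).1 (mem_bot.1 (h ▸ ⟨g, hg, rfl⟩))) h1
  have ex : ∀ a, ∃ n ∈ N, a = n ∨ a = -n := fun a => by
    obtain ⟨n, hn, e⟩ := (h ▸ mem_top _ : QuotientGroup.mk' (center SL(2, F)) a ∈ N.map _)
    exact ⟨n, hn, pm_mk.eq.1 e.symm⟩
  obtain ⟨a, ha, ha2⟩ := hF
  rw [eq_top_iff, ← Matrix.SL2.commutator_eq_top ha ha2]
  refine commutator_le.2 fun a _ b _ => ?_
  obtain ⟨n, hn, e⟩ := ex a
  have : ⁅a, b⁆ = ⁅n, b⁆ := by
    rcases e with rfl | rfl
    · rfl
    · simp only [commutatorElement_def, inv_neg, neg_mul, mul_neg, neg_neg]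
  rw [this, commutatorElement_def, mul_assoc, mul_assoc, ← mul_assoc b]
  exact mul_mem hn (hN.conj_mem _ (inv_mem hn) b)

theorem top_of_up (D : Subgroup SL(2, F)) (hu : ∀ s, up s ∈ D) {a : SL(2, F)} (ha : a ∈ D) (h0 : a 0 0 = 0) : D = ⊤ := by
  have hd := det_eq a
  have h1 : a 1 0 ≠ 0 := fun e => by rw [h0, e] at hd; simp at hd
  refine eq_top_iff.2 fun g _ => Lin.transvection_induction (· ∈ D) (fun i j hij c => ?_) (fun _ _ => mul_mem) g
  fin_cases i <;> fin_cases j
  · exact absurd rfl hij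
  · exact hu c
  · have : lo c = a * up (-c / a 1 0 ^ 2) * a⁻¹ := by
      rw [eq_mul_inv_iff_mul_eq]
      refine sext ?_ ?_ ?_ ?_ <;> simp only [mul_apply', up_00, up_01, up_10, up_11, lo_00, lo_01, lo_10, lo_11, h0]
      · ring
      · ring
      · ring
      · field_simp
        rw [h0] at hd
        linear_combination -c * hd
    change lo c ∈ D
    rw [this]
    exact mul_mem (mul_mem ha (hu _)) (inv_mem ha)
  · exact absurd rfl hij

theorem exists_pair (hF : Odd (Fintype.card F)) {τ : F} (h4 : τ ^ 2 ≠ 4)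
    (h1 : τ ≠ -1 ∨ ∃ ω : F, ω ^ 2 + ω + 1 = 0) :
    ∃ a b : SL(2, F), tr a = τ ∧ tr b = τ ∧ tr (a * b) = τ ∧ a * b ≠ b * a := by
  have h2 := two_ne_zero_of_odd hF
  by_cases h : τ = -1
  · obtain ⟨ω, hω⟩ := h1.resolve_left (not_not.2 h)
    have hd : ω * ω ^ 2 - 0 * 0 = 1 := by linear_combination (ω - 1) * hω
    have hd' : ω * ω ^ 2 - 1 * 0 = 1 := by linear_combination (ω - 1) * hω
    refine ⟨mk2 ω 0 0 (ω ^ 2) hd, mk2 ω 1 0 (ω ^ 2) hd', ?_, ?_, ?_, fun e => h4 ?_⟩
    · simp only [tr, mk2_00, mk2_11, h]; linear_combination hω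
    · simp only [tr, mk2_00, mk2_11, h]; linear_combination hω
    · simp only [tr, mul_apply', mk2_00, mk2_01, mk2_10, mk2_11, h]; linear_combination (ω ^ 2 - ω + 1) * hω
    · have := (s_ent e).2.1
      simp only [mul_apply', mk2_00, mk2_01, mk2_10, mk2_11] at this
      rw [h]
      linear_combination (2 * ω + 1) * this + (2 * ω - 3) * hω
  have hp : τ + 2 ≠ 0 := fun e => h4 (by linear_combination (τ - 2) * e)
  have hm : τ - 2 ≠ 0 := fun e => h4 (by linear_combination (τ + 2) * e)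
  have h4' : 4 - τ ^ 2 ≠ 0 := fun e => h4 (by linear_combination -e)
  obtain ⟨u, v, huv⟩ := FiniteField.exists_root_sum_quadratic (f := Polynomial.X ^ 2)
    (g := Polynomial.C (4 - τ ^ 2) * Polynomial.X ^ 2 - Polynomial.C (4 * (τ - 2) * (τ + 1) / (τ + 2)))
    (Polynomial.degree_X_pow 2) (by
      rw [Polynomial.degree_sub_C (by rw [Polynomial.degree_C_mul_X_pow 2 h4']; decide), Polynomial.degree_C_mul_X_pow 2 h4']
      rfl) (Nat.odd_iff.1 hF)
  simp only [Polynomial.eval_pow, Polynomial.eval_X, Polynomial.eval_sub, Polynomial.eval_mul, Polynomial.eval_C] at huv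
  obtain ⟨q, s, key⟩ : ∃ q s : F, q ^ 2 + τ * q * s + s ^ 2 - τ * (q + s) + 1 = 0 := by
    refine ⟨(u - τ * v) / 2 + τ / (τ + 2), v + τ / (τ + 2), ?_⟩
    field_simp
    field_simp at huv
    linear_combination (τ + 2) * huv
  refine ⟨comp τ, mk2 (τ - s) q (q - τ * (1 - s)) s (by linear_combination -key), ?_, ?_, ?_, fun e => ?_⟩
  · simp [tr, comp]
  · simp [tr]
  · simp only [tr, comp, mul_apply', mk2_00, mk2_01, mk2_10, mk2_11]; ring
  · obtain ⟨e0, e1, -, -⟩ := s_ent e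
    simp only [comp, mul_apply', mk2_00, mk2_01, mk2_10, mk2_11] at e0 e1
    have e2 : (τ - 2) * (q - s) = 0 := by linear_combination e0 - e1
    have e3 : q = s := sub_eq_zero.1 ((mul_eq_zero.1 e2).resolve_left hm)
    subst e3
    have e4 : (τ - 2) * (τ + 1) = 0 := by
      linear_combination (-(τ + 2)) * key + (-(τ + 2) * q + τ) * e0
    exact h (eq_neg_of_add_eq_zero_left ((mul_eq_zero.1 e4).resolve_left hm))

section ring
variable {R : Type*} [Ring R] {X Y X' Y' : R}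

theorem q_inv (hX : (X - 1) * (X - 1) = 0) (h : X' * X = 1) : X' = 2 - X := by
  linear_combination (norm := (rw [← one_add_one_eq_two]; noncomm_ring)) X' * hX + h * (2 - X)

theorem q_j (hX : (X - 1) * (X - 1) = 0) (hY : (Y - 1) * (Y - 1) = 0) :
    (X - Y) * (X * Y) = (2 - Y) * (2 - X) * (X - Y) := by
  linear_combination (norm := noncomm_ring) hX * Y + 2 * hX - 2 * hY - Y * hX

theorem q_jj (hX : (X - 1) * (X - 1) = 0) (hY : (Y - 1) * (Y - 1) = 0) :
    (X - Y) * (X - Y) = 2 - (X * Y + (2 - Y) * (2 - X)) := by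
  linear_combination (norm := (rw [← one_add_one_eq_two]; noncomm_ring)) hX + hY

theorem q_zx (hX : (X - 1) * (X - 1) = 0) : X * (X * Y + (2 - Y) * (2 - X)) = (X * Y + (2 - Y) * (2 - X)) * X := by
  linear_combination (norm := noncomm_ring) hX * Y - Y * hX

theorem q_zy (hY : (Y - 1) * (Y - 1) = 0) : Y * (X * Y + (2 - Y) * (2 - X)) = (X * Y + (2 - Y) * (2 - X)) * Y := by
  linear_combination (norm := noncomm_ring) hY * X - X * hY

end ring

end CA.ABG
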