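/-
Alperin–Brauer–Gorenstein: the endgame (no field automorphisms; identification of the centralizer of an involution).
-/
import Cfsg.Agent.Lib.ABG.MkPS
import Cfsg.Agent.Lib.ABG.Sub
import Cfsg.Agent.Lib.ABG.QuadA

set_option autoImplicit false
set_option linter.unusedSectionVars false

namespace CA.ABG

open Cfsg Subgroup CA CA.FStar CA.GW CA.Ch

section
variable {G : Type*} [Group G] [Finite G] {M K V : Subgroup G} {t s a b g : G}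

/-- an involution swaps the two other involutions of a four-group -/
theorem QDT.swap2 (h : QDT M) (ha : a ∈ M) (hb : b ∈ M) (a2 : Inv2 a) (b2 : Inv2 b) (c : a * b = b * a) (hab : a ≠ b) :
    ∃ σ ∈ M ⊓ 𝐂[a], Inv2 σ ∧ σ ≠ a ∧ σ * b * σ⁻¹ = a * b := by
  obtain ⟨S, -, h1, -, ⟨w⟩⟩ := h.sw0 ha a2
  obtain ⟨k, hk⟩ := w.td
  have hd : w.d ^ k ∈ zpowers w.d := ⟨k, rfl⟩
  have e1 : w.d ^ k * w.d ^ k = a := by rw [← (Commute.refl w.d).mul_zpow]; exact hk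
  have e2 := inv_of_mem_zpowers w.yd hd
  generalize w.d ^ k = d at hd e1 e2
  obtain ⟨g, hg, rfl⟩ := h.conj_cent ha a2 (h1.le w.yS) ⟨hb, mem_cent1_iff.2 c.symm⟩ w.y_inv2 b2
    (fun e => w.yA (by rw [e]; exact w.tA)) hab.symm
  have ga := w.fix h1 inf_le_right hg
  have yA := w.out_not (w.D_le hd)
  refine ⟨g * (d * w.y) * g⁻¹, mul_mem (mul_mem hg (h1.le (mul_mem (w.le (w.D_le hd)) w.yS))) (inv_mem hg),
    Inv2.conj ⟨?_, fun e => yA (by rw [e]; exact one_mem _)⟩ g, fun e => yA ?_, ?_⟩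
  · rw [w.yinv] at e2
    rw [mul_assoc, ← mul_assoc w.y, e2, mul_inv_cancel]
  · rw [show d * w.y = a by simpa using e.trans ga.symm]; exact w.tA
  · calc _ = g * (d * (w.y * d⁻¹ * w.y⁻¹) * w.y) * g⁻¹ := by group
      _ = _ := by rw [inv_of_mem_zpowers w.yd (inv_mem hd), inv_inv, e1, ← conj_mul, ga]

theorem QDT.of_le (h : QDT (⊤ : Subgroup G)) (t2 : Inv2 t) (hM : 𝐂[t] ≤ M) (hg : g ∈ M) (h1 : g * t * g⁻¹ ∈ 𝐂[t])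
    (h2 : g * t * g⁻¹ ≠ t) : QDT M := by
  obtain ⟨S, hS, h3, hq, ⟨w⟩⟩ := h.sw0 (mem_top t) t2
  rw [top_inf_eq] at h3
  have hS' : SylowIn 2 S M := hS.of_le (h3.le.trans hM) le_top
  refine w.qdt_of hS' hq (fun s hs s2 => ?_) (by simpa [inf_eq_right.2 hM] using h.nq t (mem_top t) t2)
  obtain ⟨k, hk, e⟩ := hS'.exists_conj_mem hs s2.piElt
  by_cases e1 : k * s * k⁻¹ = t
  · exact ⟨k⁻¹, inv_mem hk, by rw [← e1]; group⟩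
  obtain ⟨c, hc, e2⟩ := h.conj_cent (mem_top t) t2 ⟨mem_top _, h1⟩ ⟨mem_top _, h3.le e⟩ (t2.conj g) (s2.conj k) h2 e1
  exact ⟨k⁻¹ * c * g, mul_mem (mul_mem (inv_mem hk) (hM hc.2)) hg, by
    rw [show k⁻¹ * c * g * t * (k⁻¹ * c * g)⁻¹ = k⁻¹ * (c * (g * t * g⁻¹) * c⁻¹) * k by group, e2]; group⟩

/-- a class function of `C(t)` which is stable on `C(V)` respects the fusion in `G` -/
theorem QDT.stable (h : QDT (⊤ : Subgroup G)) (t2 : Inv2 t) (hb : b ∈ 𝐂[t]) (b2 : Inv2 b) (bt : b ≠ t)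
    (hg : g * b * g⁻¹ = t) {α : Type*} (L : G → α) (h1 : ∀ x ∈ 𝐂[t], ∀ y ∈ 𝐂[t], L (x * y * x⁻¹) = L y)
    (h2 : ∀ c ∈ 𝐂[t] ⊓ 𝐂[b], L (g * c * g⁻¹) = L c) (ha : a ∈ 𝐂[t]) {x : G} (hx : x * a * x⁻¹ ∈ 𝐂[t]) :
    L (x * a * x⁻¹) = L a := by
  have m : ∀ i y, a ∈ 𝐂[i] → y * a * y⁻¹ ∈ 𝐂[y * i * y⁻¹] := fun i y e => cj_centralizer_singleton y i ▸ conj_mem_cj.2 e
  have k0 : ∀ i y z, a ∈ 𝐂[i] → y * i * y⁻¹ = t → z * i * z⁻¹ = t → L (z * a * z⁻¹) = L (y * a * y⁻¹) :=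
    fun i y z hi e1 e2 => by
      rw [← h1 (z * y⁻¹) (mem_cent1_iff.2 (mul_inv_eq_iff_eq_mul.1 (by
        nth_rw 1 [← e1]; rw [← e2]; group))) (y * a * y⁻¹) (e1 ▸ m i y hi)]
      congr 1; group
  have k1 : ∀ i j y z, Inv2 j → a ∈ 𝐂[i] → a ∈ 𝐂[j] → j * i = i * j → y * i * y⁻¹ = t → z * j * z⁻¹ = t →
      L (z * a * z⁻¹) = L (y * a * y⁻¹) := fun i j y z j2 hi hj c e1 e2 => by
    by_cases e : y * j * y⁻¹ = t
    · exact k0 j y z hj e e2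
    obtain ⟨k, hk, e3⟩ := h.conj_cent (mem_top t) t2 (a := y * j * y⁻¹)
      ⟨mem_top _, mem_cent1_iff.2 (by rw [← e1, conj_mul, conj_mul, c])⟩ ⟨mem_top _, hb⟩ (j2.conj y) b2 e bt
    have a1 : y * a * y⁻¹ ∈ 𝐂[t] := e1 ▸ m i y hi
    rw [k0 j (g * k * y) z hj (by rw [← hg, ← e3]; group) e2, ← h1 k hk.2 _ a1,
      ← h2 (k * (y * a * y⁻¹) * k⁻¹) (mem_inf.2 ⟨mul_mem (mul_mem (mem_inf.1 hk).2 a1) (inv_mem (mem_inf.1 hk).2), by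
        rw [← e3, ← cj_centralizer_singleton]; exact conj_mem_cj.2 (m j y hj)⟩)]
    congr 1; group
  have j2 := t2.conj x⁻¹
  have hj : a ∈ 𝐂[x⁻¹ * t * x⁻¹⁻¹] := by
    rw [← cj_centralizer_singleton]; simpa [mul_assoc] using (conj_mem_cj (g := x⁻¹)).2 hx
  obtain ⟨T, hT, tT⟩ := exists_sylowIn_ge t2.piGrp (zpowers_le.2 (mem_cent1_comm.1 ha))
  obtain ⟨c, hc, e⟩ := hT.exists_conj_mem (mem_cent1_comm.1 hj) j2.piElt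
  obtain ⟨z, hz, z2, zT⟩ := exists_central hT.piGrp fun e => t2.ne (mem_bot.1 (e ▸ tT (mem_zpowers t)))
  obtain ⟨y, -, e1⟩ := h.one z (mem_top _) t (mem_top _) z2 t2
  have az := mem_cent1_comm.1 (hT.le hz)
  have r1 := k1 z t y 1 t2 az ha (mem_cent1_iff.1 (zT (tT (mem_zpowers t)))) e1 (by group)
  have r2 := k1 z _ y (x * c⁻¹) (j2.conj c) az (mem_cent1_comm.1 (hT.le e)) (mem_cent1_iff.1 (zT e)) e1 (by group)
  rw [show x * c⁻¹ * a * (x * c⁻¹)⁻¹ = x * a * x⁻¹ by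
    rw [mul_assoc x, mem_cent1_iff.1 (inv_mem hc)]; group] at r2
  rw [r2, ← r1]; congr 1; group

theorem der_le_of_cyclic {T U : Subgroup G} (hT : T ≤ 𝐍(K)) (hU : U ≤ 𝐍(K)) (ha : a ∈ T) (h : T ≤ U ⊔ zpowers a)
    (hc : T /ₛ K ≤ 𝐂(U /ₛ K)) : ⁅T, T⁆ ≤ K := by
  have h1 : T /ₛ K ≤ (U /ₛ K) ⊔ zpowers (qel K a) := by
    rw [← quo_zpowers (hT ha), ← quo_sup hU (zpowers_le.2 (hT ha))]; exact quo_mono _ h
  refine (quo_cents_iff hT hT).1 (h1.trans (sup_le (cents_symm hc) (zpowers_le.2 (mem_cent_iff_le_cent1.2 (h1.trans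
    (sup_le (mem_cent_iff_le_cent1.1 (hc (qel_mem_quo _ ha))) (zpowers_le.2 (mem_cent1_iff.2 rfl))))))))

theorem four_cent (hV : Four V) (ha : a ∈ V) (hb : b ∈ V) (a1 : a ≠ 1) (b1 : b ≠ 1) (hab : a ≠ b) :
    𝐂(V) = 𝐂[a] ⊓ 𝐂[b] :=
  le_antisymm (fun _ h => ⟨mem_cent1_iff.2 (mem_cent_iff'.1 h _ ha), mem_cent1_iff.2 (mem_cent_iff'.1 h _ hb)⟩) fun _ h =>
    mem_cent_iff_le_cent1.2 (hV.le_of ha hb a1 b1 hab (mem_cent1_comm.1 h.1) (mem_cent1_comm.1 h.2))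

theorem quo_cent2 (hs : s ∈ 𝐂[t]) (s2 : Inv2 s) :
    (𝐂[t] ⊓ 𝐂[s]) /ₛ 𝐎(𝐂[t]) = (𝐂[t] /ₛ 𝐎(𝐂[t])) ⊓ 𝐂[qel 𝐎(𝐂[t]) s] :=
  quo_inf_cent1_of_le (piCoreOf_le _ _) (piCoreOf_norm _ _ hs) (by
    rw [s2.ord]; exact Nat.coprime_two_right.2 (odd_core _))

variable {Z : Subgroup (Quo 𝐎(𝐂[t]))} {F : Type} [Field F] [Fintype F] (e : QE F (𝐂[t] /ₛ 𝐎(𝐂[t])) Z)

theorem QE.tor' (et : e.t = qel _ t) (t2 : Inv2 t) (hs : s ∈ 𝐂[t]) (s2 : Inv2 s) (st : s ≠ t) :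
    ∃ d τ σ n m, e.Tor (qel _ s) d τ σ n m := by
  have n := piCoreOf_norm {2}ᶜ 𝐂[t]
  have s2' := inv2_qel s2 (n hs) (odd_core _)
  refine e.tor e.gen (qel_mem_quo _ hs) s2' fun h1 => st (mul_inv_eq_one.1 (eq_one_of_odd (odd_of_mem (odd_core 𝐂[t])
    ((qel_eq_iff' (n hs) (n (mem_cent1_iff.2 rfl))).1 ((e.inv_Z e.gen h1 s2').trans et))) ?_))
  rw [t2.inv, mul_assoc, ← mul_assoc t, ← mem_cent1_iff.1 hs, mul_assoc, t2.sq, mul_one, s2.sq]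

end

section
variable {G : Type*} [Group G] [Finite G] {K : Subgroup G} {t s : G}
  {Z : Subgroup (Quo 𝐎(𝐂[t]))} {F : Type} [Field F] [Fintype F] (e : QE F (𝐂[t] /ₛ 𝐎(𝐂[t])) Z)

/-- there are no field automorphisms -/
theorem QE.no_field (h : QDT (⊤ : Subgroup G)) (et : e.t = qel _ t) (t2 : Inv2 t) (hs : s ∈ 𝐂[t]) (s2 : Inv2 s)
    (st : s ≠ t) (hK : K ⊴ 𝐂[s]) (h1 : ⁅𝐎(𝐂[s]), zpowers t⁆ ≤ K) (h2 : K ⊓ 𝐂[t] ≤ 𝐎(𝐂[t]))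
    (STB : ∀ l : 𝐂[t] →* ℂˣ, (coq _ e.P).subgroupOf 𝐂[t] ≤ l.ker →
      (∀ a b : 𝐂[t], IsConj (a : G) b → l a = l b) → l = 1) : 𝐂[t] /ₛ 𝐎(𝐂[t]) ≤ e.P := by
  have c := mem_cent1_iff.1 hs
  have ht : t ∈ 𝐂[s] := mem_cent1_comm.1 hs
  obtain ⟨V, hV, mV⟩ := four_of s2 t2 st c
  have sV : s ∈ V := (mV _).2 (.inr (.inl rfl))
  have tV : t ∈ V := (mV _).2 (.inr (.inr (.inl rfl)))
  have c1 := four_cent hV tV sV t2.ne s2.ne st.symm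
  have c2 := four_cent hV sV tV s2.ne t2.ne st
  obtain ⟨σ, hσ, σ2, σs, e1⟩ := h.swap2 (mem_top s) (mem_top t) s2 t2 c st
  rw [top_inf_eq] at hσ
  have σV : σ ∈ 𝐍(V) := hV.norm_of sV tV s2.ne t2.ne st (by rw [mem_cent1_iff.1 hσ, mul_inv_cancel_right]; exact sV)
    (e1 ▸ mul_mem sV tV)
  have npc : NormalPCompl 2 𝐂(V) := by simpa using h.syl.qg.npc V le_top hV
  have DC : 𝐎(𝐂(V)) ≤ 𝐂(V) := piCoreOf_le _ _
  have σD : zpowers σ ≤ 𝐍(𝐎(𝐂(V))) := norms_piCoreOf _ (norms_cent (zpowers_le.2 σV))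
  have TD : ⁅𝐎(𝐂(V)), zpowers σ⁆ ≤ 𝐎(𝐂(V)) := comm_le_left σD
  have DT : 𝐎(𝐂(V)) ≤ 𝐍(⁅𝐎(𝐂(V)), zpowers σ⁆) := comm_norm_left _ _
  have n1 := piCoreOf_norm {2}ᶜ 𝐂[t]
  have n2 := piCoreOf_norm {2}ᶜ 𝐂[s]
  have Ds : 𝐎(𝐂(V)) ≤ 𝐂[s] := DC.trans (c2.le.trans inf_le_left)
  have Dt : 𝐎(𝐂(V)) ≤ 𝐂[t] := DC.trans (c1.le.trans inf_le_left)
  have TT : ⁅⁅𝐎(𝐂(V)), zpowers σ⁆, ⁅𝐎(𝐂(V)), zpowers σ⁆⁆ ≤ K := by
    obtain ⟨Z2, F2, _, _, e2, et2⟩ := h.qe' s2 le_top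
    obtain ⟨d, τ, σ', n, m, tor⟩ := e2.tor' et2 s2 ht t2 st.symm
    obtain ⟨a, ha, h3⟩ := (isCyclic_quo_iff ((TD.trans Ds).trans n2)).1 (cyclic_of_le (B := zpowers (e2.ι τ))
      inferInstance fun x hx => tor.odd_mem ⟨sup_le e2.LP e2.ZP (e2.der (by
        rw [← quo_der n2]; exact quo_mono _ (comm_le_der Ds (zpowers_le.2 hσ)) hx)),
        ((quo_cent2 ht t2).le (quo_mono _ (TD.trans (DC.trans c2.le)) hx)).2⟩
        (odd_of_mem (odd_card_quo ((odd_core _).of_dvd_nat (card_dvd_of_le TD)) _) hx))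
    have N : (𝐂[s] /ₛ K) ⊓ 𝐂(𝐎(𝐂[s]) /ₛ K) ⊴ 𝐂[s] /ₛ K := ((piCoreOf_normalIn _ _).quo K).cent
    obtain ⟨g, hg, rfl⟩ := h.conj_cent (mem_top s) s2 ⟨mem_top _, ht⟩ ⟨mem_top _, hσ⟩ t2 σ2 st.symm σs
    have tN : qel K t ∈ (𝐂[s] /ₛ K) ⊓ 𝐂(𝐎(𝐂[s]) /ₛ K) := ⟨qel_mem_quo _ ht, cents_symm (quo_cents_of_comm_le
      ((piCoreOf_le _ _).trans hK.2) (zpowers_le.2 (hK.2 ht)) h1) (qel_mem_quo _ (mem_zpowers t))⟩
    refine der_le_of_cyclic ((TD.trans Ds).trans hK.2) ((piCoreOf_le _ _).trans hK.2) ha h3 ?_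
    rw [quo_commutator (Ds.trans hK.2) (zpowers_le.2 (hK.2 hσ)), quo_zpowers (hK.2 hσ), pel_conj _ (hK.2 hg.2) (hK.2 ht)]
    exact (commutator_mono (quo_mono _ Ds) (zpowers_le.2 (conj_mem_of_mem_normalizer (N.2 (qel_mem_quo _ hg.2)) tN))).trans
      ((comm_le_right N.2).trans inf_le_right)
  obtain ⟨d, τ, σ', n, m, tor⟩ := e.tor' et t2 hs s2 st
  have qc := quo_cent2 hs s2
  have TP : ⁅𝐎(𝐂(V)), zpowers σ⁆ ≤ coq _ e.P := fun x hx => by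
    have xt := Dt (TD hx)
    refine mem_coq.2 ⟨n1 xt, e.LP (tor.cent.ge (tor.ff (qc.le (qel_mem_quo _ (c1.le (DC (TD hx)))))
      (odd_elt_iff.2 ((odd_elt_iff.1 (odd_of_mem (odd_core _) (TD hx))).qel _)) fun a ha ao => ?_)).1⟩
    obtain ⟨y, hy, y2, rfl⟩ := exists_piElt_pel (inf_le_left.trans n1)
      (qc.ge ⟨e.LX (tor.cent.ge ha).1, (tor.cent.ge ha).2⟩) (odd_elt_iff.1 ao)
    have yD := (npc.mem_iff (c1.ge hy)).2 y2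
    have h3 : x * y * x⁻¹ * y⁻¹ ∈ ⁅𝐎(𝐂(V)), zpowers σ⁆ := by
      simpa [mul_assoc] using mul_mem hx (conj_mem_of_mem_normalizer (DT yD) (inv_mem hx))
    have h4 := n1 (Dt (TD h3))
    rw [← pel_comm _ (n1 xt) (n1 hy.1), ← pel_mul _ (n1 xt) h4, ← pel_mul _ h4 (n1 xt),
      qel_eq_iff' (mul_mem (n1 xt) h4) (mul_mem h4 (n1 xt)), mul_inv_rev, ← mul_assoc]
    have h5 := comm_le_iff.1 (le_inf TT ((comm_le_of_le TD TD).trans Dt)) _ hx _ h3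
    exact h2 h5
  have le : coq _ e.P ≤ 𝐂[t] := coq_le_of_le_quo (piCoreOf_le _ _) e.PX
  have two : ∀ x ∈ 𝐂(V), PiElt {2} x → x ∈ coq _ e.P := fun x hx x2 =>
    mem_coq.2 ⟨n1 (c1.le hx).1, e.two_mem (qel_mem_quo _ (c1.le hx).1) (x2.qel _)⟩
  have hN := coq_normalIn (piCoreOf_normalIn _ _) e.PN
  rw [← le_coq_iff n1]
  intro x hx
  by_contra hn
  haveI := hN.normal_subgroupOf
  obtain ⟨l, l1, l2⟩ := exists_lin_ker_not_mem ((coq _ e.P).subgroupOf 𝐂[t]) (commutator_le.2 fun a _ b _ =>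
    mem_coq.2 ⟨n1 (a * b * a⁻¹ * b⁻¹).2, sup_le e.LP e.ZP (e.der (by
      rw [← quo_der n1]; exact qel_mem_quo _ (commutator_mem_commutator a.2 b.2)))⟩) (g := ⟨x, hx⟩) hn
  refine l2 (DFunLike.congr_fun (STB l l1 fun a b hab => ?_) _)
  obtain ⟨y, hy⟩ := isConj_iff.1 hab
  have st2 := s2.mul t2 st c
  rw [← pel_coe, ← pel_coe, ← hy]
  refine (h.stable t2 (mul_mem hs (mem_cent1_iff.2 rfl)) st2 (fun e => s2.ne (mul_eq_right.1 e)) (g := σ)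
    (by rw [← e1, σ2.inv, ← mul_assoc, ← mul_assoc, σ2.sq, one_mul, mul_assoc, σ2.sq, mul_one]) (pel l)
    (fun x hx y hy => by rw [pel_conj _ hx hy, mul_inv_cancel_comm]) (fun z hz => ?_) a.2 (hy ▸ b.2)).symm
  have zV : z ∈ 𝐂(V) := (four_cent hV tV (mul_mem sV tV) t2.ne st2.ne fun e => s2.ne (mul_eq_right.1 e.symm)).ge hz
  have k : ∀ u ∈ coq _ e.P, pel l u = 1 := fun u hu => by rw [pel_of_mem _ (le hu)]; exact l1 hu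
  have cσ := normalizer_le_normalizer_centralizer _ σV
  have z1 := constt_mem {2} zV
  have z2 := (npc.mem_iff (constt_mem {2}ᶜ zV)).2 (constt_piElt _ _)
  have z3 := two _ (conj_mem_of_mem_normalizer cσ z1) (piElt_conj.2 (constt_piElt _ _))
  have z4 := TP (inv_mem (commutator_mem_commutator z2 (mem_zpowers σ)))
  have z5 := two _ z1 (constt_piElt _ _)
  rw [← one_mul (pel l z), ← k _ (mul_mem (mul_mem z3 z4) (inv_mem z5)),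
    ← pel_mul _ (le (mul_mem (mul_mem z3 z4) (inv_mem z5))) hz.1]
  congr 1
  rw [commutatorElement_def]
  nth_rw 1 6 [← constt_mul_compl {2} z]
  group

omit e in
/-- a normal subgroup containing a noncentral element of `L` contains `L` -/
theorem QT.L_le_of {X Z N : Subgroup G} (h : QT F X Z) (h4 : 4 ≤ Fintype.card F) (hN : N ⊴ X) {a : G} (ha : a ∈ h.L)
    (aN : a ∈ N) (aZ : a ∉ Z) : h.L ≤ N := by
  obtain ⟨g, rfl⟩ := ha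
  haveI : (N.comap h.ι).Normal := ⟨fun x hx y => by
    rw [mem_comap, map_mul, map_mul, map_inv]; exact conj_mem_of_mem_normalizer (hN.2 (h.mem y)) hx⟩
  rintro _ ⟨y, rfl⟩
  exact (sl_normal (Sp.exists_sq_ne_one_of_four_le (by rwa [Nat.card_eq_fintype_card])) (N.comap h.ι) aN
    fun e => aZ (h.mem_Z.2 e)).ge (mem_top y)

/-- the centralizer of an involution in a balanced group -/
theorem QE.ident [IsSimpleGroup G] (h : QDT (⊤ : Subgroup G)) (hb : Bal G) (et : e.t = qel _ t) (t2 : Inv2 t)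
    (A1 : ∀ M, 𝐂[t] ≤ M → QDT M → M = ⊤) (hP : 𝐂[t] /ₛ 𝐎(𝐂[t]) ≤ e.P) : IsGLQ 𝐂[t] ∨ IsGUQ 𝐂[t] := by
  obtain ⟨s, hs, s2, st⟩ := h.exists_four (mem_top t) t2
  rw [top_inf_eq] at hs
  have c := mem_cent1_iff.1 hs
  have ht : t ∈ 𝐂[s] := mem_cent1_comm.1 hs
  have n := piCoreOf_norm {2}ᶜ 𝐂[t]
  have oo := odd_core 𝐂[t]
  have OH := piCoreOf_le {2}ᶜ 𝐂[t]
  obtain ⟨d, τ, σ', n', m, tor⟩ := e.tor' et t2 hs s2 st
  have qc := quo_cent2 hs s2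
  have O1 : 𝐎(𝐂[t]) ≤ 𝐂[t] ⊓ 𝐂[s] := le_inf OH (hb t s t2 s2 hs)
  have O2 : 𝐎(𝐂[s]) ≤ 𝐂[t] ⊓ 𝐂[s] := le_inf (hb s t s2 t2 ht) (piCoreOf_le _ _)
  have CP : (𝐂[t] ⊓ 𝐂[s]) /ₛ 𝐎(𝐂[t]) ≤ e.P ⊓ 𝐂[qel _ s] := qc.le.trans (inf_le_inf_right _ hP)
  obtain ⟨ρ, -, r1, r2⟩ := h.conj_pair (mem_top t) (mem_top s) (mem_top s) (mem_top t) t2 s2 s2 t2 c.symm c st.symm st
  have rO : cj ρ 𝐎(𝐂[t]) = 𝐎(𝐂[s]) := by rw [cj_piCoreOf, cj_centralizer_singleton, r1]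
  have rC : cj ρ (𝐂[t] ⊓ 𝐂[s]) = 𝐂[t] ⊓ 𝐂[s] := by
    rw [cj_inf, cj_centralizer_singleton, cj_centralizer_singleton, r1, r2, inf_comm]
  have d1 : ⁅𝐂[t] ⊓ 𝐂[s], 𝐂[t] ⊓ 𝐂[s]⁆ ≤ 𝐎(𝐂[t]) := (quo_cents_iff (inf_le_left.trans n) (inf_le_left.trans n)).1
    fun a ha => mem_cent_iff.2 fun b hb => tor.comm (CP hb) (CP ha)
  have d2 : ⁅𝐂[t] ⊓ 𝐂[s], 𝐂[t] ⊓ 𝐂[s]⁆ ≤ 𝐎(𝐂[s]) := by
    rw [← rO, ← rC, ← cj_commutator]; exact cj_mono _ d1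
  have o2 : 𝐎(𝐂[s]) /ₛ 𝐎(𝐂[t]) ≤ 𝐎(zpowers (e.ι τ)) := by
    rw [← tor.core_P]
    exact fun x hx => ⟨tor.mem_core (qc.le (quo_mono _ O2 hx)) (odd_of_mem (odd_card_quo (odd_core _) _) hx),
      (CP (quo_mono _ O2 hx)).1⟩
  have cc : Nat.card 𝐎(𝐂[s]) = Nat.card 𝐎(𝐂[t]) := by rw [← rO, card_cj]
  have key : 𝐎(𝐂[t]) = 𝐎(𝐂[s]) ∨ 𝐂[t] ≤ (𝐂[t] ⊓ 𝐂(𝐎(𝐂[t]))) ⊔ (𝐂[t] ⊓ 𝐂[s]) := by
    refine or_iff_not_imp_left.2 fun ne => ?_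
    obtain ⟨a, ha, a1⟩ := (Subgroup.bot_or_exists_ne_one _).resolve_left fun e1 => ne (eq_of_le_of_card_eq
      ((quo_eq_bot_iff (O2.trans (inf_le_left.trans n))).1 e1) cc).symm
    have aτ := piCoreOf_le _ _ (o2 ha)
    have ao := odd_of_mem (odd_core _) (o2 ha)
    have N : (𝐂[t] ⊓ 𝐂(𝐎(𝐂[t]))) /ₛ 𝐎(𝐂[t]) ⊴ 𝐂[t] /ₛ 𝐎(𝐂[t]) := (piCoreOf_normalIn _ _).cent.quo _
    obtain ⟨σ, hσ, σ2, -, e1⟩ := h.swap2 (mem_top t) (mem_top s) t2 s2 c.symm st.symm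
    rw [top_inf_eq] at hσ
    have σN := qel_mem_quo 𝐎(𝐂[t]) (mem_inf.2 ⟨hσ, mem_cent_iff_le_cent1.2 (hb t σ t2 σ2 hσ)⟩)
    have k : (e.ι σ')⁻¹ * qel _ σ ∈ e.P ⊓ 𝐂[qel _ s] := mem_inf.2 ⟨mul_mem (inv_mem (e.LP ⟨_, rfl⟩)) (hP (qel_mem_quo _ hσ)),
      mem_cent1_iff.2 (mul_inv_eq_iff_eq_mul.1 (by
        rw [mul_inv_rev, inv_inv, mul_assoc _ (qel _ σ), ← mul_assoc _ (qel _ σ)⁻¹, mul_assoc _ _ (qel _ σ)⁻¹,
          ← pel_conj _ (n hσ) (n hs), e1, ← c, pel_mul _ (n hs) (n (mem_cent1_iff.2 rfl)), ← et, ← tor.swap]; group))⟩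
    have aP : a ∈ e.P ⊓ 𝐂[qel _ s] := tor.PC.ge (mem_sup_left aτ)
    have i : qel _ σ * a * (qel _ σ)⁻¹ = a⁻¹ := by
      rw [← tor.inv' aτ, ← mul_inv_cancel_left (e.ι σ') (qel _ σ), mul_assoc _ _ a, tor.comm k aP]; group
    have aL := (tor.cent.ge aτ).1
    have aN : a ∈ (𝐂[t] ⊓ 𝐂(𝐎(𝐂[t]))) /ₛ 𝐎(𝐂[t]) := mem_of_sq_mem ao (by
      have := mul_mem (conj_mem_of_mem_normalizer (N.2 (e.LX aL)) σN) (inv_mem σN)
      rwa [mul_assoc, mul_assoc, ← mul_assoc _ a⁻¹, ← conj_inv, i, inv_inv] at this)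
    have hm : 3 ≤ m := by
      have := orderOf_dvd_card_of_mem (o2 ha)
      rw [tor.card_core] at this
      have := Nat.le_of_dvd tor.mo.pos this
      have := mt orderOf_eq_one_iff.1 a1
      obtain ⟨k, hk⟩ := ao
      omega
    have hL := e.L_le_of (by
      obtain ⟨k, hk⟩ := e.card_Z
      have := tor.hn
      have : 2 * 3 ≤ n' := tor.nm ▸ Nat.mul_le_mul (by rw [hk, pow_succ']; exact Nat.le_mul_of_pos_right _ (by positivity)) hm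
      omega) N aL aN fun e1 => a1 ((e.two.piElt e1).eq_one (odd_elt_iff.1 ao))
    refine (quo_le_quo_iff_of_le n (O1.trans le_sup_right)).1 ?_
    rw [quo_sup (inf_le_left.trans n) (inf_le_left.trans n), qc]
    exact (e.fratt e.gen tor.sX tor.s2 tor.sZ).le.trans (sup_le_sup_right hL _)
  have X0 : 𝐎(𝐂[t]) ⊓ 𝐎(𝐂[s]) = ⊥ := by_contra fun ne => by
    obtain ⟨σ, hσ, σ2, -, e1⟩ := h.swap2 (mem_top s) (mem_top t) s2 t2 c st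
    have hM : 𝐂[t] ≤ 𝐍(𝐎(𝐂[t]) ⊓ 𝐎(𝐂[s])) := key.elim (fun e1 => by rw [← e1, inf_idem]; exact n) fun e1 =>
      e1.trans (sup_le (norms_of_cents (inf_le_right.trans (PG.cent_anti inf_le_left)))
        (norms_inf (inf_le_left.trans n) (inf_le_right.trans (piCoreOf_norm _ _))))
    have := A1 _ hM (h.of_le t2 hM (g := σ) (norms_of_cents (zpowers_le.2 (mem_cent_iff_le_cent1.2 (inf_le_right.trans
      (hb s σ s2 σ2 hσ.2)))) (mem_zpowers σ)) (e1 ▸ mul_mem hs (mem_cent1_iff.2 rfl)) (e1 ▸ fun e => s2.ne (mul_eq_right.1 e)))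
    rcases (normalizer_eq_top_iff.1 this).eq_bot_or_eq_top with e2 | e2
    · exact ne e2
    · exact t2.not_mem oo (e2.ge (mem_top t)).1
  have Ob := O2.trans (inf_le_left.trans n)
  refine tor.ident hP OH (key.elim (fun e1 => ?_) fun e1 => cents_symm (e1.trans (sup_le inf_le_right ?_))) ?_ ?_
  · rw [← e1, inf_idem] at X0
    rw [X0]; exact bot_le
  · exact (abelian_iff.1 (abelian_iff_der.2 (eq_bot_iff.2 (X0 ▸ le_inf d1 d2)))).trans (PG.cent_anti O1)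
  · obtain ⟨a, ha, h1⟩ := (isCyclic_quo_iff Ob).1 (cyclic_of_le inferInstance (o2.trans (piCoreOf_le _ _)))
    refine (cjEquiv ρ _).isCyclic.2 (cyclic_of_le (B := zpowers a) inferInstance fun x hx => ?_)
    rw [rO] at hx
    obtain ⟨o, ho, y, hy, rfl⟩ := (mem_sup_of_norm_right (zpowers_le.2 (Ob ha))).1 (h1 hx)
    rwa [mem_bot.1 (X0.le ⟨ho, (mul_mem_cancel_right (zpowers_le.2 ha hy)).1 hx⟩), one_mul]
  · rw [← cc, ← card_quo_of_disjoint Ob X0, ← tor.card_core]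
    exact card_dvd_of_le o2

end

end CA.ABG
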