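/-
Alperin-Brauer-Gorenstein: the lattice argument of `Lib/Br/Lat` for a block whose base character has any degree.
-/
import Cfsg.Agent.Lib.Br.Vc

set_option autoImplicit false
set_option maxHeartbeats 2000000

namespace CA.ABG.Lt

open CA.Br CA.Br.Lat

variable {Λ : Type*} [AddCommGroup Λ]

/-- the data of the decomposition -/
structure Dat (L : Lat Λ) (Φ B K : Type*) where
  a : ℤ
  one : Λ
  θ : Φ → Λ
  τ : B → Λ
  η : B → Λ
  κ : K → Λ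
  i0 : Φ
  i1 : Φ
  α : B
  h1 : L.b one one = 1
  θθ : ∀ i, L.b (θ i) (θ i) = 2
  θθ' : ∀ i j, θ i = θ j ∨ L.b (θ i) (θ j) = 1
  θ01 : L.b (θ i1) (θ i0) = 1
  θ1 : ∀ i, L.b one (θ i) = 0
  dθ : ∀ i, L.deg (θ i) = -a
  ττ : ∀ β, L.b (τ β) (τ β) = 3
  ττ' : ∀ β β', β ≠ β' → L.b (τ β) (τ β') = 1
  τθ : ∀ β i, L.b (τ β) (θ i) = 1
  τ1 : ∀ β, L.b one (τ β) = 0
  dτ : ∀ β, L.deg (τ β) = -a
  ηη : ∀ β, L.b (η β) (η β) = 2
  ηη' : ∀ β β', β ≠ β' → L.b (η β) (η β') = 1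
  ηθ : ∀ β i, L.b (η β) (θ i) = 0
  ητ : ∀ β, L.b (η β) (τ β) = -1
  ητ' : ∀ β β', β ≠ β' → L.b (η β) (τ β') = 0
  η1 : ∀ β, L.b one (η β) = 0
  κκ : ∀ l, L.b (κ l) (κ l) = 3
  dκ : ∀ l, L.deg (κ l) = 0
  κθ : ∀ l i, L.b (κ l) (θ i) = 0
  κτ : ∀ l β, L.b (κ l) (τ β) = 0
  κη : ∀ l, L.b (κ l) (η α) = -1
  κη' : ∀ l β, β ≠ α → L.b (κ l) (η β) = 0
  big : ((∃ i, L.b (θ i) (θ i0) = 1 ∧ L.b (θ i) (θ i1) = 1) ∧ IsEmpty K) ∨
    ∀ β : B, ∃ β' β'', β' ≠ β ∧ β'' ≠ β ∧ β' ≠ β''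

variable {L : Lat Λ} {Φ B K : Type*} (D : Dat L Φ B K)

/-- the common constituent -/
structure Com (x X0 X1 : Λ) : Prop where
  hx : L.b x x = 1
  h0 : L.b X0 X0 = 1
  h1 : L.b X1 X1 = 1
  x0 : L.b x X0 = 0
  x1 : L.b x X1 = 0
  x01 : L.b X0 X1 = 0
  e0 : D.θ D.i0 = x + X0
  e1 : D.θ D.i1 = x + X1

theorem exists_com : ∃ x X0 X1, Com D x X0 X1 := by
  have k : ∀ x y, L.b x x = 1 → L.b y y = 1 → L.b x y = 0 → D.θ D.i0 = x + y → L.b (D.θ D.i1) x = 1 →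
      ∃ x X0 X1, Com D x X0 X1 := fun x y hx hy xy e h => by
    obtain ⟨z, hz, xz, e'⟩ := L.two_of (D.θθ D.i1) hx h
    have := D.θ01
    rw [e, map_add, h, e', map_add, AddMonoidHom.add_apply, xy, L.symm] at this
    exact ⟨x, y, z, hx, hy, hz, xy, xz, by omega, e, e'⟩
  obtain ⟨x, y, hx, hy, xy, e⟩ := L.two (D.θθ D.i0)
  have h := D.θ01
  rw [e, map_add] at h
  rcases sq2 (D.θθ D.i1 ▸ L.bes2 (D.θ D.i1) hx hy xy) h with h | h
  · exact k x y hx hy xy e h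
  · exact k y x hy hx (L.symm _ _ ▸ xy) (by rw [e, add_comm]) h

variable {D} {x X0 X1 : Λ} (c : Com D x X0 X1)
include c

theorem Com.deg : L.deg X0 = -D.a - L.deg x ∧ L.deg X1 = -D.a - L.deg x := by
  have h0 := D.dθ D.i0
  have h1 := D.dθ D.i1
  rw [c.e0, map_add] at h0
  rw [c.e1, map_add] at h1
  omega

theorem Com.ip (a : Λ) : L.b a (D.θ D.i0) = L.b a x + L.b a X0 ∧ L.b a (D.θ D.i1) = L.b a x + L.b a X1 ∧
    L.b a x ^ 2 + L.b a X0 ^ 2 + L.b a X1 ^ 2 ≤ L.b a a :=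
  ⟨by rw [c.e0, map_add], by rw [c.e1, map_add], L.bes3 a c.hx c.h0 c.h1 c.x0 c.x1 c.x01⟩

theorem Com.gen (i : Φ) : L.b (D.θ i) x = 1 := by
  rcases D.θθ' i D.i0 with e | h0
  · rw [e, c.e0, map_add, AddMonoidHom.add_apply, c.hx, L.symm, c.x0]; rfl
  rcases D.θθ' i D.i1 with e | h1
  · rw [e, c.e1, map_add, AddMonoidHom.add_apply, c.hx, L.symm, c.x1]; rfl
  obtain ⟨a0, a1, a2⟩ := c.ip (D.θ i)
  rw [D.θθ] at a2
  by_contra hne
  have hb : L.b (D.θ i) X0 = 1 := (sq2 (m := L.b (D.θ i) x) (by nlinarith [sq_nonneg (L.b (D.θ i) X1)])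
    (by omega)).resolve_left hne
  have e := L.eq3 (a := D.θ i) c.hx c.h0 c.h1 c.x0 c.x1 c.x01 (by
    rw [D.θθ, hb, show L.b (D.θ i) x = 0 by omega, show L.b (D.θ i) X1 = 1 by omega]; rfl)
  obtain ⟨b0, b1, -⟩ := c.ip (D.τ D.α)
  have := D.τθ D.α i
  rw [e, hb, show L.b (D.θ i) x = 0 by omega, show L.b (D.θ i) X1 = 1 by omega] at this
  rw [D.τθ] at b0 b1
  simp only [map_add, map_zsmul, smul_eq_mul] at this
  omega

theorem Com.bad {β : B} (h : L.b (D.τ β) x ≠ 1) : ∃ A, L.b A A = 1 ∧ L.b A x = 0 ∧ L.b A X0 = 0 ∧ L.b A X1 = 0 ∧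
    D.τ β = X0 + X1 + A := by
  obtain ⟨a0, a1, a2⟩ := c.ip (D.τ β)
  rw [D.τθ] at a0 a1
  rw [D.ττ] at a2
  have hx : L.b (D.τ β) x = 0 := by
    obtain ⟨m, hm⟩ : ∃ m, m = L.b (D.τ β) x := ⟨_, rfl⟩
    rw [show L.b (D.τ β) X0 = 1 - m by omega, show L.b (D.τ β) X1 = 1 - m by omega, ← hm] at a2
    have : 0 ≤ m := by nlinarith
    have : m ≤ 1 := by nlinarith
    omega
  have h0 : L.b (D.τ β) X0 = 1 := by omega
  have h1 : L.b (D.τ β) X1 = 1 := by omega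
  refine ⟨D.τ β - X0 - X1, ?_, ?_, ?_, ?_, by abel⟩ <;>
    simp only [map_sub, AddMonoidHom.sub_apply, D.ττ, hx, h0, h1, L.symm X0 (D.τ β), L.symm X1 (D.τ β), c.h0, c.h1,
      c.x01, L.symm X1 X0, L.symm X0 x, L.symm X1 x, c.x0, c.x1] <;> rfl

theorem Com.good (β : B) : L.b (D.τ β) x = 1 := by
  by_contra h
  obtain ⟨A, hA, ax, a0, a1, e⟩ := c.bad h
  have hd := D.dτ β
  rw [e, map_add, map_add, c.deg.1, c.deg.2] at hd
  rcases D.big with ⟨⟨i, h0, h1⟩, -⟩ | hb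
  · obtain ⟨X2, h2, x2, e2⟩ := L.two_of (D.θθ i) c.hx (c.gen i)
    obtain ⟨b0, b1, -⟩ := c.ip (D.θ i)
    rw [c.gen] at b0 b1
    have := D.τθ β i
    rw [L.symm, e, map_add, map_add, show L.b (D.θ i) X0 = 0 by omega, show L.b (D.θ i) X1 = 0 by omega, e2, map_add,
      AddMonoidHom.add_apply, L.symm x, ax] at this
    obtain rfl := L.eq_of_one h2 hA (by omega)
    obtain ⟨f0, f1, -⟩ := c.ip (D.η β)
    have f2 := D.ηθ β i
    have f3 := D.ητ β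
    rw [D.ηθ] at f0 f1
    rw [e2, map_add] at f2
    rw [e, map_add, map_add] at f3
    omega
  have g : ∀ β', β' ≠ β → ∃ B', L.b B' B' = 1 ∧ L.b A B' = 0 ∧ L.b x B' = 0 ∧ D.τ β' = x + A + B' := fun β' hβ => by
    have h1 := D.ττ' β' β hβ
    by_cases h' : L.b (D.τ β') x = 1
    · obtain ⟨b0, b1, -⟩ := c.ip (D.τ β')
      rw [D.τθ, h'] at b0 b1
      rw [e, map_add, map_add] at h1
      obtain ⟨B', p1, p2, p3⟩ := L.two_of (a := D.τ β' - x) (by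
        simp only [map_sub, AddMonoidHom.sub_apply, D.ττ, h', L.symm x (D.τ β'), c.hx]; rfl) hA (by
        simp only [map_sub, AddMonoidHom.sub_apply, L.symm x A, ax]; omega)
      refine ⟨B', p1, p2, ?_, by rw [add_assoc, ← p3]; abel⟩
      have : L.b x (D.τ β' - x) = 0 := by rw [map_sub, L.symm, h', c.hx]; rfl
      rwa [p3, map_add, L.symm, ax, zero_add] at this
    · obtain ⟨A', hA', ax', a0', a1', e'⟩ := c.bad h'
      rw [e, e'] at h1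
      simp only [map_add, AddMonoidHom.add_apply, c.h0, c.h1, c.x01, L.symm X1 X0, a0', a1', L.symm X0 A,
        L.symm X1 A, a0, a1] at h1
      have hd' := D.dτ β'
      rw [e', map_add, map_add, c.deg.1, c.deg.2, L.eq_neg hA' hA (by omega), map_neg] at hd'
      exact absurd (by omega) (L.deg_ne A hA)
  obtain ⟨β', β'', n1, n2, n3⟩ := hb β
  obtain ⟨B', p1, p2, p3, p4⟩ := g β' n1
  obtain ⟨B'', q1, q2, q3, q4⟩ := g β'' n2
  have h1 := D.ττ' β' β'' n3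
  have d1 := D.dτ β'
  have d2 := D.dτ β''
  rw [p4, q4] at h1
  simp only [map_add, AddMonoidHom.add_apply, c.hx, hA, ax, L.symm x A, q2, q3, L.symm B' x, L.symm B' A, p2, p3] at h1
  rw [p4, L.eq_neg p1 q1 (by omega)] at d1
  rw [q4] at d2
  simp only [map_add, map_neg] at d1 d2
  exact absurd (by omega) (L.deg_ne B'' q1)

/-- the constituents belonging to `β` -/
structure Tri (D : Dat L Φ B K) (x : Λ) (β : B) (A B' C : Λ) : Prop where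
  hA : L.b A A = 1
  hB : L.b B' B' = 1
  hC : L.b C C = 1
  ab : L.b A B' = 0
  ac : L.b A C = 0
  bc : L.b B' C = 0
  xa : L.b x A = 0
  xb : L.b x B' = 0
  xc : L.b x C = 0
  eτ : D.τ β = x + A + B'
  eη : D.η β = C - A

theorem Com.eta (β : B) : L.b (D.η β) x = 0 := by
  obtain ⟨a0, a1, a2⟩ := c.ip (D.η β)
  rw [D.ηθ] at a0 a1
  rw [D.ηη, show L.b (D.η β) X0 = -L.b (D.η β) x by omega, show L.b (D.η β) X1 = -L.b (D.η β) x by omega] at a2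
  exact sq0 (by linarith)

theorem Com.tri (β : B) : ∃ A B' C, Tri D x β A B' C := by
  have k : ∀ A B', L.b A A = 1 → L.b B' B' = 1 → L.b A B' = 0 → D.τ β - x = A + B' → L.b (-D.η β) A = 1 →
      L.b (D.η β) B' = 0 → ∃ A B' C, Tri D x β A B' C := fun A B' hA hB ab e h h' => by
    obtain ⟨C, hC, ac, e'⟩ := L.two_of (a := -D.η β) (by simp [D.ηη]) hA h
    have e2 : D.η β = -C - A := by rw [← neg_neg (D.η β), e']; abel
    have h0 : L.b x (D.τ β - x) = 0 := by rw [map_sub, L.symm, c.good, c.hx]; rfl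
    rw [e, map_add] at h0
    obtain ⟨xa, xb⟩ := sq1 (c.hx ▸ L.bes2 x hA hB ab) (Or.inr (by omega))
    have h1 := c.eta β
    rw [e2] at h' h1
    simp only [map_sub, map_neg, AddMonoidHom.sub_apply, AddMonoidHom.neg_apply, ab, L.symm A x, xa] at h' h1
    exact ⟨A, B', -C, hA, hB, by simp [hC], ab, by simp [ac], by rw [map_neg, L.symm]; omega, xa, xb,
      by rw [map_neg, L.symm]; omega, by rw [add_assoc, ← e]; abel, e2⟩
  obtain ⟨A, B', hA, hB, ab, e⟩ := L.two (a := D.τ β - x) (by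
    simp only [map_sub, AddMonoidHom.sub_apply, D.ττ, c.good, L.symm x (D.τ β), c.hx]; rfl)
  have h : L.b (-D.η β) (D.τ β - x) = 1 := by simp [D.ητ, c.eta]
  rw [e, map_add] at h
  have h2 := L.bes2 (-D.η β) hA hB ab
  rw [show L.b (-D.η β) (-D.η β) = 2 by simp [D.ηη]] at h2
  have n : ∀ y, L.b (-D.η β) y = -L.b (D.η β) y := fun y => by simp
  rcases sq2 h2 h with h' | h'
  · exact k A B' hA hB ab e h' (by have := n B'; omega)
  · exact k B' A hB hA (L.symm _ _ ▸ ab) (by rw [e, add_comm]) h' (by have := n A; omega)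

omit c in
theorem Tri.ip {β : B} {A B' C : Λ} (t : Tri D x β A B' C) (a : Λ) :
    L.b a (D.τ β) = L.b a x + L.b a A + L.b a B' ∧ L.b a (D.η β) = L.b a C - L.b a A ∧
    L.b a A ^ 2 + L.b a B' ^ 2 + L.b a C ^ 2 ≤ L.b a a :=
  ⟨by rw [t.eτ, map_add, map_add], by rw [t.eη, map_sub], L.bes3 a t.hA t.hB t.hC t.ab t.ac t.bc⟩

theorem Com.pair0 {β β' : B} (h : β ≠ β') {A B1 C A' B' C' : Λ} (t : Tri D x β A B1 C) (t' : Tri D x β' A' B' C') :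
    L.b A A' = 0 ∧ L.b A B' = 0 ∧ L.b C A' = 0 ∧ L.b C B' = 0 := by
  obtain ⟨a0, a1, a2⟩ := t.ip (A' + B')
  have e : A' + B' = D.τ β' - x := by rw [t'.eτ]; abel
  have h1 : L.b (A' + B') (D.τ β) = 0 := by
    rw [e, map_sub, AddMonoidHom.sub_apply, D.ττ' _ _ h.symm, L.symm, c.good]; rfl
  have h2 : L.b (A' + B') (D.η β) = 0 := by
    rw [e, map_sub, AddMonoidHom.sub_apply, L.symm, D.ητ' _ _ h, L.symm, c.eta]; rfl
  have h3 : L.b (A' + B') x = 0 := by rw [L.symm, map_add, t'.xa, t'.xb]; rfl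
  have h4 : L.b (A' + B') (A' + B') = 2 := by
    simp only [map_add, AddMonoidHom.add_apply, t'.hA, t'.hB, t'.ab, L.symm B' A']; rfl
  rw [h4, show L.b (A' + B') B1 = -L.b (A' + B') A by omega, show L.b (A' + B') C = L.b (A' + B') A by omega] at a2
  have h5 : L.b (A' + B') A = 0 := sq0 (by linarith)
  have h6 : L.b (A' + B') C = 0 := by omega
  rw [L.symm, map_add] at h5 h6
  obtain ⟨p1, p2⟩ := sq1 (t.hA ▸ L.bes2 A t'.hA t'.hB t'.ab) (Or.inr (by omega))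
  obtain ⟨p3, p4⟩ := sq1 (t.hC ▸ L.bes2 C t'.hA t'.hB t'.ab) (Or.inr (by omega))
  exact ⟨p1, p2, p3, p4⟩

theorem Com.pair {β β' : B} (h : β ≠ β') {A B1 C A' B' C' : Λ} (t : Tri D x β A B1 C) (t' : Tri D x β' A' B' C') :
    C = C' := by
  obtain ⟨p1, -, p3, -⟩ := c.pair0 h t t'
  obtain ⟨-, -, p4, -⟩ := c.pair0 h.symm t' t
  have := D.ηη' _ _ h
  rw [t.eη, t'.eη] at this
  simp only [map_sub, AddMonoidHom.sub_apply, p1, p3, L.symm A C', p4] at this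
  exact L.eq_of_one t.hC t'.hC (by omega)

theorem Com.kap (l : K) : L.b (D.κ l) x = 0 := by
  obtain ⟨a0, a1, a2⟩ := c.ip (D.κ l)
  rw [D.κθ] at a0 a1
  obtain ⟨m, hm⟩ : ∃ m, m = L.b (D.κ l) x := ⟨_, rfl⟩
  have h0 : L.b (D.κ l) X0 = -m := by omega
  have h1 : L.b (D.κ l) X1 = -m := by omega
  rw [D.κκ, h0, h1, ← hm] at a2
  by_contra hne
  have h2 : m ^ 2 = 1 := by
    have : 0 < m ^ 2 := by have : m ≠ 0 := hm ▸ hne; positivity
    nlinarith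
  have e := L.eq3 (a := D.κ l) c.hx c.h0 c.h1 c.x0 c.x1 c.x01 (by rw [D.κκ, h0, h1, ← hm]; linarith)
  obtain ⟨f0, f1, -⟩ := c.ip (D.η D.α)
  have f2 := c.eta D.α
  have := D.κη l
  rw [D.ηθ] at f0 f1
  rw [L.symm, e] at this
  simp only [map_add, map_zsmul, f2, show L.b (D.η D.α) X0 = 0 by omega, show L.b (D.η D.α) X1 = 0 by omega,
    smul_zero, add_zero] at this
  omega

theorem Com.kap2 (l : K) {A B1 C : Λ} (t : Tri D x D.α A B1 C) :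
    L.b (D.κ l) C = 0 ∧ ∃ Γ, L.b Γ Γ = 1 ∧ D.κ l = Γ + A - B1 := by
  obtain ⟨a0, a1, a2⟩ := t.ip (D.κ l)
  rw [D.κτ, c.kap] at a0
  rw [D.κη] at a1
  obtain ⟨m, hm⟩ : ∃ m, m = L.b (D.κ l) A := ⟨_, rfl⟩
  have h0 : L.b (D.κ l) B1 = -m := by omega
  have h1 : L.b (D.κ l) C = m - 1 := by omega
  rw [D.κκ, h0, h1, ← hm] at a2
  have : 0 ≤ m := by nlinarith
  have : m ≤ 1 := by nlinarith
  by_cases h : m = 1
  · subst h
    refine ⟨by omega, D.κ l - A + B1, ?_, by abel⟩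
    simp only [map_sub, map_add, AddMonoidHom.sub_apply, AddMonoidHom.add_apply, D.κκ, ← hm, h0, L.symm A (D.κ l),
      L.symm B1 (D.κ l), t.hA, t.hB, t.ab, L.symm B1 A]
    rfl
  exfalso
  rcases D.big with ⟨-, hK⟩ | hb
  · exact hK.false l
  obtain ⟨β', β'', n1, n2, n3⟩ := hb D.α
  obtain ⟨A', B', C', t'⟩ := c.tri β'
  obtain ⟨A'', B'', C'', t''⟩ := c.tri β''
  obtain rfl := c.pair n1 t' t
  obtain rfl := c.pair n2 t'' t
  obtain ⟨b0, b1, -⟩ := t'.ip (D.κ l)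
  obtain ⟨-, b2, -⟩ := t''.ip (D.κ l)
  rw [D.κτ, c.kap] at b0
  rw [D.κη' _ _ n1] at b1
  rw [D.κη' _ _ n2] at b2
  have g1 : L.b (D.κ l) A' = -1 := by omega
  have g2 : L.b (D.κ l) B' = 1 := by omega
  have g3 : L.b (D.κ l) C'' = -1 := by omega
  have e := L.eq3 (a := D.κ l) t'.hA t'.hB t'.hC t'.ab t'.ac t'.bc (by rw [D.κκ, g1, g2, g3]; rfl)
  obtain ⟨p1, p2, -⟩ := c.pair0 n3.symm t'' t'
  have : L.b A'' (D.κ l) = 0 := by
    rw [e]; simp only [map_add, map_zsmul, p1, p2, t''.ac, smul_zero, add_zero]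
  rw [L.symm] at this
  omega

omit c in
theorem main (D : Dat L Φ B K) : ∃ S X Y1 Y2 Z, L.b S S = 1 ∧ L.b X X = 1 ∧ L.b Y1 Y1 = 1 ∧ L.b Y2 Y2 = 1 ∧ L.b Z Z = 1 ∧
    D.θ D.i0 = X - S ∧ D.τ D.α = Y2 - Y1 - S ∧ D.η D.α = Y1 - Z ∧
    L.b S D.one = 0 ∧ L.b Z D.one = 0 ∧ L.b Y2 D.one = 0 ∧ L.b Y2 (D.τ D.α) = 1 ∧
    (∀ i, L.b S (D.θ i) = -1 ∧ L.b Z (D.θ i) = 0) ∧
    (∀ β, L.b S (D.τ β) = -1 ∧ L.b S (D.η β) = 0 ∧ L.b Z (D.τ β) = 0 ∧ L.b Z (D.η β) = -1) ∧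
    ∀ l, L.b S (D.κ l) = 0 ∧ L.b Z (D.κ l) = 0 ∧ ∃ Γ, L.b Γ Γ = 1 ∧ D.κ l = Γ - Y1 - Y2 := by
  obtain ⟨x, X0, X1, c⟩ := exists_com D
  obtain ⟨A, B1, C, t⟩ := c.tri D.α
  have o1 : L.b D.one x = 0 := by
    obtain ⟨a0, a1, a2⟩ := c.ip D.one
    rw [D.θ1] at a0 a1
    rw [D.h1, show L.b D.one X0 = -L.b D.one x by omega, show L.b D.one X1 = -L.b D.one x by omega] at a2
    exact sq0 (by linarith)
  have o2 : L.b D.one A = 0 ∧ L.b D.one B1 = 0 ∧ L.b D.one C = 0 := by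
    obtain ⟨a0, a1, a2⟩ := t.ip D.one
    rw [D.τ1, o1] at a0
    rw [D.η1] at a1
    rw [D.h1, show L.b D.one B1 = -L.b D.one A by omega, show L.b D.one C = L.b D.one A by omega] at a2
    have : L.b D.one A = 0 := sq0 (by linarith)
    omega
  have n : ∀ y z, L.b (-y) z = -L.b z y := fun y z => by rw [map_neg, AddMonoidHom.neg_apply, L.symm]
  refine ⟨-x, X0, -A, B1, -C, by simp [c.hx], c.h0, by simp [t.hA], t.hB, by simp [t.hC], by rw [c.e0]; abel,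
    by rw [t.eτ]; abel, by rw [t.eη]; abel, by rw [n, o1]; rfl, by rw [n, o2.2.2]; rfl, by rw [L.symm, o2.2.1],
    ?_, fun i => ⟨by rw [n, c.gen], ?_⟩, fun β => ⟨by rw [n, c.good], by rw [n, c.eta]; rfl, ?_⟩,
    fun l => ⟨by rw [n, c.kap]; rfl, by rw [n, (c.kap2 l t).1]; rfl, ?_⟩⟩
  · rw [(t.ip B1).1, t.hB, L.symm, t.xb, L.symm, t.ab]; rfl
  · obtain ⟨Xi, h2, x2, e2⟩ := L.two_of (D.θθ i) c.hx (c.gen i)
    have h1 := D.ηθ D.α i
    rw [e2, map_add, c.eta, L.symm, (t.ip Xi).2.1] at h1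
    obtain ⟨-, p⟩ := sq1 (h2 ▸ L.bes2 Xi t.hA t.hC t.ac) (Or.inl (by omega))
    rw [n, e2, map_add, AddMonoidHom.add_apply, t.xc, p]; rfl
  · obtain ⟨A', B', C', t'⟩ := c.tri β
    obtain ⟨a0, a1, -⟩ := t'.ip C
    rw [n, n, L.symm, a0, L.symm (D.η β), a1, L.symm C x, t.xc]
    by_cases h : D.α = β
    · subst h
      obtain ⟨b0, b1, -⟩ := t.ip C
      rw [L.symm C x, t.xc, L.symm C A, L.symm C B1, t.ac, t.bc] at b0
      rw [t.hC, L.symm C A, t.ac] at b1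
      rw [L.symm C x, t.xc] at a0
      omega
    · obtain ⟨-, -, p3, p4⟩ := c.pair0 h t t'
      rw [← c.pair h t t', t.hC, p3, p4]; omega
  · obtain ⟨Γ, h1, h2⟩ := (c.kap2 l t).2
    exact ⟨Γ, h1, by rw [h2]; abel⟩



/-- the data before the base character is known -/
structure Raw (L : Lat Λ) (Φ B K : Type*) where
  θ : Φ → Λ
  τ : B → Λ
  η : B → Λ
  κ : K → Λ
  i0 : Φ
  i1 : Φ
  α : B
  θθ : ∀ i, L.b (θ i) (θ i) = 3
  θθ' : ∀ i j, θ i = θ j ∨ L.b (θ i) (θ j) = 2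
  θ01 : L.b (θ i1) (θ i0) = 2
  dθ : ∀ i, L.deg (θ i) = 0
  ττ : ∀ β, L.b (τ β) (τ β) = 4
  ττ' : ∀ β β', β ≠ β' → L.b (τ β) (τ β') = 2
  τθ : ∀ β i, L.b (τ β) (θ i) = 2
  dτ : ∀ β, L.deg (τ β) = 0
  ηη : ∀ β, L.b (η β) (η β) = 3
  ηη' : ∀ β β', β ≠ β' → L.b (η β) (η β') = 2
  ηθ : ∀ β i, L.b (η β) (θ i) = -1
  ητ : ∀ β, L.b (η β) (τ β) = -2
  ητ' : ∀ β β', β ≠ β' → L.b (η β) (τ β') = -1
  dη : ∀ β, L.deg (η β) = 0
  κκ : ∀ l, L.b (κ l) (κ l) = 3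
  dκ : ∀ l, L.deg (κ l) = 0
  κθ : ∀ l i, L.b (κ l) (θ i) = 0
  κτ : ∀ l β, L.b (κ l) (τ β) = 0
  κη : ∀ l, L.b (κ l) (η α) = -1
  κη' : ∀ l β, β ≠ α → L.b (κ l) (η β) = 0
  big : ((∃ i, L.b (θ i) (θ i0) = 2 ∧ L.b (θ i) (θ i1) = 2) ∧ IsEmpty K) ∨
    ∀ β : B, ∃ β' β'', β' ≠ β ∧ β'' ≠ β ∧ β' ≠ β''

omit c in
theorem ip0 {v : Λ} (w : Λ) (h : L.b v v = 0) : L.b w v = 0 := by rw [L.defi v h, map_zero]
omit c in
theorem dg0 {v : Λ} (h : L.b v v = 0) : L.deg v = 0 := by rw [L.defi v h, map_zero]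
omit c in
theorem bes1 (a : Λ) {x : Λ} (hx : L.b x x = 1) : L.b a x ^ 2 ≤ L.b a a := by
  have := L.nonneg (a - L.b a x • x)
  rw [L.res a hx] at this
  linarith
omit c in
theorem sq4 {a b c d : ℤ} (h : a ^ 2 + b ^ 2 + c ^ 2 + d ^ 2 ≤ 4) :
    (-2 ≤ a ∧ a ≤ 2) ∧ (-2 ≤ b ∧ b ≤ 2) ∧ (-2 ≤ c ∧ c ≤ 2) := by
  refine ⟨⟨?_, ?_⟩, ⟨?_, ?_⟩, ?_, ?_⟩ <;> nlinarith [sq_nonneg a, sq_nonneg b, sq_nonneg c, sq_nonneg d]
omit c in
theorem cs1 {a b c : ℤ} (h : a ^ 2 + b ^ 2 + c ^ 2 + c ^ 2 ≤ 3) (e : a + b + c = -1) :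
    (c = 0 ∧ a = -1 ∧ b = 0) ∨ (c = 0 ∧ a = 0 ∧ b = -1) ∨ (c = -1 ∧ a = 0 ∧ b = 0) := by
  obtain ⟨⟨a1, a2⟩, ⟨b1, b2⟩, c1, c2⟩ := sq4 (h.trans (by norm_num))
  interval_cases a <;> interval_cases b <;> interval_cases c <;> omega
omit c in
theorem cs2 {a b c : ℤ} (h : a ^ 2 + b ^ 2 + c ^ 2 + c ^ 2 ≤ 3) (e : a + b + c = 2) :
    (c = 0 ∧ a = 1 ∧ b = 1) ∨ (c = 1 ∧ a = 1 ∧ b = 0) ∨ (c = 1 ∧ a = 0 ∧ b = 1) := by
  obtain ⟨⟨a1, a2⟩, ⟨b1, b2⟩, c1, c2⟩ := sq4 (h.trans (by norm_num))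
  interval_cases a <;> interval_cases b <;> interval_cases c <;> omega
omit c in
theorem cs3 {a b c : ℤ} (h : a ^ 2 + b ^ 2 + c ^ 2 + c ^ 2 ≤ 4) (e : a + b + c = 2) :
    (c = 0 ∧ a = 1 ∧ b = 1) ∨ (c = 1 ∧ a = 1 ∧ b = 0) ∨ (c = 1 ∧ a = 0 ∧ b = 1) ∨ (c = 0 ∧ a = 2 ∧ b = 0) ∨
      (c = 0 ∧ a = 0 ∧ b = 2) := by
  obtain ⟨⟨a1, a2⟩, ⟨b1, b2⟩, c1, c2⟩ := sq4 h
  interval_cases a <;> interval_cases b <;> interval_cases c <;> omega
omit c in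
theorem cs4 {a b c : ℤ} (h : a ^ 2 + b ^ 2 + c ^ 2 + c ^ 2 ≤ 3) (e : a + b + c = 0) :
    a = 0 ∨ (c = 0 ∧ a = 1 ∧ b = -1) ∨ (c = 0 ∧ a = -1 ∧ b = 1) ∨ (c = -1 ∧ a = 1 ∧ b = 0) ∨ (c = 1 ∧ a = -1 ∧ b = 0) := by
  obtain ⟨⟨a1, a2⟩, ⟨b1, b2⟩, c1, c2⟩ := sq4 (h.trans (by norm_num))
  interval_cases a <;> interval_cases b <;> interval_cases c <;> omega

/-- the constituents of `θ i0`, `θ i1` -/
structure Fr (R : Raw L Φ B K) (p q X Y : Λ) : Prop where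
  pp : L.b p p = 1
  qq : L.b q q = 1
  xx : L.b X X = 1
  yy : L.b Y Y = 1
  pq : L.b p q = 0
  px : L.b p X = 0
  py : L.b p Y = 0
  qx : L.b q X = 0
  qy : L.b q Y = 0
  xy : L.b X Y = 0
  e0 : R.θ R.i0 = p + q + X
  e1 : R.θ R.i1 = p + q + Y

omit c
variable {R : Raw L Φ B K} {p q X Y : Λ}

theorem Fr.swap (f : Fr R p q X Y) : Fr R q p X Y :=
  ⟨f.qq, f.pp, f.xx, f.yy, L.symm _ _ ▸ f.pq, f.qx, f.qy, f.px, f.py, f.xy, by rw [f.e0]; abel, by rw [f.e1]; abel⟩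

theorem exists_fr (R : Raw L Φ B K) : ∃ p q X Y, Fr R p q X Y := by
  have k : ∀ p q X, L.b p p = 1 → L.b q q = 1 → L.b X X = 1 → L.b p q = 0 → L.b p X = 0 → L.b q X = 0 →
      R.θ R.i0 = p + q + X → L.b (R.θ R.i1) p = 1 → L.b (R.θ R.i1) q = 1 → L.b (R.θ R.i1) X = 0 →
      ∃ p q X Y, Fr R p q X Y := fun p q X pp qq xx pq px qx e h1 h2 h3 => by
    have s1 := L.symm p (R.θ R.i1); have s2 := L.symm q (R.θ R.i1); have s3 := L.symm X (R.θ R.i1)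
    have s4 := L.symm q p; have s5 := L.symm X p; have s6 := L.symm X q; have := R.θθ R.i1
    refine ⟨p, q, X, R.θ R.i1 - p - q, pp, qq, xx, ?_, pq, px, ?_, qx, ?_, ?_, e, by abel⟩ <;>
      simp only [map_sub, AddMonoidHom.sub_apply] <;> omega
  obtain ⟨x, hx, h⟩ := L.split (R.θ R.i0) (by rw [R.θθ]; omega) (by rw [R.θθ]; omega)
  obtain ⟨y, z, hy, hz, yz, e⟩ := L.two (a := R.θ R.i0 - x) (by
    have := L.symm x (R.θ R.i0); have := R.θθ R.i0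
    simp only [map_sub, AddMonoidHom.sub_apply]; omega)
  have h0 : L.b x (R.θ R.i0 - x) = 0 := by rw [map_sub, L.symm, h, hx]; rfl
  rw [e, map_add] at h0
  obtain ⟨xy, xz⟩ := sq1 (hx ▸ L.bes2 x hy hz yz) (Or.inr (by omega))
  have e' : R.θ R.i0 = x + y + z := by rw [add_assoc, ← e]; abel
  have h1 := R.θ01
  rw [e', map_add, map_add] at h1
  have h2 := L.bes3 (R.θ R.i1) hx hy hz xy xz yz
  rw [R.θθ] at h2
  have h3 : ∀ a b c : ℤ, a ^ 2 + b ^ 2 + c ^ 2 ≤ 3 → a + b + c = 2 →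
      (a = 1 ∧ b = 1 ∧ c = 0) ∨ (a = 1 ∧ b = 0 ∧ c = 1) ∨ (a = 0 ∧ b = 1 ∧ c = 1) := fun a b c h e => by
    obtain ⟨⟨a1, a2⟩, ⟨b1, b2⟩, c1, c2⟩ := sq4 (a := a) (b := b) (c := c) (d := 0) (by linarith)
    interval_cases a <;> interval_cases b <;> interval_cases c <;> omega
  rcases h3 _ _ _ h2 h1 with ⟨a, b, c⟩ | ⟨a, b, c⟩ | ⟨a, b, c⟩
  · exact k x y z hx hy hz xy xz yz e' a b c
  · exact k x z y hx hz hy xz xy (L.symm _ _ ▸ yz) (by rw [e']; abel) a c b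
  · exact k y z x hy hz hx yz (L.symm _ _ ▸ xy) (L.symm _ _ ▸ xz) (by rw [e']; abel) b c a

namespace Fr
variable (f : Fr R p q X Y)
include f

theorem sy : L.b q p = 0 ∧ L.b X p = 0 ∧ L.b Y p = 0 ∧ L.b X q = 0 ∧ L.b Y q = 0 ∧ L.b Y X = 0 :=
  ⟨L.symm _ _ ▸ f.pq, L.symm _ _ ▸ f.px, L.symm _ _ ▸ f.py, L.symm _ _ ▸ f.qx, L.symm _ _ ▸ f.qy, L.symm _ _ ▸ f.xy⟩

theorem dg : L.deg p + L.deg q + L.deg X = 0 ∧ L.deg Y = L.deg X := by
  have h0 := R.dθ R.i0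
  have h1 := R.dθ R.i1
  rw [f.e0] at h0
  rw [f.e1] at h1
  simp only [map_add] at h0 h1
  omega

theorem ip (a : Λ) {n : ℤ} (h0 : L.b a (R.θ R.i0) = n) (h1 : L.b a (R.θ R.i1) = n) :
    L.b a Y = L.b a X ∧ L.b a p + L.b a q + L.b a X = n ∧
      L.b a p ^ 2 + L.b a q ^ 2 + L.b a X ^ 2 + L.b a X ^ 2 ≤ L.b a a ∧
      L.b p a = L.b a p ∧ L.b q a = L.b a q ∧ L.b X a = L.b a X ∧ L.b Y a = L.b a X := by
  rw [f.e0] at h0
  rw [f.e1] at h1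
  simp only [map_add] at h0 h1
  have e : L.b a Y = L.b a X := by omega
  refine ⟨e, h0, ?_, L.symm _ _, L.symm _ _, L.symm _ _, e ▸ L.symm _ _⟩
  have := L.bes3 (a - L.b a p • p) f.qq f.xx f.yy f.qx f.qy f.xy
  rw [L.res a f.pp] at this
  simp only [map_sub, map_zsmul, AddMonoidHom.sub_apply, AddMonoidHom.zsmul_apply, f.pq, f.px, f.py, smul_zero,
    sub_zero, e] at this
  linarith

theorem good (β : B) : L.b (R.η β) X = 0 := by
  have bad : ∀ β, L.b (R.η β) X ≠ 0 → L.b (R.η β) X = -1 ∧ L.b (R.η β) p = 0 ∧ L.b (R.η β) q = 0 := fun β h => by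
    obtain ⟨-, a2, a3, -⟩ := f.ip (R.η β) (R.ηθ β _) (R.ηθ β _)
    rw [R.ηη] at a3
    have := cs1 a3 a2
    omega
  obtain ⟨pp, qq, xx, yy, pq, px, py, qx, qy, xy, -, -⟩ := id f
  obtain ⟨s1, s2, s3, s4, s5, s6⟩ := f.sy
  have nC : ∀ β, L.b (R.η β) X ≠ 0 → L.b (R.η β + X + Y) (R.η β + X + Y) = 1 := fun β h => by
    obtain ⟨a1, -, -, a4, a5, a6, a7⟩ := f.ip (R.η β) (R.ηθ β _) (R.ηθ β _)
    have := bad β h
    have := R.ηη β
    simp only [map_add, AddMonoidHom.add_apply]; omega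
  by_contra h
  obtain ⟨b1, b2, b3⟩ := bad β h
  obtain ⟨a1, -, -, a4, a5, a6, a7⟩ := f.ip (R.η β) (R.ηθ β _) (R.ηθ β _)
  rcases R.big with ⟨⟨i, h0, h1⟩, -⟩ | hb
  · obtain ⟨c1, c2, c3, c4, c5, c6, c7⟩ := f.ip (R.θ i) h0 h1
    have t := R.θθ i
    have u := R.ηθ β i
    have u' := L.symm (R.η β) (R.θ i)
    rw [t] at c3
    rcases cs2 c3 c2 with k | k | k
    · have := L.eq_neg (x := R.θ i - p - q) (y := R.η β + X + Y)
        (by simp only [map_sub, AddMonoidHom.sub_apply]; omega) (nC β h)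
        (by simp only [map_sub, map_add, AddMonoidHom.sub_apply]; omega)
      have := congrArg L.deg this
      have := f.dg
      have := R.dθ i
      have := R.dη β
      have := L.deg_ne X xx
      simp only [map_sub, map_add, map_neg] at *
      omega
    · have := ip0 (L := L) (v := R.θ i - p - X - Y) (R.η β) (by simp only [map_sub, AddMonoidHom.sub_apply]; omega)
      simp only [map_sub] at this
      omega
    · have := ip0 (L := L) (v := R.θ i - q - X - Y) (R.η β) (by simp only [map_sub, AddMonoidHom.sub_apply]; omega)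
      simp only [map_sub] at this
      omega
  have g : ∀ β', β' ≠ β → L.b (R.η β') X ≠ 0 := fun β' n h' => by
    obtain ⟨c1, -⟩ := f.ip (R.η β') (R.ηθ β' _) (R.ηθ β' _)
    have := bes1 (R.η β') (nC β h)
    rw [map_add, map_add, R.ηη' _ _ n, c1, h', R.ηη] at this
    norm_num at this
  obtain ⟨β', β'', n1, n2, n3⟩ := hb β
  obtain ⟨c1, -, -, c4, c5, c6, c7⟩ := f.ip (R.η β') (R.ηθ β' _) (R.ηθ β' _)
  obtain ⟨d1, -, -, d4, d5, d6, d7⟩ := f.ip (R.η β'') (R.ηθ β'' _) (R.ηθ β'' _)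
  obtain ⟨t1, t2, -, t4, t5, t6, t7⟩ := f.ip (R.τ β) (R.τθ β _) (R.τθ β _)
  have c8 := bad β' (g β' n1)
  have d8 := bad β'' (g β'' n2)
  have v1 := R.ητ β; have v2 := R.ητ' _ _ n1; have v3 := R.ητ' _ _ n2
  have w1 := L.symm (R.τ β) (R.η β); have w2 := L.symm (R.τ β) (R.η β'); have w3 := L.symm (R.τ β) (R.η β'')
  have y1 := R.ηη' _ _ n1; have y2 := R.ηη' _ _ n1.symm; have y3 := R.ηη' _ _ n3; have y4 := R.ηη' _ _ n3.symm
  have y5 := R.ηη β'; have y6 := R.ηη β''; have y7 := R.ττ β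
  have tx : L.b (R.τ β) X = 1 := by
    have := L.bes3 (R.τ β) xx (nC β h) (nC β' (g β' n1)) (by simp only [map_add]; omega)
      (by simp only [map_add]; omega) (by simp only [map_add, AddMonoidHom.add_apply]; omega)
    simp only [map_add, y7, w1, w2, v1, v2, t1] at this
    have h1 : 0 < L.b (R.τ β) X := by nlinarith
    have h2 : L.b (R.τ β) X < 2 := by nlinarith
    omega
  have := ip0 (L := L) (v := R.τ β - X - Y - (R.η β' + X + Y) - (R.η β'' + X + Y)) (p + q)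
    (by simp only [map_sub, map_add, AddMonoidHom.sub_apply, AddMonoidHom.add_apply]; omega)
  simp only [map_sub, map_add, AddMonoidHom.add_apply] at this
  omega

theorem good' (β : B) : (L.b (R.η β) p = -1 ∧ L.b (R.η β) q = 0) ∨ (L.b (R.η β) p = 0 ∧ L.b (R.η β) q = -1) := by
  obtain ⟨-, a2, a3, -⟩ := f.ip (R.η β) (R.ηθ β _) (R.ηθ β _)
  rw [R.ηη] at a3
  have := cs1 a3 a2
  have := f.good β
  omega

theorem eta (h : L.b (R.η R.α) p = -1) (β : B) : L.b (R.η β) p = -1 := by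
  by_contra hn
  have n : β ≠ R.α := fun e => hn (e ▸ h)
  obtain ⟨pp, qq, xx, yy, pq, px, py, qx, qy, xy, -, -⟩ := id f
  obtain ⟨s1, s2, s3, s4, s5, s6⟩ := f.sy
  have g1 := f.good R.α; have g2 := f.good β; have g3 := f.good' R.α; have g4 := f.good' β
  obtain ⟨a1, -, -, a4, a5, a6, a7⟩ := f.ip (R.η R.α) (R.ηθ _ _) (R.ηθ _ _)
  obtain ⟨b1, -, -, b4, b5, b6, b7⟩ := f.ip (R.η β) (R.ηθ _ _) (R.ηθ _ _)
  obtain ⟨c1, c2, c3, c4, c5, c6, c7⟩ := f.ip (R.τ R.α) (R.τθ _ _) (R.τθ _ _)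
  obtain ⟨d1, d2, d3, d4, d5, d6, d7⟩ := f.ip (R.τ β) (R.τθ _ _) (R.τθ _ _)
  have y1 := R.ηη R.α; have y2 := R.ηη β; have y3 := R.ηη' _ _ n; have y4 := R.ηη' _ _ n.symm
  have z1 := R.ττ R.α; have z2 := R.ττ β; have z3 := R.ττ' _ _ n; have z4 := R.ττ' _ _ n.symm
  have v1 := R.ητ R.α; have v2 := R.ητ β; have v3 := R.ητ' _ _ n; have v4 := R.ητ' _ _ n.symm
  have w1 := L.symm (R.τ R.α) (R.η R.α); have w2 := L.symm (R.τ β) (R.η β)
  have w3 := L.symm (R.τ R.α) (R.η β); have w4 := L.symm (R.τ β) (R.η R.α)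
  have n0 : L.b (R.η R.α + p - (R.η β + q)) (R.η R.α + p - (R.η β + q)) = 0 := by
    simp only [map_sub, map_add, AddMonoidHom.sub_apply, AddMonoidHom.add_apply]; omega
  have k1 := ip0 (R.τ R.α) n0
  have k2 := ip0 (R.τ β) n0
  have k3 := dg0 n0
  simp only [map_sub, map_add] at k1 k2 k3
  rw [z1] at c3
  rw [z2] at d3
  have k4 := cs3 c3 c2
  have k5 := cs3 d3 d2
  have k6 : L.b (R.τ R.α) p = 1 ∧ L.b (R.τ R.α) q = 0 ∧ L.b (R.τ R.α) X = 1 := by omega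
  have k7 : L.b (R.τ β) p = 0 ∧ L.b (R.τ β) q = 1 ∧ L.b (R.τ β) X = 1 := by omega
  have k8 : L.b (R.η R.α) q = 0 ∧ L.b (R.η β) p = 0 ∧ L.b (R.η β) q = -1 := by omega
  clear k4 k5 g3 g4 c3 d3 n0
  have := dg0 (L := L) (v := R.η R.α + p + (R.τ R.α - p - X - Y) + (R.τ β - q - X - Y))
    (by simp only [map_sub, map_add, AddMonoidHom.sub_apply, AddMonoidHom.add_apply]; omega)
  simp only [map_sub, map_add] at this
  have := f.dg
  have := R.dη R.α; have := R.dη β; have := R.dτ R.α; have := R.dτ β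
  have := L.deg_ne p pp
  omega

theorem base (h : L.b (R.η R.α) p = -1) : (∀ i, L.b (R.θ i) p = 1) ∧ (∀ β, L.b (R.τ β) p = 1) ∧
    ∀ l, L.b (R.κ l) p = 0 := by
  obtain ⟨pp, qq, xx, yy, pq, px, py, qx, qy, xy, -, -⟩ := id f
  obtain ⟨s1, s2, s3, s4, s5, s6⟩ := f.sy
  have E : ∀ β, L.b (R.η β) p = -1 ∧ L.b (R.η β) q = 0 ∧ L.b (R.η β) X = 0 ∧ L.b (R.η β) Y = 0 ∧
      L.b p (R.η β) = -1 ∧ L.b q (R.η β) = 0 ∧ L.b X (R.η β) = 0 ∧ L.b Y (R.η β) = 0 := fun β => by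
    obtain ⟨a1, -, -, a4, a5, a6, a7⟩ := f.ip (R.η β) (R.ηθ _ _) (R.ηθ _ _)
    have := f.eta h β; have := f.good β; have := f.good' β
    omega
  have T : ∀ β, L.b (R.τ β) p = 1 := fun β => by
    obtain ⟨c1, c2, c3, c4, c5, c6, c7⟩ := f.ip (R.τ β) (R.τθ _ _) (R.τθ _ _)
    have z := R.ττ β
    have d := R.dτ β
    rw [z] at c3
    rcases cs3 c3 c2 with k | k | k | k | k
    · exact k.2.1
    · exact k.2.1
    · have := bes1 (L := L) (R.η β) (x := R.τ β - q - X - Y) (by simp only [map_sub, AddMonoidHom.sub_apply]; omega)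
      obtain ⟨-, e1, e2, e3, -⟩ := E β
      simp only [map_sub, R.ητ, e1, e2, e3, R.ηη] at this
      norm_num at this
    · have := dg0 (L := L) (v := R.τ β - p - p) (by simp only [map_sub, AddMonoidHom.sub_apply]; omega)
      have := L.deg_ne p pp
      simp only [map_sub] at *
      omega
    · have := dg0 (L := L) (v := R.τ β - q - q) (by simp only [map_sub, AddMonoidHom.sub_apply]; omega)
      have := L.deg_ne q qq
      simp only [map_sub] at *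
      omega
  refine ⟨fun i => ?_, T, fun l => ?_⟩
  · rcases R.θθ' i R.i0 with e | h0
    · rw [e, f.e0]; simp only [map_add, AddMonoidHom.add_apply]; omega
    rcases R.θθ' i R.i1 with e | h1
    · rw [e, f.e1]; simp only [map_add, AddMonoidHom.add_apply]; omega
    obtain ⟨c1, c2, c3, c4, c5, c6, c7⟩ := f.ip (R.θ i) h0 h1
    have z := R.θθ i
    rw [z] at c3
    rcases cs2 c3 c2 with k | k | k
    · exact k.2.1
    · exact k.2.1
    · have := ip0 (L := L) (v := R.θ i - q - X - Y) (R.η R.α) (by simp only [map_sub, AddMonoidHom.sub_apply]; omega)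
      have := E R.α
      have := R.ηθ R.α i
      simp only [map_sub] at *
      omega
  rcases R.big with ⟨-, hK⟩ | hb
  · exact (hK.false l).elim
  obtain ⟨β', β'', n1, n2, n3⟩ := hb R.α
  obtain ⟨c1, c2, c3, c4, c5, c6, c7⟩ := f.ip (R.κ l) (R.κθ _ _) (R.κθ _ _)
  have z := R.κκ l
  rw [z] at c3
  have e0 := E R.α; have e1 := E β'; have e2 := E β''
  have v0 := R.κη l; have v1 := R.κη' l _ n1; have v2 := R.κη' l _ n2
  have w0 := L.symm (R.η R.α) (R.κ l); have w1 := L.symm (R.η β') (R.κ l); have w2 := L.symm (R.η β'') (R.κ l)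
  rcases cs4 c3 c2 with k | k | k | k | k
  · exact k
  · exfalso
    have y0 := R.ηη R.α; have y1 := R.ηη β'; have y2 := R.ηη β''
    have y3 := R.ηη' _ _ n1; have y4 := R.ηη' _ _ n1.symm; have y5 := R.ηη' _ _ n2; have y6 := R.ηη' _ _ n2.symm
    have y7 := R.ηη' _ _ n3; have y8 := R.ηη' _ _ n3.symm
    have := ip0 (L := L) (v := R.η β' + R.η β'' - R.η R.α + p - (R.κ l - p + q) - (R.κ l - p + q)) (R.τ R.α)
      (by simp only [map_sub, map_add, AddMonoidHom.sub_apply, AddMonoidHom.add_apply]; omega)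
    have u0 := R.ητ R.α; have u1 := R.ητ' _ _ n1; have u2 := R.ητ' _ _ n2
    have u3 := L.symm (R.τ R.α) (R.η R.α); have u4 := L.symm (R.τ R.α) (R.η β'); have u5 := L.symm (R.τ R.α) (R.η β'')
    have u6 := T R.α
    simp only [map_sub, map_add] at this
    omega
  · have := bes1 (L := L) (R.η R.α) (x := R.κ l + p - q)
      (by simp only [map_sub, map_add, AddMonoidHom.sub_apply, AddMonoidHom.add_apply]; omega)
    simp only [map_sub, map_add, w0, v0, e0.1, e0.2.1, R.ηη] at this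
    norm_num at this
  · have := ip0 (L := L) (v := R.κ l - p + X + Y) (R.η β')
      (by simp only [map_sub, map_add, AddMonoidHom.sub_apply, AddMonoidHom.add_apply]; omega)
    simp only [map_sub, map_add] at this
    omega
  · have := ip0 (L := L) (v := R.κ l + p - X - Y) (R.η β')
      (by simp only [map_sub, map_add, AddMonoidHom.sub_apply, AddMonoidHom.add_apply]; omega)
    simp only [map_sub, map_add] at this
    omega

end Fr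

/-- the base character -/
theorem exists_base (R : Raw L Φ B K) : ∃ o, L.b o o = 1 ∧ (∀ i, L.b (R.θ i) o = 1) ∧
    (∀ β, L.b (R.τ β) o = 1 ∧ L.b (R.η β) o = -1) ∧ ∀ l, L.b (R.κ l) o = 0 := by
  obtain ⟨p, q, X, Y, f⟩ := exists_fr R
  rcases f.good' R.α with h | h
  · obtain ⟨a, b, c⟩ := f.base h.1
    exact ⟨p, f.pp, a, fun β => ⟨b β, f.eta h.1 β⟩, c⟩
  · obtain ⟨a, b, c⟩ := f.swap.base h.2
    exact ⟨q, f.qq, a, fun β => ⟨b β, f.swap.eta h.2 β⟩, c⟩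

end CA.ABG.Lt
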