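/-
Alperin-Brauer-Gorenstein: the lattice argument for virtual characters.
-/
import Cfsg.Agent.Lib.ABG.Lat2

set_option autoImplicit false

namespace CA.ABG.Lt

open CA.Br CA.Br.Lat

variable {Λ : Type*} [AddCommGroup Λ] {L : Lat Λ} {Φ B K : Type*}

/-- the decomposition relative to a base character -/
theorem Raw.main (R : Raw L Φ B K) {o : Λ} (oo : L.b o o = 1) (h1 : ∀ i, L.b (R.θ i) o = 1)
    (h2 : ∀ β, L.b (R.τ β) o = 1 ∧ L.b (R.η β) o = -1) (h3 : ∀ l, L.b (R.κ l) o = 0) :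
    ∃ S X Y1 Y2 Z, L.b S S = 1 ∧ L.b X X = 1 ∧ L.b Y1 Y1 = 1 ∧ L.b Y2 Y2 = 1 ∧ L.b Z Z = 1 ∧
    R.θ R.i0 = o + X - S ∧ R.τ R.α = o + Y2 - Y1 - S ∧ R.η R.α = Y1 - Z - o ∧
    L.b S o = 0 ∧ L.b Z o = 0 ∧ L.b Y2 o = 0 ∧ L.b Y2 (R.τ R.α) = 1 ∧
    (∀ i, L.b S (R.θ i) = -1 ∧ L.b Z (R.θ i) = 0) ∧
    (∀ β, L.b S (R.τ β) = -1 ∧ L.b S (R.η β) = 0 ∧ L.b Z (R.τ β) = 0 ∧ L.b Z (R.η β) = -1) ∧
    ∀ l, L.b S (R.κ l) = 0 ∧ L.b Z (R.κ l) = 0 ∧ ∃ Γ, L.b Γ Γ = 1 ∧ R.κ l = Γ - Y1 - Y2 := by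
  have g1 : ∀ i, L.b o (R.θ i) = 1 := fun i => L.symm _ _ ▸ h1 i
  have g2 : ∀ i, L.b o (R.τ i) = 1 := fun i => L.symm _ _ ▸ (h2 i).1
  have g3 : ∀ i, L.b o (R.η i) = -1 := fun i => L.symm _ _ ▸ (h2 i).2
  have g4 : ∀ i, L.b (R.τ i) o = 1 := fun i => (h2 i).1
  have g5 : ∀ i, L.b (R.η i) o = -1 := fun i => (h2 i).2
  have k : ∀ i j, L.b (R.θ i) (R.θ j) = 2 → L.b (R.θ i - o) (R.θ j - o) = 1 := fun i j h => by
    simp only [map_sub, AddMonoidHom.sub_apply, h, h1, g1, oo]; rfl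
  let D : Dat L Φ B K :=
    { a := L.deg o
      one := o
      θ := fun i => R.θ i - o
      τ := fun i => R.τ i - o
      η := fun i => R.η i + o
      κ := R.κ
      i0 := R.i0
      i1 := R.i1
      α := R.α
      h1 := oo
      θθ := fun i => by simp only [map_sub, AddMonoidHom.sub_apply, R.θθ, h1, g1, oo]; rfl
      θθ' := fun i j => (R.θθ' i j).imp (fun e => by rw [e]) (k i j)
      θ01 := k _ _ R.θ01
      θ1 := fun i => by simp only [map_sub, g1, oo]; rfl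
      dθ := fun i => by simp only [map_sub, R.dθ, zero_sub]
      ττ := fun i => by simp only [map_sub, AddMonoidHom.sub_apply, R.ττ, g2, g4, oo]; rfl
      ττ' := fun i j h => by simp only [map_sub, AddMonoidHom.sub_apply, R.ττ' i j h, g2, g4, oo]; rfl
      τθ := fun i j => by simp only [map_sub, AddMonoidHom.sub_apply, R.τθ, g1, g4, oo]; rfl
      τ1 := fun i => by simp only [map_sub, g2, oo]; rfl
      dτ := fun i => by simp only [map_sub, R.dτ, zero_sub]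
      ηη := fun i => by simp only [map_add, AddMonoidHom.add_apply, R.ηη, g3, g5, oo]; rfl
      ηη' := fun i j h => by simp only [map_add, AddMonoidHom.add_apply, R.ηη' i j h, g3, g5, oo]; rfl
      ηθ := fun i j => by simp only [map_add, map_sub, AddMonoidHom.add_apply, R.ηθ, g1, g5, oo]; rfl
      ητ := fun i => by simp only [map_add, map_sub, AddMonoidHom.add_apply, R.ητ, g2, g5, oo]; rfl
      ητ' := fun i j h => by simp only [map_add, map_sub, AddMonoidHom.add_apply, R.ητ' i j h, g2, g5, oo]; rfl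
      η1 := fun i => by simp only [map_add, g3, oo]; rfl
      κκ := R.κκ
      dκ := R.dκ
      κθ := fun l i => by simp only [map_sub, R.κθ, h3]; rfl
      κτ := fun l i => by simp only [map_sub, R.κτ, h3]; rfl
      κη := fun l => by simp only [map_add, R.κη, h3]; rfl
      κη' := fun l i h => by simp only [map_add, R.κη' l i h, h3]; rfl
      big := R.big.imp (fun ⟨⟨i, a, b⟩, h⟩ => ⟨⟨i, k _ _ a, k _ _ b⟩, h⟩) id }
  obtain ⟨S, X, Y1, Y2, Z, a1, a2, a3, a4, a5, e1, e2, e3, b1, b2, b3, b4, c1, c2, c3⟩ := Lt.main D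
  simp only [D, map_sub, map_add] at e1 e2 e3 b1 b2 b3 b4 c1 c2 c3
  refine ⟨S, X, Y1, Y2, Z, a1, a2, a3, a4, a5, ?_, ?_, ?_, b1, b2, b3, by omega,
    fun i => by have := c1 i; omega, fun i => by have := c2 i; omega, c3⟩
  · rw [add_sub_assoc, ← e1]; abel
  · rw [add_sub_assoc, add_sub_assoc, ← e2]; abel
  · rw [← e3]; abel

end CA.ABG.Lt

namespace CA.ABG

open CA.Ch CA.Br

variable {G : Type*} [Group G] [Finite G] {Φ B K : Type*}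

/-- the Gram data of the virtual characters of a block -/
structure RawV (θ : Φ → G → ℂ) (τ η : B → G → ℂ) (κ : K → G → ℂ) (i0 i1 : Φ) (α : B) : Prop where
  vθ : ∀ i, IsVC (θ i)
  vτ : ∀ i, IsVC (τ i)
  vη : ∀ i, IsVC (η i)
  vκ : ∀ i, IsVC (κ i)
  θθ : ∀ i, ⟪θ i, θ i⟫ = 3
  θθ' : ∀ i j, θ i = θ j ∨ ⟪θ i, θ j⟫ = 2
  θ01 : ⟪θ i1, θ i0⟫ = 2
  dθ : ∀ i, θ i 1 = 0
  ττ : ∀ β, ⟪τ β, τ β⟫ = 4
  ττ' : ∀ β β', β ≠ β' → ⟪τ β, τ β'⟫ = 2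
  τθ : ∀ β i, ⟪τ β, θ i⟫ = 2
  dτ : ∀ β, τ β 1 = 0
  ηη : ∀ β, ⟪η β, η β⟫ = 3
  ηη' : ∀ β β', β ≠ β' → ⟪η β, η β'⟫ = 2
  ηθ : ∀ β i, ⟪η β, θ i⟫ = -1
  ητ : ∀ β, ⟪η β, τ β⟫ = -2
  ητ' : ∀ β β', β ≠ β' → ⟪η β, τ β'⟫ = -1
  dη : ∀ β, η β 1 = 0
  κκ : ∀ l, ⟪κ l, κ l⟫ = 3
  dκ : ∀ l, κ l 1 = 0
  κθ : ∀ l i, ⟪κ l, θ i⟫ = 0
  κτ : ∀ l β, ⟪κ l, τ β⟫ = 0
  κη : ∀ l, ⟪κ l, η α⟫ = -1
  κη' : ∀ l β, β ≠ α → ⟪κ l, η β⟫ = 0
  big : ((∃ i, ⟪θ i, θ i0⟫ = 2 ∧ ⟪θ i, θ i1⟫ = 2) ∧ IsEmpty K) ∨ ∀ β : B, ∃ β' β'', β' ≠ β ∧ β'' ≠ β ∧ β' ≠ β''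

namespace RawV

variable {θ : Φ → G → ℂ} {τ η : B → G → ℂ} {κ : K → G → ℂ} {i0 i1 : Φ} {α : B} (h : RawV θ τ η κ i0 i1 α)

/-- the lattice data -/
noncomputable def raw : Lt.Raw (vcLat G) Φ B K where
  θ := fun i => ⟨θ i, h.vθ i⟩
  τ := fun i => ⟨τ i, h.vτ i⟩
  η := fun i => ⟨η i, h.vη i⟩
  κ := fun i => ⟨κ i, h.vκ i⟩
  i0 := i0
  i1 := i1
  α := α
  θθ := fun i => b_of (by simpa using h.θθ i)
  θθ' := fun i j => (h.θθ' i j).imp Subtype.ext fun h => b_of (by simpa using h)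
  θ01 := b_of (by simpa using h.θ01)
  dθ := fun i => floor_of_eq (by simpa using h.dθ i)
  ττ := fun i => b_of (by simpa using h.ττ i)
  ττ' := fun i j e => b_of (by simpa using h.ττ' i j e)
  τθ := fun i j => b_of (by simpa using h.τθ i j)
  dτ := fun i => floor_of_eq (by simpa using h.dτ i)
  ηη := fun i => b_of (by simpa using h.ηη i)
  ηη' := fun i j e => b_of (by simpa using h.ηη' i j e)
  ηθ := fun i j => b_of (by simpa using h.ηθ i j)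
  ητ := fun i => b_of (by simpa using h.ητ i)
  ητ' := fun i j e => b_of (by simpa using h.ητ' i j e)
  dη := fun i => floor_of_eq (by simpa using h.dη i)
  κκ := fun i => b_of (by simpa using h.κκ i)
  dκ := fun i => floor_of_eq (by simpa using h.dκ i)
  κθ := fun i j => b_of (by simpa using h.κθ i j)
  κτ := fun i j => b_of (by simpa using h.κτ i j)
  κη := fun i => b_of (by simpa using h.κη i)
  κη' := fun i j e => b_of (by simpa using h.κη' i j e)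
  big := h.big.imp (fun ⟨⟨i, h1, h2⟩, h⟩ => ⟨⟨i, b_of (by simpa using h1), b_of (by simpa using h2)⟩, h⟩) id

include h

theorem base : ∃ o, IsSIrr o ∧ (∀ i, ⟪θ i, o⟫ = 1) ∧ (∀ β, ⟪τ β, o⟫ = 1 ∧ ⟪η β, o⟫ = -1) ∧ ∀ l, ⟪κ l, o⟫ = 0 := by
  obtain ⟨o, a, b, c, d⟩ := Lt.exists_base h.raw
  exact ⟨o, sirr_of_b a, fun i => by simpa [raw] using of_b (b i),
    fun i => ⟨by simpa [raw] using of_b (c i).1, by simpa [raw] using of_b (c i).2⟩, fun i => by simpa [raw] using of_b (d i)⟩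

theorem dec {o : G → ℂ} (ho : IsSIrr o) (h1 : ∀ i, ⟪θ i, o⟫ = 1) (h2 : ∀ β, ⟪τ β, o⟫ = 1 ∧ ⟪η β, o⟫ = -1)
    (h3 : ∀ l, ⟪κ l, o⟫ = 0) : ∃ S X Y1 Y2 Z, IsSIrr S ∧ IsSIrr X ∧ IsSIrr Y1 ∧ IsSIrr Y2 ∧ IsSIrr Z ∧
      θ i0 = o + X - S ∧ τ α = o + Y2 - Y1 - S ∧ η α = Y1 - Z - o ∧
      ⟪S, o⟫ = 0 ∧ ⟪Z, o⟫ = 0 ∧ ⟪Y2, o⟫ = 0 ∧ ⟪Y2, τ α⟫ = 1 ∧
      (∀ i, ⟪S, θ i⟫ = -1 ∧ ⟪Z, θ i⟫ = 0) ∧
      (∀ β, ⟪S, τ β⟫ = -1 ∧ ⟪S, η β⟫ = 0 ∧ ⟪Z, τ β⟫ = 0 ∧ ⟪Z, η β⟫ = -1) ∧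
      ∀ l, ⟪S, κ l⟫ = 0 ∧ ⟪Z, κ l⟫ = 0 ∧ ∃ Γ, IsSIrr Γ ∧ κ l = Γ - Y1 - Y2 := by
  obtain ⟨S, X, Y1, Y2, Z, a1, a2, a3, a4, a5, e1, e2, e3, b1, b2, b3, b4, c1, c2, c3⟩ :=
    h.raw.main (o := ⟨o, ho.isVC⟩) (b_of (by simpa [raw] using ho.ip_self)) (fun i => b_of (by simpa [raw] using h1 i))
      (fun i => ⟨b_of (by simpa [raw] using (h2 i).1), b_of (by simpa [raw] using (h2 i).2)⟩) fun i => b_of (by simpa [raw] using h3 i)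
  refine ⟨S, X, Y1, Y2, Z, sirr_of_b a1, sirr_of_b a2, sirr_of_b a3, sirr_of_b a4, sirr_of_b a5,
    congrArg Subtype.val e1, congrArg Subtype.val e2, congrArg Subtype.val e3, by simpa [raw] using of_b b1,
    by simpa [raw] using of_b b2, by simpa [raw] using of_b b3, by simpa [raw] using of_b b4,
    fun i => ⟨by simpa [raw] using of_b (c1 i).1, by simpa [raw] using of_b (c1 i).2⟩,
    fun β => ⟨by simpa [raw] using of_b (c2 β).1, by simpa [raw] using of_b (c2 β).2.1, by simpa [raw] using of_b (c2 β).2.2.1,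
      by simpa [raw] using of_b (c2 β).2.2.2⟩,
    fun l => ⟨by simpa [raw] using of_b (c3 l).1, by simpa [raw] using of_b (c3 l).2.1, ?_⟩⟩
  obtain ⟨Γ, h1, h2⟩ := (c3 l).2.2
  exact ⟨Γ, sirr_of_b h1, congrArg Subtype.val h2⟩

end RawV

end CA.ABG
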