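/-
Alperin-Brauer-Gorenstein, character theory: the characters of a block and the degree equations.
-/
import Cfsg.Agent.Lib.ABG.PDual
import Cfsg.Agent.Lib.ABG.Lat3
import Cfsg.Agent.Lib.Br.Dec

set_option autoImplicit false
set_option linter.unusedSectionVars false

open scoped ComplexConjugate

namespace CA.ABG

open Cfsg Subgroup CA CA.Ch CA.Br

variable {E : Type*} [Group E] [Finite E] {S : RA E} {G : Type*} [Group G] [Finite G]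

namespace POm

variable (O : POm S G)

noncomputable def Θ (l : Du S.T) : G → ℂ := O.OT (l.ch - 1)
noncomputable def θ (f : Du S.W) : G → ℂ := O.OW (1 - f.ch)
noncomputable def η (β : Du S.H) : G → ℂ := (2 : ℂ)⁻¹ • (O.Θ (S.rT β) - O.θ (S.rW β))
/-- the index of the centralizer -/
noncomputable def N : ℕ := (𝐂[O.τ]).index
/-- `χ` lies in the block up to sign -/
def InB (χ : G → ℂ) : Prop := χ ∈ O.B ∨ -χ ∈ O.B

theorem gram {a b c d : Du S.T} (ha : Tw a) (hb : Tw b) (hc : Tw c) (hd : Tw d) :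
    ⟪O.OT (a.ch - b.ch), O.OT (c.ch - d.ch)⟫ = S.nn a c - S.nn a d - S.nn b c + S.nn b d := by
  rw [O.gTT _ _ (ha.van hb) (ha.two hb) (hc.van hd) (hc.two hd), S.av_sub, Pi.sub_comp]
  simp only [ip_sub_left, ip_sub_right, RA.nn]; ring
theorem ΘΘ {a b : Du S.T} (ha : Tw a) (hb : Tw b) (a1 : a ≠ 1) (b1 : b ≠ 1) : ⟪O.Θ a, O.Θ b⟫ = S.nn a b + 6 := by
  have := O.gram ha tw_one hb tw_one
  rw [S.nn_one a1, S.one_nn b1, S.nn_one_one, sub_zero, sub_zero] at this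
  exact this
theorem θθ {a b : Du S.W} (ha : Tw a) (hb : Tw b) (a1 : a ≠ 1) (b1 : b ≠ 1) :
    ⟪O.θ a, O.θ b⟫ = 2 + (if a = b then 1 else 0) + if a = S.Sw b then 1 else 0 := by
  have h : S.Sw b ≠ 1 := fun e => b1 (by rw [← S.SwSw b, e, map_one])
  have e : (1 - b.ch) ∘ S.σ = (1 : Du S.W).ch - (S.Sw b).ch := rfl
  rw [θ, θ, O.gWW (1 - a.ch) (1 - b.ch) (tw_one.van ha) (tw_one.two ha) (tw_one.van hb) (tw_one.two hb), e,
    ← Du.ch_one]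
  simp only [ip_sub_left, ip_sub_right, Du.ip_ch, if_neg a1, if_neg b1.symm, if_neg h.symm, if_true]
  ring
theorem Θθ {a : Du S.T} {b : Du S.W} (ha : Tw a) (hb : Tw b) : ⟪O.Θ a, O.θ b⟫ = 0 :=
  O.gTW _ _ (ha.van tw_one) (ha.two tw_one) (tw_one.van hb) (tw_one.two hb)
theorem θΘ {a : Du S.T} {b : Du S.W} (ha : Tw a) (hb : Tw b) : ⟪O.θ b, O.Θ a⟫ = 0 := ip_eq_zero_symm (O.Θθ ha hb)
theorem vΘ {a : Du S.T} (ha : Tw a) : IsVC (O.Θ a) :=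
  O.vcT _ (a.isVC.sub isVC_one) (ha.van tw_one) (ha.two tw_one)
theorem vθ (a : Du S.W) : IsVC (O.θ a) := O.vcW _ (isVC_one.sub a.isVC)
theorem vη {β : Du S.H} (h : Tw β) : IsVC (O.η β) := by
  have := O.eta β h
  rwa [← neg_sub 1 (Du.ch (Du.comp (inclusion S.W_le_H) β)), map_neg, ← sub_eq_add_neg] at this
theorem dΘ {a : Du S.T} (h : Tw a) : O.Θ a 1 = 0 := O.degT _ (h.van tw_one)
theorem dθ {a : Du S.W} (h : Tw a) : O.θ a 1 = 0 := O.degW _ (tw_one.van h)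
theorem dη {β : Du S.H} (h : Tw β) : O.η β 1 = 0 := by
  simp only [η, Pi.smul_apply, Pi.sub_apply, O.dΘ (h.comp _), O.dθ (h.comp _), sub_self, smul_zero]
theorem Θ_R {a : Du S.T} (h : Tw a) : O.Θ (S.R a) = O.Θ a := by
  have := O.gram (h.comp S.r) h (h.comp S.r) h
  rw [S.nn_R, S.nn_R, sub_self, zero_sub, neg_add_cancel, ip_self_eq_zero] at this
  rw [← sub_eq_zero, Θ, Θ, ← map_sub, sub_sub_sub_cancel_right, this]
theorem Θ_eq (β : Du S.H) : O.Θ (S.rT β) = (2 : ℂ) • O.η β + O.θ (S.rW β) := by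
  rw [η, smul_smul, mul_inv_cancel₀ two_ne_zero, one_smul, sub_add_cancel]

theorem A_sirr {χ : G → ℂ} (h : IsSIrr χ) : O.A χ = (O.N : ℂ) * (χ O.τ ^ 2 / χ 1) := by
  rcases h with h | h
  · exact O.A_irr χ h
  · have := O.A_irr _ h
    rw [map_neg, Pi.neg_apply, Pi.neg_apply, neg_sq, div_neg, mul_neg, neg_inj] at this
    exact this

theorem inB_Θ {χ : G → ℂ} (h : IsSIrr χ) {a : Du S.T} (ha : Tw a) (h0 : ⟪χ, O.Θ a⟫ ≠ 0) : O.InB χ :=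
  h.imp (fun h => O.bT _ _ (ha.van tw_one) h h0)
    fun h => O.bT _ _ (ha.van tw_one) h (by rwa [ip_neg_left, neg_ne_zero])
theorem inB_θ {χ : G → ℂ} (h : IsSIrr χ) {a : Du S.W} (ha : Tw a) (h0 : ⟪χ, O.θ a⟫ ≠ 0) : O.InB χ :=
  h.imp (fun h => O.bW _ _ (tw_one.van ha) h h0)
    fun h => O.bW _ _ (tw_one.van ha) h (by rwa [ip_neg_left, neg_ne_zero])

theorem val {χ : G → ℂ} (h : O.InB χ) {a b : ℂ} (ha : ∀ l, Tw l → l ≠ 1 → ⟪χ, O.Θ l⟫ = a)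
    (hb : ∀ l, Tw l → l ≠ 1 → ⟪χ, O.θ l⟫ = b) : χ O.τ = -((S.Q + 1) / 2 * a) - (S.Q - 1) / 2 * b := by
  have k : ∀ {χ : G → ℂ}, χ ∈ O.B → ∀ {a b : ℂ}, (∀ l, Tw l → l ≠ 1 → ⟪χ, O.Θ l⟫ = a) →
      (∀ l, Tw l → l ≠ 1 → ⟪χ, O.θ l⟫ = b) → χ O.τ = -((S.Q + 1) / 2 * a) - (S.Q - 1) / 2 * b :=
    fun {χ} h a b ha hb => by
      rw [O.valt χ h, sum_tw S.tT2 S.tT_ne a (fun l => ⟪χ, O.OT (l.ch - 1)⟫) (by simp) ha,
        sum_tw S.tW2 S.tW_ne b (fun l => ⟪χ, O.OW (1 - l.ch)⟫) (by simp) hb]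
      ring
  rcases h with h | h
  · exact k h ha hb
  · have := k h (a := -a) (b := -b) (fun l h1 h2 => by rw [ip_neg_left, ha l h1 h2])
      fun l h1 h2 => by rw [ip_neg_left, hb l h1 h2]
    rw [Pi.neg_apply] at this
    linear_combination -this

theorem Θ_t (a : Du S.T) (h : Tw a) :
    O.Θ a O.τ = (S.Q + 1) * (a.ch S.tT + a.ch S.uT + a.ch S.tT * a.ch S.uT - 3) := by
  rw [Θ, O.atT (a.ch - 1) (h.van tw_one) (h.two tw_one), S.av_t]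
  simp only [Pi.sub_apply, Pi.one_apply, Du.ch_apply_mul]; ring
theorem θ_t (a : Du S.W) (h : Tw a) : O.θ a O.τ = (1 - S.Q) * (1 - a.ch S.tW) :=
  O.atW _ (tw_one.van h) (tw_one.two h)
theorem A_θ (a : Du S.W) (h : Tw a) :
    O.A (O.θ a) = O.k ^ 2 * (S.Q * (S.Q - 1) * (S.Q + 1) ^ 2 * (1 - if S.Sw a = a then 1 else 0)) := by
  rw [θ, O.A_W (1 - a.ch) (tw_one.van h) (tw_one.two h), Pi.sub_comp, ip_sub_left, S.ip_Wm]; simp [Pi.one_comp]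
theorem A_OT {a b : Du S.T} (ha : Tw a) (hb : Tw b) : O.A (O.OT (a.ch - b.ch)) = O.k ^ 2 * (S.Q * (S.Q + 1) *
    (2 * S.Q * (S.av a.ch S.tT - S.av b.ch S.tT) + (S.Q - 1) ^ 2 * (⟪S.av a.ch ∘ inclusion S.Tm_le_T, 1⟫ -
      ⟪S.av b.ch ∘ inclusion S.Tm_le_T, 1⟫))) := by
  rw [O.A_T _ (ha.van hb) (ha.two hb), S.av_sub, Pi.sub_comp, ip_sub_left, Pi.sub_apply]

/-- index sets -/
abbrev IΦ (S : RA E) := {f : Du S.W // Tw f ∧ S.Sw f ≠ f}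
abbrev IB (S : RA E) := {β : Du S.H // Tw β ∧ β ≠ 1}
abbrev IK (S : RA E) := {l : Du S.T // Tw l ∧ S.Gen l}

omit O in
theorem al1 {α : Du S.H} (hu : (S.rT α).ch S.uT = -1) : α ≠ 1 := fun e => by
  rw [e, map_one, Du.ch_one, Pi.one_apply] at hu; norm_num at hu

theorem rawV {α : Du S.H} (hα : Tw α) (hu : (S.rT α).ch S.uT = -1) : ∃ φ0 φ1 : IΦ S, φ0.1.ch S.tW = -1 ∧
    RawV (fun i : IΦ S => O.θ i) (fun β : IB S => O.θ (S.rW β)) (fun β => O.η β)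
      (fun l : IK S => O.Θ l - O.Θ (S.rT α)) φ0 φ1 ⟨α, hα, al1 hu⟩ := by
  obtain ⟨φ0, φ1, t0, t1, v0, v1, n1, n2, h3⟩ := S.exists_φ
  have g : ∀ {φ : Du S.W}, φ.ch S.tW = -1 → S.Sw φ ≠ φ := fun h e => by
    rw [S.fix_tW e] at h; norm_num at h
  have α1 : α ≠ 1 := al1 hu
  have f1 : ∀ {φ : Du S.W}, S.Sw φ ≠ φ → φ ≠ 1 := fun h e => h (by rw [e, map_one])
  have l1 : ∀ {l : Du S.T}, S.Gen l → l ≠ 1 := fun h e => h.h0 (by rw [e, map_one])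
  have hR : ∀ {β : Du S.H}, Tw β → β ≠ 1 → S.R (S.rT β) ≠ S.rT β := fun h h1 e => S.rT_ne h1 (S.R_fix (h.comp _) e)
  have TT : ∀ β β' : {β : Du S.H // Tw β ∧ β ≠ 1}, ⟪O.Θ (S.rT β), O.Θ (S.rT β')⟫ = if β = β' then 8 else 6 :=
    fun β β' => by
      rw [O.ΘΘ (β.2.1.comp _) (β'.2.1.comp _) (S.rT_ne β.2.2) (S.rT_ne β'.2.2),
        S.nn_fix (S.fix_rT _) (S.fix_rT _) (hR β'.2.1 β'.2.2)]
      simp only [(S.inj_T S.T_le_H).eq_iff, Subtype.val_inj]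
      split_ifs <;> norm_num
  have WW : ∀ β β' : {β : Du S.H // Tw β ∧ β ≠ 1}, ⟪O.θ (S.rW β), O.θ (S.rW β')⟫ = if β = β' then 4 else 2 :=
    fun β β' => by
      rw [O.θθ (β.2.1.comp _) (β'.2.1.comp _) (S.rW_ne β.2.2) (S.rW_ne β'.2.2), S.fix_rW]
      simp only [S.inj_W.eq_iff, Subtype.val_inj]
      split_ifs <;> norm_num
  have WF : ∀ (β : {β : Du S.H // Tw β ∧ β ≠ 1}) (i : {f : Du S.W // Tw f ∧ S.Sw f ≠ f}),
      ⟪O.θ (S.rW β), O.θ i⟫ = 2 := fun β i => by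
    rw [O.θθ (β.2.1.comp _) i.2.1 (S.rW_ne β.2.2) (f1 i.2.2), 
      if_neg fun e : S.rW β = i => i.2.2 (e ▸ S.fix_rW β.1),
      if_neg fun e : S.rW β = S.Sw i => i.2.2 (by rw [← e, ← S.fix_rW, e, S.SwSw])]
    norm_num
  have FF : ∀ i j : IΦ S, i.1 ≠ j.1 → i.1 ≠ S.Sw j → ⟪O.θ i, O.θ j⟫ = 2 := fun i j a b => by
    simp only [O.θθ i.2.1 j.2.1 (f1 i.2.2) (f1 j.2.2), if_neg a, if_neg b]
    norm_num
  have LT : ∀ (l : {l : Du S.T // Tw l ∧ S.Gen l}) (β : {β : Du S.H // Tw β ∧ β ≠ 1}),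
      ⟪O.Θ l, O.Θ (S.rT β)⟫ = 6 ∧ ⟪O.Θ (S.rT β), O.Θ l⟫ = 6 := fun l β => by
    rw [O.ΘΘ l.2.1 (β.2.1.comp _) (l1 l.2.2) (S.rT_ne β.2.2), O.ΘΘ (β.2.1.comp _) l.2.1 (S.rT_ne β.2.2) (l1 l.2.2),
      S.nn_gen_fix l.2.2 (S.fix_rT _), S.nn_fix_gen l.2.2 (S.fix_rT _), zero_add]
    exact ⟨rfl, rfl⟩
  have c2 : conj (2 : ℂ)⁻¹ = 2⁻¹ := by rw [map_inv₀, map_ofNat]
  refine ⟨⟨φ0, t0, g v0⟩, ⟨φ1, t1, g v1⟩, v0, fun i => O.vθ _, fun i => O.vθ _, fun i => O.vη i.2.1,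
    fun i => (O.vΘ i.2.1).sub (O.vΘ (hα.comp _)), fun i => ?_, fun i j => ?_, FF _ _ n1 n2, fun i => O.dθ i.2.1,
    fun β => by rw [WW, if_pos rfl], fun β β' h => by rw [WW, if_neg h], WF, fun β => O.dθ (β.2.1.comp _),
    fun β => ?_, fun β β' h => ?_, fun β i => ?_, fun β => ?_, fun β β' h => ?_, fun β => O.dη β.2.1,
    fun l => ?_, fun l => by rw [Pi.sub_apply, O.dΘ l.2.1, O.dΘ (hα.comp _), sub_self], fun l i => ?_, fun l β => ?_,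
    fun l => ?_, fun l β h => ?_, ?_⟩
  · simp only [O.θθ i.2.1 i.2.1 (f1 i.2.2) (f1 i.2.2), if_neg i.2.2.symm, if_true]
    norm_num
  · by_cases a : i.1 = j.1
    · exact Or.inl (by rw [a])
    by_cases b : i.1 = S.Sw j
    · refine Or.inl (sub_eq_zero.1 (ip_self_eq_zero.1 ?_))
      simp only [ip_sub_left, ip_sub_right, O.θθ i.2.1 i.2.1 (f1 i.2.2) (f1 i.2.2),
        O.θθ j.2.1 j.2.1 (f1 j.2.2) (f1 j.2.2), O.θθ i.2.1 j.2.1 (f1 i.2.2) (f1 j.2.2),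
        O.θθ j.2.1 i.2.1 (f1 j.2.2) (f1 i.2.2), if_neg i.2.2.symm, if_neg j.2.2.symm, if_neg a, if_neg (Ne.symm a),
        if_pos b, if_pos (show j.1 = S.Sw i by rw [b, S.SwSw]), if_true]
      norm_num
    · exact Or.inr (FF i j a b)
  · simp only [η, ip_sub_left, ip_sub_right, ip_smul_left, ip_smul_right, c2, TT, WW,
      O.Θθ (β.2.1.comp _) (β.2.1.comp _), O.θΘ (β.2.1.comp _) (β.2.1.comp _), if_true]
    norm_num
  · simp only [η, ip_sub_left, ip_sub_right, ip_smul_left, ip_smul_right, c2, TT, WW,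
      O.Θθ (β.2.1.comp _) (β'.2.1.comp _), O.θΘ (β'.2.1.comp _) (β.2.1.comp _), if_neg h]
    norm_num
  · simp only [η, ip_sub_left, ip_smul_left, WF, O.Θθ (β.2.1.comp _) i.2.1]
    norm_num
  · simp only [η, ip_sub_left, ip_smul_left, WW, O.Θθ (β.2.1.comp _) (β.2.1.comp _), if_true]
    norm_num
  · simp only [η, ip_sub_left, ip_smul_left, WW, O.Θθ (β.2.1.comp _) (β'.2.1.comp _), if_neg h]
    norm_num
  · simp only [ip_sub_left, ip_sub_right, LT l ⟨α, hα, α1⟩, O.ΘΘ l.2.1 l.2.1 (l1 l.2.2) (l1 l.2.2), S.nn_gen l.2.2,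
      TT ⟨α, hα, α1⟩ ⟨α, hα, α1⟩, if_true]
    norm_num
  · simp only [ip_sub_left, O.Θθ l.2.1 i.2.1, O.Θθ (hα.comp _) i.2.1, sub_self]
  · simp only [ip_sub_left, O.Θθ l.2.1 (β.2.1.comp _), O.Θθ (hα.comp _) (β.2.1.comp _), sub_self]
  · simp only [η, ip_sub_left, ip_sub_right, ip_smul_right, c2, LT l ⟨α, hα, α1⟩,
      TT ⟨α, hα, α1⟩ ⟨α, hα, α1⟩, O.Θθ l.2.1 (hα.comp _), O.Θθ (hα.comp _) (hα.comp _), if_true]
    norm_num
  · simp only [η, ip_sub_left, ip_sub_right, ip_smul_right, c2, LT l β,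
      TT ⟨α, hα, α1⟩ β, O.Θθ l.2.1 (β.2.1.comp _), O.Θθ (hα.comp _) (β.2.1.comp _), if_neg h.symm]
    norm_num
  rcases S.Q_odd with h | h
  · right
    obtain ⟨x, hx⟩ := S.exists_sqrt h
    have hv : ∀ n : ℤ, (S.rT (α ^ (2 * n))).ch x = (-1) ^ n := fun n => by
      rw [map_zpow, ← ch_zpow, zpow_mul, zpow_two, hx, ch_zpow, ← hu, Du.ch_apply, Du.ch_apply,
        ← Units.val_zpow_eq_zpow_val]; rfl
    have h2 : α ^ (2 : ℤ) ≠ 1 := fun e => by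
      have := hv 1; rw [mul_one, e, map_one, Du.ch_one, Pi.one_apply] at this; norm_num at this
    have h3 : α ^ (3 : ℤ) ≠ 1 := fun e => by
      have := hv 3; rw [mul_comm, zpow_mul, e, one_zpow, map_one, Du.ch_one, Pi.one_apply] at this
      norm_num at this
    have p12 : (⟨α, hα, α1⟩ : {β : Du S.H // Tw β ∧ β ≠ 1}) ≠ ⟨_, hα.zpow 2, h2⟩ := fun e => α1 (by
      have : α = α ^ (2 : ℤ) := congrArg Subtype.val e; rwa [zpow_two, left_eq_mul] at this)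
    have p13 : (⟨α, hα, α1⟩ : {β : Du S.H // Tw β ∧ β ≠ 1}) ≠ ⟨_, hα.zpow 3, h3⟩ := fun e => h2 (by
      have : α = α ^ (2 + 1 : ℤ) := congrArg Subtype.val e; rwa [zpow_add_one, right_eq_mul] at this)
    have p23 : (⟨_, hα.zpow 2, h2⟩ : {β : Du S.H // Tw β ∧ β ≠ 1}) ≠ ⟨_, hα.zpow 3, h3⟩ := fun e => α1 (by
      have : α ^ (2 : ℤ) = α ^ (2 + 1 : ℤ) := congrArg Subtype.val e; rwa [zpow_add_one, left_eq_mul] at this)
    intro β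
    by_cases e1 : β = ⟨α, hα, α1⟩
    · exact ⟨_, _, e1 ▸ p12.symm, e1 ▸ p13.symm, p23⟩
    by_cases e2 : β = ⟨_, hα.zpow 2, h2⟩
    · exact ⟨_, _, e2 ▸ p12, e2 ▸ p23.symm, p13⟩
    · exact ⟨_, _, Ne.symm e1, Ne.symm e2, p12⟩
  · obtain ⟨φ2, t2, g2, v2⟩ := h3 h
    have k : ∀ φ : Du S.W, φ.ch S.tW = -1 → φ2 ≠ φ ∧ φ2 ≠ S.Sw φ := fun φ h => by
      constructor <;> rintro rfl
      · rw [v2] at h; norm_num at h
      · rw [S.Sw_t, h] at v2; norm_num at v2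
    exact Or.inl ⟨⟨⟨φ2, t2, g2⟩, FF _ _ (k _ v0).1 (k _ v0).2, FF _ _ (k _ v1).1 (k _ v1).2⟩,
      ⟨fun l => S.not_gen h l.2.1 l.2.2⟩⟩

theorem ipθ {χ : G → ℂ} {b : ℂ} (h1 : ∀ i : IΦ S, ⟪χ, O.θ i⟫ = b) (h2 : ∀ β : IB S, ⟪χ, O.θ (S.rW β)⟫ = b)
    (l : Du S.W) (hl : Tw l) (l1 : l ≠ 1) : ⟪χ, O.θ l⟫ = b := by
  by_cases e : S.Sw l = l
  · obtain ⟨β, hβ, rfl⟩ := S.exists_rW e hl
    exact h2 ⟨β, hβ, fun e => l1 (by rw [e, map_one])⟩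
  · exact h1 ⟨l, hl, e⟩

theorem ipΘ {α : Du S.H} (hα : Tw α) (α1 : α ≠ 1) {χ : G → ℂ} {a b : ℂ} (h1 : ∀ β : IB S, ⟪χ, O.θ (S.rW β)⟫ = b)
    (h2 : ∀ β : IB S, ⟪χ, O.η β⟫ = a) (h3 : ∀ l : IK S, ⟪χ, O.Θ l - O.Θ (S.rT α)⟫ = 0)
    (l : Du S.T) (hl : Tw l) (l1 : l ≠ 1) : ⟪χ, O.Θ l⟫ = 2 * a + b := by
  have k : ∀ l, Tw l → l ≠ 1 → S.Sg l = l → ⟪χ, O.Θ l⟫ = 2 * a + b := fun l hl l1 e => by
    obtain ⟨β, hβ, rfl⟩ := S.exists_rT e hl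
    have p1 := h1 ⟨β, hβ, fun e => l1 (by rw [e, map_one])⟩
    have p2 := h2 ⟨β, hβ, fun e => l1 (by rw [e, map_one])⟩
    rw [Θ_eq, ip_add_right, ip_smul_right, p1, p2, map_ofNat]
  have r1 : ∀ {l}, l ≠ 1 → S.R l ≠ 1 := fun h e => h (S.R_inj (by rw [e, map_one]))
  by_cases e0 : S.Sg l = l
  · exact k l hl l1 e0
  by_cases e1 : S.Sg (S.R l) = S.R l
  · rw [← O.Θ_R hl]; exact k _ (hl.comp _) (r1 l1) e1
  by_cases e2 : S.Sg (S.R (S.R l)) = S.R (S.R l)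
  · rw [← O.Θ_R hl, ← O.Θ_R (hl.comp _)]; exact k _ ((hl.comp _).comp _) (r1 (r1 l1)) e2
  have := h3 ⟨l, hl, e0, e1, e2, fun e => l1 (S.R_fix hl e)⟩
  rw [ip_sub_right, sub_eq_zero] at this
  rw [this]; exact k _ (hα.comp _) (S.rT_ne α1) (S.fix_rT _)

/-- the base character of the block (`1` for the principal block) -/
structure IsBase (o : G → ℂ) : Prop where
  irr : IsSIrr o
  oθ : ∀ f, Tw f → f ≠ 1 → ⟪o, O.θ f⟫ = 1
  oΘ : ∀ l, Tw l → l ≠ 1 → ⟪o, O.Θ l⟫ = -1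

theorem exists_base : ∃ o, O.IsBase o := by
  obtain ⟨α, hα, hu⟩ := S.exists_α
  obtain ⟨φ0, φ1, -, h⟩ := O.rawV hα hu
  obtain ⟨o, h0, h1, h2, h3⟩ := h.base
  have c := fun {x} (hx : IsVC x) => h0.isVC.ip_comm hx
  refine ⟨o, h0, O.ipθ (fun i => (c (h.vθ i)).trans (h1 i)) fun i => (c (h.vτ i)).trans (h2 i).1, fun l a b => ?_⟩
  rw [O.ipΘ hα (al1 hu) (fun i => (c (h.vτ i)).trans (h2 i).1) (fun i => (c (h.vη i)).trans (h2 i).2)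
    (fun i => (c (h.vκ i)).trans (h3 i)) l a b]
  norm_num

variable {O} in
theorem Prin.base (h : O.Prin) : O.IsBase 1 where
  irr := isIrr_one.isSIrr
  oθ f hf f1 := by
    rw [isVC_one.ip_comm (O.vθ f), θ, h.oneW (1 - f.ch) (tw_one.van hf) (tw_one.two hf), ip_sub_left, Du.ip_ch_one, if_neg f1,
      ip_one_one, sub_zero]
  oΘ l hl l1 := by
    rw [isVC_one.ip_comm (O.vΘ hl), Θ, h.oneT (l.ch - 1) (hl.van tw_one) (hl.two tw_one), ip_sub_left, Du.ip_ch_one, if_neg l1,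
      ip_one_one, zero_sub]

variable {O} in
theorem IsBase.inB {o : G → ℂ} (h : O.IsBase o) : O.InB o := by
  obtain ⟨α, hα, hu⟩ := S.exists_α
  exact O.inB_θ h.irr (hα.comp _) (by rw [h.oθ _ (hα.comp _) (S.rW_ne (al1 hu))]; norm_num)
variable {O} in
theorem IsBase.t {o : G → ℂ} (h : O.IsBase o) : o O.τ = 1 := by rw [O.val h.inB h.oΘ h.oθ]; ring
variable {O} in
theorem IsBase.ne_one {o : G → ℂ} (h : O.IsBase o) (hn : O.NPrin) : o ≠ 1 := fun e => by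
  obtain ⟨α, hα, hu⟩ := S.exists_α
  have h1 := h.oθ _ (hα.comp _) (S.rW_ne (al1 hu))
  rw [e, isVC_one.ip_comm (O.vθ _), θ, hn (1 - (S.rW α).ch) (tw_one.van (hα.comp _)) (tw_one.two (hα.comp _))] at h1
  norm_num at h1

/-- the constituents: `o, Y2, Y1, χS` have height zero -/
structure Cons (α : Du S.H) (φ : Du S.W) (o χS X Y1 Y2 Z : G → ℂ) : Prop where
  base : O.IsBase o
  hα : Tw α
  hu : (S.rT α).ch S.uT = -1
  hφ : Tw φ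
  φt : φ.ch S.tW = -1
  iS : IsSIrr χS
  iX : IsSIrr X
  i1 : IsSIrr Y1
  i2 : IsSIrr Y2
  iZ : IsSIrr Z
  e1 : O.θ φ = o + X - χS
  e2 : O.θ (S.rW α) = o + Y2 - Y1 - χS
  e3 : O.η α = Y1 - Z - o
  So : ⟪χS, o⟫ = 0
  Zo : ⟪Z, o⟫ = 0
  Y2o : ⟪Y2, o⟫ = 0
  Y2α : ⟪Y2, O.θ (S.rW α)⟫ = 1
  Sθ : ∀ f, Tw f → f ≠ 1 → ⟪χS, O.θ f⟫ = -1
  SΘ : ∀ l, Tw l → l ≠ 1 → ⟪χS, O.Θ l⟫ = -1
  Zθ : ∀ f, Tw f → f ≠ 1 → ⟪Z, O.θ f⟫ = 0
  ZΘ : ∀ l, Tw l → l ≠ 1 → ⟪Z, O.Θ l⟫ = -2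
  gen : ∀ l, Tw l → S.Gen l → ∃ Γ, IsSIrr Γ ∧ O.Θ l - O.Θ (S.rT α) = Γ - Y1 - Y2

theorem decomp {o : G → ℂ} (ho : O.IsBase o) {α : Du S.H} (hα : Tw α) (hu : (S.rT α).ch S.uT = -1) :
    ∃ φ χS X Y1 Y2 Z, O.Cons α φ o χS X Y1 Y2 Z := by
  obtain ⟨φ0, φ1, v0, h⟩ := O.rawV hα hu
  have c := fun {x} (hx : IsVC x) => hx.ip_comm ho.irr.isVC
  have α1 := al1 hu
  obtain ⟨χS, X, Y1, Y2, Z, a1, a2, a3, a4, a5, e1, e2, e3, b1, b2, b3, b4, c1, c3, c4⟩ := h.dec ho.irr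
    (fun i => (c (h.vθ i)).trans (ho.oθ _ i.2.1 fun e => i.2.2 (by rw [e, map_one])))
    (fun i => ⟨(c (h.vτ i)).trans (ho.oθ _ (i.2.1.comp _) (S.rW_ne i.2.2)), (c (h.vη i)).trans (by
      rw [η, ip_smul_right, ip_sub_right, ho.oθ _ (i.2.1.comp _) (S.rW_ne i.2.2),
        ho.oΘ _ (i.2.1.comp _) (S.rT_ne i.2.2), map_inv₀, map_ofNat]; norm_num)⟩)
    fun i => (c (h.vκ i)).trans (by
      rw [ip_sub_right, ho.oΘ _ i.2.1 fun e => i.2.2.h0 (by rw [e, map_one]), ho.oΘ _ (hα.comp _) (S.rT_ne α1),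
        sub_self])
  refine ⟨φ0, χS, X, Y1, Y2, Z, ho, hα, hu, φ0.2.1, v0, a1, a2, a3, a4, a5, e1, e2, e3, b1, b2, b3, b4,
    O.ipθ (fun i => (c1 i).1) fun β => (c3 β).1, fun l a b => ?_, O.ipθ (fun i => (c1 i).2) fun β => (c3 β).2.2.1,
    fun l a b => ?_, fun l h1 h2 => (c4 ⟨l, h1, h2⟩).2.2⟩
  · rw [O.ipΘ hα α1 (fun β => (c3 β).1) (fun β => (c3 β).2.1) (fun l => (c4 l).1) l a b]; norm_num
  · rw [O.ipΘ hα α1 (fun β => (c3 β).2.2.1) (fun β => (c3 β).2.2.2) (fun l => (c4 l).2.1) l a b]; norm_num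

namespace Cons

variable {O} {α : Du S.H} {φ : Du S.W} {o χS X Y1 Y2 Z : G → ℂ} (c : O.Cons α φ o χS X Y1 Y2 Z)
include c

theorem φ_ne : S.Sw φ ≠ φ := fun e => by have := c.φt; rw [S.fix_tW e] at this; norm_num at this
theorem φ1 : φ ≠ 1 := fun e => c.φ_ne (by rw [e, map_one])
theorem BS : O.InB χS := O.inB_θ c.iS c.hφ (by rw [c.Sθ _ c.hφ c.φ1]; norm_num)
theorem BZ : O.InB Z :=
  O.inB_Θ c.iZ (c.hα.comp _) (by rw [c.ZΘ _ (c.hα.comp _) (S.rT_ne (al1 c.hu))]; norm_num)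
theorem B2 : O.InB Y2 := O.inB_θ c.i2 (c.hα.comp _) (by rw [c.Y2α]; norm_num)
theorem St : χS O.τ = S.Q := by rw [O.val c.BS c.SΘ c.Sθ]; ring
theorem Zt : Z O.τ = S.Q + 1 := by rw [O.val c.BZ c.ZΘ c.Zθ]; ring
theorem Xt : X O.τ = 1 - S.Q := by
  have := congrFun c.e1 O.τ
  simp only [Pi.sub_apply, Pi.add_apply, O.θ_t φ c.hφ, c.St, c.φt, c.base.t] at this
  linear_combination -this
theorem Y1t : Y1 O.τ = -S.Q := by
  have := congrFun c.e3 O.τ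
  simp only [η, Pi.sub_apply, Pi.smul_apply, smul_eq_mul, O.θ_t _ (c.hα.comp _), O.Θ_t _ (c.hα.comp _),
    c.Zt, S.fix_t (S.fix_rT α), S.fix_tW (S.fix_rW α), c.hu, c.base.t] at this
  linear_combination -this
theorem Y2t : Y2 O.τ = -1 := by
  have := congrFun c.e2 O.τ
  simp only [Pi.sub_apply, Pi.add_apply, O.θ_t _ (c.hα.comp _), c.St, c.Y1t, S.fix_tW (S.fix_rW α), c.base.t] at this
  linear_combination -this
theorem X1 : X 1 = χS 1 - o 1 := by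
  have := congrFun c.e1 1
  simp only [Pi.sub_apply, Pi.add_apply, O.dθ c.hφ] at this
  linear_combination -this
theorem Y21 : Y2 1 = Y1 1 + χS 1 - o 1 := by
  have := congrFun c.e2 1
  simp only [Pi.sub_apply, Pi.add_apply, O.dθ (c.hα.comp _)] at this
  linear_combination -this
theorem Z1 : Z 1 = Y1 1 - o 1 := by
  have := congrFun c.e3 1
  simp only [Pi.sub_apply, O.dη c.hα] at this
  linear_combination this

theorem E1 : (O.N : ℂ) * (χS 1 - S.Q * o 1) ^ 2 =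
    O.k ^ 2 * S.Q * (S.Q + 1) ^ 2 * (S.Q - 1) * o 1 * χS 1 * (χS 1 - o 1) := by
  have := congrArg O.A c.e1
  rw [map_sub, map_add, A_θ _ _ c.hφ, O.A_sirr c.base.irr, O.A_sirr c.iS, O.A_sirr c.iX, if_neg c.φ_ne, c.Xt, c.St,
    c.base.t, c.X1] at this
  have := c.base.irr.ne_zero_one
  have := c.iS.ne_zero_one
  have : χS 1 - o 1 ≠ 0 := c.X1 ▸ c.iX.ne_zero_one
  field_simp at *
  linear_combination -‹_ = _›

theorem E4 : (O.N : ℂ) * (Y1 1 + S.Q * o 1) ^ 2 = O.k ^ 2 * S.Q * (S.Q + 1) ^ 3 * o 1 * Y1 1 * (Y1 1 - o 1) := by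
  have := congrArg O.A c.e3
  have gα := S.gen_aux (S.fix_t (S.fix_rT α)) c.hu
  rw [η, map_smul, map_sub, map_sub, map_sub, A_θ _ _ (c.hα.comp _), Θ, ← Du.ch_one, O.A_OT (c.hα.comp _) tw_one,
    O.A_sirr c.base.irr, O.A_sirr c.i1, O.A_sirr c.iZ, if_pos (S.fix_rW α), c.Zt, c.Y1t, c.base.t, c.Z1,
    S.av_t, S.av_t, S.ip_av_Tm, S.ip_av_Tm, if_pos (S.fix_rT α), if_neg gα.1, if_neg gα.2, Du.ch_apply_mul,
    S.fix_t (S.fix_rT α), c.hu] at this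
  simp only [map_one, if_true, Du.ch_one, Pi.one_apply, smul_eq_mul] at this
  have := c.base.irr.ne_zero_one
  have := c.i1.ne_zero_one
  have : Y1 1 - o 1 ≠ 0 := c.Z1 ▸ c.iZ.ne_zero_one
  field_simp at *
  linear_combination (1 / 2) * ‹_ = _›

omit c in
theorem Qne : (S.Q : ℂ) ≠ 0 ∧ (S.Q : ℂ) - 1 ≠ 0 ∧ (S.Q : ℂ) + 1 ≠ 0 := by
  have q3 : (3 : ℤ) ≤ S.q := by exact_mod_cast S.three_le
  have : S.Q ≠ 0 ∧ S.Q - 1 ≠ 0 ∧ S.Q + 1 ≠ 0 := by rcases S.Q_cases with ⟨-, h⟩ | ⟨-, h⟩ <;> omega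
  exact_mod_cast this

theorem E2 : χS 1 * Y1 1 = S.Q ^ 2 * o 1 * (Y1 1 + χS 1 - o 1) := by
  have := congrArg O.A c.e2
  rw [map_sub, map_sub, map_add, A_θ _ _ (c.hα.comp _), O.A_sirr c.base.irr, O.A_sirr c.iS, O.A_sirr c.i1,
    O.A_sirr c.i2, if_pos (S.fix_rW α), c.Y21, c.Y2t, c.St, c.Y1t, c.base.t] at this
  have a0 := c.base.irr.ne_zero_one
  have s0 := c.iS.ne_zero_one
  have y0 := c.i1.ne_zero_one
  have c0 : Y1 1 + χS 1 - o 1 ≠ 0 := c.Y21 ▸ c.i2.ne_zero_one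
  have I0 : (O.N : ℂ) ≠ 0 := by exact_mod_cast index_ne_zero_of_finite
  have k0 : (O.k : ℂ) ≠ 0 := by exact_mod_cast O.k_pos.ne'
  obtain ⟨Q0, Q1, Q2⟩ := Qne (S := S)
  have E1 := c.E1
  have E4 := c.E4
  generalize o 1 = a, χS 1 = s, Y1 1 = y, (S.Q : ℂ) = Q, (O.N : ℂ) = N, (O.k : ℂ) = k at *
  field_simp at this
  have h2 : (y + s) * (s * y - Q ^ 2 * a * (y + s - a)) = 0 := mul_left_cancel₀ I0 (by linear_combination -this)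
  rcases mul_eq_zero.1 h2 with e | e
  · obtain rfl : y = -s := by linear_combination e
    have : k ^ 2 * Q * (Q + 1) ^ 2 * a * s * (2 * (s + Q * a)) = 0 := by linear_combination E1 - E4
    obtain rfl : s = -(Q * a) := by
      simpa [k0, Q0, Q2, a0, s0, add_eq_zero_iff_eq_neg] using this
    ring
  · exact sub_eq_zero.1 e

/-- the wreathed case -/
theorem E3 (h4 : S.Q % 4 = 1) : χS 1 = S.Q ^ 3 * o 1 := by
  obtain ⟨l, l1, l2, l3, l4⟩ := S.exists_gen h4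
  obtain ⟨Γ, g1, g2⟩ := c.gen l l1 l2
  have hα := c.hα
  have αt := S.fix_t (S.fix_rT α)
  have g3 : O.Θ l - O.Θ (S.rT α) = O.OT (l.ch - (S.rT α).ch) := by rw [Θ, Θ, ← map_sub, sub_sub_sub_cancel_right]
  have G1 : Γ 1 = 2 * Y1 1 + χS 1 - o 1 := by
    have := congrFun g2 1
    simp only [Pi.sub_apply, O.dΘ l1, O.dΘ (hα.comp _), c.Y21] at this
    linear_combination -this
  have Gt : Γ O.τ = -(S.Q + 1) := by
    have := congrFun g2 O.τ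
    simp only [Pi.sub_apply, O.Θ_t _ l1, O.Θ_t _ (hα.comp _), l3, l4, αt, c.hu, c.Y1t, c.Y2t] at this
    linear_combination -this
  have gα := S.gen_aux αt c.hu
  have E3 := congrArg O.A g2
  rw [g3, O.A_OT l1 (hα.comp _), map_sub, map_sub, O.A_sirr g1, O.A_sirr c.i1, O.A_sirr c.i2, G1, Gt, c.Y1t, c.Y21,
    c.Y2t, S.av_t, S.av_t, S.ip_av_Tm, S.ip_av_Tm, if_neg l2.h0, if_neg l2.h1, if_neg l2.h2, if_pos (S.fix_rT α),
    if_neg gα.1, if_neg gα.2, Du.ch_apply_mul, Du.ch_apply_mul, l3, l4, αt, c.hu] at E3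
  have f0 : 2 * Y1 1 + χS 1 - o 1 ≠ 0 := G1 ▸ g1.ne_zero_one
  have a0 := c.base.irr.ne_zero_one
  have s0 := c.iS.ne_zero_one
  have s1 : χS 1 - o 1 ≠ 0 := c.X1 ▸ c.iX.ne_zero_one
  have k0 : (O.k : ℂ) ≠ 0 := by exact_mod_cast O.k_pos.ne'
  obtain ⟨Q0, Q1, Q2⟩ := Qne (S := S)
  have E1 := c.E1
  have E2 := c.E2
  generalize o 1 = a, χS 1 = s, Y1 1 = y, (S.Q : ℂ) = Q, (O.N : ℂ) = N, (O.k : ℂ) = k at *
  have c0 : s - Q ^ 2 * a ≠ 0 := fun e =>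
    mul_ne_zero (mul_ne_zero (pow_ne_zero 2 Q0) a0) s1 (by linear_combination -E2 + y * e)
  have hy' : y = Q ^ 2 * a * (s - a) / (s - Q ^ 2 * a) := by field_simp; linear_combination E2
  have hy2 : y + s - a = s * (s - a) / (s - Q ^ 2 * a) := by rw [hy']; field_simp; ring
  have hf : 2 * y + s - a = (s - a) * (s + Q ^ 2 * a) / (s - Q ^ 2 * a) := by rw [hy']; field_simp; ring
  have c1 : s + Q ^ 2 * a ≠ 0 := fun e => f0 (by rw [hf, e]; simp)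
  rw [hf, hy2, hy'] at E3
  field_simp at E3
  have : k ^ 2 * Q * (Q + 1) * (Q - 1) * a * s * (s - a) * (2 * (s - Q ^ 3 * a)) = 0 := by
    linear_combination E3 - (s - Q ^ 2 * a) * E1
  simpa [Q0, Q1, Q2, s0, s1, a0, k0, sub_eq_zero] using this

theorem index_W (h4 : S.Q % 4 = 1) : (O.N : ℂ) = O.k ^ 2 * S.Q ^ 2 * (S.Q ^ 2 + S.Q + 1) * o 1 := by
  have E1 := c.E1
  rw [c.E3 h4] at E1
  obtain ⟨Q0, Q1, Q2⟩ := Qne (S := S)
  have a0 := c.base.irr.ne_zero_one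
  refine mul_left_cancel₀ (mul_ne_zero (pow_ne_zero 2 Q0) (mul_ne_zero (pow_ne_zero 2 Q1)
    (mul_ne_zero (pow_ne_zero 2 Q2) (pow_ne_zero 2 a0)))) ?_
  linear_combination E1

end Cons

theorem exists_cons {o : G → ℂ} (ho : O.IsBase o) : ∃ α φ χS X Y1 Y2 Z, O.Cons α φ o χS X Y1 Y2 Z := by
  obtain ⟨α, hα, hu⟩ := S.exists_α
  exact ⟨α, O.decomp ho hα hu⟩

/-- the order formula in the wreathed case -/
theorem index_W (h : O.Prin) (h4 : S.Q % 4 = 1) :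
    ((𝐂[O.τ]).index : ℤ) = O.k ^ 2 * S.Q ^ 2 * (S.Q ^ 2 + S.Q + 1) := by
  obtain ⟨α, φ, χS, X, Y1, Y2, Z, c⟩ := O.exists_cons h.base
  have := c.index_W h4
  rw [Pi.one_apply, mul_one] at this
  exact_mod_cast this

open ComplexOrder in
omit O in
theorem eq_one_of_perf (hp : _root_.commutator G = ⊤) {o : G → ℂ} (h : IsSIrr o) (h1 : o 1 = 1) : o = 1 := by
  obtain ⟨l, rfl⟩ := (h.isIrr_of_pos (by rw [h1]; exact zero_le_one)).isChar.exists_lin h1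
  have : l.ker = ⊤ := top_le_iff.1 (hp ▸ Abelianization.commutator_subset_ker l)
  ext g
  have : l g = 1 := by rw [← MonoidHom.mem_ker, this]; trivial
  simp [lin, this]

/-- no second block with the same local data, wreathed case -/
theorem stable_W (h : O.Prin) (O' : POm S G) (h' : O'.NPrin) (eτ : O'.τ = O.τ) (ek : O'.k = O.k)
    (hp : _root_.commutator G = ⊤) (h4 : S.Q % 4 = 1) : False := by
  obtain ⟨o, ho⟩ := O'.exists_base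
  obtain ⟨α, φ, χS, X, Y1, Y2, Z, c⟩ := O'.exists_cons ho
  obtain ⟨α, φ, χS, X, Y1, Y2, Z, c'⟩ := O.exists_cons h.base
  have e := c.index_W h4
  have e' := c'.index_W h4
  rw [N, eτ, ek] at e
  rw [N, e, Pi.one_apply] at e'
  refine ho.ne_one h' (eq_one_of_perf hp ho.irr (mul_left_cancel₀ (fun h0 => ?_) e'))
  rw [h0, zero_mul] at e
  exact index_ne_zero_of_finite (by exact_mod_cast e)

end POm

end CA.ABG
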