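/-
Alperin–Brauer–Gorenstein, character theory: the abstract interface between the block theory and the lattice argument.
-/
import Cfsg.Agent.Lib.ABG.PS

set_option autoImplicit false
set_option linter.unusedSectionVars false

namespace CA.ABG

open Cfsg Subgroup CA CA.Ch CA.Br

variable {E : Type*} [Group E] [Finite E]

/-- the sum over the three `r`-conjugates -/
noncomputable def RA.av (S : RA E) (α : S.T → ℂ) : S.T → ℂ := fun x => α x + α (S.r x) + α (S.r (S.r x))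

open Classical in
/-- The class functions `OT α`, `OW γ` of `G`, lying in the span of `B`, and the involution-count functional `A`. -/
structure POm (S : RA E) (G : Type*) [Group G] [Finite G] where
  τ : G
  k : ℕ
  B : Finset (G → ℂ)
  OT : (S.T → ℂ) →ₗ[ℂ] (G → ℂ)
  OW : (S.W → ℂ) →ₗ[ℂ] (G → ℂ)
  A : (G → ℂ) →ₗ[ℂ] ℂ
  ττ : τ * τ = 1
  k_pos : 0 < k
  irrB : ∀ χ ∈ B, IsIrr χ
  vcT : ∀ α, IsVC α → Van α → Two α → IsVC (OT α)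
  vcW : ∀ γ, IsVC γ → IsVC (OW γ)
  eta : ∀ β : Du S.H, (∀ y, Odd (orderOf y) → β.ch y = 1) →
    IsVC ((2 : ℂ)⁻¹ • (OT ((Du.comp (inclusion S.T_le_H) β).ch - 1) + OW ((Du.comp (inclusion S.W_le_H) β).ch - 1)))
  gTT : ∀ α α', Van α → Two α → Van α' → Two α' → ⟪OT α, OT α'⟫ = ⟪α, S.av α'⟫ + ⟪α, S.av α' ∘ S.s⟫
  gTW : ∀ α γ, Van α → Two α → Van γ → Two γ → ⟪OT α, OW γ⟫ = 0
  gWW : ∀ γ γ', Van γ → Two γ → Van γ' → Two γ' → ⟪OW γ, OW γ'⟫ = ⟪γ, γ'⟫ + ⟪γ, γ' ∘ S.σ⟫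
  degT : ∀ α, Van α → OT α 1 = 0
  degW : ∀ γ, Van γ → OW γ 1 = 0
  atT : ∀ α, Van α → Two α → OT α τ = (S.Q + 1) * S.av α S.tT
  atW : ∀ γ, Van γ → Two γ → OW γ τ = (1 - S.Q) * γ S.tW
  A_irr : ∀ χ, IsIrr χ → A χ = ((𝐂[τ]).index : ℂ) * (χ τ ^ 2 / χ 1)
  A_T : ∀ α, Van α → Two α → A (OT α) = k ^ 2 * (S.Q * (S.Q + 1) * (2 * S.Q * S.av α S.tT +
    (S.Q - 1) ^ 2 * ⟪S.av α ∘ inclusion S.Tm_le_T, 1⟫))
  A_W : ∀ γ, Van γ → Two γ → A (OW γ) = k ^ 2 * (S.Q * (S.Q - 1) * (S.Q + 1) ^ 2 * ⟪γ ∘ inclusion S.Wm_le_W, 1⟫)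
  bT : ∀ α χ, Van α → IsIrr χ → ⟪χ, OT α⟫ ≠ 0 → χ ∈ B
  bW : ∀ γ χ, Van γ → IsIrr χ → ⟪χ, OW γ⟫ ≠ 0 → χ ∈ B
  valt : ∀ χ ∈ B, χ τ =
    (S.Q + 1) / 2 * ∑ l : Du S.T with Two l.ch, l.ch S.tT * ⟪χ, OT (l.ch - 1)⟫ +
    (S.Q - 1) / 2 * ∑ f : Du S.W with Two f.ch, f.ch S.tW * ⟪χ, OW (1 - f.ch)⟫

namespace POm

variable {S : RA E} {G : Type*} [Group G] [Finite G] (O : POm S G)

/-- the principal block: `1` is the base character -/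
structure Prin : Prop where
  oneT : ∀ α, Van α → Two α → ⟪O.OT α, 1⟫ = ⟪α, 1⟫
  oneW : ∀ γ, Van γ → Two γ → ⟪O.OW γ, 1⟫ = ⟪γ, 1⟫
  /-- a linear character in the block behaves like `1` -/
  lin : ∀ χ ∈ O.B, χ 1 = 1 → ∀ γ, Van γ → Two γ → ⟪O.OW γ, χ⟫ = ⟪γ, 1⟫

/-- a non-principal block -/
def NPrin : Prop := ∀ γ, Van γ → Two γ → ⟪O.OW γ, 1⟫ = 0

end POm

end CA.ABG
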