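/-
Alperin–Brauer–Gorenstein, character theory: the action of `S₃` on the torus.
-/
import Cfsg.Agent.Lib.ABG.HOm
import Cfsg.Agent.Lib.ABG.POmD

set_option autoImplicit false
set_option linter.unusedSectionVars false
set_option maxHeartbeats 400000

namespace CA.ABG.HO

open Cfsg Subgroup CA CA.Ch CA.Br Finset ComplexConjugate
open CA.Br.OmB (inv_unique exists_inv not_odd_of_inv zp_conj zp_conj_iff zp_mul_odd zp_mul_odd_iff comm_of_zp
  sirr_pi0 sirr_pi0' conj_sq)

variable {G : Type*} [Group G] [Finite G]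

section
variable {S : HA G}

theorem W_inv {x : G} (hx : x ∈ S.W) (h : ¬ Odd (orderOf x)) : S.t ∈ zpowers x := by
  obtain ⟨i, hi, h2, h1⟩ := exists_inv h
  exact ((S.inv_W (zpowers_le.2 hx hi) h2).resolve_left h1) ▸ hi

theorem supW {c : S.W → ℂ} (h : Van c) : (torW S).SupA c := fun x hx =>
  h x (by rw [← Subgroup.orderOf_coe]; by_contra h'; exact hx (W_inv x.2 h'))

open Classical in
/-- `|H|` times the indicator of `t` -/
noncomputable def dt (S : HA G) : S.H → ℂ := fun h => if (h : G) = S.t then Nat.card S.H else 0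

theorem isCF_dt : IsCF (dt S) := fun a b => by
  classical
  have : ((b * a * b⁻¹ : S.H) : G) = S.t ↔ (a : G) = S.t := by
    conv_lhs => rw [← conj_t b.2]
    simp
  unfold dt
  exact if_congr this rfl rfl

theorem ip_dt (f : S.H → ℂ) : ⟪f, dt S⟫ = f (zH S ⟨S.t, S.t_Z⟩) := by
  have := Fintype.ofFinite S.H
  rw [ip_def, Finset.sum_eq_single_of_mem (zH S ⟨S.t, S.t_Z⟩) (Finset.mem_univ _) fun b _ hb => by
    rw [dt, if_neg fun e : (b : G) = S.t => hb (Subtype.ext e), map_zero, mul_zero], dt,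
    if_pos (show ((zH S ⟨S.t, S.t_Z⟩ : S.H) : G) = S.t from rfl), map_natCast, mul_comm _ (_ : ℂ),
    mul_inv_cancel_right₀ (by exact_mod_cast Nat.card_pos.ne')]

namespace Tor
variable (P : Tor S)

/-- the projection of the indicator of `t` -/
noncomputable def gt : P.A → ℂ := ∑ l ∈ annF (oddK P.A), l.ch P.tA • l.ch

theorem tA_sq : P.tA * P.tA = 1 := Subtype.ext S.tt

theorem gt_apply (x : P.A) : P.gt x = ∑ l ∈ annF (oddK P.A), l.ch (P.tA * x) := by
  simp only [gt, Finset.sum_apply, Pi.smul_apply, smul_eq_mul, Du.ch_apply_mul]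

theorem sup_gt : P.SupA P.gt := fun x hx => by
  rw [gt_apply]
  refine sum_annF_not_mem fun h => hx ?_
  have := zp_mul_odd (mem_zpowers S.t) S.tt (P.comm' P.tA.2 (P.tA * x).2) (by rwa [Subgroup.orderOf_coe])
  rwa [Subgroup.coe_mul, ← mul_assoc, show (P.tA : G) = S.t from rfl, S.tt, one_mul] at this

theorem van_gt : Van P.gt := fun x hx => P.sup_gt x fun h =>
  not_odd_of_inv h S.tt S.t_ne (by rwa [Subgroup.orderOf_coe])

theorem sum_tA : ∑ l ∈ annF (oddK P.A), l.ch P.tA = 0 := by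
  have := P.van_gt 1 (by simp)
  rwa [gt_apply, mul_one] at this

theorem gt_eq : P.gt = ∑ l ∈ annF (oddK P.A), l.ch P.tA • (l.ch - 1) := by
  simp only [smul_sub, Finset.sum_sub_distrib, ← Finset.sum_smul, sum_tA, zero_smul, sub_zero, gt]

theorem ip_eta_dt (l : Du P.A) : ⟪P.eta (dt S), l.ch⟫ = P.m * (S.q - P.n) * l.ch P.tA := by
  rw [← ip_conj, ← P.ip_D _ isCF_dt, ip_dt, D_Z, map_mul, map_mul, map_sub, map_natCast, map_natCast, map_natCast]
  exact congrArg _ (conj_ch_inv l P.tA_sq)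

theorem pi0_dt {Q : Tor S} (h : Pair P Q) :
    Blk.pi0 2 (P.D (P.eta (dt S))) = (P.m * (S.q - P.n) : ℂ) • P.D P.gt := by
  rw [pi0_D h, ← map_smul, gt, Finset.smul_sum]
  simp only [ip_eta_dt, smul_smul]

end Tor


theorem tu_sq : S.t * S.u * (S.t * S.u) = 1 := by rw [← S.wu]; exact conj_sq S.uu _
theorem t_ne_tu : S.t ≠ S.t * S.u := fun h => S.u_ne (by simpa using h)
theorem u_ne_tu : S.u ≠ S.t * S.u := fun h => S.t_ne (by simpa using h)

end

variable {S : RA G}

theorem rrr (x : S.T) : S.r (S.r (S.r x)) = x := S.rrr x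

theorem sr (x : S.T) : S.s (S.r x) = S.r (S.r (S.s x)) := by
  have h : S.r (S.s (S.r x)) = S.s x := by
    have := congrArg S.s (S.srsr x)
    rwa [show ∀ y, S.s (S.s y) = y from (torT S.toHA).σσ] at this
  rw [← h, rrr]

theorem zp_r {v x : S.T} : ((S.r v : S.T) : G) ∈ zpowers ((S.r x : S.T) : G) ↔ (v : G) ∈ zpowers (x : G) := by
  have k : ∀ {v x : S.T}, (v : G) ∈ zpowers (x : G) → ((S.r v : S.T) : G) ∈ zpowers ((S.r x : S.T) : G) :=
    fun {v x} h => by
      obtain ⟨n, e⟩ := mem_zpowers_iff.1 h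
      obtain rfl : x ^ n = v := Subtype.ext e
      exact mem_zpowers_iff.2 ⟨n, by rw [map_zpow]; rfl⟩
  exact ⟨fun h => by simpa only [rrr] using k (k h), k⟩

theorem ip_r (a b : S.T → ℂ) : ⟪a ∘ S.r, b ∘ S.r⟫ = ⟪a, b⟫ := ip_comp_surj S.r (fun x => ⟨_, rrr x⟩) a b

theorem av_r (a : S.T → ℂ) : S.av a ∘ S.r = S.av a := by
  ext x; simp only [RA.av, Function.comp_apply, rrr]; ring
theorem avs_r (a : S.T → ℂ) : (S.av a ∘ S.s) ∘ S.r = S.av a ∘ S.s := by
  ext x
  simp only [Function.comp_apply, sr]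
  exact (congrFun (av_r a) _).trans (congrFun (av_r a) _)

theorem odd_r {x : S.T} (h : Odd (orderOf x)) : Odd (orderOf (S.r x)) := h.of_dvd_nat (orderOf_map_dvd _ _)
theorem van_av {a : S.T → ℂ} (h : Van a) : Van (S.av a) := fun x hx => by
  simp only [RA.av, h x hx, h _ (odd_r hx), h _ (odd_r (odd_r hx)), add_zero]
theorem two_av {a : S.T → ℂ} (h : Two a) : Two (S.av a) := fun x y hy => by
  simp only [RA.av, map_mul, h _ y hy, h _ _ (odd_r hy), h _ _ (odd_r (odd_r hy))]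

open Classical in
/-- cut down to the elements having `v` as a power -/
noncomputable def ct (v : G) (a : S.T → ℂ) : S.T → ℂ := fun x => if v ∈ zpowers (x : G) then a x else 0

theorem ct_r (v : S.T) (a : S.T → ℂ) : ct ((S.r v : S.T) : G) a ∘ S.r = ct (v : G) (a ∘ S.r) := by
  ext x; simp only [ct, Function.comp_apply, zp_r]

theorem ct_sum {a : S.T → ℂ} (h : Van a) : a = ct S.t a + ct S.u a + ct (S.t * S.u) a := by
  ext x
  simp only [ct, Pi.add_apply]
  by_cases ho : Odd (orderOf x)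
  · simp [h x ho]
  rw [← Subgroup.orderOf_coe] at ho
  obtain ⟨i, hi, h2, h1⟩ := exists_inv ho
  have k : ∀ v : G, v * v = 1 → v ≠ 1 → i ≠ v → v ∉ zpowers (x : G) := fun v a b c e =>
    c (inv_unique hi e h2 a h1 b)
  rcases (S.inv_T (zpowers_le.2 x.2 hi) h2).resolve_left h1 with rfl | rfl | rfl
  · rw [if_pos hi, if_neg (k _ S.uu S.u_ne S.t_ne_u), if_neg (k _ tu_sq S.tu_ne t_ne_tu)]; simp
  · rw [if_neg (k _ S.tt S.t_ne S.t_ne_u.symm), if_pos hi, if_neg (k _ tu_sq S.tu_ne u_ne_tu)]; simp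
  · rw [if_neg (k _ S.tt S.t_ne t_ne_tu.symm), if_neg (k _ S.uu S.u_ne u_ne_tu.symm), if_pos hi]; simp

/-- the orbit sum cut down to `R` -/
noncomputable def cut (a : S.T → ℂ) : S.T → ℂ := ct S.t (S.av a)

theorem cut_of (a : S.T → ℂ) {x : S.T} (h : S.t ∈ zpowers (x : G)) : cut a x = S.av a x := if_pos h
theorem sup_cut (a : S.T → ℂ) : (torT S.toHA).SupA (cut a) := fun _ h => if_neg h

theorem ip_cut {a g : S.T → ℂ} (h : Van a) (hg : g ∘ S.r = g) : ⟪cut a, g⟫ = ⟪a, g⟫ := by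
  have e : cut a = ct S.t a + ct S.t (a ∘ S.r) + ct S.t ((a ∘ S.r) ∘ S.r) := by
    ext x; simp only [cut, ct, Pi.add_apply, RA.av, Function.comp_apply]; split_ifs <;> simp
  conv_rhs => rw [ct_sum h]
  rw [e, ip_add_left, ip_add_left, ip_add_left, ip_add_left, ← ip_r (ct S.u a), ← ip_r (ct (S.t * S.u) a),
    ← ip_r (ct (S.t * S.u) a ∘ _), hg, hg, show S.t * S.u = (S.r (S.r S.tT) : S.T) by rw [S.r_t, S.r_u]; rfl,
    show S.u = (S.r S.tT : S.T) by rw [S.r_t]; rfl, ct_r, ct_r, ct_r]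
  rfl

theorem cut_eq {a : S.T → ℂ} (h : Van a) {x : S.T} (hx : ¬ Odd (orderOf (x : G)) → S.t ∈ zpowers (x : G)) :
    cut a x = S.av a x := by
  by_cases ho : Odd (orderOf (x : G))
  · rw [van_av h x (by rwa [← Subgroup.orderOf_coe])]
    exact sup_cut a x fun e => not_odd_of_inv e S.tt S.t_ne ho
  · exact cut_of a (hx ho)

theorem two_cut {a : S.T → ℂ} (h : Two a) : Two (cut a) := fun x y hy => by
  simp only [cut, ct, two_av h x y hy, Subgroup.coe_mul,
    zp_mul_odd_iff S.tt ((torT S.toHA).comm' x.2 y.2) (by rwa [Subgroup.orderOf_coe])]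

variable (S) in
/-- the orbit sum as a linear map -/
noncomputable def avL : (S.T → ℂ) →ₗ[ℂ] (S.T → ℂ) where
  toFun := S.av
  map_add' a b := by ext x; simp only [RA.av, Pi.add_apply]; ring
  map_smul' c a := by ext x; simp only [RA.av, Pi.smul_apply, smul_eq_mul, RingHom.id_apply]; ring

theorem isVC_av {a : S.T → ℂ} (h : IsVC a) : IsVC (S.av a) :=
  (h.add (h.comp S.r)).add ((h.comp S.r).comp S.r)

theorem cut_gt : cut (torT S.toHA).gt = (torT S.toHA).gt := by
  ext x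
  by_cases h : S.t ∈ zpowers (x : G)
  · have k : ∀ {v : G} (y : S.T), v * v = 1 → v ≠ 1 → S.t ≠ v → v ∈ zpowers (y : G) → (torT S.toHA).gt y = 0 :=
      fun y a b c e => (torT S.toHA).sup_gt y fun e' => c (inv_unique e' e S.tt a S.t_ne b)
    have h1 : S.u ∈ zpowers (S.r x : G) := by have := (zp_r (v := S.tT)).2 h; rwa [S.r_t] at this
    have h2 : S.t * S.u ∈ zpowers (S.r (S.r x) : G) := by have := (zp_r (v := S.uT)).2 h1; rwa [S.r_u] at this
    rw [cut_of _ h, RA.av, k _ S.uu S.u_ne S.t_ne_u h1, k _ tu_sq S.tu_ne t_ne_tu h2, add_zero, add_zero]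
  · rw [sup_cut _ x h, (torT S.toHA).sup_gt x h]

end CA.ABG.HO
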