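/-
Alperin–Brauer–Gorenstein, character theory: lifting 2-elements along an epimorphism with kernel of odd order;
products of involutions.
-/
import Cfsg.Agent.Lib.Br.Om4
import Cfsg.Agent.Lib.G.Sylow

set_option autoImplicit false
set_option linter.unusedSectionVars false

namespace CA.ABG

open Cfsg Subgroup CA CA.Ch CA.Br Finset ComplexConjugate
open CA.Br.OmB (conj_sq)

variable {K L : Type*} [Group K] [Group L] [Finite K] [Finite L]

/-- an epimorphism with kernel of odd order -/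
structure OddK (π : K →* L) : Prop where
  surj : Function.Surjective π
  odd : ∀ x, π x = 1 → Odd (orderOf x)

namespace OddK

variable {π : K →* L} (h : OddK π)
include h

theorem eq_one {x : K} (hx : PiElt {2} x) (e : π x = 1) : x = 1 := hx.eq_one (Blk.piElt_two_compl.2 (h.odd x e))

theorem inj {P : Subgroup K} (hP : PiGrp {2} P) {x y : K} (hx : x ∈ P) (hy : y ∈ P) (e : π x = π y) : x = y :=
  mul_inv_eq_one.1 (h.eq_one (hP.piElt (mul_mem hx (inv_mem hy))) (by rw [map_mul, map_inv, e, mul_inv_cancel]))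

theorem conj0 {x y : K} (hx : PiElt {2} x) (hy : PiElt {2} y) (e : π x = π y) :
    ∃ k, π k ∈ zpowers (π x) ∧ k * y * k⁻¹ = x := by
  obtain ⟨P, hP, hx'⟩ := exists_sylowIn_ge (M := comap π (zpowers (π x))) (piGrp_zpowers.2 hx)
    (zpowers_le.2 (mem_comap.2 (mem_zpowers _)))
  obtain ⟨k, hk, hk'⟩ := hP.exists_conj_mem (x := y) (mem_comap.2 (e ▸ mem_zpowers _)) hy
  refine ⟨k, hk, h.inj hP.piGrp hk' (hx' (mem_zpowers x)) ?_⟩
  rw [map_mul, map_mul, map_inv, ← e, (OmB.comm_of_zp (mem_comap.1 hk) rfl).symm, mul_inv_cancel_right]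

theorem isConj {x y : K} (hx : PiElt {2} x) (hy : PiElt {2} y) (e : IsConj (π x) (π y)) : IsConj x y := by
  obtain ⟨c, hc⟩ := isConj_iff.1 e
  obtain ⟨c, rfl⟩ := h.surj c
  obtain ⟨k, -, hk⟩ := h.conj0 hy (piElt_conj.2 hx) (y := c * x * c⁻¹) (by rw [map_mul, map_mul, map_inv, hc])
  exact isConj_iff.2 ⟨k * c, by rw [← hk]; group⟩

theorem lift {y : L} (hy : PiElt {2} y) : ∃ x, PiElt {2} x ∧ π x = y := by
  obtain ⟨x, rfl⟩ := h.surj y
  exact ⟨_, constt_piElt {2} x, by rw [map_constt, constt_eq_self hy]⟩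

theorem sect {B : Subgroup L} (hB : IsPGroup 2 B) : ∃ σ : B →* K, ∀ b, π (σ b) = b := by
  obtain ⟨Q, hQ⟩ := hB.exists_le_sylow
  obtain ⟨P, rfl⟩ := Sylow.mapSurjective_surjective h.surj 2 Q
  have hP : PiGrp {2} (P : Subgroup K) := (piGrp_singleton_iff Nat.prime_two).2 P.2
  have hf : Function.Injective (π.comp (P : Subgroup K).subtype) := fun a b e => Subtype.ext (h.inj hP a.2 b.2 e)
  have hr : B ≤ (π.comp (P : Subgroup K).subtype).range := by
    rw [MonoidHom.range_comp, range_subtype]; exact hQ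
  refine ⟨(P : Subgroup K).subtype.comp ((MonoidHom.ofInjective hf).symm.toMonoidHom.comp (inclusion hr)), fun b => ?_⟩
  exact MonoidHom.apply_ofInjective_symm hf (inclusion hr b)

/-- the value at a 2-element over the 2-part -/
noncomputable def flat (χ : K → ℂ) (y : L) : ℂ := χ (h.lift (constt_piElt {2} y)).choose

theorem flat_eq {χ : K → ℂ} (hχ : IsCF χ) {x : K} (hx : PiElt {2} x) {y : L} (e : IsConj (π x) (constt {2} y)) :
    h.flat χ y = χ x := by
  obtain ⟨h1, h2⟩ := (h.lift (constt_piElt {2} y)).choose_spec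
  exact (hχ.of_isConj (h.isConj hx h1 (h2.symm ▸ e))).symm

theorem isCF_flat {χ : K → ℂ} (hχ : IsCF χ) : IsCF (h.flat χ) := fun a b => by
  obtain ⟨x, hx, e⟩ := h.lift (constt_piElt {2} a)
  rw [h.flat_eq hχ hx (y := a) (e ▸ IsConj.refl _), h.flat_eq hχ hx (by
    rw [e, constt_conj]; exact isConj_iff.2 ⟨b, rfl⟩)]

theorem flat_mul (χ : K → ℂ) {x y : L} (hc : Commute x y) (hy : Odd (orderOf y)) : h.flat χ (x * y) = h.flat χ x := by
  have : constt {2} (x * y) = constt {2} x := by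
    rw [constt_mul _ hc, constt_eq_one (Blk.piElt_two_compl.2 hy), mul_one]
  unfold flat
  congr!

theorem isVC_flat {χ : K → ℂ} (hχ : IsVC χ) {B : Subgroup L} (hB : IsPGroup 2 B) : IsVC (h.flat χ ∘ B.subtype) := by
  obtain ⟨σ, hσ⟩ := h.sect hB
  have hb : ∀ b : B, PiElt {2} b := fun b => piElt_coe.1 (((piGrp_singleton_iff Nat.prime_two).2 hB).piElt b.2)
  have : h.flat χ ∘ B.subtype = χ ∘ σ := funext fun b => h.flat_eq hχ.isCF ((hb b).map σ) (by
    rw [hσ, constt_eq_self ((hb b).map _)]; exact IsConj.refl _)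
  exact this ▸ hχ.comp σ

theorem zp {x t : K} (ht : t * t = 1) (hc : x * t = t * x) (e : π t ∈ zpowers (π x)) : t ∈ zpowers x := by
  obtain ⟨n, hn⟩ := mem_zpowers_iff.1 e
  have ho := h.odd (t⁻¹ * x ^ n) (by rw [map_mul, map_inv, map_zpow, hn, inv_mul_cancel])
  have := OmB.zp_mul_odd (mem_zpowers t) ht (y := t⁻¹ * x ^ n)
    ((Commute.refl t).inv_right.mul_right (Commute.zpow_right (show Commute t x from hc.symm) n)) ho
  rw [mul_inv_cancel_left] at this
  exact zpowers_le.2 (zpow_mem_zpowers x n) this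

end OddK

/-- the 2-part as an endomorphism of an abelian group -/
noncomputable def tw (K : Type*) [Group K] [Finite K] [IsMulCommutative K] : K →* K :=
  MonoidHom.mk' (constt {2}) fun a b => constt_mul _ (mul_comm' a b)

theorem tw_apply [IsMulCommutative K] (x : K) : tw K x = constt {2} x := rfl

theorem Two.tw [IsMulCommutative K] {a : K → ℂ} (h : Two a) (x : K) : a (tw K x) = a x := by
  conv_rhs => rw [← constt_mul_compl {2} x]
  exact (h _ _ (Blk.piElt_two_compl.1 (constt_piElt _ x))).symm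

theorem ip_tw [IsMulCommutative K] {a z : K → ℂ} (ha : Two a) (hz : ∀ x, ¬ PiElt {2} x → z x = 0) :
    ⟪a, z ∘ tw K⟫ = Nat.card (oddK K) * ⟪a, z⟫ := by
  classical
  have := Fintype.ofFinite (oddK K)
  have e : z ∘ tw K = ∑ y : oddK K, fun x => z (x * y) := by
    ext x
    have hy : (constt {2}ᶜ x)⁻¹ ∈ oddK K := inv_mem (Blk.piElt_two_compl.1 (constt_piElt _ x))
    rw [Finset.sum_apply, Finset.sum_eq_single_of_mem ⟨_, hy⟩ (Finset.mem_univ _) fun y _ hne => hz _ fun e => hne ?_]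
    · rw [Function.comp_apply, tw_apply]
      exact congrArg z (eq_mul_inv_of_mul_eq (constt_mul_compl {2} x))
    · have := constt_eq_one (π := {2}ᶜ) (x := x * y) (by rwa [compl_compl])
      rw [constt_mul _ (mul_comm' _ _), constt_eq_self (x := (y : K)) (Blk.piElt_two_compl.2 y.2)] at this
      exact Subtype.ext (eq_inv_of_mul_eq_one_right this)
  rw [e, ip_sum_right, Finset.sum_congr rfl (g := fun _ => ⟪a, z⟫) fun y _ => by
    rw [← ip_shift a z y]; exact congrArg (⟪·, _⟫) (funext fun x => (ha x y y.2).symm),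
    Finset.sum_const, Finset.card_univ, nsmul_eq_mul, Nat.card_eq_fintype_card]

open Classical in
/-- the number of factorizations into two involutions -/
noncomputable def c2 (g : K) : ℂ := Set.ncard {i | i * i = 1 ∧ i ≠ 1 ∧ i ≠ g ∧ i * g * i⁻¹ = g⁻¹}

open Classical in
/-- the involutions -/
noncomputable def invs (K : Type*) [Group K] [Fintype K] : Finset K := univ.filter fun i => i * i = 1 ∧ i ≠ 1

theorem mem_invs [Fintype K] {i : K} : i ∈ invs K ↔ i * i = 1 ∧ i ≠ 1 := by simp [invs]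

open Classical in
theorem sum_c2 [Fintype K] (F : K → ℂ) : ∑ g, F g * c2 g = ∑ i ∈ invs K, ∑ j ∈ invs K, F (i * j) := by
  unfold invs
  have : ∀ g : K, c2 g = ∑ i with i * i = 1 ∧ i ≠ 1, if i ≠ g ∧ i * g * i⁻¹ = g⁻¹ then 1 else 0 := fun g => by
    rw [c2, Finset.sum_boole, Finset.filter_filter, Set.ncard_eq_toFinset_card']; simp [and_assoc]
  simp only [this, Finset.mul_sum]
  rw [Finset.sum_comm]
  refine Finset.sum_congr rfl fun i hi => ?_
  obtain ⟨h2, -⟩ := (Finset.mem_filter.1 hi).2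
  have hi : i⁻¹ = i := inv_eq_of_mul_eq_one_right h2
  rw [Finset.sum_filter]
  refine (Fintype.sum_equiv (Equiv.mulLeft i) _ _ fun j => ?_).symm
  rw [Equiv.coe_mulLeft, mul_ite, mul_one, mul_zero]
  refine if_congr ⟨fun ⟨a, b⟩ => ⟨fun e => b (by simpa using e), ?_⟩, fun ⟨a, b⟩ => ⟨?_, fun e => a (by simp [e])⟩⟩ rfl rfl
  · rw [← mul_assoc, h2, one_mul, mul_inv_rev, inv_eq_of_mul_eq_one_right a]
  · rw [← mul_assoc, h2, one_mul, mul_inv_rev, mul_left_inj] at b
    nth_rw 2 [b]; rw [mul_inv_cancel]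

theorem c2_map {A : Subgroup L} (g : A) :
    c2 g = Set.ncard {i : L | i ∈ A ∧ i * i = 1 ∧ i ≠ 1 ∧ i ≠ g ∧ i * g * i⁻¹ = (g : L)⁻¹} := by
  rw [c2, ← Set.ncard_image_of_injective _ Subtype.val_injective]
  congr 2
  ext i
  refine ⟨?_, fun ⟨h0, h1, h2, h3, h4⟩ => ⟨⟨i, h0⟩, ⟨Subtype.ext h1, fun e => h2 (congrArg Subtype.val e),
    fun e => h3 (congrArg Subtype.val e), Subtype.ext h4⟩, rfl⟩⟩
  rintro ⟨i, ⟨h1, h2, h3, h4⟩, rfl⟩
  exact ⟨i.2, congrArg Subtype.val h1, fun e => h2 (Subtype.ext e), fun e => h3 (Subtype.ext e), congrArg Subtype.val h4⟩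

open Classical in
theorem OddK.sum_inv [Fintype K] [Fintype L] {π : K →* L} (h : OddK π) {u : L} (φ : L → ℂ)
    (hφ : ∀ y, y * y = 1 → y ≠ 1 → φ y ≠ 0 → IsConj u y) :
    ∑ i ∈ invs K, φ (π i) = Nat.card {x : K // x * x = 1 ∧ π x = u} * ∑ y ∈ invs L, φ y := by
  unfold invs
  rw [← Finset.sum_fiberwise_of_maps_to (g := π) (t := univ.filter fun y : L => y * y = 1 ∧ y ≠ 1) fun i hi => by
    obtain ⟨a, b⟩ := (Finset.mem_filter.1 hi).2
    exact Finset.mem_filter.2 ⟨Finset.mem_univ _, by rw [← map_mul, a, map_one],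
      fun e => b (h.eq_one (Blk.piElt_two_of_sq a) e)⟩, Finset.mul_sum]
  refine Finset.sum_congr rfl fun y hy => ?_
  obtain ⟨a, b⟩ := (Finset.mem_filter.1 hy).2
  rw [Finset.sum_congr rfl (g := fun _ => φ y) fun i hi => by rw [(Finset.mem_filter.1 hi).2], Finset.sum_const,
    nsmul_eq_mul]
  by_cases h0 : φ y = 0
  · rw [h0, mul_zero, mul_zero]
  obtain ⟨c, rfl⟩ := isConj_iff.1 (hφ y a b h0)
  obtain ⟨c, rfl⟩ := h.surj c
  congr 2
  rw [Nat.card_eq_fintype_card, Fintype.card_subtype]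
  symm
  refine Finset.card_bij (fun x _ => c * x * c⁻¹) (fun x hx => ?_) (fun x _ y _ e => by simpa using e)
    fun y hy => ⟨c⁻¹ * y * c⁻¹⁻¹, ?_, by group⟩
  · obtain ⟨p, q⟩ := (Finset.mem_filter.1 hx).2
    simp only [Finset.mem_filter, Finset.mem_univ, true_and]
    have e : π (c * x * c⁻¹) = π c * u * (π c)⁻¹ := by rw [map_mul, map_mul, map_inv, q]
    exact ⟨⟨conj_sq p c, fun e' => b (by rw [← e, e', map_one])⟩, e⟩
  · simp only [Finset.mem_filter, Finset.mem_univ, true_and] at hy ⊢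
    exact ⟨conj_sq hy.1.1 _, by rw [map_mul, map_mul, hy.2, map_inv, map_inv, map_inv]; group⟩

end CA.ABG
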