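/-
Alperin–Brauer–Gorenstein, character theory: from class functions of `GL₂^ε(q)/Z` to class functions of `G`.
-/
import Cfsg.Agent.Lib.ABG.Alp
import Cfsg.Agent.Lib.ABG.Lift
import Cfsg.Agent.Lib.ABG.HOm2

set_option autoImplicit false
set_option linter.unusedSectionVars false
set_option maxHeartbeats 400000

namespace CA.ABG.PS

open Cfsg Subgroup CA CA.Ch CA.Br CA.ABG.HO Finset ComplexConjugate
open CA.Blk (pi0)
open CA.Br.OmB (inv_unique exists_inv not_odd_of_inv zp_conj zp_conj_iff zp_mul_odd zp_mul_odd_iff comm_of_zp conj_sq)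

variable {G E : Type*} [Group G] [Group E] [Finite G] [Finite E] (P : PS G E)

theorem oddK : OddK P.π := ⟨P.surj, fun x h => by
  rw [← Subgroup.orderOf_coe]
  exact P.O_odd.of_dvd_nat (P.O.orderOf_dvd_natCard ((P.ker x).1 h))⟩

/-- induction to `G` of the twisted lift -/
noncomputable def J (l : Du P.H) : (P.S.H → ℂ) →ₗ[ℂ] (G → ℂ) where
  toFun g := ind P.H.subtype (l.ch * P.hat g)
  map_add' a b := by rw [P.hat_add, mul_add, map_add]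
  map_smul' c a := by rw [P.hat_smul, mul_smul_comm, map_smul]; rfl

variable {P} {l : Du P.H} {f f' g : P.S.H → ℂ} {χ : G → ℂ}

theorem J_def (g : P.S.H → ℂ) : P.J l g = ind P.H.subtype (l.ch * P.hat g) := rfl
theorem isCF_J : IsCF (P.J l g) := isCF_ind _ _
theorem isVC_J (h : IsVC g) : IsVC (P.J l g) := (l.isVC.mul (P.isVC_hat h)).induce _

/-- `g` is the component of `χ` in the block `l B₀(H)` -/
structure Res (l : Du P.H) (χ : G → ℂ) (g : P.S.H → ℂ) : Prop where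
  p0 : pi0 2 g = g
  eq : pi0 2 (l⁻¹.ch * χ ∘ P.H.subtype) = P.hat g

variable (l χ) in
theorem ex_res : ∃ g, Res l χ g := let ⟨g, _, h1, h2⟩ := P.exists_res (l⁻¹.ch * χ ∘ P.H.subtype); ⟨g, h1, h2⟩

theorem Res.cf (h : Res l χ g) : IsCF g := isCF_of_pi0 h.p0

theorem Res.ip (h : Res l χ g) (hχ : IsCF χ) (f : P.S.H → ℂ) : ⟪P.J l f, χ⟫ = ⟪f, g⟫ := by
  rw [J_def, ip_ind_left _ _ hχ, mul_comm, ip_mul_left, ← Du.ch_inv, hat, Blk.ip_pi0_comm, h.eq,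
    ip_ind_left _ _ (P.isCF_hat g), P.hat_comp h.p0, ip_comp_surj _ P.surj]

theorem Res.ip' (h : Res l χ g) (hχ : IsCF χ) (f : P.S.H → ℂ) : ⟪χ, P.J l f⟫ = ⟪g, f⟫ := by
  rw [← ip_conj, h.ip hχ, ip_conj]

open Classical in
theorem Res.val (h : Res l χ g) (hl : P.Lin l) (pr : P.Pr l) (hχ : IsIrr χ) {x : P.H1}
    (hx : P.S.t ∈ zpowers (P.π x : E)) : g (P.π x) = if χ ∈ pr.B then χ x else 0 := by
  have := pr.sm χ hχ (P.ι x) (P.zp_π.1 hx)
  rwa [h.eq, hl, one_mul, P.hat_res h.p0] at this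

theorem Res.ip_zero (h : Res l χ g) (hl : P.Lin l) (pr : P.Pr l) (hχ : IsIrr χ) (hB : χ ∉ pr.B) (hf : Sup f) :
    ⟪f, g⟫ = 0 := by
  rw [ip_congr_support (c := 0) fun y hy => ?_, ip_zero_right]
  obtain ⟨x, rfl⟩ := P.surj y
  rw [h.val hl pr hχ (by by_contra e; exact hy (hf _ e)), if_neg hB]; rfl

theorem mem_B (hl : P.Lin l) (pr : P.Pr l) (hχ : IsIrr χ) (hf : Sup f) (h : ⟪χ, P.J l f⟫ ≠ 0) : χ ∈ pr.B := by
  obtain ⟨g, hg⟩ := ex_res l χ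
  exact by_contra fun e => h (ip_eq_zero_symm ((hg.ip hχ.isCF f).trans (hg.ip_zero hl pr hχ e hf)))

theorem sup_hat (hf : Sup f) : ∀ x, x ∉ P.R → (l.ch * P.hat f) x = 0 := fun x hx => by
  rw [Pi.mul_apply, P.hat_sup hf x hx, mul_zero]

theorem ip_JJ (hf : Sup f) (hf' : Sup f') (h0 : pi0 2 f = f) (h0' : pi0 2 f' = f') : ⟪P.J l f, P.J l f'⟫ = ⟪f, f'⟫ := by
  rw [J_def, J_def, P.tiR.ip_ind (sup_hat hf) (l.isCF.mul (P.isCF_hat _)) (sup_hat hf'), mul_comm, ip_mul_left,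
    ← mul_assoc, ← Du.ch_inv, ← Du.ch_mul, inv_mul_cancel, Du.ch_one, one_mul, P.ip_hat h0 h0']

theorem J_one (hf : Sup f) : P.J l f 1 = 0 := by
  rw [J_def, ind_one, sup_hat hf 1 fun h => P.τ_ne (by simpa [R] using h), mul_zero]

theorem J_val (hl : P.Lin l) (hf : Sup f) (h0 : pi0 2 f = f) {x : P.H1} (hx : P.τ ∈ zpowers (x : G)) :
    P.J l f x = f (P.π x) :=
  (P.tiR.ind_apply (l.isCF.mul (P.isCF_hat _)) (sup_hat hf) (a := P.ι x) hx).trans (by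
    rw [Pi.mul_apply, hl, one_mul, P.hat_res h0])

theorem π_τ : P.π ⟨P.τ, P.τH⟩ = zH P.S.toHA ⟨P.S.t, P.S.t_Z⟩ := Subtype.ext P.πτ

theorem J_τ (hl : P.Lin l) (hf : Sup f) (h0 : pi0 2 f = f) : P.J l f P.τ = f (zH P.S.toHA ⟨P.S.t, P.S.t_Z⟩) :=
  (J_val hl hf h0 (x := ⟨P.τ, P.τH⟩) (mem_zpowers _)).trans (by rw [π_τ])

theorem isConj_τ {i : G} : IsConj P.τ i ↔ i * i = 1 ∧ i ≠ 1 :=
  ⟨fun h => by
    obtain ⟨g, rfl⟩ := isConj_iff.1 h
    exact ⟨conj_sq P.ττ g, fun h => P.τ_ne (by simpa using h)⟩, fun h => P.inv_conj i h.1 h.2⟩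

theorem two_mem {x : G} (hx : x ∈ P.H) (h2 : PiElt {2} x) : x ∈ P.H1 := by
  have : P.ι.range.Normal := ⟨fun a ha b => P.mem_ι.2 (P.H1_norm b.2 (P.mem_ι.1 ha))⟩
  obtain ⟨k, hk⟩ := (piElt_singleton_iff' Nat.prime_two).1 h2
  have h1 := P.mem_ι.1 (P.ι.range.pow_index_mem (⟨x, hx⟩ : P.H))
  have := (Nat.Coprime.pow_right k (Nat.coprime_two_right.2 P.alp.odd))
  exact zpowers_le.2 h1 (mem_zpowers_pow_iff.2 (this.coprime_dvd_right (orderOf_dvd_of_pow_eq_one hk)))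

theorem cnt_eq {g : G} (hg : P.τ ∈ zpowers g) :
    cnt P.τ g = Set.ncard {i | i ∈ P.H1 ∧ i * i = 1 ∧ i ≠ 1 ∧ i ≠ g ∧ i * g * i⁻¹ = g⁻¹} := by
  unfold cnt
  congr 2
  ext i
  simp only [isConj_τ, Set.mem_ofPred_eq]
  refine ⟨fun ⟨⟨h1, h2⟩, h3, h4⟩ => ?_, fun ⟨_, h1, h2, h3, h4⟩ => ⟨⟨h1, h2⟩, ?_, fun h => h3 (inv_mul_eq_one.1 h)⟩⟩
  · have hi : i⁻¹ = i := inv_eq_of_mul_eq_one_right h1
    have h5 : i * g * i⁻¹ = g⁻¹ := by
      rw [hi] at h3 ⊢; exact eq_inv_of_mul_eq_one_left (by rw [← h3]; group)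
    have h6 := zp_conj hg i
    rw [h5, zpowers_inv] at h6
    exact ⟨two_mem (P.mem_H.2 (mul_inv_eq_iff_eq_mul.1 (inv_unique h6 hg (conj_sq P.ττ i) P.ττ
      (fun h => P.τ_ne (by simpa using h)) P.τ_ne))) (Blk.piElt_two_of_sq h1), h1, h2,
      fun h => h4 (by rw [h, inv_mul_cancel]), h5⟩
  · have hi : i⁻¹ = i := inv_eq_of_mul_eq_one_right h1
    rw [hi] at h4 ⊢
    rw [← mul_assoc, h4, inv_mul_cancel]

theorem cnt_zero {h : P.H} (hR : h ∈ P.R) (h1 : (h : G) ∉ P.H1) : cnt P.τ (h : G) = 0 := by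
  rw [cnt_eq hR, Nat.cast_eq_zero, Set.ncard_eq_zero]
  refine Set.eq_empty_of_forall_notMem fun i ⟨a, b, _, _, e⟩ => h1 ?_
  have hi : i⁻¹ = i := inv_eq_of_mul_eq_one_right b
  have := two_mem (mul_mem (P.H1_le a) h.2) (Blk.piElt_two_of_sq (by rw [hi] at e; rw [← mul_assoc, e, inv_mul_cancel]))
  exact (mul_mem_cancel_left a).1 this

theorem sum_cnt (hf : Sup f) [Fintype P.H1] [Fintype P.S.H] :
    ∑ x : P.H1, f (P.π x) * c2 x = P.k ^ 2 * ∑ y, f y * c2 y := by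
  classical
  have hk : ∀ φ : P.S.H → ℂ, φ (zH P.S.toHA ⟨P.S.t, P.S.t_Z⟩) = 0 → ∑ i ∈ invs P.H1, φ (P.π i) =
      P.k * ∑ y ∈ invs P.S.H, φ y := fun φ h => by
    rw [P.oddK.sum_inv (u := ⟨P.S.u, P.S.T_le_H P.S.u_T⟩) φ fun y a b c => ?_]
    · simp only [k, Subtype.ext_iff]
    · obtain ⟨c, hc, e⟩ := (P.S.inv_H y.2 (congrArg Subtype.val a) fun e => b (Subtype.ext e)).resolve_left
        fun e => c (by rwa [show y = zH P.S.toHA ⟨P.S.t, P.S.t_Z⟩ from Subtype.ext e])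
      exact isConj_iff.2 ⟨⟨c, hc⟩, Subtype.ext e.symm⟩
  have h0 : ∀ y : P.S.H, y * y = 1 → y ≠ 1 → P.S.t ∉ zpowers (P.S.t * y : E) := fun y a b e => by
    have c := P.S.mem_H.1 y.2
    have a' : (y : E) * y = 1 := congrArg Subtype.val a
    have := inv_unique (mem_zpowers _) e (by rw [mul_assoc, ← mul_assoc (y : E), c, mul_assoc, a', mul_one, P.S.tt])
      P.S.tt (fun e' => P.S.t_ne (by simpa [e'] using e)) P.S.t_ne
    exact b (Subtype.ext (by simpa using this))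
  rw [sum_c2 (fun x => f (P.π x)), sum_c2 f, Finset.sum_congr rfl (g := fun i => P.k * ∑ y ∈ invs P.S.H,
    f (P.π i * y)) fun i hi => ?_, ← Finset.mul_sum, hk (fun i => ∑ y ∈ invs P.S.H, f (i * y))
      (Finset.sum_eq_zero fun y hy => hf _ (h0 y (mem_invs.1 hy).1 (mem_invs.1 hy).2)), sq,
      mul_assoc]
  obtain ⟨a, b⟩ := mem_invs.1 hi
  simp only [map_mul]
  refine hk (fun y => f (P.π i * y)) (hf _ ?_)
  rw [← zH_comm]
  exact h0 _ (by rw [← map_mul, a, map_one]) fun e => b (P.oddK.eq_one (Blk.piElt_two_of_sq a) e)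

theorem ip_cnt_J (hl : P.Lin l) (hf : Sup f) (h0 : pi0 2 f = f) :
    Nat.card P.H * ⟪P.J l f, cnt P.τ⟫ = P.k ^ 2 * (Nat.card P.S.H * ⟪f, cn P.S.toHA ∘ P.S.H.subtype⟫) := by
  classical
  have := Fintype.ofFinite P.H
  have := Fintype.ofFinite P.H1
  have := Fintype.ofFinite P.S.H
  have e1 : ∀ y : P.S.H, conj ((cn P.S.toHA ∘ P.S.H.subtype) y) = c2 y := fun y => by
    rw [c2_map]; exact map_natCast _ _
  rw [J_def, ip_ind_left _ _ (isCF_cnt _), ip_def, ip_def, mul_inv_cancel_left₀ (Ch.card_ne_zero' _),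
    mul_inv_cancel_left₀ (Ch.card_ne_zero' _)]
  simp only [e1]
  rw [← sum_cnt hf]
  symm
  refine Finset.sum_of_injOn P.ι (inclusion_injective _).injOn (fun _ _ => Finset.mem_coe.2 (Finset.mem_univ _))
    (fun h _ hn => ?_) fun x _ => ?_
  · by_cases hR : h ∈ P.R
    · rw [Function.comp_apply, Subgroup.coe_subtype, cnt_zero hR fun e => hn ⟨⟨h, e⟩, by simp, rfl⟩, map_zero, mul_zero]
    · rw [sup_hat hf h hR, zero_mul]
  · rw [Pi.mul_apply, hl, one_mul, P.hat_res h0]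
    by_cases hR : P.τ ∈ zpowers (x : G)
    · rw [c2_map]
      exact congrArg _ ((congrArg conj (cnt_eq hR)).trans (map_natCast _ _)).symm
    · rw [hf _ fun e => hR (P.zp_π.1 e), zero_mul, zero_mul]

end CA.ABG.PS
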