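/-
Alperin–Brauer–Gorenstein, character theory: the class functions `OT`, `OW` of `G`.
-/
import Cfsg.Agent.Lib.ABG.PJ

set_option autoImplicit false
set_option linter.unusedSectionVars false
set_option maxHeartbeats 400000

namespace CA.ABG

open Cfsg Subgroup CA CA.Ch CA.Br CA.ABG.HO Finset ComplexConjugate
open CA.Blk (pi0)
open CA.Br.OmB (inv_unique exists_inv not_odd_of_inv zp_conj zp_conj_iff zp_mul_odd zp_mul_odd_iff comm_of_zp conj_sq)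

variable {G E : Type*} [Group G] [Group E] [Finite G] [Finite E]

/-- the parity lemma -/
def HA.Par (S : HA E) : Prop := ∀ ψ : S.H → ℂ, IsCF ψ → (∀ x y, Commute x y → Odd (orderOf y) → ψ (x * y) = ψ x) →
  (∀ B : Subgroup S.H, IsPGroup 2 B → IsVC (ψ ∘ B.subtype)) →
  ∃ n : ℤ, ⟪ψ ∘ inclusion S.T_le_H, 1⟫ + ⟪ψ ∘ inclusion S.W_le_H, 1⟫ = 2 * n

theorem HO.Tor.two_eta {S : HA E} {Q Q' : Tor S} (hp : Pair Q Q') {g : S.H → ℂ} (h : pi0 2 g = g) : Two (Q.eta g) := by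
  intro x y hy
  rw [Du.expand (Q.eta g), Finset.sum_apply, Finset.sum_apply]
  refine Finset.sum_congr rfl fun l _ => ?_
  by_cases hl : Two l.ch
  · rw [Pi.smul_apply, Pi.smul_apply, hl x y hy]
  · rw [ip_eq_zero_symm (a := l.ch) (by
      rw [← Q.ip_D _ (isCF_of_pi0 h), ← h, ← Blk.ip_pi0_comm, Tor.pi0_D_not hp hl, ip_zero_left]), zero_smul]
    rfl

theorem RA.R_fix0 (S : RA E) {l : Du S.T} (h2 : ∀ y, Odd (orderOf y) → l.ch y = 1) (h : ∀ x, l.ch (S.r x) = l.ch x) :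
    l = 1 := by
  obtain ⟨k, m, hm, e⟩ := Nat.exists_eq_two_pow_mul_odd (Nat.card_pos (α := S.T)).ne'
  have key : ∀ j, ∀ x : S.T, S.r x = x → x ^ (2 ^ j * m) = 1 → x ^ m = 1 := fun j => by
    induction j with
    | zero => intro x _ h; simpa using h
    | succ j ih =>
      intro x hx h
      refine ih x hx ?_
      have h1 : S.r (x ^ (2 ^ j * m)) = x ^ (2 ^ j * m) := by rw [map_pow, hx]
      have h2 : x ^ (2 ^ j * m) * x ^ (2 ^ j * m) = 1 := by rw [← pow_add, ← h]; congr 1; ring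
      generalize x ^ (2 ^ j * m) = y at h1 h2
      rcases S.inv_T y.2 (congrArg Subtype.val h2) with e | e | e | e
      · exact Subtype.ext e
      · rw [show y = S.tT from Subtype.ext e, S.r_t] at h1; exact absurd (congrArg Subtype.val h1).symm S.t_ne_u
      · rw [show y = S.uT from Subtype.ext e, S.r_u, mul_eq_right] at h1; exact absurd (congrArg Subtype.val h1) S.t_ne
      · rw [show y = S.r (S.r S.tT) from by rw [S.r_t, S.r_u]; exact Subtype.ext e, S.rrr, S.r_t, S.r_u, eq_comm,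
          mul_eq_left] at h1
        exact absurd (congrArg Subtype.val h1) S.u_ne
  refine Du.ext' fun x => ?_
  have h1 := h2 (x * S.r x * S.r (S.r x)) (hm.of_dvd_nat (orderOf_dvd_of_pow_eq_one (key k _ (by
    rw [map_mul, map_mul, S.rrr, mul_comm', mul_assoc]) (by rw [← e, pow_card_eq_one']))))
  rw [Du.ch_apply_mul, Du.ch_apply_mul, h (S.r x), h x] at h1
  have h3 : l.ch x ^ 2 ^ k = 1 := by
    rw [← Du.ch_apply_pow]
    exact h2 _ (hm.of_dvd_nat (orderOf_dvd_of_pow_eq_one (by rw [← pow_mul, ← e, pow_card_eq_one'])))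
  have := pow_gcd_eq_one.2 ⟨h3, show l.ch x ^ 3 = 1 by rw [← h1]; ring⟩
  rwa [(Nat.Coprime.pow_left k (by norm_num : Nat.Coprime 2 3)).gcd_eq_one, pow_one] at this

theorem RA.odd_Tm (S : RA E) {y : S.T} (h : Odd (orderOf y)) : (y : E) ∈ S.Tm := by
  have h1 : ((y * S.s y : S.T) : E) ∈ S.Z := S.mem_Z_T.2 ⟨(y * S.s y).2, congrArg Subtype.val
    (show S.s (y * S.s y) = y * S.s y by rw [map_mul, show S.s (S.s y) = y from (torT S.toHA).σσ y, mul_comm'])⟩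
  have h2 : y * S.s y = 1 := (piElt_coe.1 (S.Z2 _ h1)).eq_one (Blk.piElt_two_compl.2
    ((oddK S.T).mul_mem h (h.of_dvd_nat (orderOf_map_dvd S.s y))))
  exact S.mem_Tm.2 ⟨y.2, congrArg Subtype.val (eq_inv_of_mul_eq_one_right h2)⟩

namespace PS

variable (P : PS G E)

/-- the values on the 2-elements -/
noncomputable def fl (χ : G → ℂ) : P.S.H → ℂ := P.oddK.flat (χ ∘ P.H1.subtype)

variable {P} {l : Du P.H} {f g : P.S.H → ℂ} {χ : G → ℂ}

theorem fl_eq (hχ : IsCF χ) {x : P.H1} (hx : PiElt {2} x) {y : P.S.H} (e : P.π x = constt {2} y) : P.fl χ y = χ x :=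
  P.oddK.flat_eq (hχ.comp _) hx (e ▸ IsConj.refl _)

theorem vc_fl (hχ : IsVC χ) (Q : Tor P.S.toHA) : IsVC (P.fl χ ∘ Q.i) := by
  have hB : IsPGroup 2 (Q.i.comp (tw Q.A)).range := ((piGrp_iff_forall_piElt (π := {2})
    (A := (Q.i.comp (tw Q.A)).range)).2 (by
    rintro _ ⟨x, rfl⟩; exact (constt_piElt {2} x).map Q.i)).isPGroup Nat.prime_two
  have := (P.oddK.isVC_flat (hχ.comp P.H1.subtype) hB).comp (Q.i.comp (tw Q.A)).rangeRestrict
  convert this using 1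
  ext x
  exact (Two.tw (a := P.fl χ ∘ Q.i) (fun a b hb => (congrArg (P.fl χ) (map_mul Q.i a b)).trans
    (P.oddK.flat_mul _ ((show Commute a b from mul_comm' a b).map Q.i) (hb.of_dvd_nat (orderOf_map_dvd _ _)))) x).symm

theorem fl_r (hχ : IsCF χ) : (P.fl χ ∘ (torT P.S.toHA).i) ∘ P.S.r = P.fl χ ∘ (torT P.S.toHA).i := by
  ext a
  obtain ⟨x, hx, e⟩ := P.oddK.lift (constt_piElt {2} ((torT P.S.toHA).i a))
  obtain ⟨y, hy, e'⟩ := P.oddK.lift (constt_piElt {2} ((torT P.S.toHA).i (P.S.r a)))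
  simp only [Function.comp_apply]
  rw [fl_eq hχ hx e, fl_eq hχ hy e']
  exact (hχ.of_isConj (P.fus x y (constt {2} a) hx hy (by rw [e, ← map_constt]; rfl)
    (by rw [e', map_constt, ← map_constt]; rfl))).symm

theorem Res.ip_D (h : Res l χ g) (hl : P.Lin l) (pr : P.Pr l) (hχ : IsIrr χ) (hB : χ ∈ pr.B) {Q Q' : Tor P.S.toHA}
    (hp : Pair Q Q') {a : Q.A → ℂ} (hs : Q.SupA a) (h2 : Two a) :
    ⟪Q.D a, g⟫ = ⟪a, P.fl χ ∘ Q.i⟫ - Nat.card (Br.oddK Q.A) * ⟪Gam P.S.toHA (a ∘ Q.z), g⟫ := by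
  have e1 : ⟪a, g ∘ Q.i - Q.eta g⟫ = ⟪Gam P.S.toHA (a ∘ Q.z), g⟫ := by
    rw [ip_sub_right, ← Q.ip_D _ h.cf, Q.D_def, ip_sub_left, ip_ind_left _ _ h.cf, sub_sub_cancel]
  rw [← e1, ← ip_tw h2 fun x hx => by rw [Pi.sub_apply, Q.eta_A _ fun e => hx (piElt_coe.1 (P.S.Z2 _ e))]; exact sub_self _,
    Q.ip_D _ h.cf, ← ip_sub_right]
  refine ip_congr_support fun x hx => ?_
  obtain ⟨y, hy, e⟩ := P.oddK.lift (constt_piElt {2} (Q.i x))
  have e2 : Q.i (tw Q.A x) = P.π y := by rw [e, ← map_constt]; rfl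
  have ht : P.S.t ∈ zpowers (P.π y : E) := by
    rw [← e2]
    refine (zp_mul_odd_iff P.S.tt (y := ((constt {2}ᶜ x : Q.A) : E)) (Q.comm' (tw Q.A x).2 (constt {2}ᶜ x).2) (by
      rw [Subgroup.orderOf_coe]; exact Blk.piElt_two_compl.1 (constt_piElt _ x))).1 ?_
    rw [show ((tw Q.A x : Q.A) : E) * ((constt {2}ᶜ x : Q.A) : E) = x from congrArg Subtype.val (constt_mul_compl {2} x)]
    by_contra e; exact hx (hs x e)
  simp only [Pi.sub_apply, Function.comp_apply]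
  rw [fl_eq hχ.isCF hy e, e2, h.val hl pr hχ ht, if_pos hB, Two.tw (Tor.two_eta hp h.p0), sub_sub_cancel]

variable (P l)

/-- cutting down as a linear map -/
noncomputable def cutL : (P.S.T → ℂ) →ₗ[ℂ] (P.S.T → ℂ) where
  toFun := cut
  map_add' a b := by ext x; simp only [cut, ct, RA.av, Pi.add_apply]; split_ifs <;> ring
  map_smul' c a := by ext x; simp only [cut, ct, RA.av, Pi.smul_apply, smul_eq_mul, RingHom.id_apply]; split_ifs <;> ring

noncomputable def OT : (P.S.T → ℂ) →ₗ[ℂ] (G → ℂ) := P.J l ∘ₗ (torT P.S.toHA).D ∘ₗ P.cutL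
noncomputable def OW : (P.S.W → ℂ) →ₗ[ℂ] (G → ℂ) := P.J l ∘ₗ (torW P.S.toHA).D
noncomputable def AA : (G → ℂ) →ₗ[ℂ] ℂ where
  toFun f := Nat.card P.H * ⟪f, cnt P.τ⟫
  map_add' a b := by rw [ip_add_left, mul_add]
  map_smul' c a := by rw [ip_smul_left, mul_left_comm]; rfl

variable {P l}

theorem OT_def (a : P.S.T → ℂ) : P.OT l a = P.J l ((torT P.S.toHA).D (cut a)) := rfl
theorem OW_def (c : P.S.W → ℂ) : P.OW l c = P.J l ((torW P.S.toHA).D c) := rfl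

theorem p0T {a : P.S.T → ℂ} (h : Two a) : pi0 2 ((torT P.S.toHA).D (cut a)) = (torT P.S.toHA).D (cut a) :=
  Tor.pi0_D_of (pairTW _) (two_cut h)
theorem p0W {c : P.S.W → ℂ} (h : Two c) : pi0 2 ((torW P.S.toHA).D c) = (torW P.S.toHA).D c :=
  Tor.pi0_D_of (pairTW _).symm h

theorem Res.ip_OT (h : Res l χ g) (hl : P.Lin l) (pr : P.Pr l) (hχ : IsIrr χ) (hB : χ ∈ pr.B) {a : P.S.T → ℂ}
    (ha : Van a) (h2 : Two a) : ⟪P.OT l a, χ⟫ = ⟪a, P.fl χ ∘ (torT P.S.toHA).i⟫ -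
      Nat.card (Br.oddK P.S.T) * ⟪Gam P.S.toHA (P.S.av a ∘ (torT P.S.toHA).z), g⟫ := by
  rw [OT_def, h.ip hχ.isCF, h.ip_D hl pr hχ hB (pairTW _) (sup_cut a) (two_cut h2), ip_cut ha (fl_r hχ.isCF),
    show cut a ∘ (torT P.S.toHA).z = P.S.av a ∘ (torT P.S.toHA).z from
      funext fun z => cut_eq ha (W_inv (P.S.Z_le_W z.2))]

theorem Res.int_Gam (h : Res l χ g) (hχ : IsIrr χ) {ζ : P.S.Z → ℂ} (hζ : IsVC ζ) : ∃ n : ℤ, ⟪Gam P.S.toHA ζ, g⟫ = n :=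
  h.ip hχ.isCF _ ▸ (isVC_J (isVC_Gam _ hζ)).ip_int hχ.isVC

theorem vcT (hl : P.Lin l) (pr : P.Pr l) {a : P.S.T → ℂ} (h : IsVC a) (ha : Van a) (h2 : Two a) : IsVC (P.OT l a) :=
  isVC_of_ip_int isCF_J fun χ hχ => by
    obtain ⟨g, hg⟩ := ex_res l χ
    by_cases hB : χ ∈ pr.B
    · obtain ⟨n, hn⟩ := h.ip_int (vc_fl hχ.isVC (torT P.S.toHA))
      obtain ⟨m, hm⟩ := hg.int_Gam hχ ((isVC_av h).comp (torT P.S.toHA).z)
      exact ⟨n - Nat.card (Br.oddK P.S.T) * m, by rw [hg.ip_OT hl pr hχ hB ha h2, hn, hm]; push_cast; rfl⟩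
    · exact ⟨0, by rw [OT_def, hg.ip hχ.isCF, hg.ip_zero hl pr hχ hB (Tor.sup_D (sup_cut a)), Int.cast_zero]⟩

theorem eta_vc (hpar : P.S.Par) (hl : P.Lin l) (pr : P.Pr l) (β : Du P.S.H) (hβ : ∀ y, Odd (orderOf y) → β.ch y = 1) :
    IsVC ((2 : ℂ)⁻¹ • (P.OT l ((Du.comp (inclusion P.S.T_le_H) β).ch - 1) +
      P.OW l ((Du.comp (inclusion P.S.W_le_H) β).ch - 1))) := by
  have van : ∀ Q : Tor P.S.toHA, Van ((Du.comp Q.i β).ch - 1) := fun Q y hy =>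
    sub_eq_zero.2 (hβ _ (hy.of_dvd_nat (orderOf_map_dvd _ _)))
  have two : ∀ Q : Tor P.S.toHA, Two ((Du.comp Q.i β).ch - 1) := fun Q x y hy => by
    rw [Pi.sub_apply, Du.ch_apply_mul, sub_eq_zero.1 (van Q y hy)]; simp
  refine isVC_of_ip_int ((isCF_J.add isCF_J).smul _) fun χ hχ => ?_
  obtain ⟨g, hg⟩ := ex_res l χ
  rw [ip_smul_left, ip_add_left]
  by_cases hB : χ ∈ pr.B
  swap
  · exact ⟨0, by rw [OT_def, OW_def, hg.ip hχ.isCF, hg.ip hχ.isCF, hg.ip_zero hl pr hχ hB (Tor.sup_D (sup_cut _)),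
      hg.ip_zero hl pr hχ hB (Tor.sup_D (supW (van (torW _))))]; simp⟩
  rw [hg.ip_OT hl pr hχ hB (van (torT _)) (two (torT _)), OW_def, hg.ip hχ.isCF,
    hg.ip_D hl pr hχ hB (pairTW _).symm (supW (van (torW _))) (two (torW _))]
  have hf : IsVC (β.ch - 1) := β.isVC.sub isVC_one
  obtain ⟨n, hn⟩ := hpar ((β.ch - 1) * star (P.fl χ)) (hf.isCF.mul (P.oddK.isCF_flat (hχ.isCF.comp _)).star)
    (fun x y hc hy => by
      simp only [Pi.mul_apply, Pi.sub_apply, Pi.star_apply, Du.ch_apply_mul, hβ y hy, mul_one, Pi.one_apply, fl,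
        P.oddK.flat_mul _ hc hy])
    fun B hB => (hf.comp _).mul (P.oddK.isVC_flat (hχ.isVC.comp _) hB).star
  set f := (Du.comp (inclusion P.S.T_le_H) β).ch - 1 with hfd
  have h3 : P.S.av f ∘ (torT P.S.toHA).z = f ∘ (torT P.S.toHA).z + (2 : ℂ) • ((f ∘ P.S.r) ∘ (torT P.S.toHA).z) := by
    ext z
    have e1 : P.S.s ((torT P.S.toHA).z z) = (torT P.S.toHA).z z := (torT P.S.toHA).σ_z z
    have e2 : f (P.S.s (P.S.r ((torT P.S.toHA).z z))) = f (P.S.r ((torT P.S.toHA).z z)) :=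
      (torT P.S.toHA).cf_σ hf.isCF _
    rw [sr, e1] at e2
    simp only [RA.av, Function.comp_apply, Pi.add_apply, Pi.smul_apply, smul_eq_mul, e2]; ring
  have hv : IsVC f := (Du.isVC _).sub isVC_one
  obtain ⟨a, ha⟩ := hg.int_Gam hχ (hv.comp (torT P.S.toHA).z)
  obtain ⟨b, hb⟩ := hg.int_Gam hχ ((hv.comp P.S.r).comp (torT P.S.toHA).z)
  obtain ⟨c, hc⟩ := odd_card_oddK (W := P.S.T)
  obtain ⟨d, hd⟩ := odd_card_oddK (W := P.S.W)
  rw [h3, map_add, map_smul, ip_add_left, ip_smul_left, ha, hb, show ((Du.comp (inclusion P.S.W_le_H) β).ch - 1) ∘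
    (torW P.S.toHA).z = f ∘ (torT P.S.toHA).z from rfl, ha, hc, hd]
  have k : ∀ Q : Tor P.S.toHA, ⟪((β.ch - 1) * star (P.fl χ)) ∘ Q.i, 1⟫ = ⟪(Du.comp Q.i β).ch - 1, P.fl χ ∘ Q.i⟫ :=
    fun Q => by rw [← mul_one (P.fl χ ∘ Q.i), ip_mul_right]; rfl
  erw [k (torT _), k (torW _)] at hn
  refine ⟨n - (c + d + 1) * a - (2 * c + 1) * b, ?_⟩
  push_cast
  linear_combination (2 : ℂ)⁻¹ * hn

open Classical in
theorem valt (hl : P.Lin l) (pr : P.Pr l) (hχ : IsIrr χ) (hB : χ ∈ pr.B) : χ P.τ =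
    (P.S.Q + 1) / 2 * ∑ a : Du P.S.T with Two a.ch, a.ch P.S.tT * ⟪χ, P.OT l (a.ch - 1)⟫ +
    (P.S.Q - 1) / 2 * ∑ f : Du P.S.W with Two f.ch, f.ch P.S.tW * ⟪χ, P.OW l (1 - f.ch)⟫ := by
  obtain ⟨g, hg⟩ := ex_res l χ
  have hc := hχ.isCF
  have e1 : (univ.filter fun a : Du P.S.T => Two a.ch) = annF (Br.oddK P.S.T) := by ext l; simp [mem_annF, two_iff]
  have e2 : (univ.filter fun a : Du P.S.W => Two a.ch) = annF (Br.oddK P.S.W) := by ext l; simp [mem_annF, two_iff]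
  have h1 : ∑ a : Du P.S.T with Two a.ch, a.ch P.S.tT * ⟪χ, P.OT l (a.ch - 1)⟫ =
      ⟪g, (torT P.S.toHA).D (torT P.S.toHA).gt⟫ := by
    rw [← hg.ip' hc, ← cut_gt, ← OT_def, Tor.gt_eq, map_sum, ip_sum_right, e1]
    exact Finset.sum_congr rfl fun l _ => by rw [map_smul, ip_smul_right, conj_ch_inv l (torT P.S.toHA).tA_sq]; rfl
  have h2 : ∑ f : Du P.S.W with Two f.ch, f.ch P.S.tW * ⟪χ, P.OW l (1 - f.ch)⟫ =
      -⟪g, (torW P.S.toHA).D (torW P.S.toHA).gt⟫ := by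
    rw [← hg.ip' hc, ← OW_def, Tor.gt_eq, map_sum, ip_sum_right, e2, ← Finset.sum_neg_distrib]
    exact Finset.sum_congr rfl fun l _ => by
      rw [map_smul, ip_smul_right, conj_ch_inv l (torW P.S.toHA).tA_sq, ← neg_sub l.ch, map_neg, ip_neg_right, mul_neg]
      rfl
  have h3 := hg.val hl pr hχ (x := ⟨P.τ, P.τH⟩) (P.zp_π.2 (mem_zpowers _))
  rw [if_pos hB, π_τ, ← ip_dt g, ← hg.p0, Blk.ip_pi0_comm, decomp _ isCF_dt, Blk.pi0_smul, Blk.pi0_add,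
    (torT _).pi0_dt (pairTW _), (torW _).pi0_dt (pairTW _).symm, ip_smul_right, ip_add_right, ip_smul_right,
    ip_smul_right] at h3
  rw [h1, h2, Q_cast]
  simp only [map_mul, map_sub, map_natCast, map_inv₀, map_ofNat, cTm, cWm, map_add, map_intCast] at h3
  change _ = χ P.τ at h3
  linear_combination -h3 + (2⁻¹ * (⟪g, (torT P.S.toHA).D (torT P.S.toHA).gt⟫ +
    ⟪g, (torW P.S.toHA).D (torW P.S.toHA).gt⟫)) * e_sq P.S.toHA

variable (P) in
theorem ex_u : ∃ x : P.H1, x * x = 1 ∧ (P.π x : E) = P.S.u := by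
  obtain ⟨x, hx, e⟩ := P.oddK.lift (y := ⟨P.S.u, P.S.T_le_H P.S.u_T⟩) (Blk.piElt_two_of_sq (Subtype.ext P.S.uu))
  exact ⟨x, P.oddK.eq_one (hx.mul hx rfl) (by rw [map_mul, e]; exact Subtype.ext P.S.uu), congrArg Subtype.val e⟩

theorem k_pos : 0 < P.k := by
  obtain ⟨x, hx⟩ := P.ex_u
  have : Nonempty {x : P.H1 // x * x = 1 ∧ (P.π x : E) = P.S.u} := ⟨⟨x, hx⟩⟩
  exact Nat.card_pos

theorem gTT {a b : P.S.T → ℂ} (ha : Van a) (h2 : Two a) (hb : Two b) :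
    ⟪P.OT l a, P.OT l b⟫ = ⟪a, P.S.av b⟫ + ⟪a, P.S.av b ∘ P.S.s⟫ := by
  have k : ∀ x, cut a x ≠ 0 → P.S.t ∈ zpowers (x : E) := fun x hx => by by_contra h; exact hx (sup_cut a x h)
  rw [OT_def, OT_def, ip_JJ (Tor.sup_D (sup_cut a)) (Tor.sup_D (sup_cut b)) (p0T h2) (p0T hb), Tor.ip_DD,
    ← ip_cut ha (av_r b), ← ip_cut ha (avs_r b)]
  congr 1
  · exact ip_congr_support fun x hx => cut_of b (k x hx)
  · exact ip_congr_support fun x hx => cut_of b ((HO.rt_conj P.S.w_H).2 (k x hx))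

open Classical in
/-- the class functions of `G` attached to a block -/
noncomputable def pom (hpar : P.S.Par) (hl : P.Lin l) (pr : P.Pr l) : POm P.S G where
  τ := P.τ
  k := P.k
  B := pr.B.filter IsIrr
  OT := P.OT l
  OW := P.OW l
  A := P.AA
  ττ := P.ττ
  k_pos := k_pos
  irrB _ h := (Finset.mem_filter.1 h).2
  vcT _ := vcT hl pr
  vcW _ h := isVC_J ((torW _).isVC_D h)
  eta := eta_vc hpar hl pr
  gTT _ _ ha h2 _ hb := gTT ha h2 hb
  gTW a c ha h2 hc hc2 := by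
    rw [OT_def, OW_def, ip_JJ (Tor.sup_D (sup_cut a)) (Tor.sup_D (supW hc)) (p0T h2) (p0W hc2),
      (torT _).ip_DD' (disWT _)]
  gWW a c ha h2 hc hc2 := by
    rw [OW_def, OW_def, ip_JJ (Tor.sup_D (supW ha)) (Tor.sup_D (supW hc)) (p0W h2) (p0W hc2), Tor.ip_DD]; rfl
  degT a _ := J_one (Tor.sup_D (sup_cut a))
  degW c hc := J_one (Tor.sup_D (supW hc))
  atT a ha h2 := by
    rw [OT_def, J_τ hl (Tor.sup_D (sup_cut a)) (p0T h2), Tor.D_Z, cut_of a (mem_zpowers _), cTm, cWm, Q_cast]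
    change _ * P.S.av a P.S.tT = _
    linear_combination P.S.av a P.S.tT * e_sq P.S.toHA
  atW c hc h2 := by
    rw [OW_def, J_τ hl (Tor.sup_D (supW hc)) (p0W h2), Tor.D_Z, cTm, cWm, Q_cast]
    change _ * c P.S.tW = _
    linear_combination c P.S.tW * e_sq P.S.toHA
  A_irr χ h := by
    change Nat.card P.H * ⟪χ, cnt P.τ⟫ = _
    rw [ip_cnt _ h, ← mul_assoc, mul_div_cancel₀ _ (by exact_mod_cast Nat.card_pos.ne')]
  A_T a ha h2 := by
    have h := (torT P.S.toHA).ip_cnt_D (sup_cut a)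
    rw [show cut a ∘ inclusion (torT P.S.toHA).M_le = P.S.av a ∘ inclusion P.S.Tm_le_T from
      funext fun x => cut_eq ha ((torT P.S.toHA).inv_M x.2), cut_of a (mem_zpowers _), cTm, cWm] at h
    change Nat.card P.H * ⟪P.OT l a, cnt P.τ⟫ = _
    rw [OT_def, ip_cnt_J hl (Tor.sup_D (sup_cut a)) (p0T h2), h, Q_cast]
    change _ * (_ * (_ * P.S.av a P.S.tT + _)) = _
    rcases P.S.he with e | e <;> rw [e] <;> push_cast <;> ring
  A_W c hc h2 := by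
    have h := (torW P.S.toHA).ip_cnt_D (supW hc)
    rw [cTm, cWm] at h
    change Nat.card P.H * ⟪P.J l _, cnt P.τ⟫ = _
    rw [ip_cnt_J hl (Tor.sup_D (supW hc)) (p0W h2), h, Q_cast]
    change _ * (_ * (_ + _ * ⟪c ∘ inclusion P.S.Wm_le_W, 1⟫)) = _
    rcases P.S.he with e | e <;> rw [e] <;> push_cast <;> ring
  bT a χ _ hχ h := Finset.mem_filter.2 ⟨mem_B hl pr hχ (Tor.sup_D (sup_cut a)) h, hχ⟩
  bW c χ hc hχ h := Finset.mem_filter.2 ⟨mem_B hl pr hχ (Tor.sup_D (supW hc)) h, hχ⟩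
  valt χ h := valt hl pr (Finset.mem_filter.1 h).2 (Finset.mem_filter.1 h).1

theorem res_one : Res (P := P) 1 (1 : G → ℂ) 1 :=
  ⟨Blk.pi0_of_mem (Blk.one_mem_B0 _ 2), by
    rw [inv_one, Du.ch_one, one_mul, P.hat_one]; exact Blk.pi0_of_mem (Blk.one_mem_B0 _ 2)⟩

theorem ip_D_one (Q : Tor P.S.toHA) (a : Q.A → ℂ) : ⟪Q.D a, 1⟫ = ⟪a, 1⟫ := by
  rw [Q.ip_D _ isCF_one, ← Du.ch_one, Q.eta_lin, map_one, Du.ch_one]

theorem nprin (hpar : P.S.Par) (hl : P.Lin l) (pr : P.Pr l) (l1 : l ≠ 1) : (pom hpar hl pr).NPrin := fun c _ _ => by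
  have : Res (P := P) l (1 : G → ℂ) 0 := ⟨Blk.pi0_zero, by
    rw [P.hat_zero]
    exact P.pi0_lin (fun x => by rw [Du.ch_inv, Pi.star_apply, hl, star_one]) (inv_ne_one.2 l1)
      (Blk.pi0_of_mem (Blk.one_mem_B0 _ 2))⟩
  exact (this.ip isCF_one _).trans (ip_zero_right _)

/-- a linear character in the principal block restricts trivially to `H1` -/
theorem res_lin (hχ : χ ∈ Blk.B0 G 2) (h1 : χ 1 = 1) : Res (P := P) 1 χ 1 := by
  have hi := Blk.irr_of_B0 hχ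
  obtain ⟨g, hg⟩ := ex_res (P := P) 1 χ
  obtain ⟨lam, rfl⟩ := hi.isChar.exists_lin h1
  have h2 : pi0 2 (lin lam ∘ P.H.subtype) = lin lam ∘ P.H.subtype := by
    have hl : IsIrr (lin lam ∘ P.H.subtype) := (Du.comp P.H.subtype lam).isIrr
    refine Blk.pi0_of_mem (by_contra fun e => ?_)
    have := P.pr1.sm _ hi ⟨P.τ, P.H1_le P.τH⟩ (mem_zpowers _)
    rw [inv_one, Du.ch_one, one_mul, Blk.pi0_of_not_mem hl e, if_pos (show _ ∈ P.pr1.B from hχ)] at this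
    exact (lam P.τ).ne_zero (by simpa using this.symm)
  have h3 : ∀ x : P.H1, g (P.π x) = lam x := fun x => by
    have := hg.eq
    rw [inv_one, Du.ch_one, one_mul, h2] at this
    rw [← P.hat_res hg.p0, ← this]; rfl
  obtain ⟨β, h4⟩ : ∃ β : Du P.S.H, g = β.ch := by
    let φ : {φ : P.H1 →* ℂˣ // P.π.ker ≤ φ.ker} := ⟨lam.comp P.H1.subtype, fun x hx => Units.ext (by
      change (lam x : ℂ) = 1
      rw [← h3, MonoidHom.mem_ker.1 hx, ← map_one P.π, h3]; simp)⟩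
    refine ⟨P.π.liftOfSurjective P.surj φ, funext fun y => ?_⟩
    obtain ⟨x, rfl⟩ := P.surj y
    have := P.π.liftOfRightInverse_comp_apply _ (Function.rightInverse_surjInv P.surj) φ x
    rw [h3]; exact (congrArg Units.val this).symm
  have h5 : ∀ y : P.S.T, Odd (orderOf y) → (Du.comp (torT P.S.toHA).i β).ch y = 1 := fun y hy =>
    P.S.lin_Tm β _ (P.S.odd_Tm hy)
  have h6 : (Du.comp (torT P.S.toHA).i β).ch = P.fl (lin lam) ∘ (torT P.S.toHA).i := funext fun y => by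
    obtain ⟨x, hx, e⟩ := P.oddK.lift (constt_piElt {2} ((torT P.S.toHA).i y))
    rw [Function.comp_apply, fl_eq hi.isCF hx e, ← constt_mul_compl {2} y, Du.ch_apply_mul,
      h5 _ (Blk.piElt_two_compl.1 (constt_piElt _ y)), mul_one]
    change β.ch _ = _
    rw [← h4, map_constt, ← e, h3]; rfl
  have h7 : β = 1 := P.S.inj_T P.S.T_le_H ((P.S.R_fix0 h5 fun x => by
    rw [h6]; exact congrFun (fl_r hi.isCF) x).trans (map_one _).symm)
  rwa [h4, h7] at hg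

open Classical in
theorem prin (hpar : P.S.Par) : (pom hpar P.lin_one P.pr1).Prin where
  oneT _ ha _ := (res_one.ip isCF_one _).trans ((ip_D_one (torT _) _).trans (ip_cut ha rfl))
  oneW _ _ _ := (res_one.ip isCF_one _).trans (ip_D_one (torW _) _)
  lin _ h h1 _ _ _ := ((res_lin (Finset.mem_filter.1 h).1 h1).ip (Finset.mem_filter.1 h).2.isCF _).trans
    (ip_D_one (torW _) _)

end PS

end CA.ABG
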