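/-
Alperin–Brauer–Gorenstein, character theory: the parity lemma for the two tori.
-/
import Cfsg.Agent.Lib.ABG.HA
import Cfsg.Agent.Lib.ABG.Lift

set_option autoImplicit false
set_option linter.unusedSectionVars false

namespace CA.ABG

open Cfsg Subgroup CA CA.Ch CA.Br

variable {E : Type*} [Group E] [Finite E]

theorem norm_of_conj {A : Subgroup E} {v : E} (h : ∀ x ∈ A, v * x * v⁻¹ ∈ A) : v ∈ 𝐍(A) :=
  mem_normalizer_of_cj_le (by rintro _ ⟨x, hx, rfl⟩; exact h x hx)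

theorem sum_two {C : Subgroup E} {v : E} (hv : v ∉ C) (v2 : v * v = 1) (hn : v ∈ 𝐍(C)) [Fintype C]
    [Fintype ↥(C ⊔ zpowers v)] (f : E → ℂ) :
    ∑ x : ↥(C ⊔ zpowers v), f x = ∑ c : C, f c + ∑ c : C, f (c * v) := by
  let e : C ⊕ C → ↥(C ⊔ zpowers v) := Sum.elim (fun c => ⟨c, mem_sup_left c.2⟩)
    fun c => ⟨c * v, mul_mem (mem_sup_left c.2) (mem_sup_right (mem_zpowers v))⟩
  have ne : ∀ a b : C, (a : E) ≠ b * v := fun a b h =>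
    hv (by rw [eq_inv_mul_of_mul_eq h.symm]; exact mul_mem (inv_mem b.2) a.2)
  have he : Function.Bijective e := by
    refine ⟨?_, fun ⟨x, hx⟩ => ?_⟩
    · rintro (a | a) (b | b) h <;> simp only [e, Sum.elim_inl, Sum.elim_inr, Subtype.mk.injEq] at h
      · rw [Subtype.ext h]
      · exact absurd h (ne a b)
      · exact absurd h.symm (ne b a)
      · rw [Subtype.ext (mul_right_cancel h)]
    · obtain ⟨c, hc, y, hy, rfl⟩ := (mem_sup_of_norm_right (zpowers_le.2 hn)).1 hx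
      obtain ⟨k, rfl⟩ := mem_zpowers_iff.1 hy
      have h2 : v ^ (2 : ℤ) = 1 := by rw [zpow_two, v2]
      rcases Int.even_or_odd' k with ⟨j, rfl | rfl⟩
      · exact ⟨Sum.inl ⟨c, hc⟩, Subtype.ext (by simp [e, zpow_mul, h2])⟩
      · exact ⟨Sum.inr ⟨c, hc⟩, Subtype.ext (by simp [e, zpow_add, zpow_mul, h2])⟩
  rw [← he.sum_comp (fun x => f x), Fintype.sum_sum_type]
  rfl

theorem par_half {Ψ : E → ℂ} {A Z D : Subgroup E} [IsMulCommutative A] [Fintype Z] {v : E} {a b : ℂ}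
    (two : Two (Ψ ∘ A.subtype)) (ZA : Z ≤ A) (Z2 : ∀ z ∈ Z, PiElt {2} z) (i2 : D.relIndex A = 2)
    (v2 : v * v = 1) (vA : v ∉ A) (hn : v ∈ 𝐍(A)) (vZ : ∀ z ∈ Z, z * v = v * z)
    (h : ∀ B ≤ A ⊔ zpowers v, PiGrp {2} B → IsVC (Ψ ∘ B.subtype))
    (ha : ∀ c ∈ D, ∑ z : Z, Ψ (c * v * z) = a) (hb : ∀ c ∈ A, c ∉ D → ∑ z : Z, Ψ (c * v * z) = b) :
    ∃ n m : ℤ, ⟪Ψ ∘ A.subtype, 1⟫ = n ∧ ⟪Ψ ∘ A.subtype, 1⟫ + (a + b) / (2 * Nat.card Z) = 2 * m := by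
  classical
  let f := A.subtype.comp (tw A)
  set C := f.range with hC
  have mC : ∀ {x}, x ∈ C ↔ x ∈ A ∧ PiElt {2} x := fun {x} => ⟨by
    rintro ⟨y, rfl⟩; exact ⟨(tw A y).2, (constt_piElt {2} y).map A.subtype⟩,
    fun ⟨h1, h2⟩ => ⟨⟨x, h1⟩, congrArg Subtype.val (constt_eq_self (x := (⟨x, h1⟩ : A)) (piElt_coe.1 h2))⟩⟩
  have CA : C ≤ A := fun x hx => (mC.1 hx).1
  have C2 : PiGrp {2} C := piGrp_iff_forall_piElt.2 fun x hx => (mC.1 hx).2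
  have nC : v ∈ 𝐍(C) := norm_of_conj fun x hx =>
    mC.2 ⟨conj_mem_of_mem_normalizer hn (CA hx), piElt_conj.2 (mC.1 hx).2⟩
  have e1 : ⟪Ψ ∘ A.subtype, 1⟫ = ⟪Ψ ∘ C.subtype, 1⟫ := by
    rw [← ip_comp_surj f.rangeRestrict f.rangeRestrict_surjective]
    exact congrArg (⟪·, _⟫) (funext fun x => (Two.tw two x).symm)
  obtain ⟨n, hn1⟩ := (h C (CA.trans le_sup_left) C2).ip_int isVC_one
  obtain ⟨m, hm⟩ := (h _ (sup_le_sup_right CA _) (C2.sup (piGrp_zpowers.2 (Blk.piElt_two_of_sq v2))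
    (Or.inl (zpowers_le.2 nC)))).ip_int isVC_one
  refine ⟨n, m, e1.trans hn1, ?_⟩
  have := Fintype.ofFinite C
  have := Fintype.ofFinite ↥(C ⊔ zpowers v)
  have s1 := sum_two (fun e => vA (CA e)) v2 nC Ψ
  have s2 := sum_two (fun e => vA (CA e)) v2 nC 1
  simp only [Pi.one_apply, Finset.sum_const, Finset.card_univ, nsmul_eq_mul, mul_one,
    ← Nat.card_eq_fintype_card] at s2
  obtain ⟨c, hc, cD⟩ : ∃ c ∈ C, c ∉ D := by
    by_contra! hh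
    have : A ≤ D := fun x hx => by
      rw [← constt_mul_compl {2} x]
      have h1 : constt {2}ᶜ x ∈ A := zpowers_le.2 hx (constt_mem_zpowers _ x)
      refine mul_mem (hh _ (mC.2 ⟨zpowers_le.2 hx (constt_mem_zpowers _ x), constt_piElt _ x⟩)) ?_
      obtain ⟨k, hk⟩ := Blk.piElt_two_compl.1 (constt_piElt {2}ᶜ x)
      have h2 := pow_orderOf_eq_one (constt {2}ᶜ x)
      rw [hk, pow_succ, pow_mul] at h2
      rw [eq_inv_of_mul_eq_one_right h2, sq]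
      exact inv_mem (pow_mem ((mul_mem_iff_of_index_two (H := D.subgroupOf A) i2 (a := ⟨_, h1⟩) (b := ⟨_, h1⟩)).2
        Iff.rfl) _)
    rw [relIndex_eq_one.2 this] at i2
    omega
  have s3 : ∑ x : C, ∑ z : Z, Ψ (x * v * z) = Nat.card Z * ∑ x : C, Ψ (x * v) := by
    rw [Finset.sum_comm, Nat.card_eq_fintype_card, ← Finset.card_univ, ← nsmul_eq_mul, ← Finset.sum_const]
    refine Finset.sum_congr rfl fun z _ => Fintype.sum_equiv (Equiv.mulRight ⟨z, mC.2 ⟨ZA z.2, Z2 _ z.2⟩⟩) _ _ fun x => ?_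
    simp only [Equiv.coe_mulRight, coe_mul, mul_assoc, vZ _ z.2]
  have s4 : 2 * ∑ x : C, ∑ z : Z, Ψ (x * v * z) = Nat.card C * (a + b) := by
    rw [two_mul, Nat.card_eq_fintype_card, ← Finset.card_univ, ← nsmul_eq_mul, ← Finset.sum_const]
    nth_rw 2 [← Equiv.sum_comp (Equiv.mulRight (⟨c, hc⟩ : C))]
    rw [← Finset.sum_add_distrib]
    refine Finset.sum_congr rfl fun x _ => ?_
    have k := mul_mem_iff_of_index_two (H := D.subgroupOf A) i2 (a := ⟨x, CA x.2⟩) (b := ⟨c, CA hc⟩)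
    simp only [mem_subgroupOf, coe_mul] at k
    by_cases hx : (x : E) ∈ D
    · rw [ha _ hx]; exact congrArg _ (hb _ (mul_mem (CA x.2) (CA hc)) fun e => cD ((k.1 e).1 hx))
    · rw [hb _ (CA x.2) hx, add_comm]; exact congrArg (· + b) (ha _ (k.2 (iff_of_false hx cD)))
  rw [e1, ← hm, ip_one_right, ip_one_right, s2]
  simp only [Function.comp_apply, coe_subtype]
  have c1 := Ch.card_ne_zero' C
  have c2 := Ch.card_ne_zero' Z
  rw [s1, show a + b = 2 * Nat.card Z * (∑ x : C, Ψ (x * v)) / Nat.card C by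
    field_simp; linear_combination 2 * s3 - s4, ← two_mul]
  field_simp

namespace HA

variable (S : HA E)

theorem sqT {x : E} (hx : x ∈ S.T) (xZ : x ∉ S.Z) (x2 : x * x ∈ S.Z) : ∃ z ∈ S.Z, x = S.u * z := by
  have c : ∀ {a b}, a ∈ S.T → b ∈ S.T → a * b = b * a := fun ha hb => abelian_iff'.1 S.commT _ ha _ hb
  have hy := S.w_T hx
  have e := (S.mem_Z_T.1 x2).2
  have e2 : S.w * x * S.w⁻¹ * x⁻¹ * (S.w * x * S.w⁻¹ * x⁻¹) = 1 := by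
    rw [mul_assoc _ x⁻¹, ← mul_assoc x⁻¹, c (inv_mem hx) hy]
    calc _ = S.w * (x * x) * S.w⁻¹ * (x * x)⁻¹ := by group
      _ = 1 := by rw [e, mul_inv_cancel]
  have e3 : S.w * (S.w * x * S.w⁻¹ * x⁻¹) * S.w⁻¹ = S.w * x * S.w⁻¹ * x⁻¹ := by
    calc _ = (S.w * S.w) * x * (S.w * S.w)⁻¹ * (S.w * x * S.w⁻¹)⁻¹ := by group
      _ = (S.w * x * S.w⁻¹ * x⁻¹)⁻¹ := by rw [S.ww']; group
      _ = _ := inv_eq_of_mul_eq_one_right e2
  have wt : S.w * S.t * S.w⁻¹ = S.t := by rw [S.wt, mul_inv_cancel_right]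
  rcases S.inv_T (mul_mem hy (inv_mem hx)) e2 with h | h | h | h
  · exact absurd (S.mem_Z_T.2 ⟨hx, mul_inv_eq_one.1 h⟩) xZ
  · refine ⟨S.u⁻¹ * x, S.mem_Z_T.2 ⟨mul_mem (inv_mem S.u_T) hx, ?_⟩, by group⟩
    calc _ = (S.w * S.u * S.w⁻¹)⁻¹ * (S.w * x * S.w⁻¹ * x⁻¹) * x := by group
      _ = _ := by rw [h, S.wu]; group
  · rw [h, S.wu] at e3; exact absurd (mul_eq_right.1 e3) S.t_ne
  · rw [h, show S.w * (S.t * S.u) * S.w⁻¹ = S.w * S.t * S.w⁻¹ * (S.w * S.u * S.w⁻¹) by group, wt, S.wu] at e3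
    exact absurd (mul_eq_right.1 e3) S.t_ne

theorem sqW {x : E} (hx : x ∈ S.W) (xZ : x ∉ S.Z) (x2 : x * x ∈ S.Z) : S.u * x * S.u⁻¹ = S.t * x := by
  have c : ∀ {a b}, a ∈ S.W → b ∈ S.W → a * b = b * a := fun ha hb => abelian_iff'.1 S.instCommW _ ha _ hb
  have hy := S.u_W hx
  have e := (S.mem_Z_W.1 x2).2
  have e2 : S.u * x * S.u⁻¹ * x⁻¹ * (S.u * x * S.u⁻¹ * x⁻¹) = 1 := by
    rw [mul_assoc _ x⁻¹, ← mul_assoc x⁻¹, c (inv_mem hx) hy]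
    calc _ = S.u * (x * x) * S.u⁻¹ * (x * x)⁻¹ := by group
      _ = 1 := by rw [e, mul_inv_cancel]
  rcases S.inv_W (mul_mem hy (inv_mem hx)) e2 with h | h
  · exact absurd (S.mem_Z_W.2 ⟨hx, mul_inv_eq_one.1 h⟩) xZ
  · exact mul_inv_eq_iff_eq_mul.1 h

/-- elements of order 2 modulo `Z` which are not conjugate into `u Z` -/
def WT (x : E) : Prop := x ∈ S.H ∧ x ∉ S.Z ∧ x * x ∈ S.Z ∧ ∀ k ∈ S.H, ∀ z ∈ S.Z, k * x * k⁻¹ ≠ S.u * z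

theorem cjZ {k z : E} (hk : k ∈ S.H) (hz : z ∈ S.Z) : k * z * k⁻¹ = z := by
  rw [← S.Z_comm hz hk, mul_inv_cancel_right]

theorem WT.ex {S : HA E} {x : E} (h : S.WT x) :
    ∃ k ∈ S.H, k * x * k⁻¹ ∈ S.W ∧ S.u * (k * x * k⁻¹) * S.u⁻¹ = S.t * (k * x * k⁻¹) := by
  obtain ⟨h1, h2, h3, h4⟩ := h
  obtain ⟨k, hk, e⟩ := S.classes h1
  have a : k * x * k⁻¹ ∉ S.Z := fun a => h2 (by
    have := S.cjZ (inv_mem hk) a
    rw [show k⁻¹ * (k * x * k⁻¹) * k⁻¹⁻¹ = x by group] at this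
    exact this ▸ a)
  have b : k * x * k⁻¹ * (k * x * k⁻¹) ∈ S.Z := by
    rw [show k * x * k⁻¹ * (k * x * k⁻¹) = k * (x * x) * k⁻¹ by group, S.cjZ hk h3]; exact h3
  rcases e with e | e | ⟨z, hz, y, hy, y1, e⟩
  · obtain ⟨z, hz, e⟩ := S.sqT e a b
    exact absurd e (h4 k hk z hz)
  · exact ⟨k, hk, e, S.sqW e a b⟩
  · rw [e, mul_assoc, ← mul_assoc y, ← S.Z_comm hz (S.U_le_H hy), mul_assoc, mul_mem_cancel_left hz,
      mul_mem_cancel_left hz] at b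
    exact absurd (S.U_sq hy (mem_bot.1 (S.Z_inf_U.le (mem_inf.2 ⟨b, mul_mem hy hy⟩)))) y1

theorem WT.conj {S : HA E} {x y : E} (hx : S.WT x) (hy : S.WT y) : ∃ k ∈ S.H, ∃ z ∈ S.Z, k * x * k⁻¹ = y * z := by
  obtain ⟨k, hk, a, b⟩ := hx.ex
  obtain ⟨l, hl, c, d⟩ := hy.ex
  have hz : (l * y * l⁻¹)⁻¹ * (k * x * k⁻¹) ∈ S.Z := S.mem_Z_W.2 ⟨mul_mem (inv_mem c) a, by
    calc _ = (S.u * (l * y * l⁻¹) * S.u⁻¹)⁻¹ * (S.u * (k * x * k⁻¹) * S.u⁻¹) := by group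
      _ = _ := by rw [b, d]; group⟩
  refine ⟨l⁻¹ * k, mul_mem (inv_mem hl) hk, _, hz, ?_⟩
  rw [← S.cjZ (inv_mem hl) hz]
  group

theorem half (Z2 : ∀ z ∈ S.Z, PiElt {2} z) [Fintype S.Z] {Ψ : E → ℂ} (cf : ∀ g ∈ S.H, ∀ x, Ψ (g * x * g⁻¹) = Ψ x)
    (h : ∀ B ≤ S.H, PiGrp {2} B → IsVC (Ψ ∘ B.subtype)) {b : ℂ} (hb : ∀ x, S.WT x → ∑ z : S.Z, Ψ (x * z) = b)
    {A Am : Subgroup E} [hA : IsMulCommutative A] {v : E} (two : Two (Ψ ∘ A.subtype)) (AH : A ≤ S.H) (vH : v ∈ S.H)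
    (v2 : v * v = 1) (vA : v ∉ A) (hn : ∀ x ∈ A, v * x * v⁻¹ ∈ A) (mZ : ∀ {x}, x ∈ S.Z ↔ x ∈ A ∧ v * x * v⁻¹ = x)
    (mA : ∀ {x}, x ∈ Am ↔ x ∈ A ∧ v * x * v⁻¹ = x⁻¹) (h90 : ∀ {x}, x ∈ Am → ∃ y ∈ A, x = v * y * v⁻¹ * y⁻¹)
    (hc : Nat.card A = Nat.card Am * Nat.card S.Z) :
    ∃ n m : ℤ, ⟪Ψ ∘ A.subtype, 1⟫ = n ∧
      ⟪Ψ ∘ A.subtype, 1⟫ + (∑ z : S.Z, Ψ (S.u * z) + b) / (2 * Nat.card S.Z) = 2 * m := by
  have c : ∀ {a b}, a ∈ A → b ∈ A → a * b = b * a := fun ha hb => abelian_iff'.1 hA _ ha _ hb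
  have ZA : S.Z ≤ A := fun x hx => (mZ.1 hx).1
  have mA' : Am ≤ A := fun x hx => (mA.1 hx).1
  have nZ : Am ≤ 𝐍(S.Z) := norms_of_cents (cents_iff.2 fun x hx y hy => c (mA' hx) (ZA hy))
  have vi : v⁻¹ = v := inv_eq_of_mul_eq_one_right v2
  have F : ∀ g ∈ S.H, ∀ x, ∑ z : S.Z, Ψ (g * x * g⁻¹ * z) = ∑ z : S.Z, Ψ (x * z) := fun g hg x =>
    Finset.sum_congr rfl fun z _ => by rw [← cf g hg (x * z), ← S.cjZ hg z.2]; congr 1; rw [S.cjZ hg z.2, mul_assoc g x, mul_assoc g, mul_assoc g, mul_assoc x, mul_assoc x, S.Z_comm z.2 (inv_mem hg)]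
  refine par_half (D := S.Z ⊔ Am) two ZA Z2 ?_ v2 vA (norm_of_conj hn)
    (fun z hz => S.Z_comm hz vH) (fun B hB => h B (hB.trans (sup_le AH (zpowers_le.2 vH)))) (fun x hx => ?_)
    fun x hx xD => hb _ ⟨mul_mem (AH hx) vH, fun e => vA ((mul_mem_cancel_left hx).1 (ZA e)), ?_, fun k hk z hz e => ?_⟩
  · have h1 := card_sup_mul_card_inf (Or.inl nZ)
    have h2 : S.Z ⊓ Am = zpowers S.t := le_antisymm (fun x hx => by
      rcases S.inv_W (S.Z_le_W hx.1) (eq_inv_iff_mul_eq_one.1 ((mZ.1 hx.1).2.symm.trans (mA.1 hx.2).2)) with e | e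
      exacts [e ▸ one_mem _, e ▸ mem_zpowers _])
      (zpowers_le.2 ⟨S.t_Z, mA.2 ⟨ZA S.t_Z, by rw [(mZ.1 S.t_Z).2, S.t_inv]⟩⟩)
    have h3 := card_mul_relIndex (sup_le ZA mA')
    rw [h2, Nat.card_zpowers, Inv.orderOf_eq_two S.tt S.t_ne, mul_comm (Nat.card S.Z), ← hc, ← h3] at h1
    exact (Nat.eq_of_mul_eq_mul_left Nat.card_pos h1).symm
  · obtain ⟨z, hz, _, hm, rfl⟩ := (mem_sup_of_norm_right nZ).1 hx
    obtain ⟨y, hy, rfl⟩ := h90 hm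
    obtain ⟨k, hk, e⟩ := (S.inv_H vH v2 fun e => vA (e ▸ one_mem _)).resolve_left fun e => vA (e ▸ ZA S.t_Z)
    have e1 : z * (v * y * v⁻¹ * y⁻¹) * v = y⁻¹ * (v * z) * y⁻¹⁻¹ := by
      rw [c (hn y hy) (inv_mem hy), S.Z_comm hz (AH (mul_mem (inv_mem hy) (hn y hy))), mul_assoc _ z, S.Z_comm hz vH,
        inv_inv, mul_assoc y⁻¹ (v * z), mul_assoc v z, S.Z_comm hz (AH hy)]
      group
    rw [e1, F _ (inv_mem (AH hy)), ← F k hk S.u, ← e]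
    exact Fintype.sum_equiv (Equiv.mulLeft ⟨z, hz⟩) _ _ fun x => by simp [mul_assoc]
  · have e : x * v * (x * v) = x * (v * x * v⁻¹) := by rw [vi]; group
    refine e ▸ mZ.2 ⟨mul_mem hx (hn x hx), ?_⟩
    rw [c hx (hn x hx)]
    calc _ = (v * v) * x * (v * v)⁻¹ * (v * x * v⁻¹) := by group
      _ = _ := by rw [v2, c (hn x hx) hx]; group
  · have e0 : x * v * (x * v) = x * (v * x * v⁻¹) := by rw [vi]; group
    have e1 : x * (v * x * v⁻¹) = z * z := by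
      rw [← e0, ← S.cjZ (inv_mem hk) (mul_mem hz hz)]
      have : z * z = S.u * z * (S.u * z) := by
        rw [mul_assoc, ← mul_assoc z, S.Z_comm hz (S.T_le_H S.u_T), ← mul_assoc, ← mul_assoc, S.uu, one_mul]
      rw [this, ← e]; group
    refine xD ((mem_sup_of_norm_right nZ).2 ⟨z, hz, z⁻¹ * x, mA.2 ⟨mul_mem (inv_mem (ZA hz)) hx, ?_⟩, by group⟩)
    rw [← mul_assoc, ← S.Z_comm (inv_mem hz) vH, mul_assoc z⁻¹, mul_assoc z⁻¹, eq_inv_mul_of_mul_eq e1,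
      ← mul_assoc, c (inv_mem (ZA hz)) (inv_mem hx)]
    group

/-- The parity lemma. -/
theorem par (Z2 : ∀ z ∈ S.Z, PiElt {2} z) {ψ : S.H → ℂ} (hψ : IsCF ψ)
    (two : ∀ x y, Commute x y → Odd (orderOf y) → ψ (x * y) = ψ x)
    (h : ∀ B : Subgroup S.H, IsPGroup 2 B → IsVC (ψ ∘ B.subtype)) :
    ∃ n : ℤ, ⟪ψ ∘ inclusion S.T_le_H, 1⟫ + ⟪ψ ∘ inclusion S.W_le_H, 1⟫ = 2 * n := by
  classical
  have := Fintype.ofFinite S.Z
  let Ψ : E → ℂ := fun x => if hx : x ∈ S.H then ψ ⟨x, hx⟩ else 0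
  have e : ∀ {A} (hA : A ≤ S.H), ψ ∘ inclusion hA = Ψ ∘ A.subtype := fun hA => funext fun x => by
    simp only [Ψ, Function.comp_apply, coe_subtype, dif_pos (hA x.2)]; rfl
  have cf : ∀ g ∈ S.H, ∀ x, Ψ (g * x * g⁻¹) = Ψ x := fun g hg x => by
    by_cases hx : x ∈ S.H
    · simp only [Ψ, dif_pos hx, dif_pos (mul_mem (mul_mem hg hx) (inv_mem hg))]
      exact hψ.conj ⟨x, hx⟩ ⟨g, hg⟩
    · simp only [Ψ, dif_neg hx]
      exact dif_neg fun e => hx ((mul_mem_cancel_left hg).1 ((mul_mem_cancel_right (inv_mem hg)).1 e))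
  have vc : ∀ B ≤ S.H, PiGrp {2} B → IsVC (Ψ ∘ B.subtype) := fun B hB B2 => by
    rw [← e hB]
    exact (h (B.subgroupOf S.H) ((B2.isPGroup Nat.prime_two).of_equiv (subgroupOfEquivOfLe hB).symm)).comp
      (subgroupOfEquivOfLe hB).symm.toMonoidHom
  have tw : ∀ {A} (hA : A ≤ S.H) [IsMulCommutative A], Two (Ψ ∘ A.subtype) := fun hA _ x y hy => by
    rw [← e hA, Function.comp_apply, map_mul]
    exact two _ _ (Commute.map (mul_comm' x y) _) (by rwa [orderOf_injective _ (inclusion_injective hA)])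
  let b := if hx : ∃ x, S.WT x then ∑ z : S.Z, Ψ (hx.choose * z) else 0
  have hb : ∀ x, S.WT x → ∑ z : S.Z, Ψ (x * z) = b := fun x hx => by
    have h' : ∃ x, S.WT x := ⟨x, hx⟩
    obtain ⟨k, hk, z, hz, e⟩ := hx.conj h'.choose_spec
    simp only [b, dif_pos h']
    refine Fintype.sum_equiv (Equiv.mulLeft ⟨z, hz⟩) _ _ fun y => ?_
    rw [← cf k hk, Equiv.coe_mulLeft, coe_mul, ← mul_assoc h'.choose, ← e, mul_assoc (k * x), ← S.Z_comm y.2 (inv_mem hk)]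
    simp only [mul_assoc]
  obtain ⟨n, m, h1, h2⟩ := S.half Z2 cf vc hb (tw S.T_le_H) S.T_le_H S.w_H S.ww' S.w_not_T (fun _ => S.w_T) S.mem_Z_T
    S.mem_Tm S.Tm_h90 (by have := S.card_T; rw [← S.card_Tm] at this; exact_mod_cast this)
  obtain ⟨n', m', -, h4⟩ := S.half Z2 cf vc hb (tw S.W_le_H) S.W_le_H (S.T_le_H S.u_T) S.uu S.u_not_W (fun _ => S.u_W)
    S.mem_Z_W S.mem_Wm S.Wm_h90 (by have := S.card_W; rw [← S.card_Wm] at this; exact_mod_cast this)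
  refine ⟨n + m' - m, ?_⟩
  rw [e, e]
  push_cast
  linear_combination 2 * h1 + h4 - h2

end HA

end CA.ABG
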