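/-
Alperin–Brauer–Gorenstein, character theory: the second main theorem over the block `l B₀(H)` for a stable linear
character `l`.
-/
import Cfsg.Agent.Lib.ABG.PS
import Cfsg.Agent.Lib.GW.TBlk

set_option autoImplicit false
set_option linter.unusedSectionVars false

namespace CA.ABG

open Cfsg Subgroup CA CA.Ch CA.Br CA.Blk CA.GW

section
variable {G : Type*} [Group G] [Finite G] {p : ℕ} [hp : Fact p.Prime]

/-- `GW.blk` with a congruence in place of the equality -/
theorem blkc (H : Subgroup G) {c : G → ℂ} (hc : IsCF c) (ho : ∀ g, OI p (c g)) {ε : GA G} (hεO : CO p ε)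
    (hε : ∀ g ∈ H, PI p (c g - co ε g)) (hcm : ∀ y ∈ H, Commute (el y) ε) (hεε : ε * ε = ε) {χ : G → ℂ}
    (hχ : IsIrr χ) {h : G} (hC : 𝐂[constt {p} h] ≤ H) :
    (¬ PI p (om χ (mkA c)) → tau χ (ε * el h) = χ h) ∧ (PI p (om χ (mkA c)) → tau χ (ε * el h) = 0) := by
  set x := constt {p} h with hxd
  have hx : PiElt {p} x := constt_piElt {p} h
  have hz : CO p (mkA c) := fun g => by rw [co_mkA]; exact ho g
  have hzc : Cen (mkA c) := cen_mkA hc
  have hhH : h ∈ H := hC (cent1_le_cent1_constt {p} h (mem_centralizer_singleton_iff.mpr rfl))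
  have hxH : x ∈ H := hC (mem_centralizer_singleton_iff.mpr rfl)
  have hCx : ∀ g, g ∈ (𝐂[x] : Subgroup G).subtype.range ↔ g * x = x * g := fun g => by
    rw [range_subtype, mem_centralizer_singleton_iff]
  have hd : CP p (dn (𝐂[x] : Subgroup G).subtype (mkA c) - dn (𝐂[x] : Subgroup G).subtype ε) :=
    fun g => hε _ (hC g.2)
  have h1 := cp_dn_mul _ hx hCx hz hεO (hzc _).symm (hcm x hxH)
  have h2 := cp_dn_mul _ hx hCx hεO hεO (hcm x hxH) (hcm x hxH)
  rw [hεε] at h2
  have h0 := hd.mul_right (hεO.dn (𝐂[x] : Subgroup G).subtype)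
  rw [sub_mul] at h0
  have h3 := (h1.trans h0).trans h2.symm
  constructor
  · intro hn
    have h4 := blk_zero hx hz hzc hχ hn ((co_one' p).sub hεO) (by
      rw [sub_mul, one_mul, mul_sub, mul_one, hεε, sub_self, sub_zero]) rfl
      ((Commute.one_right _).sub_right (hcm h hhH)) ((Commute.one_right _).sub_right (hcm x hxH))
      (by rw [mul_sub, mul_one, dn_sub]; exact hd.trans h3.symm)
    rw [sub_mul, one_mul, map_sub, tau_el] at h4
    linear_combination -h4
  · intro hn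
    refine blk_zero hx ((co_one' p).sub hz) (cen_one.sub hzc) hχ ?_ hεO hεε rfl (hcm h hhH)
      (hcm x hxH) (by rw [sub_mul, one_mul, dn_sub]; exact h3.symm)
    rw [om_sub, om_one hχ]
    intro h4
    exact not_pi_one p (by simpa using h4.add hn)

/-- the twist of an element of the group algebra by a linear character -/
noncomputable def twA (l : Du G) (a : GA G) : GA G := mkA fun g => co a g * l.ch g

theorem co_twA (l : Du G) (a : GA G) (g : G) : co (twA l a) g = co a g * l.ch g := rfl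
theorem oi_ch (l : Du G) (g : G) : OI p (l.ch g) := oi_of_aint (l.isChar.aint g)
theorem twA_mul (l : Du G) (a b : GA G) : twA l (a * b) = twA l a * twA l b := co_ext fun g => by
  have := Fintype.ofFinite G
  rw [co_twA, co_mul, co_mul, Finset.sum_mul]
  refine Finset.sum_congr rfl fun h _ => ?_
  rw [co_twA, co_twA, show l.ch g = l.ch h * l.ch (h⁻¹ * g) by rw [← Du.ch_apply_mul, mul_inv_cancel_left]]
  ring
theorem tau_twA (l : Du G) (χ : G → ℂ) (a : GA G) (h : G) :
    tau χ (twA l⁻¹ a * el h) = l.ch h * tau (l⁻¹.ch * χ) (a * el h) := by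
  have := Fintype.ofFinite G
  rw [tau_def, tau_def, Finset.mul_sum]
  refine Finset.sum_congr rfl fun g _ => ?_
  have e : l.ch h * l⁻¹.ch h = 1 := by rw [← Pi.mul_apply, ← Du.ch_mul, mul_inv_cancel]; rfl
  have e' : l⁻¹.ch g = l⁻¹.ch (g * h⁻¹) * l⁻¹.ch h := by rw [← Du.ch_apply_mul, inv_mul_cancel_right]
  rw [co_mul_el, co_mul_el, co_twA, Pi.mul_apply, e']
  linear_combination (-(co a (g * h⁻¹) * l⁻¹.ch (g * h⁻¹) * χ g)) * e

end

variable {G E : Type*} [Group G] [Group E] [Finite G] [Finite E] (P : PS G E)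

theorem PS.exists_pr {l : Du P.H} (hl : P.Stable l) : Nonempty (P.Pr l) := by
  classical
  have hl' : ∀ a b : P.H, IsConj (a : G) b → l⁻¹.ch a = l⁻¹.ch b := fun a b h => by
    rw [Du.ch_inv, Pi.star_apply, Pi.star_apply, hl a b h]
  let Λ : G → ℂ := fun g => if h : ∃ a : P.H, IsConj (a : G) g then l⁻¹.ch h.choose else 0
  have Λ1 : ∀ (a : P.H) g, IsConj (a : G) g → Λ g = l⁻¹.ch a := fun a g h => by
    have h' : ∃ a : P.H, IsConj (a : G) g := ⟨a, h⟩
    simp only [Λ, dif_pos h']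
    exact hl' _ _ (h'.choose_spec.trans h.symm)
  have Λc : IsCF Λ := fun g x => by
    by_cases h : ∃ a : P.H, IsConj (a : G) g
    · obtain ⟨a, h⟩ := h
      rw [Λ1 a g h, Λ1 a _ (h.trans (isConj_iff.2 ⟨x, rfl⟩))]
    · have h' : ¬ ∃ a : P.H, IsConj (a : G) (x * g * x⁻¹) :=
        fun ⟨a, e⟩ => h ⟨a, e.trans (isConj_iff.2 ⟨x, rfl⟩).symm⟩
      simp only [Λ, dif_neg h, dif_neg h']
  have Λo : ∀ g, OI 2 (Λ g) := fun g => by
    simp only [Λ]
    split_ifs
    exacts [oi_ch _ _, oi_zero 2]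
  let c : G → ℂ := fun g => co (e0 G 2) g * Λ g
  have hc : IsCF c := fun g x => by simp only [c]; rw [Λc g x, (cen_iff.1 cen_e0).conj]
  let η := twA l⁻¹ (e0 P.H 2)
  have ηc : Cen η := cen_iff.2 fun g x => by
    simp only [η, co_twA]; rw [(cen_iff.1 cen_e0).conj, l⁻¹.isCF.conj]
  have ηo : CO 2 η := fun g => (co_e0 g).mul (oi_ch _ _)
  have hb := fun χ (hχ : IsIrr χ) (h : P.H) (hh : h ∈ P.R) => blkc (p := 2) P.H hc
    (fun g => (co_e0 g).mul (Λo g)) (ε := up P.H.subtype η) (ηo.up _) (fun g hg => by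
      have e : co (up P.H.subtype η) g = co η ⟨g, hg⟩ := by
        conv_rhs => rw [← dn_up P.H.subtype η]
        rfl
      have := (cp_dn_e0 (p := 2) P.H.subtype (piElt_two_of_sq P.ττ) (fun g => by
        rw [range_subtype, P.mem_H]) ⟨g, hg⟩).mul_right (oi_ch l⁻¹ ⟨g, hg⟩)
      rw [e]
      simp only [c, η, co_twA]
      rw [Λ1 ⟨g, hg⟩ g (IsConj.refl _), ← sub_mul]
      exact this)
    (fun y hy => by
      have := congrArg (up P.H.subtype) (ηc (el ⟨y, hy⟩))
      rw [map_mul, map_mul, up_el] at this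
      exact this.symm)
    (by rw [← map_mul, ← twA_mul, e0_idem]) hχ (P.cent_le hh)
  refine ⟨⟨(irr G).filter fun χ => ¬ PI 2 (om χ (mkA c)), fun χ hχ h hh => ?_⟩⟩
  have e : tau χ (up P.H.subtype η * el (h : G)) = l.ch h * pi0 2 (l⁻¹.ch * χ ∘ P.H.subtype) h := by
    rw [show el (h : G) = up P.H.subtype (el h) from (up_el P.H.subtype h).symm, ← map_mul, tau_up, tau_twA,
      tau_e0 (l⁻¹.isCF.mul (hχ.isCF.comp _))]
  rw [← e]
  split_ifs with h1
  · exact (hb χ hχ h hh).1 (Finset.mem_filter.1 h1).2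
  · exact (hb χ hχ h hh).2 (by by_contra h'; exact h1 (Finset.mem_filter.2 ⟨mem_irr.2 hχ, h'⟩))

end CA.ABG
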