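/-
Alperin–Brauer–Gorenstein, character theory: the output in the wreathed case.
-/
import Cfsg.Agent.Lib.ABG.POm
import Cfsg.Agent.Lib.ABG.PDec
import Cfsg.Agent.Lib.ABG.PrS
import Cfsg.Agent.Lib.ABG.Par

set_option autoImplicit false
set_option linter.unusedSectionVars false

namespace CA.ABG.PS

open Cfsg Subgroup CA CA.Ch CA.Br CA.ABG.HO

variable {G E : Type*} [Group G] [Group E] [Finite G] [Finite E] (P : PS G E)

theorem par : P.S.Par := fun _ h1 h2 h3 => P.S.par P.S.Z2 h1 h2 h3

/-- the class functions of the principal block -/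
noncomputable def pom1 : POm P.S G := pom P.par P.lin_one P.pr1

theorem prin1 : P.pom1.Prin := prin P.par

/-- the order formula in the wreathed case -/
theorem index_W (h4 : P.S.Q % 4 = 1) : (P.H.index : ℤ) = P.k ^ 2 * P.S.Q ^ 2 * (P.S.Q ^ 2 + P.S.Q + 1) :=
  P.pom1.index_W P.prin1 h4

/-- no fusion-invariant linear character of `H/H1`, wreathed case -/
theorem stable_W (hp : _root_.commutator G = ⊤) (h4 : P.S.Q % 4 = 1) {l : Du P.H} (hl : P.Lin l) (hs : P.Stable l) :
    l = 1 := by
  obtain ⟨pr⟩ := P.exists_pr hs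
  exact by_contra fun l1 => P.pom1.stable_W P.prin1 (pom P.par hl pr) (nprin _ hl pr l1) rfl rfl hp h4

end CA.ABG.PS
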