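/-
Alperin–Brauer–Gorenstein: the results of the character theory in the wreathed case.
-/
import Cfsg.Agent.Lib.ABG.P3
import Cfsg.Agent.Lib.ABG.PW

set_option autoImplicit false
set_option linter.unusedSectionVars false

namespace CA.ABG

open Cfsg Subgroup CA CA.FStar CA.GW CA.Ch

variable {G : Type*} [Group G] [Finite G] {S M K : Subgroup G} {t s : G}

theorem QDT.isConj (h : QDT (⊤ : Subgroup G)) (t2 : Inv2 t) (i : G) (i2 : Inv2 i) : IsConj t i :=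
  let ⟨g, _, e⟩ := h.one t (mem_top _) i (mem_top _) t2 i2
  isConj_iff.2 ⟨g, e⟩

theorem QDT.perfect [IsSimpleGroup G] (h : QDT (⊤ : Subgroup G)) : commutator G = ⊤ :=
  ((inferInstance : (commutator G).Normal).eq_bot_or_eq_top).resolve_left fun e =>
    h.syl.not_solv_top ⟨1, e⟩

/-- stability for the characters of `C(t)` from stability for `PS` -/
theorem PS.stb {E : Type*} [Group E] [Finite E] (P : PS G E) (e1 : P.τ = t) (e2 : P.H1 = K)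
    (h : ∀ l, P.Lin l → P.Stable l → l = 1) (l : 𝐂[t] →* ℂˣ) (h1 : K.subgroupOf 𝐂[t] ≤ l.ker)
    (h2 : ∀ a b : 𝐂[t], IsConj (a : G) b → l a = l b) : l = 1 := by
  subst e1 e2
  exact h (Du.mk l) (fun x => congrArg Units.val (h1 x.2)) fun a b e => congrArg Units.val (h2 a b e)

variable (h : QDT (⊤ : Subgroup G)) (w : SW S t) (hS : SylowIn 2 S 𝐂[t]) (hq : QD S) (wr : t ∈ zpowers (w.z * w.z))
include h w hS hq wr

theorem a1_W (hM : 𝐂[t] ≤ M) (hq' : QDT M) : M = ⊤ := by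
  obtain ⟨Z, F, _, _, e, et⟩ := h.qe' w.t2 le_top
  obtain ⟨P, P', e1, -, -, e4, -, -, -, -, e5, e6, e7⟩ := exists_ps e hq' w.t2 hM et (h.isConj w.t2)
  have h4 := P.S.Q_one (e4 ▸ e.four_dvd hS hq w wr)
  have h1 := P.index_W h4
  have h2 := P'.index_W (e5 ▸ h4)
  rw [e5, e6, e7, ← h1, PS.H, e1, Nat.cast_inj, ← relIndex_mul_index hM] at h2
  exact index_eq_one.1 ((Nat.mul_eq_left fun e => index_ne_zero_of_finite (H := 𝐂[t])
    (by rw [← relIndex_mul_index hM, e, zero_mul])).1 h2.symm)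

variable {Z : Subgroup (Quo 𝐎(𝐂[t]))} {F : Type} [Field F] [Fintype F] (e : QE F (𝐂[t] /ₛ 𝐎(𝐂[t])) Z)
  (et : e.t = qel _ t)
include e et

theorem QE.index_W (hs : s ∈ 𝐂[t]) (s2 : Inv2 s) (st : s ≠ t) : ∃ Q : ℤ, Q % 4 = 1 ∧
    (Q = Fintype.card F ∨ Q = -Fintype.card F) ∧
    ((𝐂[t]).index : ℤ) = ((𝐂[s]).relIndex 𝐎(𝐂[t]) : ℕ) ^ 2 * Q ^ 2 * (Q ^ 2 + Q + 1) := by
  obtain ⟨P, -, e1, -, -, e4, e5, -, -, e6, -⟩ := exists_ps e h w.t2 le_top et (h.isConj w.t2)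
  have h4 := P.S.Q_one (e4 ▸ e.four_dvd hS hq w wr)
  have h1 := P.index_W h4
  rw [PS.H, e1, e6 s hs s2 st] at h1
  exact ⟨_, h4, e5 ▸ P.S.Q_cases.imp And.right And.right, h1⟩

/-- the index in the split case -/
theorem QE.index_W' (hs : s ∈ 𝐂[t]) (s2 : Inv2 s) (st : s ≠ t) {u d τ σ n m} (tor : e.Tor u d τ σ n m)
    (hn : n + 1 = Fintype.card F) : (𝐂[t]).index = (𝐂[s]).relIndex 𝐎(𝐂[t]) ^ 2 * Fintype.card F ^ 2 *
      (Fintype.card F ^ 2 + Fintype.card F + 1) := by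
  obtain ⟨Q, h1, h2, h3⟩ := e.index_W h w hS hq wr et hs s2 st
  obtain ⟨c, hc⟩ := (e.four_dvd hS hq w wr).trans (Dvd.intro _ tor.nm.symm)
  obtain rfl : Q = Fintype.card F := by omega
  exact_mod_cast h3

omit e et in
theorem kill_W (hs : s ∈ 𝐂[t]) (s2 : Inv2 s) (st : s ≠ t) : (𝐂[s]).relIndex 𝐎(𝐂[t]) ^ 2 ∣ (𝐂[t]).index := by
  obtain ⟨Z, F, _, _, e, et⟩ := h.qe' w.t2 le_top
  obtain ⟨Q, -, -, h3⟩ := e.index_W h w hS hq wr et hs s2 st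
  exact Int.natCast_dvd_natCast.1 (by rw [Nat.cast_pow]; exact ⟨_, h3.trans (mul_assoc _ _ _)⟩)

variable [IsSimpleGroup G]

theorem QE.stb_W (l : 𝐂[t] →* ℂˣ) (h1 : (coq _ e.P).subgroupOf 𝐂[t] ≤ l.ker)
    (h2 : ∀ a b : 𝐂[t], IsConj (a : G) b → l a = l b) : l = 1 := by
  obtain ⟨P, -, e1, -, e3, e4, -⟩ := exists_ps e h w.t2 le_top et (h.isConj w.t2)
  exact P.stb e1 e3 (fun l => P.stable_W h.perfect (P.S.Q_one (e4 ▸ e.four_dvd hS hq w wr))) l h1 h2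

theorem QE.no_field_W (hs : s ∈ 𝐂[t]) (s2 : Inv2 s) (st : s ≠ t) (hK : K ⊴ 𝐂[s]) (h1 : ⁅𝐎(𝐂[s]), zpowers t⁆ ≤ K)
    (h2 : K ⊓ 𝐂[t] ≤ 𝐎(𝐂[t])) : 𝐂[t] /ₛ 𝐎(𝐂[t]) ≤ e.P :=
  e.no_field h et w.t2 hs s2 st hK h1 h2 (e.stb_W h w hS hq wr et)

omit e et in
theorem ident_W (hb : Bal G) : Ident G := by
  obtain ⟨Z, F, _, _, e, et⟩ := h.qe' w.t2 le_top
  obtain ⟨s, ⟨-, hs⟩, s2, st⟩ := h.exists_four (mem_top t) w.t2
  exact ⟨t, w.t2, e.ident h hb et w.t2 (fun M => a1_W h w hS hq wr) (e.no_field_W h w hS hq wr et hs s2 st (NormalIn.bot _)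
    (commutator_eq_bot_iff_le_centralizer.2 ((hb s t s2 w.t2 (mem_cent1_comm.1 hs)).trans (cent_zpowers t).ge)).le
    (by simp))⟩

end CA.ABG
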