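/-
Alperin–Brauer–Gorenstein, character theory: values on 2-elements.
-/
import Cfsg.Agent.Lib.ABG.PW

set_option autoImplicit false
set_option linter.unusedSectionVars false

namespace CA.ABG.PS

open Cfsg Subgroup CA CA.Ch CA.Br CA.ABG.HO Finset
open CA.Blk (pi0)

variable {G E : Type*} [Group G] [Group E] [Finite G] [Finite E] {P : PS G E} {l : Du P.H} {χ : G → ℂ}

open Classical in
theorem valW (hl : P.Lin l) (pr : P.Pr l) (hχ : IsIrr χ) (hB : χ ∈ pr.B) {x : P.H1} {y : P.S.W}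
    (e : (P.π x : E) = y) (h2 : ¬ Odd (orderOf y)) (hz : (y : E) ∉ P.S.Z) :
    χ x = -∑ f : Du P.S.W with Two f.ch, f.ch y * ⟪χ, P.OW l (1 - f.ch)⟫ := by
  obtain ⟨g, hg⟩ := ex_res l χ
  have e2 : (univ.filter fun a : Du P.S.W => Two a.ch) = annF (Br.oddK P.S.W) := by ext l; simp [mem_annF, two_iff]
  have h3 := hg.val hl pr hχ (x := x) (e ▸ W_inv y.2 (by rwa [Subgroup.orderOf_coe]))
  rw [if_pos hB, show P.π x = (torW P.S.toHA).i y from Subtype.ext e, ← (torW P.S.toHA).eta_A g hz,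
    expand_two (Tor.two_eta (pairTW _).symm hg.p0), Finset.sum_apply] at h3
  have h4 : ∀ f : Du P.S.W, ⟪χ, P.OW l (1 - f.ch)⟫ = ⟪g, (torW P.S.toHA).D 1⟫ - ⟪(torW P.S.toHA).eta g, f.ch⟫ :=
    fun f => by
      rw [OW_def, hg.ip' hχ.isCF, map_sub, ip_sub_right, ← ip_conj (a := (torW P.S.toHA).D f.ch),
        (torW P.S.toHA).ip_D _ hg.cf, ip_conj]
  simp only [h4, mul_sub, Finset.sum_sub_distrib, ← Finset.sum_mul]
  rw [e2, sum_annF_not_mem (K := Br.oddK P.S.W) (x := y) h2, zero_mul, zero_sub, neg_neg, ← h3]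
  exact Finset.sum_congr rfl fun f _ => mul_comm _ _

end CA.ABG.PS
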