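/-
Alperin-Brauer-Gorenstein, wreathed case: the character of degree `Q² + Q` restricts irreducibly to a subgroup with the
same local data.
-/
import Cfsg.Agent.Lib.ABG.PDec
import Cfsg.Agent.Lib.ABG.POm

set_option autoImplicit false
set_option linter.unusedSectionVars false

open scoped ComplexConjugate

namespace CA.ABG

open Cfsg Subgroup CA CA.Ch CA.Br CA.ABG.HO
open CA.Blk (pi0)

variable {E : Type*} [Group E] [Finite E] {G : Type*} [Group G] [Finite G]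

open ComplexOrder in
theorem ip_zero_of_deg {ψ ξ : G → ℂ} (hψ : IsChar ψ) (hξ : IsSIrr ξ) {m n : ℤ} (hm : ψ 1 = m) (hn : ξ 1 = n)
    (h : m < |n|) : ⟪ψ, ξ⟫ = 0 := by
  have k : ∀ {ξ : G → ℂ}, IsIrr ξ → ∀ {n : ℤ}, ξ 1 = n → m < |n| → ⟪ψ, ξ⟫ = 0 := fun {ξ} hξ n hn h => by
    by_contra e
    have h1 := hψ.irr_one_le hξ e
    have h2 := hξ.one_pos
    rw [hn] at h1 h2
    rw [hm] at h1
    have h3 : n ≤ m := by exact_mod_cast h1
    have h4 : 0 < n := by exact_mod_cast h2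
    rw [abs_of_pos h4] at h
    omega
  rcases hξ with e | e
  · exact k e hn h
  · have := k e (n := -n) (by simp [hn]) (by rwa [abs_neg])
    rwa [ip_neg_right, neg_eq_zero] at this

namespace POm

variable {S : RA E} {O : POm S G}

open ComplexOrder in
theorem InB.mem {χ : G → ℂ} (h : O.InB χ) {n : ℤ} (hn : χ 1 = n) (h0 : 0 ≤ n) : χ ∈ O.B := by
  refine h.resolve_right fun e => ?_
  have := (O.irrB _ e).one_pos
  rw [Pi.neg_apply, hn] at this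
  have : (0 : ℤ) < -n := by exact_mod_cast this
  omega

namespace Cons

variable {α : Du S.H} {φ : Du S.W} {χS X Y1 Y2 Z : G → ℂ} (c : O.Cons α φ 1 χS X Y1 Y2 Z) (h4 : S.Q % 4 = 1)
include c h4

theorem S1_W : χS 1 = S.Q ^ 3 := by rw [c.E3 h4, Pi.one_apply, mul_one]
theorem X1_W : X 1 = S.Q ^ 3 - 1 := by rw [c.X1, c.S1_W h4, Pi.one_apply]
theorem Y11_W : Y1 1 = S.Q ^ 2 + S.Q + 1 := by
  have := c.E2
  rw [c.S1_W h4, Pi.one_apply] at this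
  obtain ⟨Q0, Q1, -⟩ := Qne (S := S)
  exact mul_left_cancel₀ (mul_ne_zero (pow_ne_zero 2 Q0) Q1) (by linear_combination this)
theorem Z1_W : Z 1 = S.Q ^ 2 + S.Q := by rw [c.Z1, c.Y11_W h4, Pi.one_apply, add_sub_cancel_right]

end Cons

theorem zz {X : Type*} [Group X] [Finite X] {O' : POm S X} (h : O.Prin) (h' : O'.Prin) (f : X →* G)
    (hT : ∀ χ ∈ O.B, ∀ α, Van α → Two α → ⟪χ ∘ f, O'.OT α⟫ = ⟪χ, O.OT α⟫)
    (hW : ∀ χ ∈ O.B, ∀ α, Van α → Two α → ⟪χ ∘ f, O'.OW α⟫ = ⟪χ, O.OW α⟫) (h4 : S.Q % 4 = 1) :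
    ∃ χ, IsIrr χ ∧ χ ≠ 1 ∧ χ ∘ f ∈ O'.B := by
  obtain ⟨α, φ, χS, X1, Y1, Y2, Z, c⟩ := O.exists_cons h.base
  obtain ⟨φ', χS', X1', Y1', Y2', Z', c'⟩ := O'.decomp h'.base c.hα c.hu
  have q3 : (3 : ℤ) ≤ S.q := by exact_mod_cast S.three_le
  have hQ : S.Q ≤ -3 ∨ 3 ≤ S.Q := by rcases S.Q_cases with ⟨-, h⟩ | ⟨-, h⟩ <;> omega
  have p0 : 0 < S.Q ^ 2 + S.Q := by rcases hQ with h | h <;> nlinarith
  have z1 : Z 1 = ((S.Q ^ 2 + S.Q : ℤ) : ℂ) := by rw [c.Z1_W h4]; push_cast; rfl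
  have z1' : Z' 1 = ((S.Q ^ 2 + S.Q : ℤ) : ℂ) := by rw [c'.Z1_W h4]; push_cast; rfl
  have ZB := c.BZ.mem z1 p0.le
  have ZB' := c'.BZ.mem z1' p0.le
  have hZ := O.irrB _ ZB
  have hψ := hZ.isChar.comp f
  have ψ1 : (Z ∘ f) 1 = ((S.Q ^ 2 + S.Q : ℤ) : ℂ) := by rw [Function.comp_apply, map_one, z1]
  have e1 : ⟪Z ∘ f, O'.θ φ'⟫ = 0 :=
    (hW _ ZB _ (tw_one.van c'.hφ) (tw_one.two c'.hφ)).trans (c.Zθ _ c'.hφ c'.φ1)
  have e2 : ⟪Z ∘ f, O'.θ (S.rW α)⟫ = 0 := (hW _ ZB _ (tw_one.van (c.hα.comp _)) (tw_one.two (c.hα.comp _))).trans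
    (c.Zθ _ (c.hα.comp _) (S.rW_ne (al1 c.hu)))
  have e3 : ⟪Z ∘ f, O'.Θ (S.rT α)⟫ = -2 := (hT _ ZB _ ((c.hα.comp _).van tw_one) ((c.hα.comp _).two tw_one)).trans
    (c.ZΘ _ (c.hα.comp _) (S.rT_ne (al1 c.hu)))
  have d1 : ⟪Z ∘ f, χS'⟫ = 0 := ip_zero_of_deg hψ c'.iS ψ1 (n := S.Q ^ 3) (by rw [c'.S1_W h4]; push_cast; rfl) (by
    rcases hQ with h | h
    · exact lt_abs.2 (Or.inr (by nlinarith [sq_nonneg S.Q]))
    · exact lt_abs.2 (Or.inl (by nlinarith [sq_nonneg S.Q])))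
  have d2 : ⟪Z ∘ f, X1'⟫ = 0 := ip_zero_of_deg hψ c'.iX ψ1 (n := S.Q ^ 3 - 1) (by rw [c'.X1_W h4]; push_cast; rfl) (by
    rcases hQ with h | h
    · exact lt_abs.2 (Or.inr (by nlinarith [sq_nonneg S.Q]))
    · exact lt_abs.2 (Or.inl (by nlinarith [sq_nonneg S.Q])))
  have d3 : ⟪Z ∘ f, Y1'⟫ = 0 := ip_zero_of_deg hψ c'.i1 ψ1 (n := S.Q ^ 2 + S.Q + 1)
    (by rw [c'.Y11_W h4]; push_cast; rfl) (lt_abs.2 (Or.inl (by omega)))
  rw [c'.e1, ip_sub_right, ip_add_right, d1, d2, add_zero, sub_zero] at e1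
  rw [O'.Θ_eq, ip_add_right, e2, add_zero, ip_smul_right, c'.e3, ip_sub_right, ip_sub_right, d3, e1, map_ofNat] at e3
  refine ⟨Z, hZ, fun e => ?_, ?_⟩
  · have := c.Zo
    rw [e, ip_one_one] at this
    exact one_ne_zero this
  · rwa [hψ.eq_irr_of_one (O'.irrB _ ZB') (fun e => by rw [e] at e3; norm_num at e3) (ψ1.trans z1'.symm)]

end POm

namespace PS

variable (P : PS G E) {X : Subgroup G}

/-- `X` covers `H/O` and has the same 2-fusion as `G` -/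
structure Cov (X : Subgroup G) : Prop where
  τX : P.τ ∈ X
  cov : ∀ h ∈ P.H, ∃ x ∈ X, x ∈ P.H ∧ h * x⁻¹ ∈ P.O
  cover : ∀ h ∈ X ⊓ P.H, ∃ c ∈ X ⊓ P.H, h * c⁻¹ ∈ P.H1 ∧ Odd ((𝐂[c]).relIndex (X ⊓ P.H))
  one : ∀ i ∈ X, i * i = 1 → i ≠ 1 → ∃ g ∈ X, g * P.τ * g⁻¹ = i
  fus : ∀ (x y : P.H1) (a : P.S.T), (x : G) ∈ X → (y : G) ∈ X → PiElt {2} x → PiElt {2} y → (P.π x : E) = a →
    (P.π y : E) = P.S.r a → ∃ g ∈ X, g * x * g⁻¹ = y

theorem cent_sub' {x : X} : (𝐂[x] : Subgroup X) = (𝐂[(x : G)]).subgroupOf X := by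
  ext y; rw [mem_subgroupOf, mem_centralizer_singleton_iff, mem_centralizer_singleton_iff, Subtype.ext_iff]; rfl

/-- `K ⊓ X → K` -/
def inc (K X : Subgroup G) : K.subgroupOf X →* K := (X.subtype.comp (K.subgroupOf X).subtype).codRestrict K fun x => x.2

variable {P}

/-- restriction to a subgroup covering `H/O` -/
noncomputable def Cov.ps (h : P.Cov X) : PS X E where
  S := P.S
  τ := ⟨P.τ, h.τX⟩
  H1 := P.H1.subgroupOf X
  O := P.O.subgroupOf X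
  π := P.π.comp (inc P.H1 X)
  surj a := by
    obtain ⟨y, rfl⟩ := P.surj a
    obtain ⟨x, h1, -, h3⟩ := h.cov y (P.H1_le y.2)
    have h4 : x ∈ P.H1 := by simpa using mul_mem (inv_mem (P.O_le h3)) y.2
    refine ⟨⟨⟨x, h1⟩, h4⟩, ?_⟩
    have := (P.ker (y * (⟨x, h4⟩ : P.H1)⁻¹)).2 h3
    rw [map_mul, map_inv, mul_inv_eq_one] at this
    exact this.symm
  ker x := P.ker _
  O_le := comap_mono P.O_le
  O_odd := P.O_odd.of_dvd_nat (by
    rw [← inf_subgroupOf_right, Nat.card_congr (subgroupOfEquivOfLe inf_le_right).toEquiv]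
    exact card_dvd_of_le inf_le_left)
  O_norm g hg x hx := P.O_norm g (by rwa [cent_sub'] at hg) x hx
  H1_le := by rw [cent_sub']; exact comap_mono P.H1_le
  comm a ha b hb := P.comm a (by rwa [cent_sub'] at ha) b (by rwa [cent_sub'] at hb)
  idx := by
    rw [cent_sub', ← inf_subgroupOf_right 𝐂[_], relIndex_subgroupOf inf_le_right]
    exact P.idx.of_dvd_nat (relIndex_dvd_of_norm P.H1_le inf_le_left fun g hg =>
      mem_normalizer_of_cj_le (by rintro _ ⟨y, hy, rfl⟩; exact P.H1_norm hg.1 hy))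
  cover g hg := by
    rw [cent_sub'] at hg
    obtain ⟨c, hc, h1, h2⟩ := h.cover g ⟨g.2, hg⟩
    exact ⟨⟨c, hc.1⟩, by rw [cent_sub']; exact hc.2, h1, by
      rwa [cent_sub', cent_sub', ← inf_subgroupOf_left 𝐂[P.τ], relIndex_subgroupOf inf_le_left]⟩
  τH := P.τH
  πτ := P.πτ
  ττ := Subtype.ext P.ττ
  inv_conj i a b := by
    obtain ⟨g, hg, e⟩ := h.one i i.2 (congrArg Subtype.val a) fun e => b (Subtype.ext e)
    exact isConj_iff.2 ⟨⟨g, hg⟩, Subtype.ext e⟩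
  fus x y a x2 y2 e1 e2 := by
    obtain ⟨g, hg, e⟩ := h.fus (inc _ X x) (inc _ X y) a x.1.2 y.1.2 (x2.map _) (y2.map _) e1 e2
    exact isConj_iff.2 ⟨⟨g, hg⟩, Subtype.ext e⟩

namespace Cov

variable (h : P.Cov X)

/-- `C_X(τ) → H` -/
noncomputable def j : h.ps.H →* P.H := (X.subtype.comp h.ps.H.subtype).codRestrict P.H fun x =>
  P.mem_H.2 (congrArg Subtype.val (h.ps.mem_H.1 x.2))

theorem mem_R {x : h.ps.H} (hx : x ∈ h.ps.R) : h.j x ∈ P.R := by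
  obtain ⟨k, hk⟩ := mem_zpowers_iff.1 hx
  exact mem_zpowers_iff.2 ⟨k, congrArg Subtype.val hk⟩

theorem pi0_j {φ : P.H → ℂ} (hφ : pi0 2 φ = φ) : pi0 2 (φ ∘ h.j) = φ ∘ h.j := by
  have : (P.O.subgroupOf P.H).Normal := ⟨fun a ha b => P.O_norm b b.2 a ha⟩
  have k := QuotientGroup.ker_mk' (P.O.subgroupOf P.H)
  have o : Odd (Nat.card (P.O.subgroupOf P.H)) := by
    rw [Nat.card_congr (subgroupOfEquivOfLe (P.O_le.trans P.H1_le)).toEquiv]; exact P.O_odd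
  obtain ⟨g, h1, rfl⟩ := ex_defl (QuotientGroup.mk'_surjective (P.O.subgroupOf P.H)) (by rw [k]; exact o) hφ
  refine pi0_comp_surj (π := (QuotientGroup.mk' _).comp h.j) (fun a => ?_) ?_ h1
  · obtain ⟨y, rfl⟩ := QuotientGroup.mk'_surjective _ a
    obtain ⟨x, h1, h2, h3⟩ := h.cov y y.2
    refine ⟨⟨⟨x, h1⟩, h.ps.mem_H.2 (Subtype.ext (P.mem_H.1 h2))⟩, ?_⟩
    rw [MonoidHom.comp_apply, eq_comm, ← mul_inv_eq_one, ← map_inv, ← map_mul, ← MonoidHom.mem_ker, k]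
    exact h3
  · rw [← MonoidHom.comap_ker, k]
    exact o.of_dvd_nat (card_comap_dvd_of_injective _ _ fun a b e =>
      Subtype.ext (Subtype.ext (congrArg Subtype.val e :)))

theorem ip_J {χ : G → ℂ} (hχ : χ ∈ Blk.B0 G 2) {f : P.S.H → ℂ} (hf : Sup f) :
    ⟪χ ∘ X.subtype, h.ps.J 1 f⟫ = ⟪χ, P.J 1 f⟫ := by
  have hi := Blk.irr_of_B0 hχ
  obtain ⟨g, hg⟩ := ex_res (P := P) 1 χ
  obtain ⟨g', hg'⟩ := ex_res (P := h.ps) 1 (χ ∘ X.subtype)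
  refine (hg'.ip' (hi.isCF.comp _) f).trans (Eq.trans ?_ (hg.ip' hi.isCF f).symm)
  refine (ip_conj _ _).symm.trans (Eq.trans ?_ (ip_conj f g))
  refine congrArg _ (ip_congr_support fun y hy => ?_)
  obtain ⟨x, rfl⟩ := h.ps.surj y
  have hx : h.ps.ι x ∈ h.ps.R := h.ps.zp_π.1 (by by_contra e; exact hy (hf _ e))
  have e1 := hg'.eq
  have e2 := hg.eq
  rw [inv_one, Du.ch_one, one_mul] at e1 e2
  have e3 : pi0 2 ((χ ∘ X.subtype) ∘ h.ps.H.subtype - P.hat g ∘ h.j) (h.ps.ι x) = 0 := Blk.pi0_eq_zero fun y hy => by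
    have := P.pr1.sm χ hi _ (h.mem_R (h.ps.R_sec hy.symm hx))
    rw [inv_one, Du.ch_one, one_mul, e2, if_pos (show χ ∈ P.pr1.B from hχ), Pi.one_apply, one_mul] at this
    exact sub_eq_zero.2 this.symm
  rw [Blk.pi0_sub, h.pi0_j (P.pi0_hat g), e1, Pi.sub_apply, h.ps.hat_res hg'.p0, sub_eq_zero] at e3
  exact e3.trans (P.hat_res hg.p0 (inc _ X x))

include h in
/-- (ZZ) at the level of the setting -/
theorem zz [IsSimpleGroup G] (hpar : P.S.Par) (h4 : P.S.Q % 4 = 1) {N : Subgroup G} (hN : N ⊴ X)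
    (ho : Odd (Nat.card N)) : N = ⊥ := by
  classical
  obtain ⟨χ, h1, h2, h3⟩ := POm.zz (prin hpar) (prin (P := h.ps) hpar) X.subtype
    (fun χ hχ α _ _ => h.ip_J (Finset.mem_filter.1 hχ).1 (Tor.sup_D (sup_cut α)))
    (fun χ hχ α a _ => h.ip_J (Finset.mem_filter.1 hχ).1 (Tor.sup_D (supW a))) h4
  have : (N.subgroupOf X).Normal := ⟨fun a ha b =>
    show (b : G) * a * (b : G)⁻¹ ∈ N from conj_mem_of_mem_normalizer (hN.norm b.2) ha⟩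
  have := Blk.le_cfker_of_B0 (Finset.mem_filter.1 h3).1 (N.subgroupOf X) fun e => (Nat.not_even_iff_odd.2 ho)
    (even_iff_two_dvd.2 (by rwa [Nat.card_congr (subgroupOfEquivOfLe hN.le).toEquiv] at e))
  rw [h1.isChar.cfker_comp, (IsSimpleGroup.eq_bot_or_eq_top_of_normal (cfker χ) h1.isCF.cfker_normal).resolve_right
    (h1.cfker_ne_top h2)] at this
  exact eq_bot_iff.2 fun x hx => this (show (⟨x, hN.le hx⟩ : X) ∈ N.subgroupOf X from hx)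

end Cov

end PS

end CA.ABG
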