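/-
Alperin-Brauer-Gorenstein, character theory: the output in the semidihedral case.
-/
import Cfsg.Agent.Lib.ABG.PV
import Cfsg.Agent.Lib.ABG.ZZ1
import Cfsg.Agent.Lib.ABG.ArSD

set_option autoImplicit false
set_option linter.unusedSectionVars false

open scoped ComplexConjugate

namespace CA.ABG

open Cfsg Subgroup CA CA.Ch CA.Br CA.ABG.HO Finset

variable {E : Type*} [Group E] [Finite E] {G : Type*} [Group G] [Finite G]

theorem dvd_of_vals {ψ : G → ℂ} (h : IsVC ψ) (h0 : ∀ b, b ≠ 1 → ψ b = 0) : ∃ n : ℤ, ψ 1 = Nat.card G * n := by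
  have := Fintype.ofFinite G
  obtain ⟨n, hn⟩ := h.ip_int isVC_one
  rw [ip_def, Finset.sum_eq_single 1 (fun b _ hb => by rw [h0 b hb, zero_mul]) (by simp)] at hn
  exact ⟨n, by rw [← hn, mul_inv_cancel_left₀ (Ch.card_ne_zero' _)]; simp⟩

theorem OddK.sect' {π : G →* E} (h : OddK π) {B : Type*} [Group B] (hB : IsPGroup 2 B) (i : B →* E) :
    ∃ σ : B →* G, ∀ b, π (σ b) = i b := by
  obtain ⟨σ, hσ⟩ := h.sect (hB.of_surjective _ i.rangeRestrict_surjective)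
  exact ⟨σ.comp i.rangeRestrict, fun b => hσ _⟩

open Classical in
theorem sum_tw' [IsMulCommutative G] {x : G} (h : ¬ Odd (orderOf x)) (c : ℂ) (F : Du G → ℂ) (F1 : F 1 = 0)
    (hF : ∀ l, Tw l → l ≠ 1 → F l = c) : ∑ l : Du G with Two l.ch, l.ch x * F l = -c := by
  have e2 : (univ.filter fun a : Du G => Two a.ch) = annF (Br.oddK G) := by ext l; simp [mem_annF, two_iff]
  rw [Finset.sum_congr rfl (g := fun l => l.ch x * c - if l = 1 then c else 0) fun l hl => ?_, Finset.sum_sub_distrib,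
    ← Finset.sum_mul, Finset.sum_ite_eq', if_pos (by simpa only [Finset.mem_filter, Finset.mem_univ, true_and] using tw_iff.2 tw_one), e2,
    sum_annF_not_mem (K := Br.oddK G) h, zero_mul, zero_sub]
  split_ifs with e
  · simp [e, F1]
  · rw [hF l (tw_iff.1 (Finset.mem_filter.1 hl).2) e, sub_zero]

namespace RA

variable (S : RA E) (h4 : S.Q % 4 = 3)
include h4

theorem d_two : ∃ c : ℕ, S.d = 2 * (2 * c + 1) := by
  obtain ⟨k, hk, e⟩ := S.d_mul
  obtain ⟨d, hd⟩ := S.d_even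
  refine ⟨S.d / 4, ?_⟩
  rcases Int.emod_two_eq_zero_or_one d with h | h
  · obtain ⟨j, rfl⟩ : ∃ j, d = 2 * j := ⟨d / 2, by omega⟩
    rw [hd, mul_assoc, mul_assoc] at e
    omega
  · omega

theorem two_sq {x : E} (hx : x ∈ S.T) (x2 : PiElt {2} x) : x * x = 1 := by
  obtain ⟨c, hc⟩ := S.d_two h4
  obtain ⟨b, hb⟩ := S.card_Tm2 h4
  have h1 : Nat.card S.T = Nat.card S.Tm * S.d := by
    have := S.card_T'
    rw [← S.card_Tm'] at this
    exact_mod_cast this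
  have h2 := (S.V.subgroupOf S.T).index_mul_card
  rw [Nat.card_congr (subgroupOfEquivOfLe S.V_le_T).toEquiv, S.card_V, h1, hb, hc] at h2
  have h3 : Odd (S.V.subgroupOf S.T).index := ⟨2 * b * c + b + c, by nlinarith⟩
  have : (S.V.subgroupOf S.T).Normal := ⟨fun a ha g => by rwa [mul_comm' g, mul_inv_cancel_right]⟩
  obtain ⟨k, hk⟩ := (piElt_singleton_iff' Nat.prime_two).1 x2
  have h5 : x ^ (S.V.subgroupOf S.T).index ∈ S.V := (S.V.subgroupOf S.T).pow_index_mem ⟨x, hx⟩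
  exact S.sq_V (zpowers_le.2 h5 (mem_zpowers_pow_iff.2 ((Nat.Coprime.pow_right k
    (Nat.coprime_two_right.2 h3)).coprime_dvd_right (orderOf_dvd_of_pow_eq_one hk))))

theorem tw_eq_one {l : Du S.T} (h : Tw l) (ht : l.ch S.tT = 1) (hu : l.ch S.uT = 1) : l = 1 := Du.ext' fun x => by
  rw [← constt_mul_compl {2} x, Du.ch_apply_mul, h _ (Blk.piElt_two_compl.1 (constt_piElt _ x)), mul_one]
  have := constt_piElt {2} x
  generalize constt {2} x = y at this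
  rcases S.inv_T y.2 (S.two_sq h4 y.2 (piElt_coe.2 this)) with e | e | e | e
  · rw [show y = 1 from Subtype.ext e]; exact l.ch_apply_one
  · rw [show y = S.tT from Subtype.ext e]; exact ht
  · rw [show y = S.uT from Subtype.ext e]; exact hu
  · rw [show y = S.tT * S.uT from Subtype.ext e, Du.ch_apply_mul, ht, hu]; exact mul_one _

theorem fix_eq {α : Du S.H} (hα : Tw α) (hu : (S.rT α).ch S.uT = -1) {f : Du S.W} (hf : Tw f) (f1 : f ≠ 1)
    (e : S.Sw f = f) : f = S.rW α := by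
  obtain ⟨β, hβ, rfl⟩ := S.exists_rW e hf
  have k : ∀ {β : Du S.H}, Tw β → (S.rT β).ch S.uT = 1 → β = 1 := fun h e => by_contra fun e' =>
    S.rT_ne e' (S.tw_eq_one h4 (h.comp _) (S.fix_t (S.fix_rT _)) e)
  have h1 := (ch_inv2 (S.rT β) S.uT2).resolve_left fun e => f1 (by rw [k hβ e, map_one])
  have h2 := k (hβ.mul hα) (by rw [map_mul, Du.ch_mul, Pi.mul_apply, h1, hu]; norm_num)
  have h3 := k (hα.mul hα) (by rw [map_mul, Du.ch_mul, Pi.mul_apply, hu]; norm_num)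
  rw [mul_right_cancel (h2.trans h3.symm)]

theorem two_cases {y : S.H} (y2 : PiElt {2} y) : y * y = 1 ∨
    ∃ x : S.W, (x : E) ∉ S.Z ∧ ¬ Odd (orderOf x) ∧ IsConj y (inclusion S.W_le_H x) := by
  obtain ⟨k, hk, h⟩ := S.classes y.2
  have h2 : PiElt {2} (k * y * k⁻¹ : E) := piElt_conj.2 (piElt_coe.2 y2)
  have a : k * y * k⁻¹ ∈ S.T → y * y = 1 := fun h => Subtype.ext (by
    have := S.two_sq h4 h h2
    rwa [conj_mul, mul_inv_eq_one, mul_eq_left] at this)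
  rcases h with h | h | ⟨z, hz, v, hv, v1, e⟩
  · exact .inl (a h)
  · by_cases e : k * y * k⁻¹ ∈ S.Z
    · exact .inl (a (S.Z_le_T e))
    · refine .inr ⟨⟨_, h⟩, e, fun o => e ?_, isConj_iff.2 ⟨⟨k, hk⟩, rfl⟩⟩
      rw [← Subgroup.orderOf_coe] at o
      exact h2.eq_one (Blk.piElt_two_compl.2 o) ▸ one_mem _
  · rw [e] at h2
    have := (S.Z2 z hz).inv.mul h2 ((Commute.refl z).inv_left.mul_right
      (Commute.inv_left (S.Z_comm hz (S.U_le_H hv))))
    rw [inv_mul_cancel_left] at this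
    exact absurd (this.eq_one (Blk.piElt_two_compl.2 (S.U_odd hv))) v1

theorem dvd_W : 2 ^ 3 ∣ Nat.card S.W := by
  obtain ⟨d, hd⟩ := S.d_even
  obtain ⟨j, hj⟩ : ∃ j, S.Q = 4 * j + 3 := ⟨S.Q / 4, by omega⟩
  exact Int.natCast_dvd_natCast.1 ⟨S.e * (j + 1) * d, by rw [S.card_W', hd, hj]; push_cast; ring⟩

theorem dvd_H : 2 ^ 4 ∣ Nat.card S.H := by
  obtain ⟨d, hd⟩ := S.d_even
  obtain ⟨j, hj⟩ : ∃ j, S.Q = 4 * j + 3 := ⟨S.Q / 4, by omega⟩
  exact Int.natCast_dvd_natCast.1 ⟨S.e * S.Q * (j + 1) * (2 * j + 1) * d, by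
    rw [S.card_H', hd, hj]; push_cast; ring⟩

omit h4 in
theorem eps : ((S.Q : ℝ) ^ 2)⁻¹ ≤ 1 / 9 := by
  have q3 : (3 : ℤ) ≤ S.q := by exact_mod_cast S.three_le
  have : (9 : ℤ) ≤ S.Q ^ 2 := by rw [S.Q_sq]; nlinarith
  rw [one_div]
  exact inv_anti₀ (by norm_num) (by exact_mod_cast this)

end RA

namespace POm

variable {S : RA E} {O : POm S G}

variable (O) in
/-- the invariant of the degree equations -/
noncomputable def L : ℝ := (O.k : ℝ) ^ 2 * (S.Q + 1) ^ 2 * (S.Q ^ 2 - 1) / O.N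

theorem L_pos : 0 < O.L := by
  have q3 : (3 : ℤ) ≤ S.q := by exact_mod_cast S.three_le
  have h1 : (0 : ℤ) < S.Q ^ 2 - 1 := by rw [S.Q_sq]; nlinarith
  have h2 : S.Q + 1 ≠ 0 := by exact_mod_cast (Cons.Qne (S := S)).2.2
  have h3 : (0 : ℝ) < S.Q ^ 2 - 1 := by exact_mod_cast h1
  have h4 : (S.Q : ℝ) + 1 ≠ 0 := by exact_mod_cast h2
  have := O.k_pos
  have : 0 < O.N := Nat.pos_of_ne_zero index_ne_zero_of_finite
  unfold L
  positivity

namespace Cons

variable {α : Du S.H} {φ : Du S.W} {o χS X Y1 Y2 Z : G → ℂ} (c : O.Cons α φ o χS X Y1 Y2 Z)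
include c

theorem ints : ∃ a s y : ℤ, o 1 = a ∧ χS 1 = s ∧ Y1 1 = y ∧ a ≠ 0 ∧ s - a ≠ 0 ∧
    O.N * (s - S.Q * a) ^ 2 = O.k ^ 2 * S.Q * (S.Q + 1) ^ 2 * (S.Q - 1) * a * s * (s - a) ∧
    s * y = S.Q ^ 2 * a * (y + s - a) := by
  obtain ⟨a, ha⟩ := c.base.irr.isVC.int
  obtain ⟨s, hs⟩ := c.iS.isVC.int
  obtain ⟨y, hy⟩ := c.i1.isVC.int
  have a0 := c.base.irr.ne_zero_one
  have s1 := c.X1 ▸ c.iX.ne_zero_one
  have E1 := c.E1
  have E2 := c.E2
  rw [ha] at a0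
  rw [ha, hs] at s1 E1
  rw [ha, hs, hy] at E2
  exact ⟨a, s, y, ha, hs, hy, by exact_mod_cast a0, by exact_mod_cast s1, by exact_mod_cast E1, by exact_mod_cast E2⟩

theorem key {a b : ℤ} (ha : o 1 = a) (hb : Y2 1 = b) :
    (O.L * a * b - b + a) ^ 2 = ((S.Q : ℝ) ^ 2)⁻¹ * (a + b) ^ 2 - 4 * a * b := by
  obtain ⟨a', s, y, e1, e2, e3, a0, s1, E1, E2⟩ := c.ints
  obtain rfl : a = a' := by exact_mod_cast ha.symm.trans e1
  obtain rfl : b = y + s - a := by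
    rw [c.Y21, e1, e2, e3] at hb
    exact_mod_cast hb.symm
  have Q0 : S.Q ≠ 0 := by exact_mod_cast (Qne (S := S)).1
  push_cast
  exact Ar.key (by exact_mod_cast index_ne_zero_of_finite) (by exact_mod_cast Q0) (by exact_mod_cast a0)
    (by exact_mod_cast s1) (by exact_mod_cast E1) (by exact_mod_cast E2)

theorem Y2θ (h4 : S.Q % 4 = 3) (f : Du S.W) (hf : Tw f) : ⟪Y2, O.θ f⟫ = if f = S.rW α then 1 else 0 := by
  split_ifs with e
  · rw [e, c.Y2α]
  by_cases f1 : f = 1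
  · simp [f1, θ]
  have h1 : S.Sw f ≠ f := fun e' => e (S.fix_eq h4 c.hα c.hu hf f1 e')
  have h2 : Y2 = O.θ (S.rW α) + O.η α + Z + χS := by rw [c.e2, c.e3]; ring
  have hα := c.hα.comp (inclusion S.W_le_H)
  rw [h2, η]
  simp only [ip_add_left, ip_smul_left, ip_sub_left, c.Zθ f hf f1, c.Sθ f hf f1, O.Θθ (c.hα.comp _) hf,
    O.θθ hα hf (S.rW_ne (al1 c.hu)) f1, if_neg (Ne.symm e),
    if_neg fun e' : S.rW α = S.Sw f => e (by rw [← S.SwSw f, ← e', S.fix_rW])]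
  norm_num

theorem Y2_ne_prin (h : O.Prin) : Y2 1 ≠ -1 := fun e => by
  have hα := c.hα.comp (inclusion S.W_le_H)
  have h1 : (-Y2) 1 = ((1 : ℤ) : ℂ) := by simp [e]
  have h2 := h.lin _ (InB.mem (c.B2.symm.imp_right (by simp)) h1 zero_le_one) (by simpa using h1) _
    (tw_one.van hα) (tw_one.two hα)
  have h3 := c.Y2α
  rw [c.i2.isVC.ip_comm (O.vθ _), θ, ← Du.ch_one] at h3
  rw [ip_neg_right, h3, ip_sub_left, Du.ip_ch_one, Du.ip_ch_one, if_pos rfl, if_neg (S.rW_ne (al1 c.hu))] at h2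
  norm_num at h2

theorem Y2_ne_nprin (h : O.NPrin) (hp : _root_.commutator G = ⊤) : Y2 1 ≠ -1 := fun e => by
  have hα := c.hα.comp (inclusion S.W_le_H)
  have h1 := eq_one_of_perf hp c.i2.neg (by simp [e])
  have h2 := h _ (tw_one.van hα) (tw_one.two hα)
  have h3 := c.Y2α
  rw [c.i2.isVC.ip_comm (O.vθ _), θ, ← Du.ch_one] at h3
  rw [← h1, ip_neg_right, h3] at h2
  norm_num at h2

end Cons

end POm

namespace PS

variable {P : PS G E} {l : Du P.H} {hl : P.Lin l} {pr : P.Pr l} {α : Du P.S.H} {φ : Du P.S.W}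
  {χ o χS X Y1 Y2 Z : G → ℂ}

open Classical in
theorem valW' (hB : (pom P.par hl pr).InB χ) {x : P.H1} {y : P.S.W} (e : (P.π x : E) = y) (h2 : ¬ Odd (orderOf y))
    (hz : (y : E) ∉ P.S.Z) : χ x = -∑ f : Du P.S.W with Two f.ch, f.ch y * ⟪χ, (pom P.par hl pr).θ f⟫ := by
  rcases hB with h | h
  · exact valW hl pr (Finset.mem_filter.1 h).2 (Finset.mem_filter.1 h).1 e h2 hz
  · have := valW hl pr (Finset.mem_filter.1 h).2 (Finset.mem_filter.1 h).1 e h2 hz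
    simp only [Pi.neg_apply, ip_neg_left, mul_neg, Finset.sum_neg_distrib, neg_inj] at this
    exact this

theorem val_inv (h : IsCF χ) {x : P.H1} (x2 : PiElt {2} x) (x1 : P.π x ≠ 1) (e : P.π x * P.π x = 1) : χ x = χ P.τ :=
  (h.of_isConj (P.inv_conj x (congrArg Subtype.val (P.oddK.eq_one (x2.mul x2 rfl) (by rw [map_mul, e])))
    fun e => x1 (by rw [show x = 1 from Subtype.ext e, map_one]))).symm

variable (h4 : P.S.Q % 4 = 3)
include h4

theorem base_val (ho : (pom P.par hl pr).IsBase o) {x : P.H1} (x2 : PiElt {2} x) (x1 : P.π x ≠ 1) : o x = 1 := by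
  rcases P.S.two_cases h4 (x2.map P.π) with e | ⟨y, h1, h2, h3⟩
  · exact (val_inv ho.irr.isCF x2 x1 e).trans ho.t
  obtain ⟨k, hk⟩ := isConj_iff.1 h3
  obtain ⟨k, rfl⟩ := P.surj k
  have := valW' ho.inB (x := k * x * k⁻¹) (y := y) (by rw [map_mul, map_mul, map_inv, hk]; rfl) h2 h1
  rw [sum_tw' h2 1 _ (by simp [POm.θ]) ho.oθ, neg_neg] at this
  exact (ho.irr.isCF x k).symm.trans this

theorem base_mod (ho : (pom P.par hl pr).IsBase o) : ∃ n : ℤ, o 1 = (16 * n + 1 : ℤ) := by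
  have := Fact.mk Nat.prime_two
  obtain ⟨B, hB⟩ := Sylow.exists_subgroup_card_pow_prime 2 (P.S.dvd_H h4)
  obtain ⟨σ, hσ⟩ := P.oddK.sect (IsPGroup.of_card hB)
  obtain ⟨n, hn⟩ := dvd_of_vals ((ho.irr.isVC.comp (P.H1.subtype.comp σ)).sub isVC_one) fun b b1 => sub_eq_zero.2
    (base_val h4 ho (PiElt.map ((piElt_singleton_iff' Nat.prime_two).2 ⟨4, by rw [← hB, pow_card_eq_one']⟩) σ)
      (by rw [hσ]; exact fun e => b1 (Subtype.ext e)))
  rw [hB, Pi.sub_apply, Function.comp_apply, map_one, Pi.one_apply] at hn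
  exact ⟨n, by push_cast at hn ⊢; linear_combination hn⟩

theorem Y2_mod (c : (pom P.par hl pr).Cons α φ o χS X Y1 Y2 Z) : ∃ n : ℤ, Y2 1 = (8 * n - 1 : ℤ) := by
  classical
  have := Fact.mk Nat.prime_two
  obtain ⟨B, hB⟩ := Sylow.exists_subgroup_card_pow_prime 2 (P.S.dvd_W h4)
  obtain ⟨σ, hσ⟩ := P.oddK.sect' (IsPGroup.of_card hB) ((inclusion P.S.W_le_H).comp B.subtype)
  obtain ⟨n, hn⟩ := dvd_of_vals ((c.i2.isVC.comp (P.H1.subtype.comp σ)).add
    ((P.S.rW α).isVC.comp B.subtype)) fun b b1 => by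
      have b2 : PiElt {2} b := (piElt_singleton_iff' Nat.prime_two).2 ⟨3, by rw [← hB, pow_card_eq_one']⟩
      have b1' : ((b : P.S.W) : E) ≠ 1 := fun e => b1 (Subtype.ext (Subtype.ext e))
      change Y2 (σ b) + (P.S.rW α).ch b = 0
      by_cases e : ((b : P.S.W) : E) ∈ P.S.Z
      · have h1 := P.S.two_sq h4 (P.S.Z_le_T e) (P.S.Z2 _ e)
        rw [val_inv c.i2.isCF (b2.map σ) (by rw [hσ]; exact fun e => b1' (congrArg Subtype.val e))
          (by rw [hσ]; exact Subtype.ext h1), show (b : P.S.W) = P.S.tW from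
            Subtype.ext ((P.S.inv_W b.1.2 h1).resolve_left b1'), P.S.fix_tW (P.S.fix_rW α)]
        exact (congrArg (· + 1) c.Y2t).trans (neg_add_cancel _)
      · rw [valW' c.B2 (y := b) (congrArg Subtype.val (hσ b)) (fun o => b1 (b2.eq_one (Blk.piElt_two_compl.2
          (by rwa [Subgroup.orderOf_coe] at o)))) e, Finset.sum_congr rfl fun f hf => by
            rw [c.Y2θ h4 f (tw_iff.1 (Finset.mem_filter.1 hf).2), mul_ite, mul_one, mul_zero], Finset.sum_ite_eq',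
          if_pos (by simpa only [Finset.mem_filter, Finset.mem_univ, true_and] using tw_iff.2 (c.hα.comp _)),
          neg_add_cancel]
  rw [hB, Pi.add_apply, Function.comp_apply, Function.comp_apply, map_one, map_one, Du.ch_apply_one] at hn
  exact ⟨n, by push_cast at hn ⊢; linear_combination hn⟩

theorem Y2_cases (c : (pom P.par hl pr).Cons α φ o χS X Y1 Y2 Z) (h : Y2 1 ≠ -1) :
    ∃ b : ℤ, Y2 1 = b ∧ ((7 : ℝ) ≤ b ∨ (b : ℝ) ≤ -9) := by
  obtain ⟨n, hn⟩ := Y2_mod h4 c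
  have : n ≠ 0 := fun e => h (by simp [hn, e])
  have : (7 : ℤ) ≤ 8 * n - 1 ∨ 8 * n - 1 ≤ -9 := by omega
  exact ⟨_, hn, by exact_mod_cast this⟩

variable (P)

theorem L_bound : 7 / 20 ≤ P.pom1.L ∧ P.pom1.L < 2 := by
  obtain ⟨α, φ, χS, X, Y1, Y2, Z, c⟩ := P.pom1.exists_cons P.prin1.base
  obtain ⟨b, h1, h2⟩ := Y2_cases h4 c (c.Y2_ne_prin P.prin1)
  have := c.key (a := 1) (by simp) h1
  rw [Int.cast_one] at this
  exact ⟨Ar.low POm.L_pos P.S.eps h2 this, Ar.upp P.S.eps h2 this⟩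

omit h4 in
/-- no fusion-invariant linear character of `H/H1`, semidihedral case -/
theorem stable_SD (hp : _root_.commutator G = ⊤) (h4 : P.S.Q % 4 = 3) {l : Du P.H} (hl : P.Lin l) (hs : P.Stable l) :
    l = 1 := by_contra fun l1 => by
  obtain ⟨pr⟩ := P.exists_pr hs
  have np := nprin P.par hl pr l1
  obtain ⟨o, ho⟩ := (pom P.par hl pr).exists_base
  obtain ⟨α, φ, χS, X, Y1, Y2, Z, c⟩ := (pom P.par hl pr).exists_cons ho
  obtain ⟨b, h1, h2⟩ := Y2_cases h4 c (c.Y2_ne_nprin np hp)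
  obtain ⟨n, hn⟩ := base_mod h4 ho
  have : n ≠ 0 := fun e => ho.ne_one np (POm.eq_one_of_perf hp ho.irr (by simp [hn, e]))
  have : (17 : ℤ) ≤ 16 * n + 1 ∨ 16 * n + 1 ≤ -15 := by omega
  exact (Ar.small P.S.eps (by exact_mod_cast this) h2 (c.key hn h1)).not_ge (P.L_bound h4).1

/-- two groups with the same local data -/
theorem idx_SD {G' : Type*} [Group G'] [Finite G'] (P' : PS G' E) (eS : P'.S = P.S) (ek : P'.k = P.k) :
    P.H.index < 6 * P'.H.index := by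
  have h1 := (P.L_bound h4).1
  have h2 := (P'.L_bound (eS ▸ h4)).2
  have n1 : (0 : ℝ) < P.H.index := by exact_mod_cast Nat.pos_of_ne_zero index_ne_zero_of_finite
  have n2 : (0 : ℝ) < P'.H.index := by exact_mod_cast Nat.pos_of_ne_zero index_ne_zero_of_finite
  change _ ≤ (P.k : ℝ) ^ 2 * _ * _ / P.H.index at h1
  change (P'.k : ℝ) ^ 2 * _ * _ / P'.H.index < _ at h2
  rw [ek, eS, div_lt_iff₀ n2] at h2
  rw [le_div_iff₀ n1] at h1
  have : (P.H.index : ℝ) < 6 * P'.H.index := by linarith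
  exact_mod_cast this

omit h4 in
/-- the case `q = 3` -/
theorem kill3 (h3 : P.S.Q = 3) (hN : Odd P.H.index) (hk : Odd P.k) :
    P.H.index = 165 * P.k ^ 2 ∨ P.H.index = 117 * P.k ^ 2 := by
  obtain ⟨α, φ, χS, X, Y1, Y2, Z, c⟩ := P.pom1.exists_cons P.prin1.base
  obtain ⟨a, s, y, e1, -, -, -, -, E1, E2⟩ := c.ints
  obtain rfl : 1 = a := by rw [Pi.one_apply] at e1; exact_mod_cast e1
  rw [h3] at E1 E2
  have := Ar.three (N := P.H.index) (k := P.k) (s := s) (y := y) (by exact_mod_cast hN) (by exact_mod_cast hk)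
    (by rw [mul_one] at E1; exact E1.trans (by change (P.k : ℤ) ^ 2 * _ * _ * _ * _ * _ * _ = _; ring)) (by linarith)
  exact_mod_cast this

end PS

end CA.ABG
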