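/-
Alperin–Brauer–Gorenstein: the results of the character theory in the semidihedral case, and in both cases.
-/
import Cfsg.Agent.Lib.ABG.P2W
import Cfsg.Agent.Lib.ABG.PSD

set_option autoImplicit false
set_option linter.unusedSectionVars false

namespace CA.ABG

open Cfsg Subgroup CA CA.FStar CA.GW CA.Ch

variable {G : Type*} [Group G] [Finite G] {S M K : Subgroup G} {t s : G}

theorem card_dvd_fac [IsSimpleGroup G] (h : M ≠ ⊤) : Nat.card G ∣ M.index.factorial := by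
  have e := (IsSimpleGroup.eq_bot_or_eq_top_of_normal M.normalCore inferInstance).resolve_right
    fun e => h (top_le_iff.1 (e ▸ M.normalCore_le))
  rw [← index_bot, ← e, normalCore_eq_ker, index_ker, index, ← Nat.card_perm]
  exact card_subgroup_dvd_card _

theorem PS.card_dvd {E : Type*} [Group E] [Finite E] (P : PS G E) : Nat.card P.S.H ∣ Nat.card P.H :=
  (card_dvd_of_surjective _ P.surj).trans (card_dvd_of_le P.H1_le)

section
variable (h : QDT (⊤ : Subgroup G)) (w : SW S t) (hS : SylowIn 2 S 𝐂[t]) (hq : QD S) (sd : w.z = t)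
include h w hS hq sd

theorem a1_SD [IsSimpleGroup G] (hM : 𝐂[t] ≤ M) (hq' : QDT M) : M = ⊤ := by_contra fun hne => by
  obtain ⟨Z, F, _, _, e, et⟩ := h.qe' w.t2 le_top
  obtain ⟨P, P', e1, -, -, e4, -, -, -, -, e5, e6, e7⟩ := exists_ps e hq' w.t2 hM et (h.isConj w.t2)
  have h4 := P.S.Q_three (e4.trans (e.card_two hS hq w sd))
  have h1 := P.idx_SD h4 P' e5 e6
  rw [e7, PS.H, e1, ← relIndex_mul_index hM, mul_comm 6] at h1
  have h2 : M.index ≤ 5 := Nat.lt_succ_iff.1 (lt_of_mul_lt_mul_left h1 (Nat.zero_le _))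
  exact absurd ((((P.S.dvd_H h4).trans P.card_dvd).trans (card_subgroup_dvd_card _)).trans
    ((card_dvd_fac hne).trans (Nat.factorial_dvd_factorial h2))) (by decide)

variable {Z : Subgroup (Quo 𝐎(𝐂[t]))} {F : Type} [Field F] [Fintype F] (e : QE F (𝐂[t] /ₛ 𝐎(𝐂[t])) Z)
  (et : e.t = qel _ t)
include e et

/-- the index for `q = 3` -/
theorem QE.index3 (h3 : Fintype.card F = 3) (hs : s ∈ 𝐂[t]) (s2 : Inv2 s) (st : s ≠ t) :
    (𝐂[t]).index = 165 * (𝐂[s]).relIndex 𝐎(𝐂[t]) ^ 2 ∨ (𝐂[t]).index = 117 * (𝐂[s]).relIndex 𝐎(𝐂[t]) ^ 2 := by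
  obtain ⟨P, -, e1, -, -, e4, e5, -, -, e6, -⟩ := exists_ps e h w.t2 le_top et (h.isConj w.t2)
  have h4 := P.S.Q_three (e4.trans (e.card_two hS hq w sd))
  have h5 : P.S.Q = 3 := by rcases P.S.Q_cases with ⟨-, k⟩ | ⟨-, k⟩ <;> omega
  have := P.kill3 h5 (by
    obtain ⟨h2, -⟩ := h.syl_cent trivial w.t2 (by rwa [top_inf_eq])
    rw [PS.H, e1, ← relIndex_top_right]
    exact Nat.not_even_iff_odd.1 fun k => h2.not_dvd Nat.prime_two (k.two_dvd.trans (relIndex_dvd_of_le_left _ hS.le)))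
    (by rw [e6 s hs s2 st]; exact (odd_core _).of_dvd_nat (relIndex_dvd_card _ _))
  rwa [PS.H, e1, e6 s hs s2 st] at this

theorem QE.kill3 (h3 : Fintype.card F = 3) (hs : s ∈ 𝐂[t]) (s2 : Inv2 s) (st : s ≠ t) :
    (𝐂[s]).relIndex 𝐎(𝐂[t]) ^ 2 ∣ (𝐂[t]).index := by
  rcases e.index3 h w hS hq sd et h3 hs s2 st with k | k <;> exact Dvd.intro_left _ k.symm

theorem QE.stb_SD [IsSimpleGroup G] (l : 𝐂[t] →* ℂˣ) (h1 : (coq _ e.P).subgroupOf 𝐂[t] ≤ l.ker)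
    (h2 : ∀ a b : 𝐂[t], IsConj (a : G) b → l a = l b) : l = 1 := by
  obtain ⟨P, -, e1, -, e3, e4, -⟩ := exists_ps e h w.t2 le_top et (h.isConj w.t2)
  exact P.stb e1 e3 (fun l => P.stable_SD h.perfect (P.S.Q_three (e4.trans (e.card_two hS hq w sd)))) l h1 h2

end

/-! ### both types -/

variable [IsSimpleGroup G] (h : QDT (⊤ : Subgroup G)) (t2 : Inv2 t)
include h t2

/-- no proper subgroup of type `QDT` contains the centralizer of an involution -/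
theorem QDT.a1 (hM : 𝐂[t] ≤ M) (hq : QDT M) : M = ⊤ := by
  obtain ⟨S, -, h2, h3, ⟨w⟩⟩ := h.sw0 (mem_top t) t2
  rw [top_inf_eq] at h2
  exact w.typ.elim (fun k => a1_SD h w h2 h3 k.2 hM hq) fun k => a1_W h w h2 h3 k.2 hM hq

variable {Z : Subgroup (Quo 𝐎(𝐂[t]))} {F : Type} [Field F] [Fintype F] (e : QE F (𝐂[t] /ₛ 𝐎(𝐂[t])) Z)
  (et : e.t = qel _ t)
include e et

theorem QE.stb (l : 𝐂[t] →* ℂˣ) (h1 : (coq _ e.P).subgroupOf 𝐂[t] ≤ l.ker)
    (h2 : ∀ a b : 𝐂[t], IsConj (a : G) b → l a = l b) : l = 1 := by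
  obtain ⟨S, -, h4, h3, ⟨w⟩⟩ := h.sw0 (mem_top t) t2
  rw [top_inf_eq] at h4
  exact w.typ.elim (fun k => e.stb_SD h w h4 h3 k.2 et l h1 h2) fun k => e.stb_W h w h4 h3 k.2 et l h1 h2

theorem QE.no_field' (hs : s ∈ 𝐂[t]) (s2 : Inv2 s) (st : s ≠ t) (hK : K ⊴ 𝐂[s]) (h1 : ⁅𝐎(𝐂[s]), zpowers t⁆ ≤ K)
    (h2 : K ⊓ 𝐂[t] ≤ 𝐎(𝐂[t])) : 𝐂[t] /ₛ 𝐎(𝐂[t]) ≤ e.P :=
  e.no_field h et t2 hs s2 st hK h1 h2 (e.stb h t2 et)

omit h t2 e et in
/-- the identification of the centralizer of an involution in the balanced case -/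
theorem ident_bal (hG : QSyl (⊤ : Subgroup G)) (hb : Bal G) : Ident G := by
  have h := qdt_top hG
  obtain ⟨S, t, -, -, ⟨w⟩⟩ := hG.ex
  have t2 := w.t2
  obtain ⟨Z, F, _, _, e, et⟩ := h.qe' t2 le_top
  obtain ⟨s, ⟨-, hs⟩, s2, st⟩ := h.exists_four (mem_top t) t2
  exact ⟨t, t2, e.ident h hb et t2 (fun M => h.a1 t2) (e.no_field' h t2 et hs s2 st (NormalIn.bot _)
    (commutator_eq_bot_iff_le_centralizer.2 ((hb s t s2 t2 (mem_cent1_comm.1 hs)).trans (cent_zpowers t).ge)).le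
    (by simp))⟩

end CA.ABG
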