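/-
Alperin–Brauer–Gorenstein, semidihedral case: the index for `q = 9`.
-/
import Cfsg.Agent.Lib.ABG.P2S

set_option autoImplicit false
set_option linter.unusedSectionVars false

namespace CA.ABG

open Cfsg Subgroup CA CA.FStar CA.GW CA.Ch

theorem Ar.nine {N k s y : ℤ} (hN : Odd N) (hk : Odd k) (E1 : N * (s + 9) ^ 2 = k ^ 2 * 5760 * (s * (s - 1)))
    (E2 : s * y = 81 * (y + s - 1)) : N = 5025 * k ^ 2 ∨ N = 4473 * k ^ 2 ∨ N = 5913 * k ^ 2 := by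
  obtain ⟨a, rfl⟩ := hN
  obtain ⟨c, hc⟩ := Int.even_mul_pred_self s
  have h0 : (16 : ℤ) ^ 2 ∣ (2 * a + 1) * (s + 9) ^ 2 := ⟨k ^ 2 * 45 * c, by rw [E1, hc]; ring⟩
  have cop : ∀ a : ℤ, IsCoprime (2 : ℤ) (2 * a + 1) := fun a => ⟨-a, 1, by ring⟩
  obtain ⟨j, hj⟩ := (Int.pow_dvd_pow_iff two_ne_zero).1 ((show IsCoprime ((16 : ℤ) ^ 2) (2 * a + 1) from
    (cop a).pow_left (m := 8)).dvd_of_dvd_mul_left h0)
  obtain rfl : s = 16 * j - 9 := by omega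
  have h1 : 2 * (4 * j - 23) + 1 ∣ 2 ^ 3 * 405 := ⟨y - 81, by linarith⟩
  have h2 := ((cop _).pow_left (m := 3)).symm.dvd_of_dvd_mul_left h1
  obtain ⟨h4, h5⟩ := abs_le.1 (Int.le_of_dvd (by norm_num) ((abs_dvd _ _).2 h2))
  obtain ⟨K, hK⟩ : Odd (k ^ 2) := hk.pow
  rw [hK] at E1 ⊢
  have h6 : -45 ≤ j := by omega
  have h7 : j ≤ 56 := by omega
  clear h1 E2 h0 h4 h5 hc hj
  interval_cases j <;> first | (exfalso; revert h2; decide) | (clear h2; omega)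

variable {G : Type*} [Group G] [Finite G]

theorem PS.index9 {E : Type*} [Group E] [Finite E] (P : PS G E) (h9 : P.S.Q = -9) (hN : Odd P.H.index) (hk : Odd P.k) :
    P.H.index = 5025 * P.k ^ 2 ∨ P.H.index = 4473 * P.k ^ 2 ∨ P.H.index = 5913 * P.k ^ 2 := by
  obtain ⟨α, φ, χS, X, Y1, Y2, Z, c⟩ := P.pom1.exists_cons P.prin1.base
  obtain ⟨a, s, y, e1, -, -, -, -, E1, E2⟩ := c.ints
  obtain rfl : 1 = a := by rw [Pi.one_apply] at e1; exact_mod_cast e1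
  rw [h9] at E1 E2
  have := Ar.nine (N := P.H.index) (k := P.k) (s := s) (y := y) (by exact_mod_cast hN) (by exact_mod_cast hk)
    (by
      change (P.H.index : ℤ) * _ = (P.k : ℤ) ^ 2 * _ * _ * _ * _ * _ * _ at E1
      linear_combination E1) (by linarith)
  exact_mod_cast this

theorem PS.kill9 {E : Type*} [Group E] [Finite E] (P : PS G E) (h9 : P.S.Q = -9) (hN : Odd P.H.index) (hk : Odd P.k) :
    P.k ^ 2 ∣ P.H.index := by
  rcases P.index9 h9 hN hk with k | k | k <;> exact Dvd.intro_left _ k.symm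

theorem QE.kill9 {S : Subgroup G} {t s : G} (h : QDT (⊤ : Subgroup G)) (w : SW S t) (hS : SylowIn 2 S 𝐂[t]) (hq : QD S)
    (sd : w.z = t) {Z : Subgroup (Quo 𝐎(𝐂[t]))} {F : Type} [Field F] [Fintype F] (e : QE F (𝐂[t] /ₛ 𝐎(𝐂[t])) Z)
    (et : e.t = qel _ t) (h9 : Fintype.card F = 9) (hs : s ∈ 𝐂[t]) (s2 : Inv2 s) (st : s ≠ t) :
    (𝐂[s]).relIndex 𝐎(𝐂[t]) ^ 2 ∣ (𝐂[t]).index := by
  obtain ⟨P, -, e1, -, -, e4, e5, -, -, e6, -⟩ := exists_ps e h w.t2 le_top et (h.isConj w.t2)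
  have h4 := P.S.Q_three (e4.trans (e.card_two hS hq w sd))
  have h5 : P.S.Q = -9 := by rcases P.S.Q_cases with ⟨-, k⟩ | ⟨-, k⟩ <;> omega
  have := P.kill9 h5 (by
    obtain ⟨h2, -⟩ := h.syl_cent trivial w.t2 (by rwa [top_inf_eq])
    rw [PS.H, e1, ← relIndex_top_right]
    exact Nat.not_even_iff_odd.1 fun k => h2.not_dvd Nat.prime_two (k.two_dvd.trans (relIndex_dvd_of_le_left _ hS.le)))
    (by rw [e6 s hs s2 st]; exact (odd_core _).of_dvd_nat (relIndex_dvd_card _ _))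
  rwa [PS.H, e1, e6 s hs s2 st] at this

end CA.ABG
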