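/-
Alperin–Brauer–Gorenstein theorem, `C(t)` maximal: normalizers of subgroups of `O_p(C(t))`.
-/
import Cfsg.Agent.Lib.ABG.T1a
import Cfsg.Agent.Lib.ABG.T1d
import Cfsg.Agent.Lib.GW.Over
import Cfsg.Agent.Lib.GW.Str0

set_option autoImplicit false

namespace CA.ABG.T1

open Cfsg CA CA.FStar CA.GW Subgroup

variable {G : Type*} [Group G] (m : T1 G) {P X B Y : Subgroup G} {u v x : G} {p : ℕ}

theorem σH : m.σ ∈ 𝐂[m.t] := mem_cent1_iff.2 (by rw [← m.σσ]; group)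

theorem eH : m.e ∈ 𝐂[m.t] := mem_cent1_iff.2 (by rw [← m.ee]; group)

theorem st : m.s ≠ m.t := fun e => by
  have h := m.σs
  rw [e, m.t2.sq, mem_cent1_iff.1 m.σH, mul_inv_cancel_right] at h
  exact m.t2.ne h

theorem sH : m.s ∈ 𝐂[m.t] := by
  have h := (m.s2.conj m.σ).sq
  rw [m.σs] at h
  rw [mem_cent1_iff, eq_inv_of_mul_eq_one_left h, mul_inv_rev, m.s2.inv, m.t2.inv]

theorem σ2 : PiElt {2} m.σ := by
  have : m.σ ^ 2 ^ 2 = 1 := by rw [show 2 ^ 2 = 2 * 2 from rfl, pow_mul, sq, sq, m.σσ, m.t2.sq]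
  exact (piNum_singleton_pow Nat.prime_two 2).of_dvd (orderOf_dvd_of_pow_eq_one this)

/-- `v` is a noncentral involution with `v^σ = v t` -/
structure Nv (v : G) : Prop where
  inv : Inv2 v
  mem : v ∈ 𝐂[m.t]
  ne : v ≠ m.t
  σ : m.σ * v * m.σ⁻¹ = v * m.t

theorem nv_s : m.Nv m.s := ⟨m.s2, m.sH, m.st, m.σs⟩

variable {m} in
theorem Nv.mul (h : m.Nv v) : m.Nv (v * m.σ) := by
  have c := mem_cent1_iff.1 m.σH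
  have e : m.σ * v = v * m.t * m.σ := mul_inv_eq_iff_eq_mul.1 h.σ
  have n : ∀ w : G, w * w = 1 → w ≠ m.σ := fun w hw e => m.t2.ne (by rw [← m.σσ, ← e, hw])
  refine ⟨⟨?_, fun e => n v⁻¹ (by rw [h.inv.inv, h.inv.sq]) (eq_inv_of_mul_eq_one_right e).symm⟩, mul_mem h.mem m.σH,
    fun e => n (v * m.t) (h.inv.mul m.t2 h.ne (mem_cent1_iff.1 h.mem)).sq (by rw [← e, ← mul_assoc, h.inv.sq, one_mul]), ?_⟩
  · calc v * m.σ * (v * m.σ) = v * (m.σ * v) * m.σ := by group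
      _ = v * v * (m.t * (m.σ * m.σ)) := by rw [e]; group
      _ = 1 := by rw [m.σσ, h.inv.sq, m.t2.sq, one_mul]
  · calc m.σ * (v * m.σ) * m.σ⁻¹ = m.σ * v := by group
      _ = _ := by rw [e, mul_assoc, ← c, mul_assoc]

theorem nv_of (h : v = m.s ∨ v = m.s * m.σ) : m.Nv v := h.elim (fun e => e ▸ m.nv_s) fun e => e ▸ m.nv_s.mul

variable {m} in
theorem Nv.σ' (h : m.Nv v) : m.σ⁻¹ * v * m.σ = v * m.t := by
  have c := mem_cent1_iff.1 m.σH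
  calc m.σ⁻¹ * v * m.σ = m.σ⁻¹ * (v * m.t * m.σ) * m.t := by rw [mul_assoc v, ← c, ← mul_assoc v, mul_assoc _ _ m.t, mul_assoc _ m.t, m.t2.sq]; group
    _ = m.σ⁻¹ * (m.σ * v * m.σ⁻¹ * m.σ) * m.t := by rw [h.σ]
    _ = _ := by group

variable {m} in
theorem Nv.norm (h : m.Nv v) (hB : B ≤ 𝐂[m.t]) (hσ : m.σ ∈ 𝐍(B)) [Finite G] : m.σ ∈ 𝐍(B ⊓ 𝐂[v]) :=
  mem_normalizer_of_cj_le (cj_le_iff'.2 fun x hx => ⟨conj_mem_of_mem_normalizer hσ hx.1, by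
    have : x ∈ 𝐂[m.σ⁻¹ * v * m.σ] := h.σ' ▸ mem_cent1_comm.1 (mul_mem (mem_cent1_comm.1 hx.2) (mem_cent1_comm.1 (hB hx.1)))
    have e := mem_cent1_iff.1 this
    refine mem_cent1_iff.2 ?_
    calc m.σ * x * m.σ⁻¹ * v = m.σ * (x * (m.σ⁻¹ * v * m.σ)) * m.σ⁻¹ := by group
      _ = _ := by rw [e]; group⟩)

theorem cj_cent (hB : B ⊴ 𝐂[m.t]) {g : G} (hg : g ∈ 𝐂[m.t]) (x : G) : cj g (B ⊓ 𝐂[x]) = B ⊓ 𝐂[g * x * g⁻¹] := by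
  rw [cj_inf, cj_eq_of_mem_normalizer (hB.2 hg), cj_centralizer_singleton]

theorem conj' (uH : u ∈ 𝐂[m.t]) (u2 : Inv2 u) (ut : u ≠ m.t) (vH : v ∈ 𝐂[m.t]) (v2 : Inv2 v) (vt : v ≠ m.t) :
    ∃ g ∈ 𝐂[m.t], g * u * g⁻¹ = v := by
  obtain ⟨a, ha, rfl⟩ := m.conj u uH u2 ut
  obtain ⟨b, hb, rfl⟩ := m.conj v vH v2 vt
  exact ⟨b * a⁻¹, mul_mem hb (inv_mem ha), by group⟩

variable [Finite G]

theorem norm_ne (X1 : X ≠ ⊥) (XH : X ≤ 𝐂[m.t]) : 𝐍(X) ≠ ⊤ := fun e =>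
  haveI := m.simple
  m.coatom.1 (top_le_iff.1 (((IsSimpleGroup.eq_bot_or_eq_top_of_normal X (normalizer_eq_top_iff.1 e)).resolve_left X1) ▸ XH))

/-- `t` is the only involution centralizing a normal subgroup of `C(t)` on which `s` acts nontrivially -/
theorem uniq (hB : B ⊴ 𝐂[m.t]) (h : ¬ B ≤ 𝐂[m.s]) (u2 : Inv2 u) (hu : u ∈ 𝐂(B)) : u = m.t := by
  haveI := m.simple
  by_contra ut
  obtain ⟨g, hg, e⟩ := m.conj' (cent_le_coatom m.coatom hB (fun e => h (e ▸ bot_le)) hu) u2 ut m.sH m.s2 m.st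
  have := m.cj_cent hB hg u
  rw [inf_eq_left.2 (mem_cent_iff_le_cent1.1 hu), cj_eq_of_mem_normalizer (hB.2 hg), e] at this
  exact h (this.le.trans inf_le_right)

omit [Finite G] in
theorem comm_core {t : G} (tY : t ∈ Y) (h : Y ≤ 𝐎(Y) ⊔ (Y ⊓ 𝐂[t])) {g : G} (hg : g ∈ Y) : g * t * g⁻¹ * t⁻¹ ∈ 𝐎(Y) := by
  have OY : 𝐎(Y) ⊴ Y := piCoreOf_normalIn _ _
  obtain ⟨o, ho, c, hc, rfl⟩ := (mem_sup_of_norm_right (inf_le_left.trans OY.2)).1 (h hg)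
  have : o * c * t * (o * c)⁻¹ * t⁻¹ = o * (t * o⁻¹ * t⁻¹) := by rw [mul_assoc o c t, mem_cent1_iff.1 hc.2]; group
  rw [this]
  exact mul_mem ho (conj_mem_of_mem_normalizer (OY.2 tY) (inv_mem ho))

/-- E* -/
theorem estar (hP : P ⊴ 𝐂[m.t]) (Pp : PiGrp {p} P) (Po : Odd (Nat.card P)) (X1 : X ≠ ⊥) (XP : X ≤ P) (sX : m.s ∈ 𝐍(X))
    (σX : m.σ ∈ 𝐍(X)) (hu : ∀ u, Inv2 u → u ∈ 𝐂(P ⊓ 𝐍(X)) → u = m.t) (hz : ¬ 𝐍(X) ≤ 𝐎(𝐍(X)) ⊔ (𝐍(X) ⊓ 𝐂[m.t])) :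
    (∀ g ∈ 𝐍(X), ∀ g' ∈ 𝐍(X), g * m.t * g⁻¹ = m.s → g' * m.t * g'⁻¹ ≠ m.s * m.σ) ∧
    ∃ v, (v = m.s ∨ v = m.s * m.σ) ∧ (∃ g ∈ 𝐂(P ⊓ 𝐍(X) ⊓ 𝐂[v]), g * m.t * g⁻¹ = v) ∧
      (∀ x ∈ P ⊓ 𝐍(X), v * x * v⁻¹ = x⁻¹ → x ∈ 𝐂[m.σ]) ∧
      ∀ A ≤ P ⊓ 𝐍(X), (∀ x ∈ A, v * x * v⁻¹ = x⁻¹) → IsCyclic A := by
  have CY : 𝐂(X) ≤ 𝐍(X) := centralizer_le_normalizer _
  have XY : X ≤ 𝐍(X) := le_normalizer
  have Y1 := m.norm_ne X1 (XP.trans hP.1)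
  have tY : m.t ∈ 𝐍(X) := m.σσ ▸ mul_mem σX σX
  generalize 𝐍(X) = Y at *
  have OY : 𝐎(Y) ⊴ Y := piCoreOf_normalIn _ _
  have FY : P ⊓ Y ⊴ Y ⊓ 𝐂[m.t] := ⟨le_inf inf_le_right (inf_le_left.trans hP.1),
    norms_inf (inf_le_right.trans hP.2) (inf_le_left.trans le_normalizer)⟩
  have Fp : PiGrp {p} (P ⊓ Y) := Pp.inf_left _
  have Fo : Odd (Nat.card ↥(P ⊓ Y)) := odd_card_of_le Po inf_le_left
  set T := zpowers m.σ ⊔ zpowers m.s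
  have sσ : m.s * m.σ * m.s⁻¹ = m.σ⁻¹ := by
    rw [m.s2.inv]
    exact eq_inv_of_mul_eq_one_left (by simpa [mul_assoc] using m.nv_s.mul.inv.sq)
  have T2 : PiGrp {2} T := (piGrp_zpowers.2 m.σ2).sup m.s2.piGrp (.inl (zpowers_le.2 (mem_normalizer_of_cj_le (by
    rw [cj_zpowers, sσ, zpowers_inv]))))
  have σT : m.σ ∈ T := mem_sup_left (mem_zpowers _)
  have sT : m.s ∈ T := mem_sup_right (mem_zpowers _)
  have TY : T ≤ Y ⊓ 𝐂[m.t] := sup_le (zpowers_le.2 ⟨σX, m.σH⟩) (zpowers_le.2 ⟨sX, m.sH⟩)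
  have TO : T ≤ 𝐍(𝐎(Y)) := (TY.trans inf_le_left).trans OY.2
  obtain ⟨R, hR, TR, FR⟩ := (copAct_of_pi' TO (core_pi Y) T2 (.inl (solv_core Y))).exists_sylowIn_ge
    (X := P ⊓ Y ⊓ 𝐎(Y)) inf_le_right (Fp.inf_left _) (norms_inf (TY.trans FY.2) TO)
  have tR : m.t ∈ 𝐂(R) := mem_cent_iff_le_cent1.2 (cnt_core tY m.t2.sq FY.1 Fp (fun g _ hc => hu _ (m.t2.conj g) hc)
    hR.le hR.piGrp (TR (m.σσ ▸ mul_mem σT σT)))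
  have nC : Y ⊓ 𝐍(R) ≤ 𝐍(Y ⊓ 𝐂(R)) := norms_inf (inf_le_left.trans le_normalizer) (norms_cent inf_le_right)
  have NY : 𝐎(Y) ⊔ (Y ⊓ 𝐂(R)) ⊴ Y := ⟨sup_le OY.1 inf_le_left, (frattini_arg OY hR).ge.trans
    (sup_le (le_sup_left.trans le_normalizer) (norms_sup (inf_le_left.trans OY.2) nC))⟩
  have tN : m.t ∈ 𝐎(Y) ⊔ (Y ⊓ 𝐂(R)) := mem_sup_right ⟨tY, tR⟩
  have two : ∀ w ∈ T, w ∈ 𝐎(Y) ⊔ (Y ⊓ 𝐂(R)) → w ∈ 𝐂(R) := fun w wT hw => by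
    have h1 : w ∈ (𝐎(Y) ⊔ (Y ⊓ 𝐂(R))) ⊓ 𝐍(R) := ⟨hw, TR wT⟩
    rw [dedekind_right (.inl (inf_le_left.trans OY.2)) (inf_le_right.trans (centralizer_le_normalizer _)), sup_comm] at h1
    exact (mem_of_two ((core_pi Y).inf_left _) ((inf_le_inf_right _ OY.1).trans nC) h1 (T2.piElt wT)).2
  have cen : ∀ w ∈ T, w ∈ 𝐎(Y) ⊔ (Y ⊓ 𝐂(R)) → ⁅P ⊓ Y, zpowers w⁆ ≤ 𝐎(Y) → w ∈ 𝐂(P ⊓ Y) := fun w wT hw hc => by
    have n : zpowers w ≤ 𝐍(P ⊓ Y) := zpowers_le.2 (FY.2 (TY wT))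
    exact zpowers_le.1 ((copAct_of_pi' n (odd_iff.1 Fo) (T2.of_le (zpowers_le.2 wT)) (.inl Fp.solvable)).cents_of_comm_le
      ((le_inf (comm_le_left n) hc).trans FR) (zpowers_le.2 (two w wT hw)))
  have vT : ∀ v, v = m.s ∨ v = m.s * m.σ → v ∈ T := fun v h => h.elim (fun e => e ▸ sT) fun e => e ▸ mul_mem sT σT
  rcases m.kg Y _ _ Y1 sX σX hz NY le_sup_left tN FY Fp.nilpotent Fo with ⟨v, hv, vN, hc⟩ | ⟨cy, hσ, sol, h⟩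
  · exact absurd (hu v (m.nv_of hv).inv (cen v (vT v hv) vN hc)) (m.nv_of hv).ne
  have σN : m.σ ∉ 𝐎(Y) ⊔ (Y ⊓ 𝐂(R)) := fun e => by
    have c := (copAct_of_pi' (zpowers_le.2 (hP.2 m.σH)) (odd_iff.1 Po) (piGrp_zpowers.2 m.σ2) (.inl Pp.solvable)).cents_of_nil_self_cent
      Pp.nilpotent inf_le_left (zpowers_le.2 (cen _ σT e hσ)) (inf_le_inf_left _ ((cent_mono (le_inf XP XY)).trans CY))
    exact m.nn (𝐂[m.t] ⊓ 𝐂(P)) ⟨inf_le_left, norms_inf le_normalizer (norms_cent hP.2)⟩ ⟨m.σH, zpowers_le.1 c⟩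
      (solvable_of_le sol (le_inf (inf_le_right.trans ((cent_mono XP).trans CY)) inf_le_left))
  obtain ⟨v, hv, g, hg, e⟩ := h.resolve_left σN
  have nv := m.nv_of hv
  have vN : v ∈ 𝐎(Y) ⊔ (Y ⊓ 𝐂(R)) := e ▸ mul_mem (mul_mem hg tN) (inv_mem hg)
  have vR := two v (vT v hv) vN
  have vY := TY (vT v hv)
  have FO : P ⊓ Y ≤ 𝐍(𝐎(Y)) := inf_le_right.trans OY.2
  have cy' := (isCyclic_quo_iff FO).2 cy
  have fix : P ⊓ Y ⊓ 𝐂[v] ≤ R := by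
    have vO : zpowers v ≤ 𝐍(𝐎(Y)) := zpowers_le.2 (OY.2 vY.1)
    rcases cents_or_cent_eq_bot_of_cyclic (Fp.quo 𝐎(Y)) cy' (quo_norms _ (zpowers_le.2 (FY.2 vY)))
      (coprime_quo (by rw [nv.inv.card]; exact Nat.coprime_two_right.2 Fo) _) with h1 | h1
    · rw [quo_cents_iff vO FO, commutator_comm] at h1
      exact absurd (hu v nv.inv (cen v (vT v hv) vN h1)) nv.ne
    · refine (le_inf inf_le_left ((quo_eq_bot_iff (inf_le_left.trans FO)).1 (le_bot_iff.1 (h1 ▸ le_inf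
        (quo_mono _ inf_le_left) (quo_cents _ (cent_zpowers v ▸ inf_le_right)))))).trans FR
  refine ⟨fun g hg g' hg' e1 e2 => σN ?_, v, hv, ?_, fun x hx ix => ?_, fun A hA iA => ?_⟩
  · have := mul_mem (e1 ▸ conj_mem_of_mem_normalizer (NY.2 hg) tN) (e2 ▸ conj_mem_of_mem_normalizer (NY.2 hg') tN)
    rwa [← mul_assoc, m.s2.sq, one_mul] at this
  · obtain ⟨o, ho, c, hc, rfl⟩ := (mem_sup_of_norm_right (inf_le_left.trans OY.2)).1 hg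
    have u2 := m.t2.conj c
    have uR : c * m.t * c⁻¹ ∈ 𝐂(R) := mul_mem (mul_mem hc.2 tR) (inv_mem hc.2)
    have uY : c * m.t * c⁻¹ ∈ Y := mul_mem (mul_mem hc.1 tY) (inv_mem hc.1)
    have e' : v = o * (c * m.t * c⁻¹) * o⁻¹ := by rw [← e]; group
    have e'' : ∀ r : G, r * c * m.t * (r * c)⁻¹ = r * (c * m.t * c⁻¹) * r⁻¹ := fun r => by group
    generalize c * m.t * c⁻¹ = u at u2 uR uY e' e''
    have vu : v * u ∈ 𝐎(Y) := by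
      rw [e', mul_assoc, mul_assoc, ← mul_assoc u, ← congrArg (u * o⁻¹ * ·) u2.inv]
      exact mul_mem ho (conj_mem_of_mem_normalizer (OY.2 uY) (inv_mem ho))
    obtain ⟨r, hr, er⟩ := exists_sqrt (odd_of_mem (odd_core Y) vu)
    have ir := inv_of_mem_zpowers (s := u) (by rw [mul_inv_rev, nv.inv.inv, ← mul_assoc, mul_inv_cancel_right, u2.inv]) (inv_mem hr)
    refine ⟨r * c, cent_mono fix (mul_mem (zpowers_le.2 (mul_mem vR uR) hr) hc.2), ?_⟩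
    calc r * c * m.t * (r * c)⁻¹ = r * (u * r⁻¹ * u⁻¹) * u := by rw [e'']; group
      _ = v := by rw [ir, inv_inv, er, mul_assoc, u2.sq, mul_one]
  · have xo := odd_of_mem Fo hx
    have d1 : x * m.σ * x⁻¹ * m.σ⁻¹ ∈ P ⊓ Y := comm_le_left (zpowers_le.2 (FY.2 (TY σT))) (comm_mem hx (mem_zpowers _))
    have d2 := mem_cent_iff.1 vR _ (FR ⟨d1, hσ (comm_mem hx (mem_zpowers _))⟩)
    have xt := mem_cent1_iff.1 (hP.1 hx.1)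
    have iy : v * (m.σ * x⁻¹ * m.σ⁻¹) * v⁻¹ = m.σ * x * m.σ⁻¹ := by
      calc v * (m.σ * x⁻¹ * m.σ⁻¹) * v⁻¹ = m.σ * (m.σ⁻¹ * v * m.σ * x * (m.σ⁻¹ * v * m.σ)⁻¹)⁻¹ * m.σ⁻¹ := by group
        _ = m.σ * (v * (m.t * x) * m.t⁻¹ * v⁻¹)⁻¹ * m.σ⁻¹ := by rw [nv.σ']; group
        _ = _ := by rw [← xt, mul_assoc v, mul_inv_cancel_right, ix, inv_inv]
    have := eq_one_of_odd_inv xo (odd_of_mem Fo d1) (by
      calc x * (x * m.σ * x⁻¹ * m.σ⁻¹) * x⁻¹ = x * (x * m.σ * x⁻¹ * m.σ⁻¹ * v) * v⁻¹ * x⁻¹ := by group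
        _ = x * (v * x * v⁻¹) * (v * (m.σ * x⁻¹ * m.σ⁻¹) * v⁻¹) * x⁻¹ := by rw [d2]; group
        _ = _ := by rw [ix, iy]; group)
    exact mem_cent1_iff.2 (by rw [mul_inv_eq_one, mul_inv_eq_iff_eq_mul] at this; exact this)
  · refine isCyclic_of_quo_bot (isCyclic_quo_of_le (hA.trans FO) norms_bot (fun x hx => ?_)
      (cyclic_of_le cy' (quo_mono _ hA)))
    exact mem_bot.2 (eq_one_of_cent_inv (odd_of_mem Fo (hA hx.2)) (mem_cent_iff'.1 vR x (FR ⟨hA hx.2, hx.1⟩)) (iA x hx.2))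

end CA.ABG.T1
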