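/-
Alperin–Brauer–Gorenstein theorem, `C(t)` maximal: a noncentral involution centralizes or inverts `O_p(C(t))`.
-/
import Cfsg.Agent.Lib.ABG.T1b

set_option autoImplicit false

namespace CA.ABG.T1

open Cfsg CA CA.FStar CA.GW Subgroup

variable {G : Type*} [Group G] [Finite G] (m : T1 G) {P X B Y : Subgroup G} {u v x : G} {p : ℕ}

omit [Finite G] in
theorem sσ : m.s * m.σ * m.s⁻¹ = m.σ⁻¹ := by
  rw [m.s2.inv]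
  exact eq_inv_of_mul_eq_one_left (by simpa [mul_assoc] using m.nv_s.mul.inv.sq)

/-- E** -/
theorem estar2 (hP : P ⊴ 𝐂[m.t]) (Pp : PiGrp {p} P) (Po : Odd (Nat.card P)) (X1 : X ≠ ⊥) (XP : X ≤ P) (sX : X ≤ 𝐂[m.s])
    (σX : X ≤ 𝐂[m.σ]) (hu : ∀ u, Inv2 u → u ∈ 𝐂(P ⊓ 𝐍(X)) → u = m.t) {g g' : G} (hg : g ∈ 𝐂(X)) (hg' : g' ∈ 𝐂(X))
    (e : g * m.t * g⁻¹ = m.s) (e' : g' * m.t * g'⁻¹ = m.s * m.σ) : False := by
  have CY : 𝐂(X) ≤ 𝐍(X) := centralizer_le_normalizer _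
  refine (m.estar hP Pp Po X1 XP (CY (mem_cent_iff_le_cent1.2 sX)) (CY (mem_cent_iff_le_cent1.2 σX)) hu fun h => ?_).1
    g (CY hg) g' (CY hg') e e'
  have := comm_core (CY (mem_cent_iff_le_cent1.2 (XP.trans hP.1))) h (CY hg)
  rw [e, m.t2.inv] at this
  exact (m.s2.mul m.t2 m.st (mem_cent1_iff.1 m.sH)).not_mem (odd_core _) this

/-- `t ∉ Z*(N(X))` if `X` centralizes `s` -/
theorem notZ (hP : P ⊴ 𝐂[m.t]) (Pp : PiGrp {p} P) (Po : Odd (Nat.card P)) (hs : ¬ P ≤ 𝐂[m.s]) (XP : X ≤ P) (sX : X ≤ 𝐂[m.s])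
    (hu : ∀ u, Inv2 u → u ∈ 𝐂(P ⊓ 𝐍(X)) → u = m.t) : ¬ 𝐍(X) ≤ 𝐎(𝐍(X)) ⊔ (𝐍(X) ⊓ 𝐂[m.t]) := fun h => by
  have CY : 𝐂(X) ≤ 𝐍(X) := centralizer_le_normalizer _
  have tX : m.t ∈ 𝐂(X) := mem_cent_iff_le_cent1.2 (XP.trans hP.1)
  obtain ⟨g, e⟩ := m.one m.s m.s2
  have n2 : 𝐂[m.s] ≤ 𝐍(cj g P) := by rw [← e, ← cj_centralizer_singleton, ← cj_normalizer]; exact cj_mono g hP.2
  have ts : m.t ∈ 𝐂[m.s] := mem_cent1_comm.1 m.sH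
  have P1 : P ≠ ⊥ := fun e => hs (e ▸ bot_le)
  obtain ⟨q, hq, qd⟩ := exists_prime_dvd_card P1
  obtain rfl : q = p := Pp.mem hq qd
  have t' : PiGrp {q}ᶜ (zpowers m.t) := m.t2.piGrp.compl_singleton fun e => (odd_iff.1 Po).mem hq qd e
  by_cases hc : cj g P ⊓ 𝐂(X) ≤ 𝐂[m.t]
  · have c := zpowers_le.1 ((copAct_p_left (zpowers_le.2 (n2 ts)) (Pp.cj g) t').cents_of_axb (Pp.cj g) (Pp.of_le XP) (sX.trans n2)
      (zpowers_le.2 tX) (zpowers_le.2 (mem_cent_iff_le_cent1.2 hc)) t')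
    rw [← cj_centralizer, mem_cj] at c
    have := m.uniq hP hs (by simpa using m.t2.conj g⁻¹) c
    exact m.st (by rw [← e]; nth_rw 1 [← this]; group)
  obtain ⟨w, hw, w1, iw⟩ := exists_inv_of_not_cent (by rw [m.t2.sq]; exact one_mem _) (norms_inf (X := zpowers m.t)
    (zpowers_le.2 (n2 ts)) (norms_cent (zpowers_le.2 (CY tX))) (mem_zpowers _)) hc
  have wo : Odd (orderOf w) := odd_of_mem (by rwa [card_cj]) hw.1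
  have wO : w ∈ 𝐎(𝐍(X)) := by
    obtain ⟨r, hr, e⟩ := exists_comm_of_inv wo iw
    exact e ▸ comm_core (CY tX) h (zpowers_le.2 (CY hw.2) hr)
  have := cnt_core (CY tX) m.t2.sq (R := P ⊓ 𝐍(X)) (le_inf inf_le_right (inf_le_left.trans hP.1)) (Pp.inf_left _)
    (fun g _ hc => hu _ (m.t2.conj g) hc) (zpowers_le.2 wO) (piGrp_zpowers.2 ((Pp.cj g).piElt hw.1))
    (mem_normalizer_of_cj_le (by rw [cj_zpowers, iw, zpowers_inv])) (mem_zpowers w)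
  exact w1 (eq_one_of_cent_inv wo (mem_cent1_iff.1 this).symm iw)

/-- if `t` is fused to one noncentral involution `v` in `C(C_P(v))` then `C_P(D₈) = 1` -/
theorem d8_bot (hP : P ⊴ 𝐂[m.t]) (Pp : PiGrp {p} P) (Po : Odd (Nat.card P)) (hv : m.Nv v) {g : G} (hg : g ∈ 𝐂(P ⊓ 𝐂[v]))
    (e : g * m.t * g⁻¹ = v) (XP : X ≤ P) (sX : X ≤ 𝐂[m.s]) (σX : X ≤ 𝐂[m.σ])
    (hu : ∀ u, Inv2 u → u ∈ 𝐂(P ⊓ 𝐍(X)) → u = m.t) : X = ⊥ := by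
  have k : ∀ u, m.Nv u → X ≤ 𝐂[u] → ∃ g ∈ 𝐂(X), g * m.t * g⁻¹ = u := fun u hu Xu => by
    obtain ⟨h, hh, rfl⟩ := m.conj' hv.mem hv.inv hv.ne hu.mem hu.inv hu.ne
    refine ⟨h * g * h⁻¹, cent_mono (le_inf XP Xu) ?_, ?_⟩
    · rw [← m.cj_cent hP hh, ← cj_centralizer]
      exact conj_mem_cj.2 hg
    · calc h * g * h⁻¹ * m.t * (h * g * h⁻¹)⁻¹ = h * (g * (h⁻¹ * m.t * h) * g⁻¹) * h⁻¹ := by group
        _ = _ := by rw [mem_cent1_iff.1 (inv_mem hh), inv_mul_cancel_right, e]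
  obtain ⟨a, ha, ea⟩ := k _ m.nv_s sX
  obtain ⟨b, hb, eb⟩ := k _ m.nv_s.mul fun x hx => mem_cent1_comm.1 (mul_mem (mem_cent1_comm.1 (sX hx)) (mem_cent1_comm.1 (σX hx)))
  exact by_contra fun X1 => m.estar2 hP Pp Po X1 XP sX σX hu ha hb ea eb

omit [Finite G] in
theorem card_cent (hB : B ⊴ 𝐂[m.t]) {a b : G} (h : ∃ g ∈ 𝐂[m.t], g * a * g⁻¹ = b) :
    Nat.card ↥(B ⊓ 𝐂[a]) = Nat.card ↥(B ⊓ 𝐂[b]) := by
  obtain ⟨g, hg, rfl⟩ := h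
  rw [← m.cj_cent hB hg, card_cj]

omit [Finite G] in
theorem cent_mul {a b : G} (ha : x ∈ 𝐂[a]) (hb : x ∈ 𝐂[b]) : x ∈ 𝐂[a * b] :=
  mem_cent1_comm.1 (mul_mem (mem_cent1_comm.1 ha) (mem_cent1_comm.1 hb))

omit [Finite G] in
theorem cent_left {a b : G} (ha : x ∈ 𝐂[a * b]) (hb : x ∈ 𝐂[b]) : x ∈ 𝐂[a] :=
  mem_cent1_comm.1 (by simpa using mul_mem (mem_cent1_comm.1 ha) (inv_mem (mem_cent1_comm.1 hb)))

omit [Finite G] in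
theorem cent_right {a b : G} (ha : x ∈ 𝐂[a * b]) (hb : x ∈ 𝐂[a]) : x ∈ 𝐂[b] :=
  mem_cent1_comm.1 (by simpa using mul_mem (inv_mem (mem_cent1_comm.1 hb)) (mem_cent1_comm.1 ha))

variable {m} in
theorem Nv.norm' (h : m.Nv v) (hB : B ⊴ 𝐂[m.t]) : v ∈ 𝐍(B ⊓ 𝐂[v * m.σ]) := by
  have n1 := h.mul.norm hB.1 (hB.2 m.σH)
  have n2 : v * m.σ ∈ 𝐍(B ⊓ 𝐂[v * m.σ]) := norms_inf (X := zpowers (v * m.σ)) (zpowers_le.2 (hB.2 h.mul.mem))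
    (zpowers_le.2 (le_normalizer (self_mem_cent1 _))) (mem_zpowers _)
  simpa using mul_mem n2 (inv_mem n1)

/-- LemB1 -/
theorem lemB1 (hP : P ⊴ 𝐂[m.t]) (Pp : PiGrp {p} P) (Po : Odd (Nat.card P)) (hs : ¬ P ≤ 𝐂[m.s]) : 𝐙(P) ⊓ 𝐂[m.s] = ⊥ := by
  by_contra X1
  have ZH : 𝐙(P) ⊴ 𝐂[m.t] := ⟨inf_le_left.trans hP.1, norms_center hP.2⟩
  have hu : ∀ X ≤ 𝐙(P), ∀ u, Inv2 u → u ∈ 𝐂(P ⊓ 𝐍(X)) → u = m.t := fun X hX u u2 hu =>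
    m.uniq hP hs u2 (by rwa [inf_eq_left.2 (norms_of_le_center hX)] at hu)
  have XP : 𝐙(P) ⊓ 𝐂[m.s] ≤ P := inf_le_left.trans inf_le_left
  obtain ⟨-, v, hv, ⟨g, hg, e⟩, hσ, -⟩ := m.estar hP Pp Po X1 XP (centralizer_le_normalizer _ (mem_cent_iff_le_cent1.2 inf_le_right))
    (m.nv_s.norm ZH.1 (ZH.2 m.σH)) (hu _ inf_le_left) (m.notZ hP Pp Po hs XP inf_le_right (hu _ inf_le_left))
  rw [inf_eq_left.2 (norms_of_le_center inf_le_left)] at hg hσ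
  have nv := m.nv_of hv
  have h0 := m.d8_bot hP Pp Po nv hg e (X := 𝐙(P) ⊓ 𝐂[m.s] ⊓ 𝐂[m.σ]) (inf_le_left.trans XP) (inf_le_left.trans inf_le_right)
    inf_le_right (hu _ (inf_le_left.trans inf_le_left))
  have h1 : 𝐙(P) ⊓ 𝐂[v * m.σ] ⊓ 𝐂[v] = ⊥ := le_bot_iff.1 (h0 ▸ fun x hx => by
    have xσ := cent_right hx.1.2 hx.2
    exact ⟨⟨hx.1.1, hv.elim (fun e => e ▸ hx.2) fun e => cent_left (e ▸ hx.2) xσ⟩, xσ⟩)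
  have h2 : 𝐙(P) ⊓ 𝐂[v * m.σ] = ⊥ := le_bot_iff.1 (h1 ▸ le_inf le_rfl fun x hx => cent_left hx.2 (hσ x hx.1.1
    (inv_of_fpf nv.inv.sq (nv.norm' ZH) (odd_card_of_le Po (inf_le_left.trans inf_le_left)) h1 hx)))
  have := m.card_cent ZH (m.conj _ nv.mul.mem nv.mul.inv nv.mul.ne)
  rw [h2, card_bot] at this
  exact X1 (card_eq_one.1 this)

/-- the noncentral involutions invert a normal subgroup on which `s` has no fixed points -/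
theorem inv_all (hB : B ⊴ 𝐂[m.t]) (Bo : Odd (Nat.card B)) (h : B ⊓ 𝐂[m.s] = ⊥) (uH : u ∈ 𝐂[m.t]) (u2 : Inv2 u) (ut : u ≠ m.t)
    (hx : x ∈ B) : u * x * u⁻¹ = x⁻¹ := by
  have := m.card_cent hB (m.conj u uH u2 ut)
  rw [h, card_bot] at this
  exact inv_of_fpf u2.sq (hB.2 uH) Bo (card_eq_one.1 this.symm) hx

omit [Finite G] in
theorem mul_conj_mem {a : G} (Bo : Odd (Nat.card B)) (a2 : a * a ∈ 𝐂(B)) (ha : a ∈ 𝐍(B)) (h : ⁅B, B⁆ ≤ 𝐂[a]) (hx : x ∈ B) :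
    x * (a * x * a⁻¹) ∈ B ⊓ 𝐂[a] := by
  have hy := conj_mem_of_mem_normalizer ha hx
  have e1 : a * (a * x * a⁻¹) * a⁻¹ = x := by
    calc a * (a * x * a⁻¹) * a⁻¹ = a * a * x * (a * a)⁻¹ := by group
      _ = x := conj_eq_of_mem_cent a2 hx
  generalize hy' : a * x * a⁻¹ = y at hy e1
  have d1 : y⁻¹ * x⁻¹ * y⁻¹⁻¹ * x⁻¹⁻¹ ∈ ⁅B, B⁆ := comm_mem (inv_mem hy) (inv_mem hx)
  have d2 := mem_cent1_iff.1 (h d1)
  have d3 : y⁻¹ * x⁻¹ * y⁻¹⁻¹ * x⁻¹⁻¹ = 1 := eq_one_of_cent_inv (odd_of_mem Bo (comm_le_left le_normalizer d1)) d2.symm (by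
    calc a * (y⁻¹ * x⁻¹ * y⁻¹⁻¹ * x⁻¹⁻¹) * a⁻¹ = (a * y * a⁻¹)⁻¹ * (a * x * a⁻¹)⁻¹ * (a * y * a⁻¹) * (a * x * a⁻¹) := by group
      _ = _ := by rw [e1, hy']; group)
  refine ⟨mul_mem hx hy, mem_cent1_iff.2 (mul_inv_eq_iff_eq_mul.1 ?_).symm⟩
  calc a * (x * y) * a⁻¹ = a * x * a⁻¹ * (a * y * a⁻¹) := by group
    _ = x * y * (y⁻¹ * x⁻¹ * y⁻¹⁻¹ * x⁻¹⁻¹) := by rw [e1, hy']; group
    _ = _ := by rw [d3, mul_one]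

/-- if `σ` acts nontrivially on `B` and centralizes `B'` then `e` does not centralize `C_B(σ)` -/
theorem not_cent_e (hB : B ⊴ 𝐂[m.t]) (Bo : Odd (Nat.card B)) (h : ⁅B, B⁆ ≤ 𝐂[m.σ]) (hc : B ⊓ 𝐂[m.σ] ≤ 𝐂[m.e]) :
    B ≤ 𝐂[m.σ] := fun x hx => by
  have e1 : B ⊓ 𝐂[m.σ] = B ⊓ 𝐂[m.e] := eq_of_le_of_card_eq (le_inf inf_le_left hc) (m.card_cent hB m.c1)
  have e2 : B ⊓ 𝐂[m.σ] = B ⊓ 𝐂[m.σ * m.e] :=
    eq_of_le_of_card_eq (le_inf inf_le_left fun x hx => cent_mul hx.2 (hc hx)) (m.card_cent hB m.c2)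
  have tB : m.t ∈ 𝐂(B) := mem_cent_iff_le_cent1.2 hB.1
  have D : ⁅B, B⁆ ≤ B ⊓ 𝐂[m.σ] := le_inf (comm_le_left le_normalizer) h
  have σe : m.σ * m.e * (m.σ * m.e) = m.t := by
    calc m.σ * m.e * (m.σ * m.e) = m.σ * (m.e * m.σ * m.e⁻¹) * (m.e * m.e) := by group
      _ = _ := by rw [m.eσ, m.ee]; group
  have h1 := e1 ▸ mul_conj_mem Bo (m.ee ▸ tB) (hB.2 m.eH) (D.trans (e1.le.trans inf_le_right)) hx
  have h2 := mul_conj_mem Bo (m.σσ ▸ tB) (hB.2 m.σH) h (conj_mem_of_mem_normalizer (hB.2 m.eH) hx)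
  have h3 := e2 ▸ mul_conj_mem Bo (σe ▸ tB) (hB.2 (mul_mem m.σH m.eH)) (D.trans (e2.le.trans inf_le_right)) hx
  have n : x ∈ 𝐍(B ⊓ 𝐂[m.σ]) := norms_of_der_le D inf_le_left hx
  have h4 := mul_mem (mul_mem h3 (inv_mem h2)) (conj_inv_mem_of_mem_normalizer n h1)
  have e : x * (m.σ * m.e * x * (m.σ * m.e)⁻¹) * (m.e * x * m.e⁻¹ * (m.σ * (m.e * x * m.e⁻¹) * m.σ⁻¹))⁻¹ = x * (m.e * x * m.e⁻¹)⁻¹ := by
    group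
  rw [e] at h4
  have e' : x * (m.e * x * m.e⁻¹)⁻¹ * (x⁻¹ * (x * (m.e * x * m.e⁻¹)) * x) = x * x := by group
  rw [e'] at h4
  obtain ⟨k, hk⟩ := odd_of_mem Bo hx
  have : x = (x * x) ^ (k + 1) := by
    rw [← sq, ← pow_mul, show 2 * (k + 1) = 2 * k + 1 + 1 by ring, ← hk, pow_succ, pow_orderOf_eq_one, one_mul]
  exact this ▸ pow_mem h4.2 _

/-- LemB2: `s` centralizes or inverts every normal `p`-subgroup of `C(t)` -/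
theorem lemB2 (hP : P ⊴ 𝐂[m.t]) (Pp : PiGrp {p} P) (Po : Odd (Nat.card P)) (hs : ¬ P ≤ 𝐂[m.s]) : P ⊓ 𝐂[m.s] = ⊥ := by
  by_contra X1
  have ZH : 𝐙(P) ⊴ 𝐂[m.t] := ⟨inf_le_left.trans hP.1, norms_center hP.2⟩
  have Z0 := m.lemB1 hP Pp Po hs
  have Z1 : 𝐙(P) ≠ ⊥ := center_ne_bot_nil Pp.nilpotent fun e => hs (e ▸ bot_le)
  have Zo : Odd (Nat.card ↥𝐙(P)) := odd_card_of_le Po inf_le_left
  have ZN : ∀ X ≤ P, 𝐙(P) ≤ P ⊓ 𝐍(X) := fun X hX =>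
    le_inf inf_le_left ((inf_le_right.trans (cent_mono hX)).trans (centralizer_le_normalizer _))
  have hu : ∀ X ≤ P, ∀ u, Inv2 u → u ∈ 𝐂(P ⊓ 𝐍(X)) → u = m.t := fun X hX u u2 hu =>
    m.uniq ZH (fun e => Z1 (by rwa [inf_eq_left.2 e] at Z0)) u2 (cent_mono (ZN X hX) hu)
  obtain ⟨-, v, hv, ⟨g, hg, e⟩, hσ, cy⟩ := m.estar hP Pp Po X1 inf_le_left
    (centralizer_le_normalizer _ (mem_cent_iff_le_cent1.2 inf_le_right))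
    (m.nv_s.norm hP.1 (hP.2 m.σH)) (hu _ inf_le_left) (m.notZ hP Pp Po hs inf_le_left inf_le_right (hu _ inf_le_left))
  have nv := m.nv_of hv
  have XN : P ⊓ 𝐂[m.s] ≤ P ⊓ 𝐍(P ⊓ 𝐂[m.s]) := le_inf inf_le_left le_normalizer
  have sX : m.s * m.σ ∈ 𝐍(P ⊓ 𝐂[m.s]) :=
    mul_mem (centralizer_le_normalizer _ (mem_cent_iff_le_cent1.2 inf_le_right)) (m.nv_s.norm hP.1 (hP.2 m.σH))
  have ev : P ⊓ 𝐂[m.s] = P ⊓ 𝐂[v] := by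
    rcases hv with rfl | rfl
    · rfl
    refine eq_of_le_of_card_eq (le_inf inf_le_left (by_contra fun hn => ?_)) (m.card_cent hP (m.conj _ nv.mem nv.inv nv.ne))
    obtain ⟨w, hw, w1, iw⟩ := exists_inv_of_not_cent (by rw [nv.inv.sq]; exact one_mem _) sX hn
    exact w1 (eq_one_of_cent_inv (odd_of_mem Po hw.1) (mem_cent1_iff.1 (cent_mul hw.2 (hσ w (XN hw) iw))).symm iw)
  have h0 := m.d8_bot hP Pp Po nv (cent_mono (le_inf (ev.ge.trans XN) inf_le_right) hg) e (X := P ⊓ 𝐂[m.s] ⊓ 𝐂[m.σ])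
    (inf_le_left.trans inf_le_left) (inf_le_left.trans inf_le_right) inf_le_right (hu _ (inf_le_left.trans inf_le_left))
  rcases hv with rfl | rfl
  swap
  · exact X1 (le_bot_iff.1 (h0 ▸ le_inf le_rfl fun x hx => cent_right (ev.le hx).2 hx.2))
  have iX : ∀ x ∈ P ⊓ 𝐂[m.s], m.σ * x * m.σ⁻¹ = x⁻¹ := fun x hx => by
    have := inv_of_fpf m.nv_s.mul.inv.sq sX (odd_card_of_le Po inf_le_left)
      (le_bot_iff.1 (h0 ▸ fun y hy => ⟨hy.1, cent_right hy.2 hy.1.2⟩)) hx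
    calc m.σ * x * m.σ⁻¹ = m.s⁻¹ * (m.s * m.σ * x * (m.s * m.σ)⁻¹) * m.s := by group
      _ = _ := by rw [this, mul_assoc, mem_cent1_iff.1 (inv_mem hx.2), inv_mul_cancel_left]
  obtain ⟨x, hx, x1⟩ := exists_ne_one_mem' X1
  obtain ⟨B, BP, ⟨BH, Bσ⟩, hmin⟩ := exists_minimal_le (A := P) (fun B => B ⊴ 𝐂[m.t] ∧ ¬ B ≤ 𝐂[m.σ]) ⟨hP, fun h =>
    x1 (eq_one_of_cent_inv (odd_of_mem Po hx.1) (mem_cent1_iff.1 (h hx.1)).symm (iX x hx))⟩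
  have Bo := odd_card_of_le Po BP
  have lt := nil_comm_lt_left Pp.nilpotent BP (fun e => Bσ (e ▸ bot_le)) le_rfl (hP.1.trans BH.2)
  have B0 : ⁅B, P⁆ ⊴ 𝐂[m.t] := ⟨lt.le.trans BH.1, norms_commutator BH.2 hP.2⟩
  have Cσ : ⁅B, P⁆ ≤ 𝐂[m.σ] := by_contra fun h => lt.ne (hmin _ ⟨B0, h⟩ lt.le)
  have CX : P ⊓ 𝐂[m.s] ≤ 𝐂(⁅B, P⁆) := fun y hy => (mem_of_inv (E := 𝐂[m.t] ⊓ 𝐂(⁅B, P⁆)) (odd_of_mem Po hy.1) (iX y hy)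
    (norms_inf le_normalizer (norms_cent B0.2) (hP.1 hy.1)) ⟨m.σH, mem_cent_iff_le_cent1.2 Cσ⟩).2
  have eσ : m.e ∈ 𝐍(𝐂[m.σ]) := mem_normalizer_of_cj_le (by
    rw [cj_centralizer_singleton, m.eσ, ← cent_zpowers, zpowers_inv, cent_zpowers])
  obtain ⟨w, hw, w1, iw⟩ := exists_inv_of_not_cent (B := B ⊓ 𝐂[m.σ]) (m.ee ▸ mem_cent_iff_le_cent1.2 (inf_le_left.trans BH.1))
    (norms_inf (X := zpowers m.e) (zpowers_le.2 (BH.2 m.eH)) (zpowers_le.2 eσ) (mem_zpowers _))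
    fun h => Bσ (m.not_cent_e BH Bo ((commutator_mono le_rfl BP).trans Cσ) h)
  have wX : w ∈ 𝐂(P ⊓ 𝐂[m.s]) := mem_cent_iff'.2 fun y hy => by
    have c0 : w * y * w⁻¹ * y⁻¹ ∈ ⁅B, P⁆ := comm_mem hw.1 hy.1
    have c1 := mem_cent_iff.1 (CX hy) _ c0
    have wσ : m.σ * w * m.σ⁻¹ = w := by rw [← mem_cent1_iff.1 hw.2, mul_inv_cancel_right]
    have := eq_one_of_cent_inv (odd_of_mem Bo (lt.le c0)) (mem_cent1_iff.1 (Cσ c0)).symm (by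
      calc m.σ * (w * y * w⁻¹ * y⁻¹) * m.σ⁻¹
          = m.σ * w * m.σ⁻¹ * (m.σ * y * m.σ⁻¹) * (m.σ * w * m.σ⁻¹)⁻¹ * (m.σ * y * m.σ⁻¹)⁻¹ := by group
        _ = (y⁻¹ * (w * y * w⁻¹ * y⁻¹ * y))⁻¹ := by rw [wσ, iX y hy]; group
        _ = _ := by rw [c1, inv_mul_cancel_left])
    rwa [mul_inv_eq_one, mul_inv_eq_iff_eq_mul] at this
  have Zσ : 𝐙(P) ≤ 𝐂[m.σ] := fun z hz => by
    have := comm_of_inv_inv (m.inv_all ZH Zo Z0 m.sH m.s2 m.st hz) (m.inv_all ZH Zo Z0 nv.mul.mem nv.mul.inv nv.mul.ne hz)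
    rw [← mul_assoc m.s, m.s2.sq, one_mul] at this
    exact mem_cent1_iff.2 this.symm
  have Ze : 𝐙(P) ≤ 𝐂[m.e] := by
    have := m.card_cent ZH m.c1
    rw [inf_eq_left.2 Zσ] at this
    exact (eq_of_le_of_card_eq inf_le_left this.symm).ge.trans inf_le_right
  have cyc := cy (P ⊓ 𝐍(P ⊓ 𝐂[m.s]) ⊓ 𝐂[m.σ]) inf_le_left fun y hy => inv_of_fpf (R := P ⊓ 𝐂[m.σ]) m.s2.sq
    (norms_inf (X := zpowers m.s) (zpowers_le.2 (hP.2 m.sH)) (zpowers_le.2 (mem_normalizer_of_cj_le (by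
      rw [cj_centralizer_singleton, m.sσ, ← cent_zpowers, zpowers_inv, cent_zpowers]))) (mem_zpowers _))
    (odd_card_of_le Po inf_le_left) (by rw [inf_right_comm, h0]) ⟨hy.1.1, hy.2⟩
  · have := coprime_of_cyclic_of_disjoint cyc (zpowers_le.2 ⟨⟨BP hw.1, centralizer_le_normalizer _ wX⟩, hw.2⟩)
      (le_inf (ZN _ inf_le_left) Zσ) (le_bot_iff.1 fun y hy => mem_bot.2
        (eq_one_of_cent_inv (odd_of_mem Zo hy.2) (mem_cent1_iff.1 (Ze hy.2)).symm (inv_of_mem_zpowers iw hy.1)))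
    obtain ⟨q, hq, qd⟩ := exists_prime_dvd_card Z1
    obtain ⟨r, hr, rd⟩ := exists_prime_dvd_card (ne_bot_of_mem (mem_zpowers w) w1)
    obtain rfl : q = p := (Pp.inf_left _).mem hq qd
    obtain rfl : r = q := (Pp.of_le (zpowers_le.2 (BP hw.1))).mem hr rd
    exact hr.one_lt.ne' (Nat.eq_one_of_dvd_coprimes this rd qd)

end CA.ABG.T1
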