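/-
Alperin–Brauer–Gorenstein theorem, `C(t)` maximal: the subgroup `K = [O(C(t)), s]`.
-/
import Cfsg.Agent.Lib.ABG.T1c

set_option autoImplicit false

namespace CA.ABG.T1

open Cfsg CA CA.FStar CA.GW Subgroup

variable {G : Type*} [Group G] (m : T1 G)

/-- `U = O(C(t))` -/
abbrev U : Subgroup G := 𝐎(𝐂[m.t])

/-- `K = [U, s]` -/
abbrev K : Subgroup G := ⁅𝐎(𝐂[m.t]), zpowers m.s⁆

variable [Finite G] {P X B : Subgroup G} {u v x y g : G} {p : ℕ}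

omit [Finite G] in
theorem UH : m.U ⊴ 𝐂[m.t] := piCoreOf_normalIn _ _

theorem dich (p : ℕ) : piCoreOf {p} m.U ≤ 𝐂[m.s] ∨ piCoreOf {p} m.U ⊓ 𝐂[m.s] = ⊥ :=
  or_iff_not_imp_left.2 (m.lemB2 (m.UH.piCoreOf _) (piCoreOf_piGrp _ _) (odd_card_of_le (odd_core _) (piCoreOf_le _ _)))

theorem cent_all (hB : B ⊴ 𝐂[m.t]) (h : B ≤ 𝐂[m.s]) (uH : u ∈ 𝐂[m.t]) (u2 : Inv2 u) (ut : u ≠ m.t) : B ≤ 𝐂[u] := by
  have := m.card_cent hB (m.conj u uH u2 ut)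
  rw [inf_eq_left.2 h] at this
  exact (eq_of_le_of_card_eq inf_le_left this.symm).ge.trans inf_le_right

/-- the product of two noncentral involutions centralizes `F(U)` -/
theorem mul_cent (uH : u ∈ 𝐂[m.t]) (u2 : Inv2 u) (ut : u ≠ m.t) (vH : v ∈ 𝐂[m.t]) (v2 : Inv2 v) (vt : v ≠ m.t) :
    u * v ∈ 𝐂(fittingOf m.U) := by
  refine mem_cent_iff_le_cent1.2 (fittingOf_le_of_forall_piCoreOf_le fun p _ _ x hx => ?_)
  have n := m.UH.piCoreOf {p}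
  have o := odd_card_of_le (odd_core _) (piCoreOf_le {p} m.U)
  rcases m.dich p with h | h
  · exact cent_mul (m.cent_all n h uH u2 ut hx) (m.cent_all n h vH v2 vt hx)
  · exact mem_cent1_iff.2 (comm_of_inv_inv (m.inv_all n o h uH u2 ut hx) (m.inv_all n o h vH v2 vt hx)).symm

/-- a 2-element centralizing `F(U)` centralizes `U` -/
theorem two_cent (hx : x ∈ 𝐂[m.t]) (x2 : PiElt {2} x) (h : x ∈ 𝐂(fittingOf m.U)) : x ∈ 𝐂(m.U) :=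
  zpowers_le.1 ((copAct_of_pi' (zpowers_le.2 (m.UH.2 hx)) (core_pi _) (piGrp_zpowers.2 x2) (.inl (solv_core _))).cents_of_cents_fitting
    (solv_core _) (zpowers_le.2 h))

theorem σU : m.σ ∈ 𝐂(m.U) := m.two_cent m.σH m.σ2 (by
  have := m.mul_cent m.sH m.s2 m.st m.nv_s.mul.mem m.nv_s.mul.inv m.nv_s.mul.ne
  rwa [← mul_assoc, m.s2.sq, one_mul] at this)

omit [Finite G] in
theorem KU : m.K ≤ m.U := comm_le_left (zpowers_le.2 (m.UH.2 m.sH))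

theorem conj_ne (hg : g ∈ 𝐂[m.t]) (ut : u ≠ m.t) : g * u * g⁻¹ ≠ m.t := fun e => ut (by
  calc u = g⁻¹ * (g * u * g⁻¹) * g := by group
    _ = _ := by rw [e, mem_cent1_iff.1 (inv_mem hg), inv_mul_cancel_right])

theorem K_cent : m.K ≤ 𝐂(fittingOf m.U) := comm_le_iff.2 fun x hx y hy => by
  rcases (mem_zpowers_sq m.s2.sq).1 hy with rfl | rfl
  · simp
  · rw [m.s2.inv]
    exact m.mul_cent (mul_mem (mul_mem (m.UH.1 hx) m.sH) (inv_mem (m.UH.1 hx))) (m.s2.conj x) (m.conj_ne (m.UH.1 hx) m.st)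
      m.sH m.s2 m.st

theorem KF : m.K ≤ fittingOf m.U := le_fittingOf_of_cents (solv_core _) m.KU m.K_cent

theorem K_abelian : IsMulCommutative m.K := abelian_iff.2 (m.K_cent.trans (cent_mono m.KF))

theorem K_odd : Odd (Nat.card m.K) := odd_card_of_le (odd_core _) m.KU

theorem K_fpf : m.K ⊓ 𝐂[m.s] = ⊥ := by
  have c := copAct_inv m.s2.sq (odd_core 𝐂[m.t]) (m.UH.2 m.sH)
  have := c.comm.comm_inf_cent_of_abelian m.K_abelian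
  rwa [c.comm_comm, cent_zpowers] at this

theorem inv_s (hx : x ∈ m.K) : m.s * x * m.s⁻¹ = x⁻¹ :=
  inv_of_fpf m.s2.sq ((comm_normalIn_sup _ _).2 (mem_sup_right (mem_zpowers _))) m.K_odd m.K_fpf hx

theorem mem_K (hx : x ∈ m.U) (h : m.s * x * m.s⁻¹ = x⁻¹) : x ∈ m.K :=
  mem_comm_of_inv (odd_of_mem (odd_core _) hx) h hx (mem_zpowers _)

/-- for `p ∣ |K|`: `O_p(U) ≤ K` -/
theorem pc_le (hp : p.Prime) (hd : p ∣ Nat.card m.K) : piCoreOf {p} m.U ≤ m.K ∧ piCoreOf {p} m.U ≠ ⊥ ∧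
    piCoreOf {p} m.U ⊓ 𝐂[m.s] = ⊥ := by
  obtain ⟨x, hx, xo⟩ := exists_orderOf_eq_prime hp hd
  have xP : x ∈ piCoreOf {p} m.U := piCoreOf_singleton_fittingOf p m.U ▸
    (mem_piCoreOf_of_nilpotent (fittingOf_nilpotent _) (m.KF hx)).2 (by rw [PiElt, xo]; exact (piNum_prime hp).2 rfl)
  have x1 : x ≠ 1 := fun e => hp.one_lt.ne (by rw [← xo, e, orderOf_one])
  have h := (m.dich p).resolve_left fun h => x1 (mem_bot.1 (m.K_fpf ▸ ⟨hx, h xP⟩))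
  exact ⟨fun y hy => m.mem_K (piCoreOf_le _ _ hy) (m.inv_all (m.UH.piCoreOf _)
    (odd_card_of_le (odd_core _) (piCoreOf_le _ _)) h m.sH m.s2 m.st hy), ne_bot_of_mem xP x1, h⟩

theorem mem_pc (hx : x ∈ m.K) (xp : PiElt {p} x) : x ∈ piCoreOf {p} m.U := piCoreOf_singleton_fittingOf p m.U ▸
  (mem_piCoreOf_of_nilpotent (fittingOf_nilpotent _) (m.KF hx)).2 xp

theorem KH : m.K ⊴ 𝐂[m.t] := ⟨m.KU.trans m.UH.1, fun g hg => mem_normalizer_of_cj_le (cj_le_iff'.2 fun x hx =>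
  mem_of_forall_constt_mem fun p hp hd => by
    rw [constt_conj]
    have hd' : p ∣ orderOf x := by rwa [show orderOf (g * x * g⁻¹) = orderOf x from (MulAut.conj g).orderOf_eq x] at hd
    exact (m.pc_le hp (hd'.trans (orderOf_dvd_card_of_mem hx))).1 (conj_mem_of_mem_normalizer ((m.UH.piCoreOf _).2 hg)
      (m.mem_pc (constt_mem _ hx) (constt_piElt _ _))))⟩

/-- every noncentral involution inverts `K` -/
theorem inv_K (uH : u ∈ 𝐂[m.t]) (u2 : Inv2 u) (ut : u ≠ m.t) (hx : x ∈ m.K) : u * x * u⁻¹ = x⁻¹ :=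
  m.inv_all m.KH m.K_odd m.K_fpf uH u2 ut hx

theorem K_eq (uH : u ∈ 𝐂[m.t]) (u2 : Inv2 u) (ut : u ≠ m.t) : ⁅m.U, zpowers u⁆ = m.K := by
  obtain ⟨g, hg, rfl⟩ := m.conj u uH u2 ut
  rw [← cj_zpowers, ← cj_eq_of_mem_normalizer (m.UH.2 hg), ← cj_commutator, cj_eq_of_mem_normalizer (m.KH.2 hg)]

theorem U_eq : m.K ⊔ (m.U ⊓ 𝐂[m.s]) = m.U := by
  have := (copAct_inv m.s2.sq (odd_core 𝐂[m.t]) (m.UH.2 m.sH)).comm_sup_cent
  rwa [cent_zpowers] at this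

theorem card_K : Nat.card m.K = (𝐂[m.s]).relIndex m.U := by
  have h1 := card_sup_of_disjoint (A := m.K) (B := m.U ⊓ 𝐂[m.s]) (.inl ((inf_le_left.trans m.UH.1).trans m.KH.2))
    (le_bot_iff.1 (m.K_fpf ▸ inf_le_inf_left _ inf_le_right))
  have h2 := card_inf_mul_relIndex 𝐂[m.s] m.U
  rw [m.U_eq, ← h2, inf_comm, mul_comm] at h1
  exact (Nat.eq_of_mul_eq_mul_right (card_pos' _) h1).symm

/-- W' for `p ∣ |K|` -/
theorem lemW (hp : p.Prime) (hd : p ∣ Nat.card m.K) (xH : x ∈ 𝐂[m.t]) (xp : PiElt {p} x) (uH : u ∈ 𝐂[m.t]) (u2 : Inv2 u)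
    (ut : u ≠ m.t) (ux : u ∈ 𝐍(zpowers x)) (hu : ∀ v ∈ 𝐂[x] ⊓ 𝐂[m.t], Inv2 v → v = m.t) : 𝐂[x] ≤ 𝐂[m.t] :=
  haveI := m.simple
  ABG.lemW m.coatom m.t2 u2 uH ut m.one (m.pc_le hp hd).2.1 (piCoreOf_piGrp _ _) (odd_card_of_le (odd_core _) (piCoreOf_le _ _))
    (m.UH.piCoreOf _) (fun _ h1 h2 h3 _ hy => m.inv_K h1 h2 h3 ((m.pc_le hp hd).1 hy)) xH xp ux hu

theorem uniq_H (hy : y ∈ m.K) (y1 : y ≠ 1) (hu : u ∈ 𝐂[y] ⊓ 𝐂[m.t]) (u2 : Inv2 u) : u = m.t := by_contra fun ut =>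
  y1 (eq_one_of_cent_inv (odd_of_mem m.K_odd hy) (mem_cent1_iff.1 hu.1) (m.inv_K hu.2 u2 ut hy))

theorem cent_K (hy : y ∈ m.K) (y1 : y ≠ 1) : 𝐂[y] ≤ 𝐂[m.t] := by
  obtain ⟨x, hx, xo⟩ := exists_prime_order_mem (ne_bot_of_mem (mem_zpowers y) y1)
  have xK := zpowers_le.2 hy hx
  have x1 : x ≠ 1 := fun e => xo.one_lt.ne (by rw [e, orderOf_one])
  refine (cent_zpowers y ▸ cent_le_cent1 hx : 𝐂[y] ≤ 𝐂[x]).trans (m.lemW xo (orderOf_dvd_card_of_mem xK) (m.KH.1 xK)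
    ((piNum_prime xo).2 rfl) m.sH m.s2 m.st (mem_normalizer_of_cj_le ?_) fun v hv v2 => m.uniq_H xK x1 hv v2)
  rw [cj_zpowers, m.inv_s xK, zpowers_inv]

/-- `t` is the only involution centralizing a nontrivial element of `K` -/
theorem uniq_K (hy : y ∈ m.K) (y1 : y ≠ 1) (hu : u ∈ 𝐂[y]) (u2 : Inv2 u) : u = m.t :=
  m.uniq_H hy y1 ⟨hu, m.cent_K hy y1 hu⟩ u2

theorem mem_of_conj (hy : y ∈ m.K) (y1 : y ≠ 1) (h : g * y * g⁻¹ ∈ 𝐂[m.t]) : g ∈ 𝐂[m.t] := by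
  have e := m.uniq_K hy y1 (u := g⁻¹ * m.t * g) (by
    have := mem_cent1_comm.1 h
    rwa [← cj_centralizer_singleton, mem_cj] at this) (by simpa using m.t2.conj g⁻¹)
  rw [mem_cent1_iff]
  calc g * m.t = g * (g⁻¹ * m.t * g) := by rw [e]
    _ = _ := by group

theorem norm_le (hX : X ≤ m.K) (X1 : X ≠ ⊥) : 𝐍(X) ≤ 𝐂[m.t] := fun g hg => by
  obtain ⟨y, hy, y1⟩ := exists_ne_one_mem' X1
  exact m.mem_of_conj (hX hy) y1 (m.KH.1 (hX (conj_mem_of_mem_normalizer hg hy)))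

/-- `C(t)` contains a Sylow `p`-subgroup of `G` for `p ∣ |K|` -/
theorem not_dvd (hp : p.Prime) (hd : p ∣ Nat.card m.K) : ¬ p ∣ (𝐂[m.t]).index := by
  obtain ⟨h1, h2, -⟩ := m.pc_le hp hd
  obtain ⟨y, hy, y1⟩ := exists_ne_one_mem' h2
  obtain ⟨Q, hQ, -, Qt⟩ := cnt_syl (Y := ⊤) (z := m.t) (le_inf le_top (h1.trans m.KH.1)) (piCoreOf_piGrp {p} m.U)
    fun g _ hc => m.uniq_K (h1 hy) y1 (cent_le_cent1 hy hc) (m.t2.conj g)
  exact fun e => hQ.not_dvd hp (by rw [relIndex_top_right]; exact e.trans (index_dvd_of_le Qt))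

theorem coprime : (Nat.card m.K).Coprime (𝐂[m.t]).index :=
  Nat.coprime_of_dvd fun _ hp hd => m.not_dvd hp hd

end CA.ABG.T1
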