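/-
Alperin–Brauer–Gorenstein theorem, `C(t)` maximal, semidihedral case: the hypotheses `T1` hold in a minimal counterexample.
-/
import Cfsg.Agent.Lib.ABG.P9
import Cfsg.Agent.Lib.ABG.KG
import Cfsg.Agent.Lib.ABG.Top
import Cfsg.Agent.Lib.ABG.T1e

set_option autoImplicit false
set_option linter.unusedSectionVars false

namespace CA.ABG

open Cfsg CA CA.FStar CA.GW Subgroup
open scoped MatrixGroups

universe u

namespace QT
variable {G : Type*} [Group G] [Finite G] {X Z : Subgroup G} {d a b : G} {F : Type} [Field F] [Fintype F] (h : QT F X Z)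

theorem Z_eq (hZ : Nat.card Z = 2) : Z = zpowers h.t :=
  (eq_of_le_of_card_ge (zpowers_le.2 h.neg) (by rw [hZ, h.neg2.card])).symm

include h in
theorem sq_Z (hZ : Nat.card Z = 2) (ha : a ∈ Z) : a * a = 1 := by
  rcases (mem_zpowers_sq h.neg2.sq).1 ((h.Z_eq hZ).le ha) with rfl | rfl
  exacts [one_mul _, h.neg2.sq]

theorem four_P (ha : a ∈ X) (a2 : a * a = h.t) : a ∈ h.P :=
  h.two_mem ha ((piElt_singleton_iff' Nat.prime_two).2 ⟨2, by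
    rw [show 2 ^ 2 = 2 * 2 from rfl, pow_mul, sq, sq, a2, h.neg2.sq]⟩)

theorem four_not (hZ : Nat.card Z = 2) (a2 : a * a = h.t) : a ∉ Z := fun e => h.neg2.ne (a2.symm.trans (h.sq_Z hZ e))

theorem φinv' (ha : a ∈ X) (a2 : a * a ∈ Z) (aZ : a ∉ Z) : Inv2 (pel h.Φ a) :=
  ⟨by rw [← pel_mul _ ha ha, h.φ1 (mul_mem ha ha)]; exact a2, mt (h.φ1 ha).1 aZ⟩

theorem conjZ (ha : a ∈ h.P) (hb : b ∈ h.P) (a2 : a * a ∈ Z) (b2 : b * b ∈ Z) (aZ : a ∉ Z) (bZ : b ∉ Z)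
    (ab : a * b ∈ h.L ⊔ Z) : ∃ g, h.ι g * a * (h.ι g)⁻¹ * b⁻¹ ∈ Z := by
  have aX := h.PX ha
  have bX := h.PX hb
  obtain ⟨g, hg⟩ := inv_conj h.odd (h.mP ha) (h.mP hb) (h.φinv' aX a2 aZ) (h.φinv' bX b2 bZ)
    (by rw [← pel_mul _ aX bX]; exact (h.φK (mul_mem aX bX)).2 ab)
  rw [← h.φι, ← pel_conj _ (h.mem g) aX, h.φeq (mul_mem (mul_mem (h.mem g) aX) (inv_mem (h.mem g))) bX] at hg
  exact ⟨g, hg⟩

theorem four_L (hd : Gen X Z d) (hZ : Nat.card Z = 2) (ha : a ∈ X) (a2 : a * a = h.t) : a ∈ h.L := by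
  rw [← sup_eq_left.2 (show Z ≤ h.L from (h.Z_eq hZ).le.trans (zpowers_le.2 ⟨_, rfl⟩))]
  by_contra e
  have d2 : d * d = 1 := (inv2_of_ord (hd.ord.trans hZ)).sq
  obtain ⟨g, hg⟩ := h.conjZ (h.four_P ha a2) (h.gen_P hd) (a2 ▸ h.neg) (d2 ▸ one_mem _) (h.four_not hZ a2)
    (fun e => h.gen_LZ hd (mem_sup_right e)) (h.mul_mem_LZ (h.four_P ha a2) (h.gen_P hd) e (h.gen_LZ hd))
  have h1 := h.sq_Z hZ hg
  have h2 := h.cen hg d hd.mem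
  have h3 : h.ι g * a * (h.ι g)⁻¹ * (h.ι g * a * (h.ι g)⁻¹) = h.t := by
    rw [conj_mul, a2, h.cen h.neg _ (h.mem g), mul_inv_cancel_right]
  generalize h.ι g * a * (h.ι g)⁻¹ = x at *
  refine h.neg2.ne (h3.symm.trans ?_)
  calc x * x = x * d⁻¹ * (d * (x * d⁻¹)) * d := by group
    _ = x * d⁻¹ * (x * d⁻¹) * (d * d) := by rw [h2]; group
    _ = 1 := by rw [h1, d2, one_mul]

/-- the elements of order four over the central involution are conjugate -/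
theorem conj4 (hd : Gen X Z d) (hZ : Nat.card Z = 2) (ha : a ∈ X) (hb : b ∈ X) (a2 : a * a = h.t) (b2 : b * b = h.t) :
    ∃ g ∈ X, g * a * g⁻¹ = b := by
  obtain ⟨g, hg⟩ := h.conjZ (h.four_P ha a2) (h.four_P hb b2) (a2 ▸ h.neg) (b2 ▸ h.neg) (h.four_not hZ a2)
    (h.four_not hZ b2) (mem_sup_left (mul_mem (h.four_L hd hZ ha a2) (h.four_L hd hZ hb b2)))
  rcases (mem_zpowers_sq h.neg2.sq).1 ((h.Z_eq hZ).le hg) with e | e
  · exact ⟨_, h.mem g, mul_inv_eq_one.1 e⟩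
  obtain ⟨T, τ, σ, n, t⟩ := torS h.odd (h.mP (h.four_P hb b2)) (h.φinv' hb (b2 ▸ h.neg) (h.four_not hZ b2))
  refine ⟨(h.ι σ)⁻¹ * h.ι g, mul_mem (inv_mem (h.mem σ)) (h.mem g), ?_⟩
  rw [show ∀ x y : G, x⁻¹ * y * a * (x⁻¹ * y)⁻¹ = x⁻¹ * (y * a * y⁻¹) * x from fun x y => by group,
    eq_mul_of_mul_inv_eq e, ← h.cen h.neg b hb, ← h.swap_of hb t.sσ]
  group

theorem L_not_solv (h4 : 4 ≤ Fintype.card F) : ¬ Group.IsSolvable h.L := fun hs => by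
  obtain ⟨a, a0, a1⟩ := Sp.exists_sq_ne_one_of_four_le (F := F) (by rwa [Nat.card_eq_fintype_card])
  have : Group.IsPerfect SL(2, F) := ⟨Matrix.SL2.commutator_eq_top a0 a1⟩
  have : Nontrivial SL(2, F) := ⟨⟨-1, 1, fun e => h.neg2.ne (by rw [e, map_one])⟩⟩
  exact Group.IsPerfect.not_isSolvable SL(2, F) (Group.isSolvable_of_isSolvable_injective (f := h.ι.rangeRestrict)
    fun a b e => h.inj (congrArg Subtype.val e))

end QT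

section
variable {G : Type*} [Group G] [Finite G] {t a b : G} {N : Subgroup G} {Z : Subgroup (Quo 𝐎(𝐂[t]))} {F : Type} [Field F]
  [Fintype F] (e : QE F (𝐂[t] /ₛ 𝐎(𝐂[t])) Z) (et : e.t = qel _ t) (hZ : Nat.card Z = 2)
include e et hZ

theorem QE.conj4 (t2 : Inv2 t) (a2 : a * a = t) (b2 : b * b = t) : ∃ g ∈ 𝐂[t], g * a * g⁻¹ = b := by
  have n := piCoreOf_norm {2}ᶜ 𝐂[t]
  have k : ∀ {a : G}, a * a = t → a ∈ 𝐂[t] ∧ PiElt {2} a := fun {a} a2 => ⟨mem_cent1_iff.2 (by rw [← a2]; group),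
    (piElt_singleton_iff' Nat.prime_two).2 ⟨2, by rw [show 2 ^ 2 = 2 * 2 from rfl, pow_mul, sq, sq, a2, t2.sq]⟩⟩
  have ha := (k a2).1
  have hb := (k b2).1
  obtain ⟨g, hg', e1⟩ := e.toQT.conj4 e.gen hZ (qel_mem_quo _ ha) (qel_mem_quo _ hb)
    (by rw [← pel_mul _ (n ha) (n ha), a2]; exact et.symm) (by rw [← pel_mul _ (n hb) (n hb), b2]; exact et.symm)
  obtain ⟨g, hg, rfl⟩ := (mem_quo n).1 hg'
  have m := mul_mem (mul_mem hg ha) (inv_mem hg)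
  rw [← pel_conj _ (n hg) (n ha)] at e1
  obtain ⟨o, ho, e2⟩ := conj2 (odd_core 𝐂[t]) (n m) (piElt_conj.2 (k a2).2) (k b2).2 ((qel_eq_iff' (n m) (n hb)).1 e1)
  exact ⟨o * g, mul_mem (piCoreOf_le _ _ ho) hg, by rw [← e2]; group⟩

theorem QE.not_solv (h4 : 4 ≤ Fintype.card F) (a2 : a * a = t) (hN : N ⊴ 𝐂[t]) (aN : a ∈ N) : ¬ Group.IsSolvable N :=
  fun hs => by
  have n := piCoreOf_norm {2}ᶜ 𝐂[t]
  have ha := hN.le aN
  have e2 : qel 𝐎(𝐂[t]) a * qel 𝐎(𝐂[t]) a = e.t := by rw [← pel_mul _ (n ha) (n ha), a2]; exact et.symm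
  have := e.L_le_of h4 (hN.quo _) (e.four_L e.gen hZ (qel_mem_quo _ ha) e2) (qel_mem_quo _ aN) (e.four_not hZ e2)
  exact e.L_not_solv h4 (solvable_of_le (solvable_pmap hs _) this)

end

theorem Min.mkT1 {G : Type u} [Group G] [Finite G] (m : Min G) (hH : IsCoatom 𝐂[m.t]) (w : SW m.S m.t)
    (hA : w.A = zpowers w.x) (hz : w.z = m.t) {Z : Subgroup (Quo 𝐎(𝐂[m.t]))} {F : Type} [Field F] [Fintype F]
    (e : QE F (𝐂[m.t] /ₛ 𝐎(𝐂[m.t])) Z) (et : e.t = qel _ m.t) (h4 : 4 ≤ Fintype.card F) : ∃ T : T1 G, T.t = m.t := by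
  have hZ := e.card_two (m.syl.of_le m.S_le le_top) m.qd w hz
  obtain ⟨k, hk⟩ := w.td
  have σσ : w.d ^ k * w.d ^ k = m.t := by rw [← (Commute.refl w.d).mul_zpow]; exact hk
  have yσ : w.y * w.d ^ k * w.y⁻¹ = (w.d ^ k)⁻¹ := by rw [← _root_.conj_zpow, w.yd, inv_zpow]
  have σA : w.d ^ k ∈ w.A := zpow_mem w.dA k
  generalize w.d ^ k = σ at σσ yσ σA
  have σs : σ * w.y * σ⁻¹ = w.y * m.t :=
    calc σ * w.y * σ⁻¹ = w.y * w.y * σ * w.y⁻¹ * σ⁻¹ := by rw [w.y2, one_mul, w.yinv]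
      _ = w.y * (w.y * σ * w.y⁻¹) * σ⁻¹ := by group
      _ = w.y * (σ * σ)⁻¹ := by rw [yσ]; group
      _ = w.y * m.t := by rw [σσ, m.inv.inv]
  have ee := w.r_sq.trans hz
  have eσ : w.x * w.y * σ * (w.x * w.y)⁻¹ = σ⁻¹ := by
    rw [show w.x * w.y * σ * (w.x * w.y)⁻¹ = w.x * (w.y * σ * w.y⁻¹) * w.x⁻¹ by group, yσ, w.cj_in w.xA (inv_mem σA)]
  have d : D8 m.t w.y σ := ⟨m.inv, w.y_inv2, σσ, σs⟩
  refine ⟨⟨m.t, w.y, σ, w.x * w.y, m.simple, hH, m.inv, w.y_inv2, σσ, σs, ee, eσ, fun u u2 => m.one _ _ m.inv u2,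
    fun u hu u2 ut => ?_, e.conj4 et hZ m.inv σσ ee, e.conj4 et hZ m.inv σσ ?_,
    fun N hN h => e.not_solv et hZ h4 σσ hN h, m.kg d w hA hz⟩, rfl⟩
  · obtain ⟨g, hg, k⟩ := m.qdt.conj_cent trivial m.inv ⟨trivial, m.S_le w.yS⟩ ⟨trivial, hu⟩ w.y_inv2 u2 d.ne ut
    exact ⟨g, hg.2, k⟩
  · calc _ = σ * (w.x * w.y * σ * (w.x * w.y)⁻¹) * (w.x * w.y * (w.x * w.y)) := by group
      _ = _ := by rw [eσ, ee, mul_inv_cancel, one_mul]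

/-- `C(t)` maximal, semidihedral case: reduction to `T1` with `q ≠ 3, 9` -/
theorem Min.coatom_SD {G : Type u} [Group G] [Finite G] (m : Min G) (hH : IsCoatom 𝐂[m.t]) (w : SW m.S m.t)
    (hA : w.A = zpowers w.x) (hz : w.z = m.t)
    (H : ∀ (T : T1 G) (Z : Subgroup (Quo 𝐎(𝐂[T.t]))) (F : Type) [Field F] [Fintype F]
      (e : QE F (𝐂[T.t] /ₛ 𝐎(𝐂[T.t])) Z), e.t = qel _ T.t → Nat.card Z = 2 → 4 ≤ Fintype.card F → Fintype.card F ≠ 9 →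
      T.K ≠ ⊥ → False) : False := by
  obtain ⟨Z, F, _, _, e, et⟩ := m.qdt.qe' m.inv le_top
  have hS : SylowIn 2 m.S 𝐂[m.t] := m.syl.of_le m.S_le le_top
  obtain ⟨p, hp, -, h1, h2⟩ := m.kill hH
  have yt : w.y ≠ m.t := fun e => w.yA (by rw [e]; exact w.tA)
  have k : ¬ (𝐂[w.y]).relIndex 𝐎(𝐂[m.t]) ^ 2 ∣ (𝐂[m.t]).index := fun k =>
    h1 (((h2 _ (m.S_le w.yS) w.y_inv2 yt).2.trans (dvd_pow_self _ two_ne_zero)).trans k)
  have q3 : Fintype.card F ≠ 3 := fun q => k (e.kill3 m.qdt w hS m.qd hz et q (m.S_le w.yS) w.y_inv2 yt)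
  have q9 : Fintype.card F ≠ 9 := fun q => k (e.kill9 m.qdt w hS m.qd hz et q (m.S_le w.yS) w.y_inv2 yt)
  have h4 : 4 ≤ Fintype.card F := by
    have : 1 < Fintype.card F := Fintype.one_lt_card
    obtain ⟨j, hj⟩ := e.odd
    omega
  obtain ⟨T, hT⟩ := m.mkT1 hH w hA hz e et h4
  have key : ∀ t, T.t = t → ∀ (Z : Subgroup (Quo 𝐎(𝐂[t]))) (e : QE F (𝐂[t] /ₛ 𝐎(𝐂[t])) Z), e.t = qel _ t →
      Nat.card Z = 2 → T.K ≠ ⊥ → False := by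
    rintro _ rfl Z e a b
    exact H T Z F e a b h4 q9
  refine key _ hT Z e et (e.card_two hS m.qd w hz) fun e => ?_
  have := (h2 T.s (hT ▸ T.sH) T.s2 (hT ▸ T.st)).2
  rw [← hT, ← T.card_K, e, card_bot, Nat.dvd_one] at this
  exact hp.ne_one this

end CA.ABG
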