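/-
Alperin–Brauer–Gorenstein theorem: the Borel subgroup `5 : 8` of the centralizer of an involution for `q = 5`.
-/
import Cfsg.Agent.Lib.ABG.T1m
import Cfsg.Agent.Lib.ABG.LA

set_option autoImplicit false
set_option linter.unusedSectionVars false

namespace CA.ABG

open Cfsg CA CA.FStar CA.GW Matrix.SpecialLinearGroup CA.SL2 CA.Br Subgroup
open scoped MatrixGroups

variable {G : Type*} [Group G] [Finite G] {F : Type} [Field F] [Fintype F]

theorem QE.bor5 {X Z : Subgroup G} (h : QE F X Z) (hZ : Nat.card Z = 2) (h5 : Fintype.card F = 5) :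
    ∃ x ∈ X, ∃ u ∈ X, x ^ 4 = h.t ∧ x ∈ 𝐍(zpowers u) ∧ u ^ 5 = 1 ∧ ∀ N, N ⊴ X → u ∈ N → h.t ∈ N := by
  have c5 : (5 : F) = 0 := by simpa [h5] using FiniteField.cast_card_eq_zero F
  have c2 : (2 : F) ≠ 0 := fun e => one_ne_zero (α := F) (by linear_combination c5 - 2 * e)
  obtain ⟨x, hx, e⟩ := (h.gen_full h.gen).ex (dg (Units.mk0 2 c2, 1))
  have xX := h.PX hx
  have ad : ∀ a b : F, up (a + b) = up a * up b := fun a b => transvection_add _ a b
  refine ⟨x, xX, h.ι (up 1), h.mem _, ?_, mem_normalizer_of_cj_le ?_, ?_, fun N hN hu => ?_⟩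
  · let g : SL(2, F) := mk2 2 0 0 3 (by linear_combination c5)
    have k : x * x * (h.ι g)⁻¹ ∈ Z := (h.φeq (mul_mem xX xX) (h.mem g)).1 (by
      rw [pel_mul _ xX xX, e, h.φι, ← map_mul, ← piH_toGL]
      exact piH_eq.2 ⟨Units.mk0 2 c2, ext2 (by simp [mul_ent, toGL_ent, g]) (by simp [mul_ent, toGL_ent, g])
        (by simp [mul_ent, toGL_ent, g]) (by simp [mul_ent, toGL_ent, g]; linear_combination -c5)⟩)
    have gg : g * g = -1 := sext (by simp [mul_apply', g]; linear_combination c5) (by simp [mul_apply', g])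
      (by simp [mul_apply', g]) (by simp [mul_apply', g]; linear_combination 2 * c5)
    have z2 := h.sq_Z hZ k
    have zc := mem_cent_iff.1 (h.cen k) _ (h.mem g)
    obtain ⟨z, hz⟩ : ∃ z, x * x = z * h.ι g := ⟨x * x * (h.ι g)⁻¹, by group⟩
    rw [hz, mul_inv_cancel_right] at z2 zc
    rw [show x ^ 4 = x * x * (x * x) by simp only [pow_succ, pow_zero, one_mul, mul_assoc], hz, mul_assoc, ← mul_assoc _ z, zc,
      ← mul_assoc, ← mul_assoc, z2, one_mul, ← map_mul, gg]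
  · rw [cj_zpowers, zpowers_le, h.act x xX, e]
    obtain ⟨e0, e1, e2, e3⟩ := dg_ent (Units.mk0 (2 : F) c2) (up 1)
    rw [eq_up_of ((mul_eq_zero.1 (e2.trans (up_10 _))).resolve_left c2) (e3.trans (up_11 _)), e1, up_01, mul_one,
      Units.val_mk0, show up (2 : F) = up 1 * up 1 by rw [← ad, one_add_one_eq_two], map_mul]
    exact mul_mem (mem_zpowers _) (mem_zpowers _)
  · rw [← map_pow, show up (1 : F) ^ 5 = up (1 + 1 + 1 + 1 + 1) by simp only [ad, pow_succ, pow_zero, one_mul],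
      show (1 + 1 + 1 + 1 + 1 : F) = 0 by linear_combination c5, show up (0 : F) = 1 from transvection_coeff_zero _, map_one]
  · have hv : h.ι (lo (-1)) ∈ N := by
      rw [← wS_up, piH_toGL, MulAut.conj_apply, map_mul, map_mul, map_inv]
      exact conj_mem_of_mem_normalizer (hN.norm (h.mem _)) hu
    have : (-1 : SL(2, F)) = up 1 * lo (-1) * up 1 * (up 1 * lo (-1) * up 1) :=
      sext (by simp [mul_apply', up_00, up_01, up_10, up_11, lo_00, lo_01, lo_10, lo_11])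
        (by simp [mul_apply', up_00, up_01, up_10, up_11, lo_00, lo_01, lo_10, lo_11])
        (by simp [mul_apply', up_00, up_01, up_10, up_11, lo_00, lo_01, lo_10, lo_11])
        (by simp [mul_apply', up_00, up_01, up_10, up_11, lo_00, lo_01, lo_10, lo_11])
    rw [QT.t, this]
    simp only [map_mul]
    exact mul_mem (mul_mem (mul_mem hu hv) hu) (mul_mem (mul_mem hu hv) hu)

theorem QE.borel5 {t : G} {Z : Subgroup (Quo 𝐎(𝐂[t]))} (e : QE F (𝐂[t] /ₛ 𝐎(𝐂[t])) Z) (et : e.t = qel _ t) (t2 : Inv2 t)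
    (hZ : Nat.card Z = 2) (h5 : Fintype.card F = 5) : ∃ P ≤ 𝐂[t], ∃ σ ∈ 𝐂[t], σ ∈ 𝐍(P) ∧ PiGrp {5} P ∧ σ ^ 4 = t ∧
      ∀ N, N ⊴ 𝐂[t] → P ≤ N → t ∈ N := by
  obtain ⟨x, hx, u, hu, x4, xu, u5, H⟩ := e.bor5 hZ h5
  have hO := piCoreOf_normalIn {2}ᶜ 𝐂[t]
  have tH := self_mem_cent1 t
  have key : ∀ s ∈ 𝐂[t], PiElt {2} s → qel 𝐎(𝐂[t]) s = qel _ t → s = t := fun s hs s2 k => by
    have c := mem_cent1_iff.1 hs
    have o := (qel_eq_iff' (hO.norm hs) (hO.norm tH)).1 k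
    exact eq_of_mul_inv_eq_one ((s2.mul (two_of_sq t2.sq).inv (by rw [t2.inv]; exact c)).eq_one ((core_pi _).piElt o))
  have x2 : PiElt {2} x := by
    have : x ^ 2 ^ 3 = 1 := by rw [show 2 ^ 3 = 4 + 4 by norm_num, pow_add, x4, e.neg2.sq]
    exact (piElt_singleton_iff' Nat.prime_two).2 ⟨3, this⟩
  obtain ⟨σ, hσ, σ2, rfl⟩ := exists_piElt_pel hO.norm hx x2
  have U5 : PiGrp {5} (zpowers u) := piGrp_zpowers.2 ((piElt_singleton_iff' (by norm_num)).2 ⟨1, by rwa [pow_one]⟩)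
  have RH : coq _ (zpowers u) ≤ 𝐂[t] := coq_le_of_le_quo hO.le (zpowers_le.2 hu)
  have σR : zpowers σ ≤ 𝐍(coq _ (zpowers u)) := norms_coq (zpowers_le.2 (hO.norm hσ)) (by
    rw [quo_zpowers (hO.norm hσ)]; exact zpowers_le.2 xu)
  obtain ⟨P, hP, nP⟩ := (copAct_p_right σR (piGrp_coq (core_pi _) (U5.mono (by simp))) (piGrp_zpowers.2 σ2)).exists_sylowIn 5
  have PH := hP.le.trans RH
  have uP : u ∈ P /ₛ 𝐎(𝐂[t]) := by
    have := hP.quo (PH.trans hO.norm)
    rw [quo_coq] at this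
    exact (this.eq_self U5).ge (mem_zpowers u)
  refine ⟨P, PH, σ, hσ, nP (mem_zpowers σ), hP.piGrp, key _ (pow_mem hσ 4) (σ2.pow 4) (by
    rw [← et, ← x4, pel_pow _ (hO.norm hσ)]), fun N hN PN => ?_⟩
  obtain ⟨s, hs, s2, k⟩ := exists_piElt_pel (hN.le.trans hO.norm) (H _ (hN.quo _) (quo_mono _ PN uP)) (two_of_sq e.neg2.sq)
  exact key s (hN.le hs) s2 (k.trans et) ▸ hs

end CA.ABG
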