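/-
Alperin–Brauer–Gorenstein theorem: the part of a character which is trivial on a normal subgroup.
-/
import Cfsg.Agent.Lib.ABG.PSD
import Cfsg.Agent.Lib.ABG.MkPS

set_option autoImplicit false
set_option linter.unusedSectionVars false

namespace CA.ABG

open Cfsg Subgroup CA CA.Ch

variable {G : Type*} [Group G] [Finite G] {N N' A B P X : Subgroup G} {χ η : G → ℂ} {g : G}

/-- the average over a coset -/
noncomputable def avg (N : Subgroup G) (χ : G → ℂ) (g : G) : ℂ := ⟪fun n : N => χ (g * n), 1⟫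

theorem avg_add (a b : G → ℂ) : avg N (a + b) = avg N a + avg N b := funext fun _ => ip_add_left _ _ _

theorem avg_zero : avg N (0 : G → ℂ) = 0 := funext fun _ => ip_zero_left _

theorem avg_const {c : ℂ} (h : ∀ n ∈ N, χ (g * n) = c) : avg N χ g = c := by
  rw [avg, show (fun n : N => χ (g * n)) = c • (1 : N → ℂ) from funext fun n => by simp [h n n.2], ip_smul_left, ip_one_one,
    mul_one]

theorem avg_congr {ψ : G → ℂ} {g' : G} (h : ∀ n ∈ N, χ (g * n) = ψ (g' * n)) : avg N χ g = avg N ψ g' :=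
  congrArg (⟪·, 1⟫) (funext fun n => h n n.2)

theorem avg_bot : avg ⊥ χ = χ := funext fun g => avg_const fun n hn => by rw [mem_bot.1 hn, mul_one]

theorem avg_mul {n : G} (hn : n ∈ N) : avg N χ (g * n) = avg N χ g := by
  rw [avg, avg, ← ip_comp_equiv (Equiv.mulLeft (⟨n, hn⟩ : N)) (fun n : N => χ (g * n))]
  exact congrArg (⟪·, 1⟫) (funext fun m => by simp [mul_assoc])

theorem avg_avg (h : N' ≤ N) : avg N (avg N' χ) g = avg N χ g := by
  have := Fintype.ofFinite N
  have := Fintype.ofFinite N'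
  have e : ∀ n' : N', ∑ n : N, χ (g * n * n') = ∑ n : N, χ (g * n) := fun n' =>
    Fintype.sum_equiv (Equiv.mulRight (⟨n', h n'.2⟩ : N)) _ _ fun n => by simp [mul_assoc]
  simp only [avg, ip_one_right, ← Finset.mul_sum]
  rw [Finset.sum_comm, Finset.sum_congr rfl fun n' _ => e n', Finset.sum_const, Finset.card_univ, nsmul_eq_mul,
    ← Nat.card_eq_fintype_card, inv_mul_cancel_left₀ (Ch.card_ne_zero' _)]

theorem avg_ker (h : IsCF η) (hk : N ≤ cfker η) : avg N η = η :=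
  funext fun g => avg_const fun _ hn => h.mul_right_of_mem (hk hn) g

theorem avg_nker [N.Normal] (h : IsIrr η) (hk : ¬ N ≤ cfker η) : avg N η = 0 := by
  classical
  have := Fintype.ofFinite G
  obtain ⟨c, hc⟩ := h.central (f := fun g => if g ∈ N then 1 else 0) (isCF_iff.2 fun g x => by
    simp only [Normal.mem_comm_iff ‹_› (a := x * g), inv_mul_cancel_left])
  have e : ∀ y, avg N η y = (Nat.card N : ℂ)⁻¹ * (c * η y) := fun y => by
    rw [avg, ip_one_right, ← hc]
    simp only [ite_mul, one_mul, zero_mul, ← Finset.sum_filter, h.isCF.comm y]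
    exact congrArg _ (Finset.sum_subtype _ (by simp) fun n => η (n * y)).symm
  have e0 : avg N η 1 = 0 := by_contra fun e1 => hk (by
    simpa using range_le_cfker_of_ip_one N.subtype h (by simpa [avg, Function.comp_def] using e1))
  rw [e, mul_eq_zero, mul_eq_zero, inv_eq_zero] at e0
  funext y
  rw [e, (e0.resolve_left (Ch.card_ne_zero' _)).resolve_right h.ne_zero_one]
  simp

theorem avg_sub (h : N ≤ X) (x : X) : avg (N.subgroupOf X) (χ ∘ X.subtype) x = avg N χ x := by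
  rw [avg, avg, ← ip_comp_equiv (subgroupOfEquivOfLe h).toEquiv (fun n : N => χ (x * n))]; rfl

theorem avg_char (hχ : IsChar χ) (hN : N ⊴ X) : IsChar fun x : X => avg N χ x := by
  have := hN.normal_subgroupOf
  rw [← funext (avg_sub hN.le)]
  refine (hχ.comp X.subtype).induction (P := fun φ => IsChar (avg (N.subgroupOf X) φ)) (by rw [avg_zero]; exact isChar_zero)
    (fun η hη => ?_) fun a b _ _ ha hb => avg_add a b ▸ ha.add hb
  by_cases e : N.subgroupOf X ≤ cfker η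
  · rw [avg_ker hη.isCF e]; exact hη.isChar
  · rw [avg_nker hη e]; exact isChar_zero

/-- the constituents of `χ` on `X` whose kernel contains `N'` but not `N` -/
theorem avg_ind (hχ : IsChar χ) (h : N' ≤ N) (hN' : N' ⊴ X) (hN : N ⊴ X) {Q : (X → ℂ) → Prop} (h0 : Q 0)
    (ha : ∀ a b, Q a → Q b → Q (a + b))
    (hi : ∀ η, IsIrr η → N'.subgroupOf X ≤ cfker η → ¬ N.subgroupOf X ≤ cfker η → Q η) :
    Q fun x : X => avg N' χ x - avg N χ x := by
  have := hN.normal_subgroupOf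
  have := hN'.normal_subgroupOf
  simp only [← avg_sub hN.le, ← avg_sub hN'.le]
  refine (hχ.comp X.subtype).induction (P := fun φ => Q (avg (N'.subgroupOf X) φ - avg (N.subgroupOf X) φ))
    (by simpa [avg_zero] using h0) (fun η hη => ?_) fun a b _ _ h1 h2 => by
      rw [avg_add, avg_add, add_sub_add_comm]; exact ha _ _ h1 h2
  by_cases e : N.subgroupOf X ≤ cfker η
  · rw [avg_ker hη.isCF e, avg_ker hη.isCF ((subgroupOf_mono _ h).trans e), sub_self]; exact h0
  rw [avg_nker hη e, sub_zero]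
  by_cases e' : N'.subgroupOf X ≤ cfker η
  · rw [avg_ker hη.isCF e']; exact hi η hη e' e
  · rw [avg_nker hη e']; exact h0

theorem avg_diff (hχ : IsChar χ) (h : N' ≤ N) (hN' : N' ⊴ X) (hN : N ⊴ X) :
    IsChar fun x : X => avg N' χ x - avg N χ x :=
  avg_ind hχ h hN' hN isChar_zero (fun _ _ => IsChar.add) fun _ h _ _ => h.isChar

theorem avg_dvd (hχ : IsChar χ) (h : N' ≤ N) (hN' : N' ⊴ X) (hN : N ⊴ X) {p : ℕ}
    (hi : ∀ η : X → ℂ, IsIrr η → N'.subgroupOf X ≤ cfker η → ¬ N.subgroupOf X ≤ cfker η → ∃ n : ℕ, η 1 = p * n) :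
    ∃ n : ℕ, avg N' χ 1 - avg N χ 1 = p * n :=
  avg_ind hχ h hN' hN (Q := fun φ => ∃ n : ℕ, φ 1 = p * n) ⟨0, by simp⟩
    (fun a b ⟨m, hm⟩ ⟨n, hn⟩ => ⟨m + n, by simp [hm, hn, mul_add]⟩) hi

theorem comm_sub (h : N ≤ ⁅A, A⁆) : N.subgroupOf A ≤ _root_.commutator A := fun x hx => by
  have := h hx
  rw [← map_subtype_commutator] at this
  obtain ⟨y, hy, e⟩ := this
  exact Subtype.ext e ▸ hy

/-- the non-linear constituents on a `p`-group -/
theorem avg_dvd_p (hχ : IsChar χ) {p : ℕ} (hp : p.Prime) (hA : PiGrp {p} A) (hN : N ⊴ A) (h : N ≤ ⁅A, A⁆) :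
    ∃ n : ℕ, χ 1 - avg N χ 1 = p * n := by
  have := avg_dvd hχ bot_le ⟨bot_le, by simp⟩ hN (p := p) fun η hη _ e => by
    obtain ⟨k, hk⟩ := hη.exists_pow_of_pGroup hp (hA.isPGroup hp)
    rcases k with _ | k
    · obtain ⟨l, rfl⟩ := hη.isChar.exists_lin (by simpa using hk)
      exact absurd ((comm_sub h).trans (commutator_le_cfker_lin l)) e
    · exact ⟨p ^ k, by rw [hk]; push_cast; ring⟩
  rwa [avg_bot] at this

/-- the linear constituents which are not fixed by a `p`-group -/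
theorem avg_dvd_q (hχ : IsChar χ) {p : ℕ} (hp : p.Prime) (hP : PiGrp {p} P) (hn : P ≤ 𝐍(A)) (hN : N ⊴ A ⊔ P)
    (h : ⁅A, A⁆ ≤ N) (hB : N ⊔ ⁅A, P⁆ ⊴ A ⊔ P) : ∃ n : ℕ, avg N χ 1 - avg (N ⊔ ⁅A, P⁆) χ 1 = p * n := by
  refine avg_dvd hχ le_sup_left hN hB fun η hη e1 e2 => ?_
  have hA : A ⊴ A ⊔ P := ⟨le_sup_left, sup_le le_normalizer hn⟩
  have := Fact.mk hp
  have := nEmb_inclusion hA.le fun b hb a ha => conj_mem_of_mem_normalizer (hA.2 hb) ha
  have c := hη.isChar.comp (inclusion hA.le)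
  obtain ⟨θ, hθ, h0⟩ := c.exists_irr (by simpa using hη.ne_zero_one)
  obtain ⟨m, hm⟩ := c.ip_irr_nat hθ
  obtain ⟨l, rfl⟩ := hθ.exists_lin_of_commutator (fun x hx => c.cfker_le_constt hθ h0 (comap_cfker_le _ _ (e1 (h (by
    rw [← map_subtype_commutator]; exact ⟨x, hx, rfl⟩)))))
  have d : (inertia (inclusion hA.le) (lin l)).index ∣ Nat.card P := by
    refine (index_dvd_of_le (range_le_inertia _ hθ.isCF)).trans ?_
    rw [inclusion_range, ← relIndex, relIndex_sup_of_norm hn]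
    exact relIndex_dvd_card _ _
  obtain ⟨k, hk⟩ := (Nat.dvd_prime_pow hp).1 (d.trans (hP.isPGroup hp).exists_card_eq.choose_spec.dvd)
  rcases k with _ | k
  · rw [pow_zero, index_eq_one] at hk
    refine absurd (fun x hx => ?_) e2
    have inv : ∀ g, cfj (inclusion hA.le) g (lin l) = lin l := fun g => (mem_inertia _).1 (hk.2.ge (mem_top g))
    suffices k : N ⊔ ⁅A, P⁆ ≤ (cfker η).map (A ⊔ P).subtype by
      obtain ⟨y, hy, e⟩ := k hx
      exact Subtype.ext e ▸ hy
    refine sup_le (fun y hy => ⟨⟨y, hN.le hy⟩, e1 hy, rfl⟩) (commutator_le.2 fun a ha b hb => ?_)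
    have m1 := conj_mem_of_mem_normalizer (hn hb) (inv_mem ha)
    have e := congrFun (clifford_invariant _ hη hθ inv h0)
    refine ⟨inclusion hA.le (⟨a, ha⟩ * ⟨_, m1⟩), hη.mem_cfker.2 ?_, by simp [commutatorElement_def, mul_assoc]⟩
    have e3 := congrFun (inv ⟨b, mem_sup_right hb⟩) ⟨a, ha⟩⁻¹
    rw [cfj_of_eq _ _ (h' := ⟨_, m1⟩) rfl] at e3
    have e4 := e 1
    rw [Function.comp_apply, map_one] at e4
    refine (e _).trans ?_
    rw [e4]
    simp only [lin_apply, Units.val_inj] at e3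
    rw [Pi.smul_apply, Pi.smul_apply, lin_apply, lin_apply, map_mul, e3, ← map_mul, mul_inv_cancel]
  · exact ⟨m * p ^ k, by rw [clifford_one _ hη hθ h0, hm, hk.2]; simp; ring⟩

theorem avg_conj (hχ : IsCF χ) {x : G} (hx : x ∈ 𝐍(N)) : avg N χ (x * g * x⁻¹) = avg N χ g := by
  rw [avg, avg, ← ip_comp_equiv (N.normalizerMonoidHom ⟨x, hx⟩).toEquiv fun n : N => χ (x * g * x⁻¹ * n)]
  exact congrArg (⟪·, 1⟫) (funext fun n => (congrArg χ (by simp [mul_assoc])).trans (hχ.conj (g * n) x))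

theorem conj_cent (ho : Odd (Nat.card N)) (hg : g ∈ 𝐍(N)) (g2 : PiElt {2} g) {n : G} (hn : n ∈ N) :
    ∃ k ∈ N, ∃ c ∈ N ⊓ 𝐂[g], k * (g * n) * k⁻¹ = g * c := by
  have m := mul_mem hg (le_normalizer hn)
  have e : qel N (g * n) = qel N g := by rw [pel_mul _ hg (le_normalizer hn), qel_eq_one hn, mul_one]
  have q2 : PiElt {2} (qel N g) := g2.qel _
  obtain ⟨k, hk, e1⟩ := conj2 ho (constt_mem {2} m) (constt_piElt _ _) g2 ((qel_eq_iff' (constt_mem _ m) hg).1
    (by rw [pel_constt _ _ m, e, constt_eq_self q2]))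
  have c : constt {2}ᶜ (g * n) ∈ N := (qel_eq_one_iff (constt_mem _ m)).1
    (by rw [pel_constt _ _ m, e, constt_eq_one (by rwa [compl_compl])])
  refine ⟨k, hk, k * constt {2}ᶜ (g * n) * k⁻¹, ⟨N.mul_mem (N.mul_mem hk c) (N.inv_mem hk), mem_cent1_iff.2 ?_⟩, ?_⟩
  · have := constt_comm {2} {2}ᶜ (g * n)
    generalize constt {2}ᶜ (g * n) = v at *
    rw [← e1, conj_mul, conj_mul, this]
  · have := constt_mul_compl {2} (g * n)
    generalize constt {2}ᶜ (g * n) = v at *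
    generalize constt {2} (g * n) = u at *
    rw [← this, ← e1, conj_mul]

end CA.ABG
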