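/-
Alperin–Brauer–Gorenstein, semidihedral case: a small character for `q = 5`.
-/
import Cfsg.Agent.Lib.ABG.P2S

set_option autoImplicit false
set_option linter.unusedSectionVars false

namespace CA.ABG

open Cfsg Subgroup CA CA.FStar CA.GW CA.Ch CA.Br CA.ABG.HO
open CA.Br.OmB (zp_conj zp_mul_odd not_odd_of_inv)
open scoped ComplexOrder

theorem Ar.five {N k s y : ℤ} (hN : Odd N) (hk : Odd k) (E1 : N * (s + 5) ^ 2 = k ^ 2 * 480 * (s * (s - 1)))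
    (E2 : s * y = 25 * (y + s - 1)) : s = 35 ∨ s = 19 ∨ y = 21 := by
  obtain ⟨a, rfl⟩ := hN
  have h2 : s - 25 ∣ 600 := ⟨y - 25, by linarith⟩
  obtain ⟨h4, h5⟩ := abs_le.1 (Int.le_of_dvd (by norm_num) ((abs_dvd _ _).2 h2))
  obtain ⟨c, hc⟩ := Int.even_mul_pred_self s
  have h0 : (8 : ℤ) ^ 2 ∣ (2 * a + 1) * (s + 5) ^ 2 := ⟨k ^ 2 * 15 * c, by rw [E1, hc]; ring⟩
  have cop : ∀ a : ℤ, IsCoprime (2 : ℤ) (2 * a + 1) := fun a => ⟨-a, 1, by ring⟩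
  obtain ⟨j, hj⟩ := (Int.pow_dvd_pow_iff two_ne_zero).1 ((show IsCoprime ((8 : ℤ) ^ 2) (2 * a + 1) from
    (cop a).pow_left (m := 6)).dvd_of_dvd_mul_left h0)
  obtain rfl : s = 8 * j - 5 := by omega
  obtain ⟨K, hK⟩ : Odd (k ^ 2) := hk.pow
  rw [hK] at E1
  have h6 : -72 ≤ j := by omega
  have h7 : j ≤ 79 := by omega
  clear h0 h4 h5 hc hj
  interval_cases j <;> first | (exfalso; revert h2; decide) | (clear h2; omega)

variable {G : Type*} [Group G] [Finite G]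

namespace PS

variable {E : Type*} [Group E] [Finite E] {P : PS G E} {χ : G → ℂ}

theorem resB (hB : P.pom1.InB χ) : ∃ g : P.S.H → ℂ, Blk.pi0 2 g = g ∧ (∀ f, ⟪χ, P.J 1 f⟫ = ⟪g, f⟫) ∧
    ∀ x : P.H1, P.τ ∈ zpowers (x : G) → χ x = g (P.π x) := by
  classical
  have k : ∀ {χ : G → ℂ}, χ ∈ P.pom1.B → ∃ g : P.S.H → ℂ, Blk.pi0 2 g = g ∧ (∀ f, ⟪χ, P.J 1 f⟫ = ⟪g, f⟫) ∧
      ∀ x : P.H1, P.τ ∈ zpowers (x : G) → χ x = g (P.π x) := fun {χ} h => by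
    obtain ⟨h1, h2⟩ := Finset.mem_filter.1 h
    obtain ⟨g, hg⟩ := P.ex_res 1 χ
    exact ⟨g, hg.p0, hg.ip' h2.isCF, fun x hx => by rw [hg.val P.lin_one P.pr1 h2 (P.zp_π.2 hx), if_pos h1]⟩
  rcases hB with h | h
  · exact k h
  · obtain ⟨g, h1, h2, h3⟩ := k h
    exact ⟨(-1 : ℂ) • g, by rw [Blk.pi0_smul, h1], fun f => by
      rw [ip_smul_left, ← h2, ip_neg_left]; ring, fun x hx => by rw [Pi.smul_apply, ← h3 x hx]; simp⟩

open Classical in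
theorem valT (hB : P.pom1.InB χ) {x : P.H1} {y : P.S.T} (e : (P.π x : E) = y) (h2 : constt {2} y = P.S.tT)
    (hx : P.τ ∈ zpowers (x : G)) (hz : (y : E) ∉ P.S.Z) : (P.S.Q + 1) * χ x = 2 * χ P.τ +
      (1 - P.S.Q) * ∑ f : Du P.S.W with Two f.ch, f.ch P.S.tW * ⟪χ, P.pom1.θ f⟫ := by
  obtain ⟨g, p0, ip, val⟩ := resB hB
  have cf : IsCF g := isCF_of_pi0 p0
  have e2 : (Finset.univ.filter fun a : Du P.S.W => Two a.ch) = annF (Br.oddK P.S.W) := by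
    ext l; simp [mem_annF, two_iff]
  have h3 := val x hx
  rw [show P.π x = (torT P.S.toHA).i y from Subtype.ext e, ← (torT P.S.toHA).eta_A g hz,
    ← Two.tw (Tor.two_eta (pairTW _) p0), tw_apply, h2] at h3
  have h5 := val ⟨P.τ, P.τH⟩ (mem_zpowers _)
  rw [π_τ, decomp _ cf, Pi.smul_apply, Pi.add_apply, Tor.D_Z, Tor.D_Z, cTm, cWm,
    expand_two (Tor.two_eta (pairTW _).symm p0), Finset.sum_apply] at h5
  have h4 : ∀ f : Du P.S.W, ⟪χ, P.pom1.θ f⟫ = ⟪g, (torW P.S.toHA).D 1⟫ - ⟪(torW P.S.toHA).eta g, f.ch⟫ :=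
    fun f => by
      change ⟪χ, P.J 1 ((torW P.S.toHA).D (1 - f.ch))⟫ = _
      rw [ip, map_sub, ip_sub_right, ← ip_conj (a := (torW P.S.toHA).D f.ch), (torW P.S.toHA).ip_D _ cf, ip_conj]
  simp only [h4, mul_sub, Finset.sum_sub_distrib, ← Finset.sum_mul]
  rw [e2, sum_annF_not_mem (K := Br.oddK P.S.W) (x := P.S.tW) (not_odd_of_inv (mem_zpowers _)
    (Subtype.ext P.S.tt) fun e => P.S.t_ne (congrArg Subtype.val e)), zero_mul, h3, Q_cast,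
    Finset.sum_congr rfl fun f _ => mul_comm _ _]
  change χ P.τ = 2⁻¹ * (_ * (torT P.S.toHA).eta g P.S.tT + _ * ∑ f ∈ annF (Br.oddK P.S.W), _ * f.ch P.S.tW) at h5
  linear_combination -2 * h5 - ((torT P.S.toHA).eta g P.S.tT + ∑ f ∈ annF (Br.oddK P.S.W),
    ⟪(torW P.S.toHA).eta g, f.ch⟫ * f.ch P.S.tW) * e_sq P.S.toHA

theorem valO (hB : P.pom1.InB χ) {x u : P.H1} (hu : (u : G) ∈ P.O) (hx : P.τ ∈ zpowers (x : G))
    (hxu : P.τ ∈ zpowers ((x : G) * u)) : χ (x * u) = χ x := by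
  obtain ⟨g, -, -, val⟩ := resB hB
  rw [val x hx, ← coe_mul, val _ hxu, map_mul, (P.ker u).2 hu, mul_one]

theorem chi5 (P : PS G E) (hH : P.H ≤ P.H1) (h5 : P.S.Q = -5) (hd : P.S.d = 2) (hN : Odd P.H.index) (hk : Odd P.k) :
    ∃ (χ : G → ℂ) (ε : ℂ), IsIrr χ ∧ (χ 1 = 19 ∨ χ 1 = 21 ∨ χ 1 = 35) ∧ (ε = 1 ∨ ε = -1) ∧ χ P.τ = 5 * ε ∧
      (∀ y ∈ P.H, PiElt {3} y → y ∉ P.O → χ (P.τ * y) = -ε) ∧
      ∀ x u, P.τ ∈ zpowers x → u ∈ P.O → P.τ ∈ zpowers (x * u) → χ (x * u) = χ x := by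
  classical
  obtain ⟨α, φ, χS, X, Y1, Y2, Z, c⟩ := P.pom1.exists_cons P.prin1.base
  obtain ⟨a, s, y, e1, e2, e3, -, -, E1, E2⟩ := c.ints
  obtain rfl : 1 = a := by rw [Pi.one_apply] at e1; exact_mod_cast e1
  have h4 : P.S.Q % 4 = 3 := by omega
  obtain ⟨he, hq⟩ : P.S.e = -1 ∧ P.S.q = 5 := by rcases P.S.Q_cases with ⟨h, k⟩ | ⟨h, k⟩ <;> omega
  have key : ∀ (χ : G → ℂ) (ε : ℂ), IsSIrr χ → P.pom1.InB χ → χ P.τ = 5 * ε →
      ∑ f : Du P.S.W with Two f.ch, f.ch P.S.tW * ⟪χ, P.pom1.θ f⟫ = -ε →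
      (∀ y ∈ P.H, PiElt {3} y → y ∉ P.O → χ (P.τ * y) = -ε) ∧
      ∀ x u, P.τ ∈ zpowers x → u ∈ P.O → P.τ ∈ zpowers (x * u) → χ (x * u) = χ x := fun χ ε h0 hB h1 h2 => by
    refine ⟨fun y hy y3 yO => ?_, fun x u hx hu hxu => valO hB (x := ⟨x, hH (P.mem_H.2 (OmB.comm_of_zp hx rfl))⟩)
      (u := ⟨u, P.O_le hu⟩) hu hx hxu⟩
    obtain ⟨k, hk, e⟩ := P.S.classes (P.π ⟨y, hH hy⟩).2
    obtain ⟨g, rfl⟩ : ∃ g, (P.π g : E) = k := (P.surj ⟨k, hk⟩).imp fun _ => congrArg Subtype.val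
    obtain ⟨z, hz⟩ : ∃ z : P.H1, z = g * ⟨y, hH hy⟩ * g⁻¹ := ⟨_, rfl⟩
    have z3 : PiElt {3} z := hz ▸ PiElt.map (piElt_coe.1 y3) (MulAut.conj g).toMonoidHom
    have z3' : PiElt {3} (P.π z : E) := piElt_coe.2 (z3.map P.π)
    have z1 : (P.π z : E) ≠ 1 := fun e => yO ((P.ker ⟨y, hH hy⟩).1 (by
      have : P.π z = 1 := Subtype.ext e
      rwa [hz, map_mul, map_mul, map_inv, conj_eq_one_iff] at this))
    have zo : Odd (orderOf z) := Blk.piElt_two_compl.1 (z3.mono (by simp))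
    have nd : ∀ K : Subgroup E, Nat.card K = 8 ∨ Nat.card K = 10 ∨ Nat.card K = 2 → (P.π z : E) ∉ K := fun K hK h => by
      obtain ⟨r, hr, h3⟩ := Nat.exists_prime_and_dvd (mt orderOf_eq_one_iff.1 z1)
      obtain rfl : r = 3 := z3' r hr h3
      have := h3.trans (K.orderOf_dvd_natCard h)
      omega
    rw [show (P.π g : E) * P.π ⟨y, hH hy⟩ * (P.π g : E)⁻¹ = P.π z by simp [hz]] at e
    rcases e with e | e | ⟨a, ha, b, hb, -, e⟩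
    · have := valT hB (x := ⟨P.τ, P.τH⟩ * z) (y := P.S.tT * (⟨P.π z, e⟩ : P.S.T)) (by rw [map_mul, coe_mul, P.πτ]; rfl) (by
        rw [constt_mul _ (mul_comm' _ _), constt_eq_self (Blk.piElt_two_of_sq P.S.tT2),
          constt_eq_one (π := {2}) (x := (⟨_, e⟩ : P.S.T)) (piElt_coe.1 (z3'.mono (by simp))), mul_one])
        (zp_mul_odd (mem_zpowers _) P.ττ (P.mem_H.1 (P.H1_le z.2)).symm (by rwa [Subgroup.orderOf_coe]))
        (by exact fun h => nd _ (Or.inr (Or.inr hd)) ((mul_mem_cancel_left P.S.t_Z).1 h))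
      rw [h1, h2, h5, show ((⟨P.τ, P.τH⟩ * z : P.H1) : G) = g * (P.τ * y) * (g : G)⁻¹ by
        rw [← conj_mul, P.conj_τ (P.H1_le g.2), hz]; rfl, h0.isCF.conj] at this
      push_cast at this
      linear_combination this / -4
    · refine absurd e (nd _ (Or.inl ?_))
      have := P.S.card_W'
      rw [he, h5, hd] at this; omega
    · refine absurd (e ▸ mul_mem_sup ha hb) (nd _ (Or.inr (Or.inl ?_)))
      rw [P.S.card_ZU, hq, show Nat.card P.S.Z = 2 from hd]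
  have tW : ¬ Odd (orderOf P.S.tW) := not_odd_of_inv (mem_zpowers _) (Subtype.ext P.S.tt)
    fun e => P.S.t_ne (congrArg Subtype.val e)
  have kS := key χS (-1) c.iS c.BS (c.St.trans (by rw [h5]; norm_num)) (sum_tw' tW _ _ (by simp [POm.θ]) c.Sθ)
  rw [h5] at E1 E2
  rcases Ar.five (N := P.H.index) (k := P.k) (s := s) (y := y) (by exact_mod_cast hN) (by exact_mod_cast hk)
    (by
      change (P.H.index : ℤ) * _ = (P.k : ℤ) ^ 2 * _ * _ * _ * _ * _ * _ at E1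
      linear_combination E1) (by linarith) with rfl | rfl | rfl
  · exact ⟨χS, -1, c.iS.isIrr_of_pos (by rw [e2]; norm_num), by rw [e2]; norm_num, Or.inr rfl,
      c.St.trans (by rw [h5]; norm_num), kS⟩
  · exact ⟨χS, -1, c.iS.isIrr_of_pos (by rw [e2]; norm_num), by rw [e2]; norm_num, Or.inr rfl,
      c.St.trans (by rw [h5]; norm_num), kS⟩
  · have hα := c.hα.comp (inclusion P.S.W_le_H)
    have α1 := P.S.rW_ne (POm.al1 c.hu)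
    have hθ : ∀ f, Tw f → ⟪Y1, P.pom1.θ f⟫ = -if f = P.S.rW α then 1 else 0 := fun f hf => by
      by_cases f1 : f = 1
      · subst f1; rw [if_neg α1.symm]; simp [POm.θ]
      rw [show Y1 = 1 + Y2 - χS - P.pom1.θ (P.S.rW α) by rw [c.e2]; ring, ip_sub_left, ip_sub_left, ip_add_left,
        c.base.oθ f hf f1, c.Y2θ h4 f hf, c.Sθ f hf f1, P.pom1.θθ hα hf α1 f1]
      by_cases e : f = P.S.rW α
      · rw [e, if_pos rfl, if_pos (P.S.fix_rW α).symm]; norm_num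
      · rw [if_neg e, if_neg (Ne.symm e), if_neg fun e' => e (by rw [← P.S.SwSw f, ← e', P.S.fix_rW])]; norm_num
    have t1 : Y1 P.τ = 5 * 1 := c.Y1t.trans (by rw [h5]; norm_num)
    refine ⟨Y1, 1, c.i1.isIrr_of_pos (by rw [e3]; norm_num), by rw [e3]; norm_num, Or.inl rfl, t1,
      key Y1 1 c.i1 (P.pom1.inB_θ c.i1 hα (by rw [hθ _ hα, if_pos rfl]; norm_num)) t1 ?_⟩
    rw [Finset.sum_congr rfl fun f hf => by
      rw [hθ f (tw_iff.1 (Finset.mem_filter.1 hf).2), mul_neg, mul_ite, mul_one, mul_zero], Finset.sum_neg_distrib,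
      Finset.sum_ite_eq', if_pos (by simpa only [Finset.mem_filter, Finset.mem_univ, true_and] using tw_iff.2 hα),
      P.S.fix_tW (P.S.fix_rW α)]

end PS

theorem QE.chi5 {S : Subgroup G} {t : G} (h : QDT (⊤ : Subgroup G)) (w : SW S t) (hS : SylowIn 2 S 𝐂[t]) (hq : QD S)
    (sd : w.z = t) {Z : Subgroup (Quo 𝐎(𝐂[t]))} {F : Type} [Field F] [Fintype F] (e : QE F (𝐂[t] /ₛ 𝐎(𝐂[t])) Z)
    (et : e.t = qel _ t) (h5 : Fintype.card F = 5) : ∃ (χ : G → ℂ) (ε : ℂ), IsIrr χ ∧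
      (χ 1 = 19 ∨ χ 1 = 21 ∨ χ 1 = 35) ∧ (ε = 1 ∨ ε = -1) ∧ (∀ a, Inv2 a → ∀ u ∈ 𝐎(𝐂[a]), χ (a * u) = 5 * ε) ∧
      (∀ a, Inv2 a → ∀ y ∈ 𝐂[a], PiElt {3} y → y ∉ 𝐎(𝐂[a]) → χ (a * y) = -ε) ∧
      (∀ a x u, Inv2 a → a ∈ zpowers x → u ∈ 𝐎(𝐂[a]) → a ∈ zpowers (x * u) → χ (x * u) = χ x) := by
  obtain ⟨P, -, e1, e2, e3, e4, e5, -, -, e6, -⟩ := exists_ps e h w.t2 le_top et (h.isConj w.t2)
  have hd := e4.trans (e.card_two hS hq w sd)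
  have h4 := P.S.Q_three hd
  have hH : P.H ≤ P.H1 := fun x hx => by
    rw [PS.H, e1] at hx
    have hx' := qel_mem_quo 𝐎(𝐂[t]) hx
    obtain ⟨σ, hσ⟩ := e.sem _ hx'
    have := Fact.mk Nat.prime_five
    obtain rfl : σ = 1 := RingEquiv.ext fun a => by
      obtain ⟨a, rfl⟩ := (ZMod.ringEquivOfPrime F Nat.prime_five h5).surjective a
      obtain ⟨n, rfl⟩ := ZMod.intCast_surjective a
      simp
    exact e3 ▸ mem_coq.2 ⟨(piCoreOf_normalIn _ _).2 hx, mem_pcomap.2 ⟨hx', sem_one.1 hσ⟩⟩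
  obtain ⟨s, ⟨-, hs⟩, s2, st⟩ := h.exists_four (mem_top t) w.t2
  obtain ⟨χ, ε, c1, c2, c3, c4, c5, c6⟩ := P.chi5 hH (by rcases P.S.Q_cases with ⟨-, k⟩ | ⟨-, k⟩ <;> omega) hd (by
    obtain ⟨h2, -⟩ := h.syl_cent trivial w.t2 (by rwa [top_inf_eq])
    rw [PS.H, e1, ← relIndex_top_right]
    exact Nat.not_even_iff_odd.1 fun k => h2.not_dvd Nat.prime_two (k.two_dvd.trans (relIndex_dvd_of_le_left _ hS.le)))
    (by rw [e6 s hs s2 st]; exact (odd_core _).of_dvd_nat (relIndex_dvd_card _ _))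
  have tr : ∀ {a}, Inv2 a → ∃ g, g * a * g⁻¹ = P.τ ∧ ∀ u, g * u * g⁻¹ ∈ P.O ↔ u ∈ 𝐎(𝐂[a]) := fun {a} a2 => by
    obtain ⟨g, hg⟩ := isConj_iff.1 (h.isConj w.t2 a a2).symm
    exact ⟨g, hg.trans e1.symm, fun u => by rw [e2, ← hg, ← cj_U, conj_mem_cj]⟩
  have k6 : ∀ a x u, Inv2 a → a ∈ zpowers x → u ∈ 𝐎(𝐂[a]) → a ∈ zpowers (x * u) → χ (x * u) = χ x :=
    fun a x u a2 h1 h2 h3 => by
      obtain ⟨g, hg, k⟩ := tr a2
      have := c6 _ _ (hg ▸ zp_conj h1 g) ((k u).2 h2) (by rw [conj_mul, ← hg]; exact zp_conj h3 g)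
      rwa [conj_mul, c1.isCF.conj, c1.isCF.conj] at this
  refine ⟨χ, ε, c1, c2, c3, fun a a2 u hu => ?_, fun a a2 y h1 h2 h3 => ?_, k6⟩
  · rw [k6 a a u a2 (mem_zpowers _) hu (zp_mul_odd (mem_zpowers _) a2.sq (mem_centralizer_singleton_iff.1
      (piCoreOf_le _ _ hu)).symm ((odd_core _).of_dvd_nat (orderOf_dvd_natCard _ hu))), ← c4, e1]
    exact (c1.isCF.of_isConj (h.isConj w.t2 a a2)).symm
  · obtain ⟨g, hg, k⟩ := tr a2
    have := c5 (g * y * g⁻¹) (by rw [PS.H, ← hg, ← cj_centralizer_singleton]; exact conj_mem_cj.2 h1)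
      (h2.map (MulAut.conj g).toMonoidHom) (mt (k y).1 h3)
    rwa [← hg, conj_mul, c1.isCF.conj] at this

end CA.ABG
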