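/-
Alperin–Brauer–Gorenstein theorem, `q = 5`: abelian groups inverted by `t` and a small character.
-/
import Cfsg.Agent.Lib.ABG.Chi5

set_option autoImplicit false
set_option linter.unusedSectionVars false

namespace CA.ABG

open Cfsg Subgroup CA CA.GW CA.Ch MulAction

section
variable {Γ X : Type*} [Group Γ] [Finite Γ] [Finite X] [MulAction Γ X] {σ : Γ}

theorem eight_dvd (S : Set X) (h8 : σ ^ 8 = 1) (hS : ∀ x ∈ S, σ • x ∈ S) (hf : ∀ x : X, σ ^ 4 • x ≠ x) :
    8 ∣ Nat.card S := by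
  rcases S.eq_empty_or_nonempty with rfl | ⟨x0, -⟩
  · simp
  haveI : Fact (Nat.Prime 2) := ⟨Nat.prime_two⟩
  have o : orderOf σ = 2 ^ (2 + 1) := orderOf_eq_prime_pow (fun e => hf x0 (by rw [show σ ^ 4 = 1 from e, one_smul])) h8
  have p : ∀ n : ℕ, ∀ x ∈ S, σ ^ n • x ∈ S := fun n => by
    induction n with
    | zero => simp
    | succ n ih => intro x hx; rw [pow_succ', mul_smul]; exact hS _ (ih x hx)
  let T : SubMulAction (zpowers σ) X := ⟨S, fun c x hx => by
    obtain ⟨n, hn⟩ := mem_powers_iff_mem_zpowers.2 c.2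
    exact (show (c : Γ) • x ∈ S from hn ▸ p n x hx)⟩
  have := card_dvd_of_free (A := zpowers σ) (α := T) fun c x e => by
    obtain ⟨n, hn⟩ := mem_powers_iff_mem_zpowers.2 c.2
    replace hn : σ ^ (n % 8) = c := by rw [← show σ ^ n = c from hn, ← pow_mod_orderOf σ n, o]; rfl
    have e' : ∀ k : ℕ, (σ ^ (n % 8)) ^ k • (x : X) = x := fun k => mem_stabilizer_iff.1 (pow_mem (mem_stabilizer_iff.2
      (hn ▸ congrArg Subtype.val e)) k)
    have k : ∀ k, n % 8 * k % 8 = 4 → False := fun k hk => hf x (by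
      have := e' k
      rwa [← pow_mul, ← pow_mod_orderOf σ (n % 8 * k), o, show n % 8 * k % 2 ^ (2 + 1) = 4 from hk] at this)
    have : n % 8 = 0 := by
      by_contra z
      have h1 := k 1; have h2 := k 2; have h4 := k 4
      have := Nat.mod_lt n (show 0 < 8 by norm_num)
      generalize n % 8 = j at *
      interval_cases j <;> simp_all
    exact Subtype.ext (by rw [← hn, this, pow_zero]; rfl)
  rwa [Nat.card_zpowers, o] at this

theorem fix_all {P : Subgroup Γ} (hP : IsPGroup 5 P) (hn : Nat.card X < 40) (h8 : σ ^ 8 = 1) (σP : σ ∈ 𝐍(P))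
    (hf : ∀ x : X, σ ^ 4 • x ≠ x) (x : X) : x ∈ fixedPoints P X := by
  haveI : Fact (Nat.Prime 5) := ⟨by norm_num⟩
  have h1 := eight_dvd (Set.univ : Set X) h8 (fun _ _ => trivial) hf
  have h2 := eight_dvd (fixedPoints P X) h8 (fun x hx g => by
    have := hx ⟨_, conj_mem_of_mem_normalizer (inv_mem σP) g.2⟩
    rw [Subgroup.smul_def] at this ⊢
    rw [← inv_smul_eq_iff, ← mul_smul, ← mul_smul]
    simpa using this) hf
  have h3 := hP.card_modEq_card_fixedPoints X
  have h4 := Set.ncard_le_ncard (Set.subset_univ (fixedPoints P X))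
  rw [Nat.card_coe_set_eq] at h1 h2 h3
  rw [Set.ncard_univ] at h1 h4
  have : fixedPoints P X = Set.univ := Set.eq_of_subset_of_ncard_le (Set.subset_univ _) (by
    rw [Set.ncard_univ]; unfold Nat.ModEq at h3; omega)
  exact this ▸ Set.mem_univ x

end

variable {G : Type*} [Group G] [Finite G] {A P : Subgroup G} {χ : G → ℂ} {t σ : G} {n : ℕ}

/-- the action of `N(A)` on the dual group -/
@[reducible] noncomputable def duAct (A : Subgroup G) : MulAction 𝐍(A) (Du A) where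
  smul g l := Du.comp (A.normalizerMonoidHom g⁻¹).toMonoidHom l
  one_smul l := Du.ext' fun x => by change l.ch (A.normalizerMonoidHom 1⁻¹ x) = _; simp
  mul_smul g h l := Du.ext' fun x => by
    change l.ch (A.normalizerMonoidHom (g * h)⁻¹ x) = l.ch (A.normalizerMonoidHom h⁻¹ (A.normalizerMonoidHom g⁻¹ x))
    rw [mul_inv_rev, map_mul]; rfl

theorem IsIrr.faithful [IsSimpleGroup G] (h : IsIrr χ) (hn : χ 1 = n) (h1 : 1 < n) {x : G} (e : χ x = χ 1) : x = 1 := by
  rcases IsSimpleGroup.eq_bot_or_eq_top_of_normal (cfker χ) h.isCF.cfker_normal with k | k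
  · exact mem_bot.1 (k ▸ h.mem_cfker.2 e)
  have e1 : χ = χ 1 • (1 : G → ℂ) := funext fun g => by simpa using cfker_apply (k ▸ mem_top g)
  have := h.ip_ne (Du.isIrr (1 : Du G)) fun k => by
    rw [k] at hn; simp at hn; exact h1.ne (by exact_mod_cast hn)
  rw [e1, ip_smul_left, (show ⟪(1 : G → ℂ), (1 : Du G).ch⟫ = 1 from (Du.isIrr (1 : Du G)).ip_self), mul_one] at this
  exact absurd this h.ne_zero_one

theorem beta_ab [IsSimpleGroup G] (hχ : IsIrr χ) (hn : χ 1 = n) (h1 : 1 < n) (h40 : n < 40) (ab : IsMulCommutative A)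
    (ho : Odd (Nat.card A)) (t2 : Inv2 t) (eq : ⁅A, zpowers t⁆ = A) (hP : PiGrp {5} P) (PA : P ≤ 𝐍(A)) (σA : σ ∈ 𝐍(A))
    (σP : σ ∈ 𝐍(P)) (e : σ ^ 4 = t) : P ≤ 𝐂(A) := by
  classical
  letI := duAct A
  have sm : ∀ (g : 𝐍(A)) (l : Du A) (x : A), (g • l).ch x = l.ch (A.normalizerMonoidHom g⁻¹ x) := fun _ _ _ => rfl
  have co : ∀ (g : 𝐍(A)) (x : A), (A.normalizerMonoidHom g x : G) = g * x * (g : G)⁻¹ := fun _ _ => rfl
  have tA : t ∈ 𝐍(A) := e ▸ pow_mem σA 4
  have inv := inv_of_fix t2 tA (cent_zpowers t ▸ (copAct_inv t2.sq ho tA).cent_eq_bot_of_abelian ab eq)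
  have rc : IsChar (χ ∘ A.subtype) := hχ.isChar.comp _
  choose m hm using fun l : Du A => rc.ip_irr_nat l.isIrr
  have ex : ∀ x : A, χ x = ∑ l : Du A, (m l : ℂ) * l.ch x := fun x => by
    have := congrFun (Du.expand (χ ∘ A.subtype)) x
    simp only [hm] at this
    simpa using this
  let S : SubMulAction 𝐍(A) (Du A) := ⟨{l | l ≠ 1 ∧ m l ≠ 0}, fun g l hl => ⟨fun e => hl.1 (by
    rw [← inv_smul_smul g l, e]; rfl), fun e => hl.2 (by
      have k : χ ∘ A.subtype = (χ ∘ A.subtype) ∘ (A.normalizerMonoidHom g⁻¹).toEquiv := funext fun x =>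
        (hχ.isCF.conj (x : G) ((g⁻¹ : 𝐍(A)) : G)).symm
      have := hm (g • l)
      rw [k, show (g • l).ch = l.ch ∘ (A.normalizerMonoidHom g⁻¹).toEquiv from rfl, ip_comp_equiv, hm, e] at this
      exact_mod_cast this)⟩⟩
  have c : Nat.card S < 40 := by
    have := ex 1
    rw [coe_one, hn] at this
    simp only [Du.ch_apply_one, mul_one] at this
    have k : n = ∑ l : Du A, m l := by exact_mod_cast this
    refine lt_of_le_of_lt ?_ h40
    rw [k, Nat.card_eq_fintype_card, Fintype.card_subtype, Finset.card_eq_sum_ones]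
    exact (Finset.sum_le_sum fun l hl => Nat.one_le_iff_ne_zero.2 (Finset.mem_filter.1 hl).2.2).trans
      (Finset.sum_le_sum_of_subset (Finset.filter_subset _ _))
  have key := fix_all (Γ := 𝐍(A)) (X := S) (P := P.subgroupOf 𝐍(A)) (σ := ⟨σ, σA⟩)
    ((hP.isPGroup (by norm_num)).comap_subtype) c (Subtype.ext (by
      rw [SubmonoidClass.coe_pow, show 8 = 4 * 2 from rfl, pow_mul, e, pow_two, t2.sq]; rfl))
    (by rw [← subgroupOf_norm PA]; exact σP) fun l k => l.2.1 (Du.ext' fun x => by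
      obtain ⟨w, hw, rfl⟩ := exists_sqrt (x := x) (Odd.of_dvd_nat ho (orderOf_dvd_natCard x))
      have k1 := congrArg (fun l : S => (l : Du A).ch w) k
      have k2 : A.normalizerMonoidHom ((⟨σ, σA⟩ : 𝐍(A)) ^ 4)⁻¹ w = w⁻¹ := Subtype.ext (by
        rw [co, InvMemClass.coe_inv, SubmonoidClass.coe_pow, e, t2.inv]; exact inv w w.2)
      simp only [SubMulAction.val_smul, sm, k2] at k1
      rw [Du.ch_apply_mul]
      nth_rw 1 [← k1]
      rw [← Du.ch_apply_mul]; simp)
  refine fun g hg => mem_cent_iff.2 fun x hx => ?_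
  have k := IsIrr.faithful hχ hn h1 (x := (A.normalizerMonoidHom (⟨g, PA hg⟩ : 𝐍(A))⁻¹ ⟨x, hx⟩ * (⟨x, hx⟩ : A)⁻¹ : A)) (by
    rw [ex, ← coe_one (H := A), ex]
    refine Finset.sum_congr rfl fun l _ => ?_
    by_cases z : m l = 0
    · simp [z]
    by_cases l1 : l = 1
    · simp [l1]
    have := congrArg (fun l : S => (l : Du A).ch ⟨x, hx⟩) (key ⟨l, l1, z⟩ ⟨⟨g, PA hg⟩, hg⟩)
    simp only [Subgroup.smul_def, SubMulAction.val_smul, sm] at this
    rw [Du.ch_apply_mul, this, ← Du.ch_apply_mul, mul_inv_cancel])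
  rw [coe_mul, co] at k
  simp only [InvMemClass.coe_inv, inv_inv] at k
  calc x * g = g * (g⁻¹ * x * g * x⁻¹) * x := by group
    _ = _ := by rw [k, mul_one]

end CA.ABG
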