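/-
Alperin–Brauer–Gorenstein theorem: the exceptional case `q = 5`, `r = 3`.
-/
import Cfsg.Agent.Lib.ABG.BetaC
import Cfsg.Agent.Lib.ABG.Bt3
import Cfsg.Agent.Lib.ABG.Beta2
import Cfsg.Agent.Lib.ABG.Top

set_option autoImplicit false
set_option linter.unusedSectionVars false

namespace CA.ABG

open Cfsg Subgroup CA CA.Ch CA.GW

variable {G : Type*} [Group G] [Finite G] {N A S : Subgroup G} {χ f : G → ℂ} {g t : G}

theorem avg_pair {x : G} {c : ℂ} (hx : x ∈ N) (h : ∀ n ∈ N, f (g * n) + f (g * x * n) = c) : 2 * avg N f g = c := by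
  rw [two_mul]
  nth_rw 2 [← avg_mul hx]
  rw [avg, avg, ← ip_add_left]
  exact avg_const (χ := fun y => f y + f (g * x * (g⁻¹ * y))) (g := g) (fun n hn => by simpa using h n hn) ▸
    congrArg (⟪·, 1⟫) (funext fun n => by simp)

/-- two values, symmetric under inversion -/
theorem avg_two (ho : Odd (Nat.card N)) {a b : ℂ} (h : ∀ n ∈ N, f (g * n) = a ∨ f (g * n) = b) (h1 : f g = a)
    (hi : ∀ n ∈ N, f (g * n⁻¹) = f (g * n)) : ∃ k : ℕ, Nat.card N * (a - avg N f g) = 2 * k * (a - b) := by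
  classical
  have := Fintype.ofFinite N
  obtain ⟨k, hk⟩ : Even (Finset.univ.filter fun n : N => f (g * n) ≠ a).card := by
    rw [← ZMod.natCast_eq_zero_iff_even, Finset.card_eq_sum_ones, Nat.cast_sum]
    refine Finset.sum_involution (fun n _ => n⁻¹) (fun _ _ => by decide) (fun n hn _ e => ?_)
      (fun n hn => by simpa [hi n n.2] using hn) fun _ _ => inv_inv _
    have e1 : (n : G) = 1 := eq_one_of_odd (odd_of_mem ho n.2) (by
      nth_rw 1 [← e]; exact inv_mul_cancel (n : G))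
    simp [h1, e1] at hn
  refine ⟨k, ?_⟩
  rw [avg, ip_one_right, mul_sub, mul_inv_cancel_left₀ (Ch.card_ne_zero' _), Nat.card_eq_fintype_card, ← nsmul_eq_mul,
    ← Finset.card_univ, ← Finset.sum_const, ← Finset.sum_sub_distrib,
    ← Finset.sum_filter_of_ne (p := fun n : N => f (g * n) ≠ a) fun n _ e e' => e (by rw [e', sub_self]),
    Finset.sum_congr rfl fun n hn => by rw [(h n n.2).resolve_left (Finset.mem_filter.1 hn).2], Finset.sum_const, hk]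
  simp [two_mul]

theorem avg_nat (hf : IsChar fun x : S => f x) (h : N ≤ S) : ∃ k : ℕ, avg N f 1 = k := by
  simpa [avg, Function.comp_def] using (hf.comp (inclusion h)).ip_nat isChar_one

namespace SW
variable (w : SW S t) (sd : w.z = t)
include sd

theorem cyc : w.A = zpowers w.x := (w.typ.resolve_right fun h => w.t2.ne (by simpa [sd, w.t2.sq] using h.2)).1

theorem t_mem {a : G} (ha : a ∈ w.A) (a1 : a ≠ 1) : t ∈ zpowers a := by
  obtain ⟨u, hu, u2⟩ := exists_inv2' (w.two.of_le ((zpowers_le.2 ha).trans w.le)) (by simpa using a1)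
  exact w.eq_t_of_cyc (w.cyc sd) (zpowers_le.2 ha hu) u2 ▸ hu

theorem eight : 8 ∣ Nat.card w.A := by
  obtain ⟨m, hm⟩ := ((w.two.of_le w.le).isPGroup Nat.prime_two).exists_card_eq
  rw [hm]
  refine pow_dvd_pow 2 (show 3 ≤ m from not_lt.1 fun h => w.dd_ne ?_)
  have e : w.x ^ 4 = 1 := orderOf_dvd_iff_pow_eq_one.1 ((orderOf_dvd_natCard _ w.xA).trans
    (hm ▸ pow_dvd_pow 2 (Nat.le_of_lt_succ h)))
  have c := w.cxz.inv_left.eq
  rw [sd] at c
  rw [← w.hd, w.yx', sd]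
  calc _ = w.x⁻¹ * (w.x⁻¹ * (t * w.x⁻¹) * (w.x⁻¹ * t)) := by group
    _ = (w.x ^ 4)⁻¹ * (t * t) := by rw [← c, mul_assoc _ (w.x⁻¹ * t), mul_assoc _ t, ← mul_assoc t, ← c]; group
    _ = 1 := by rw [e, w.t2.sq, inv_one, mul_one]

/-- a character vanishing on the elements above `t` -/
theorem sixteen (hf : IsChar fun x : S => f x) (h0 : ∀ g ∈ S, t ∈ zpowers g → f g = 0) {i : ℕ} (hi : Odd i) {k : ℤ}
    (hv : i * f w.y = 4 * k) : ∃ n : ℕ, f 1 = 16 * n := by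
  obtain ⟨j, hj⟩ := avg_nat hf w.le
  obtain ⟨l, hl⟩ := avg_nat hf le_rfl
  have yy : ∀ n, w.y * (w.y * n) = n := fun n => by rw [← mul_assoc, w.y2, one_mul]
  have o1 : ∀ s ∈ S, s ∉ w.A → s * s = 1 → f s = f w.y := fun s hs hA c => by
    obtain ⟨b, hb, rfl⟩ := w.out_conj hs hA c
    exact hf.isCF.conj ⟨_, w.yS⟩ ⟨b, w.le hb⟩
  have o2 : ∀ s ∈ S, s * s = t → f s = 0 := fun s hs c => h0 s hs (c ▸ mul_mem (mem_zpowers s) (mem_zpowers s))
  have e1 : 2 * avg w.A f w.y = f w.y := avg_pair w.xA fun n hn => by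
    have m1 := mul_mem w.yS (w.le hn)
    have m2 := mul_mem (mul_mem w.yS (w.le w.xA)) (w.le hn)
    have n1 : w.y * n ∉ w.A := fun k => w.yA ((mul_mem_cancel_right hn).1 k)
    have n2 : w.y * w.x * n ∉ w.A := fun k => w.yA ((mul_mem_cancel_right w.xA).1 ((mul_mem_cancel_right hn).1 k))
    have q : w.y * w.x * n * (w.y * w.x * n) = t * (w.y * n * (w.y * n)) := by
      have c := w.ab _ w.xA _ (w.cj_mem w.yS hn)
      refine Eq.trans ?_ (congrArg (· * _) sd)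
      rw [← w.hz, w.ab _ w.xA _ (w.cj_mem w.yS w.xA)]
      calc _ = w.y * w.x * w.y⁻¹ * (w.y * n * w.y⁻¹ * w.x) * n := by rw [w.yinv]; simp only [mul_assoc, yy]
        _ = _ := by rw [← c, w.yinv]; simp only [mul_assoc]
    obtain ⟨i, hi⟩ := sd ▸ w.sq_out m1 n1
    rcases w.uz (w.sq_out m1 n1) (by rw [← hi, ← (Commute.refl t).mul_zpow, w.t2.sq, one_zpow]) with c | c
    · rw [o1 _ m1 n1 c, o2 _ m2 (by rw [q, c, mul_one]), add_zero]
    · rw [o2 _ m1 c, o1 _ m2 n2 (by rw [q, c, w.t2.sq]), zero_add]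
  have e2 : 2 * avg S (avg w.A f) 1 = j + avg w.A f w.y := avg_pair w.yS fun n hn => by
    rw [one_mul, one_mul]
    by_cases c : n ∈ w.A
    · rw [avg_mul c, ← hj, ← avg_mul (g := 1) c, one_mul]
    · have c' := w.out_mul w.yS hn w.yA c
      rw [← avg_mul (g := w.y) c', yy, ← hj, ← avg_mul (g := 1) c', one_mul, add_comm]
  have e3 : f 1 = Nat.card w.A * j := by
    have := Fintype.ofFinite w.A
    rw [← hj, avg, ip_one_right, mul_inv_cancel_left₀ (Ch.card_ne_zero' _), Finset.sum_eq_single 1 (fun b _ hb => by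
      rw [one_mul, h0 _ (w.le b.2) (w.t_mem sd b.2 (by simpa using hb))]) (by simp)]
    simp
  rw [avg_avg w.le, hl] at e2
  have e4 : (i * (4 * l - 2 * j) : ℤ) = 4 * k := by
    have : (i * (4 * l - 2 * j) : ℂ) = 4 * k := by rw [← hv, ← e1]; linear_combination (2 * i : ℂ) * e2
    exact_mod_cast this
  obtain ⟨a, ha⟩ := w.eight sd
  obtain ⟨b, rfl⟩ := hi
  obtain ⟨c, rfl⟩ : Even j := by
    rcases Nat.even_or_odd' j with ⟨c, rfl | rfl⟩
    · exact even_two_mul c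
    · push_cast at e4
      have : (4 : ℤ) * ((2 * b + 1) * (l - c) - b - k) = 2 := by linear_combination e4
      omega
  exact ⟨a * c, by rw [e3, ha]; push_cast; ring⟩

end SW

/-- values on a coset of a normalized group of odd order -/
theorem cos_val (hχ : IsCF χ) (ho : Odd (Nat.card N)) (hg : g ∈ 𝐍(N)) (g2 : PiElt {2} g) {Q : ℂ → Prop}
    (h : ∀ c ∈ N ⊓ 𝐂[g], Q (χ (g * c))) (n : G) (hn : n ∈ N) : Q (χ (g * n)) := by
  obtain ⟨k, -, c, hc, e⟩ := conj_cent ho hg g2 hn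
  rw [← hχ.conj _ k, e]
  exact h c hc

/-- a `3`-group normalized by `S` is abelian -/
theorem SW.der_bot [IsSimpleGroup G] (w : SW S t) (sd : w.z = t) (hχ : IsIrr χ) {d : ℕ} (hd : χ 1 = d) (d1 : 1 < d)
    (d48 : d < 48) {ε : ℂ} (hε : ε = 1 ∨ ε = -1) (v1 : ∀ u ∈ 𝐎(𝐂[w.y]), χ (w.y * u) = 5 * ε)
    (v2 : ∀ u ∈ 𝐂[w.y], PiElt {3} u → u ∉ 𝐎(𝐂[w.y]) → χ (w.y * u) = -ε)
    (v3 : ∀ x u, t ∈ zpowers x → u ∈ 𝐎(𝐂[t]) → t ∈ zpowers (x * u) → χ (x * u) = χ x)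
    (Ap : PiGrp {3} A) (nA : S ≤ 𝐍(A)) (cA : A ⊓ 𝐂[t] ≤ 𝐎(𝐂[t])) : ⁅A, A⁆ = ⊥ := by
  have c := hχ.isChar
  have nS := norms_der nA
  have hN : ⁅A, A⁆ ⊴ A := ⟨der_le _, norms_der le_normalizer⟩
  obtain ⟨a, ha⟩ := avg_dvd_p c Nat.prime_three Ap hN le_rfl
  have N3 := Ap.of_le hN.le
  have ho := odd_of_pi N3 (by decide)
  have NA := hN.le
  generalize ⁅A, A⁆ = N at *
  have hX : N ⊴ 𝐍(N) := ⟨le_normalizer, le_rfl⟩
  have k := avg_diff c bot_le ⟨bot_le, by simp⟩ hX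
  rw [avg_bot] at k
  have vy : ∀ n ∈ N, χ (w.y * n) = 5 * ε ∨ χ (w.y * n) = -ε :=
    cos_val c.isCF ho (nS w.yS) w.y_inv2.piElt (Q := fun z => z = 5 * ε ∨ z = -ε) fun u hu =>
      (em _).imp (v1 u) (v2 u hu.2 (N3.piElt hu.1))
  have y1 : χ w.y = 5 * ε := by simpa using v1 1 (one_mem _)
  obtain ⟨b, hb⟩ := avg_two ho vy y1 fun n hn => by
    rw [← w.yinv, ← mul_inv_rev, c.apply_inv, c.isCF.comm, w.yinv]
    rcases hε with rfl | rfl <;> rcases vy n hn with e | e <;> simp [e, map_ofNat]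
  obtain ⟨z, rfl⟩ : ∃ z : ℤ, ε = z := hε.elim (fun e => ⟨1, by simp [e]⟩) fun e => ⟨-1, by simp [e]⟩
  obtain ⟨m, hm⟩ := w.sixteen sd (f := fun g => χ g - avg N χ g) (k.comp (inclusion nS)) (fun g hg tg => by
    have g2 := w.two.piElt hg
    refine sub_eq_zero.2 (avg_const (cos_val c.isCF ho (nS hg) g2 (Q := (· = χ g)) fun u hu => v3 g u tg
      (cA ⟨NA hu.1, cent_mono (zpowers_le.2 tg) (by rw [cent_zpowers]; exact hu.2) |> fun e => by
        rwa [cent_zpowers] at e⟩) (zpowers_le.2 ?_ tg))).symm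
    have := constt_mem_zpowers {2} (g * u)
    rwa [constt_mul _ (mem_cent1_iff.1 hu.2).symm, constt_eq_self g2,
      constt_eq_one ((N3.piElt hu.1).mono (by simp)), mul_one] at this) ho (k := 3 * b * z)
    (by rw [y1, hb]; push_cast; ring)
  obtain ⟨e, he⟩ := (avg_char c hX).nat
  have e0 : χ 1 - avg N χ 1 = 0 := by
    have e1 : 3 * a = 16 * m := by exact_mod_cast ha.symm.trans hm
    have e2 : d = e + 3 * a := by
      have : (d : ℂ) = e + 3 * a := by rw [← hd, ← he]; simpa [sub_eq_iff_eq_add'] using ha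
      exact_mod_cast this
    rw [ha, show a = 0 by omega]; simp
  refine eq_bot_iff.2 fun n hn => IsIrr.faithful hχ hd d1 ?_
  have := congrFun (k.eq_zero e0) ⟨n, le_normalizer hn⟩
  rw [sub_eq_zero.1 e0, ← avg_mul hn, one_mul]
  exact sub_eq_zero.1 this

theorem QE.ab3 [IsSimpleGroup G] (h : QDT (⊤ : Subgroup G)) (w : SW S t) (hS : SylowIn 2 S 𝐂[t]) (hq : QD S)
    (sd : w.z = t) {Z : Subgroup (Quo 𝐎(𝐂[t]))} {F : Type} [Field F] [Fintype F] (e : QE F (𝐂[t] /ₛ 𝐎(𝐂[t])) Z)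
    (et : e.t = qel _ t) (h5 : Fintype.card F = 5) (Ap : PiGrp {3} A) (nA : 𝐂[t] ≤ 𝐍(A))
    (cA : A ⊓ 𝐂[t] ≤ 𝐎(𝐂[t])) : IsMulCommutative A := by
  obtain ⟨χ, ε, hχ, hd, hε, v1, v2, v3⟩ := QE.chi5 h w hS hq sd e et h5
  obtain ⟨d, e1, d1, d2⟩ : ∃ d : ℕ, χ 1 = d ∧ 1 < d ∧ d < 48 := by
    rcases hd with c | c | c
    exacts [⟨19, c, by omega⟩, ⟨21, c, by omega⟩, ⟨35, c, by omega⟩]
  exact commutator_self_eq_bot_iff.1 (w.der_bot sd hχ e1 d1 d2 hε (v1 _ w.y_inv2) (v2 _ w.y_inv2)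
    (fun x u => v3 t x u w.t2) Ap (hS.le.trans nA) cA)

end CA.ABG
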