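/-
Alperin–Brauer–Gorenstein theorem: the case `q = 5`, `r = 3`.
-/
import Cfsg.Agent.Lib.ABG.Beta2
import Cfsg.Agent.Lib.ABG.Bt3
import Cfsg.Agent.Lib.ABG.Top

set_option autoImplicit false
set_option linter.unusedSectionVars false

namespace CA.ABG

open Cfsg CA CA.Ch CA.FStar CA.GW Subgroup

variable {G : Type*} [Group G] [Finite G] [IsSimpleGroup G] {S A M : Subgroup G} {t : G} (h : QDT (⊤ : Subgroup G)) (w : SW S t)
  (hS : SylowIn 2 S 𝐂[t]) (hq : QD S) (sd : w.z = t) {Z : Subgroup (Quo 𝐎(𝐂[t]))} {F : Type} [Field F] [Fintype F]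
  (e : QE F (𝐂[t] /ₛ 𝐎(𝐂[t])) Z) (et : e.t = qel _ t) (h5 : Fintype.card F = 5)
include h w hS hq sd e et h5

theorem QE.ab5 (Ac : IsMulCommutative A) (Ao : Odd (Nat.card A)) (nA : 𝐂[t] ≤ 𝐍(A)) : A ≤ 𝐂[t] := by
  obtain ⟨χ, ε, hχ, h1, -⟩ := e.chi5 h w hS hq sd et h5
  obtain ⟨P, PH, σ, hσ, nP, P5, σ4, H⟩ := e.borel5 et w.t2 (e.card_two hS hq w sd) h5
  have cp := copAct_inv w.t2.sq Ao (nA (self_mem_cent1 t))
  have nB := norms_commutator nA (norms_zpowers_of_cent1 le_rfl)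
  obtain ⟨n, hn, n1, n2⟩ : ∃ n : ℕ, χ 1 = n ∧ 1 < n ∧ n < 40 := by
    rcases h1 with k | k | k
    exacts [⟨19, by simpa using k, by norm_num, by norm_num⟩, ⟨21, by simpa using k, by norm_num, by norm_num⟩,
      ⟨35, by simpa using k, by norm_num, by norm_num⟩]
  have := H (𝐂[t] ⊓ 𝐂(⁅A, zpowers t⁆)) ⟨inf_le_left, norms_inf le_normalizer (norms_cent nB)⟩ (le_inf PH
    (beta_ab hχ hn n1 n2 (abelian_of_le Ac cp.comm_le) (odd_card_of_le Ao cp.comm_le) w.t2 cp.comm_comm P5 (PH.trans nB)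
      (nB hσ) nP σ4))
  rw [← cent_zpowers, ← comm_eq_bot_iff, ← cp.comm_comm]
  exact comm_eq_bot_iff'.2 (zpowers_le.2 this.2)

theorem QE.beta_of (abA : ∀ A : Subgroup G, PiGrp {3} A → 𝐂[t] ≤ 𝐍(A) → A ⊓ 𝐂[t] ≤ 𝐎(𝐂[t]) → IsMulCommutative A) :
    ¬ A4 t M 3 := fun k => by
  have nA := k.le.trans (piCoreOf_norm {3} M)
  have A3 := piCoreOf_piGrp {3} M
  exact k.nc (e.ab5 h w hS hq sd et h5 (abA _ A3 nA (le_piCoreOf ⟨inf_le_right, norms_inf nA le_normalizer⟩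
    ((A3.inf_left _).mono (by simp)))) (odd_of_pi A3 (by norm_num)) nA)

end CA.ABG
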