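/-
Alperin–Brauer–Gorenstein theorem, wreathed case: the homocyclic group `A`, its normalizer, and the types of the
subgroups containing `A`.
-/
import Cfsg.Agent.Lib.ABG.BX
import Cfsg.Agent.Lib.ABG.MkPS

set_option autoImplicit false
set_option linter.unusedSectionVars false

namespace CA.ABG

open Cfsg CA CA.FStar CA.GW Subgroup

section
variable {G : Type*} [Group G] [Finite G] {S T X M V A Γ : Subgroup G} {a b c g s t : G}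

theorem le_of_isol (hS : SylowIn 2 S M) (ht : t ∈ S) (t2 : t * t = 1)
    (h : ∀ g ∈ M, g * t * g⁻¹ ∈ S → g * t * g⁻¹ = t) : M ≤ 𝐎(M) ⊔ M ⊓ 𝐂[t] := fun g hg => by
  have h1 := Blk.zstar_in hS ht t2 h hg
  obtain ⟨k, hk⟩ := Inv.conj_of_odd t2 (Inv.conj_mul_self t2 g) (odd_elt_iff.2 ((core_pi M).piElt h1))
  have h2 := zpow_mem h1 k
  generalize (t * (g * t * g⁻¹)) ^ k = o at *
  refine (mul_mem_cancel_left (mem_sup_left (inv_mem h2))).1 (mem_sup_right (mem_inf.2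
    ⟨mul_mem (inv_mem (piCoreOf_le _ _ h2)) hg, mem_cent1_iff.2 ?_⟩))
  calc o⁻¹ * g * t = o⁻¹ * (g * t * g⁻¹) * g := by group
    _ = _ := by rw [← hk]; group

/-- a conjugate of `t ∈ Z*(M)` commuting with `t` is `t` -/
theorem isol_of_le (t2 : Inv2 t) (ht : t ∈ M) (h : M ≤ 𝐎(M) ⊔ M ⊓ 𝐂[t]) (hg : g ∈ M)
    (hc : t * (g * t * g⁻¹) = g * t * g⁻¹ * t) : g * t * g⁻¹ = t := by
  have hO := piCoreOf_normalIn {2}ᶜ M
  obtain ⟨o, ho, k, hk, rfl⟩ := (mem_sup_of_norm_right (inf_le_left.trans hO.norm)).1 (h hg)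
  have e : o * k * t * (o * k)⁻¹ = o * t * o⁻¹ := by
    rw [mul_assoc o, mem_cent1_iff.1 hk.2]; group
  rw [e] at hc ⊢
  have h1 : t * (o * t * o⁻¹) ∈ 𝐎(M) := by
    have : t * (o * t * o⁻¹) = t * o * t⁻¹ * o⁻¹ := by rw [t2.inv]; group
    rw [this]
    exact mul_mem (conj_mem_of_mem_normalizer (hO.norm ht) ho) (inv_mem ho)
  by_contra k
  exact (t2.mul (t2.conj o) (Ne.symm k) hc).not_mem (odd_core M) h1

theorem SW.wr (u : SW S t) (h : IsWreathed S) :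
    t ∈ zpowers (u.z * u.z) ∧ ∃ s ∈ u.A, Inv2 s ∧ s ≠ t := by
  obtain ⟨n, hn, -, x, x', y, ox, -, hi, -, e⟩ := h
  obtain ⟨k, rfl⟩ : ∃ k, n = k + 2 := ⟨n - 2, by omega⟩
  have ox' : orderOf x' = 2 ^ (k + 2) := by rw [← e, orderOf_conj', ox]
  have key : ∀ v : S, orderOf v = 2 ^ (k + 2) → ((v ^ 2 ^ (k + 1) : S) : G) ∈ u.A ∧ Inv2 ((v ^ 2 ^ (k + 1) : S) : G) ∧
      v ^ 2 ^ (k + 1) ≠ 1 := fun v hv => by
    have h1 : v ^ 2 ^ (k + 1) ≠ 1 := pow_ne_one_of_lt_orderOf (by positivity) (by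
      rw [hv]; exact Nat.pow_lt_pow_right (by norm_num) (by omega))
    refine ⟨?_, ⟨?_, fun e => h1 (Subtype.ext e)⟩, h1⟩
    · rw [pow_succ, pow_mul, pow_two]; exact u.sq_mem (v ^ 2 ^ k).2
    · rw [← coe_mul, ← pow_add, ← two_mul, ← pow_succ', ← hv, pow_orderOf_eq_one]; rfl
  obtain ⟨a1, a2, a3⟩ := key x ox
  obtain ⟨b1, b2, -⟩ := key x' ox'
  have ne : ((x ^ 2 ^ (k + 1) : S) : G) ≠ (x' ^ 2 ^ (k + 1) : S) := fun e => a3 (mem_bot.1 (hi ▸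
    (⟨pow_mem (mem_zpowers _) _, Subtype.ext e ▸ pow_mem (mem_zpowers _) _⟩ : _ ∈ zpowers x ⊓ zpowers x')))
  have ex : ∃ s ∈ u.A, Inv2 s ∧ s ≠ t := by
    by_contra k
    push Not at k
    exact ne ((k _ a1 a2).trans (k _ b1 b2).symm)
  refine ⟨(u.typ.resolve_left fun h => ?_).2, ex⟩
  obtain ⟨s, h1, h2, h3⟩ := ex
  exact h3 (u.eq_t_of_cyc h.1 h1 h2)

theorem WA.cj (w : WA X V A) (g : G) : WA (cj g X) (cj g V) (cj g A) := by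
  refine ⟨w.four.cj g, cj_mono g w.le, ?_, abelian_iff.2 ?_, fun v hv => ?_⟩
  · rw [← cj_centralizer, ← cj_inf]; exact w.syl.cj g
  · rw [← cj_centralizer]; exact cj_mono g (abelian_iff.1 w.ab)
  · obtain ⟨v, hv', rfl⟩ := mem_cj'.1 hv
    obtain ⟨x, hx, rfl⟩ := w.sq v hv'
    exact ⟨_, mem_cj'.2 ⟨x, hx, rfl⟩, conj_mul⟩

namespace WA
variable (w : WA ⊤ V A)
include w

theorem syl' : SylowIn 2 A 𝐂(V) := by have := w.syl; rwa [top_inf_eq] at this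

theorem two : PiGrp {2} A := w.syl.piGrp

theorem le_cent1 (ha : a ∈ V) : A ≤ 𝐂[a] := w.AC.trans (cent_le_cent1 ha)

theorem eqA (u : SW S t) (hA : A ≤ S) : u.A = A := by
  have VA : V ≤ u.A := fun v hv => let ⟨_, hx, e⟩ := w.sq v hv; e ▸ u.sq_mem (hA hx)
  have h1 : A ≤ u.A := fun x hx => by_contra fun k => w.four.not_le (T := zpowers u.z) inferInstance fun v hv =>
    u.cen_out (hA hx) k (VA hv) (mem_cent1_iff.1 (w.le_cent1 hv hx))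
  exact w.syl'.eq_of_le h1 ((abelian_iff.1 u.abelian).trans (cent_mono VA)) (u.two.of_le u.le)

theorem wr (u : SW S t) (hA : A ≤ S) : t ∈ zpowers (u.z * u.z) :=
  (u.typ.resolve_left fun e => w.four.not_le (T := A) (w.eqA u hA ▸ e.1 ▸ inferInstance) w.VA).2

theorem exp (u : SW S t) (hA : A ≤ S) : ∀ a ∈ A, a ^ orderOf u.z = 1 :=
  w.eqA u hA ▸ (u.typ.resolve_left fun e => w.four.not_le (T := A) (w.eqA u hA ▸ e.1 ▸ inferInstance) w.VA).1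

variable (h : QDT (⊤ : Subgroup G))
include h

theorem mem_V (ha : a ∈ A) (a2 : a * a = 1) : a ∈ V := h.syl.qg.rk V le_top w.four a trivial a2 (w.AC ha)

theorem normV : 𝐍(A) ≤ 𝐍(V) := fun g hg => mem_normalizer_of_cj_le (cj_le_iff'.2 fun v hv =>
  w.mem_V h (conj_mem_of_mem_normalizer hg (w.VA hv)) (by rw [conj_mul, w.four.sq v hv]; group))

theorem npc : NormalPCompl 2 𝐂(V) := by have := h.syl.qg.npc V le_top w.four; rwa [top_inf_eq] at this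

theorem cent : A ⊔ 𝐎(𝐂(V)) = 𝐂(V) := by rw [sup_comm]; exact ((w.npc h).sdprod w.syl').1

theorem mem_odd (hx : g ∈ 𝐂(V)) (ho : Odd (orderOf g)) : g ∈ 𝐎(𝐂(V)) :=
  ((w.npc h).mem_iff hx).2 (odd_elt_iff.1 ho)

theorem le_odd (hX : X ≤ 𝐂(V)) (ho : PiGrp {2}ᶜ X) : X ≤ 𝐎(𝐂(V)) := (w.npc h).le_piCoreOf hX ho

/-- the Sylow 2-subgroup of `C(t)` containing `A` -/
theorem sw (ht : t ∈ V) (t1 : t ≠ 1) : ∃ (S : Subgroup G) (u : SW S t), SylowIn 2 S ⊤ ∧ SylowIn 2 S 𝐂[t] ∧ QD S ∧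
    u.A = A ∧ t ∈ zpowers (u.z * u.z) := by
  obtain ⟨S, AS, h1, h2, h3, ⟨u⟩⟩ := h.sw trivial (w.four.inv2 ht t1) w.two (le_inf le_top (w.le_cent1 ht))
  exact ⟨S, u, h1, by rwa [top_inf_eq] at h2, h3, w.eqA u AS, w.wr u AS⟩

/-- a 2-group containing `A` is `A` or a Sylow subgroup -/
theorem two_cases (hT : PiGrp {2} T) (AT : A ≤ T) : T = A ∨ ∃ t ∈ V, t ≠ 1 ∧ SylowIn 2 T ⊤ ∧ QD T ∧ Nonempty (SW T t) := by
  obtain ⟨S, t, hS, TS, ⟨u⟩⟩ := h.syl.exists hT le_top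
  have e := w.eqA u (AT.trans TS)
  by_cases k : T ≤ A
  · exact .inl (le_antisymm k AT)
  obtain ⟨x, hx, xA⟩ := SetLike.not_le_iff_exists.1 k
  obtain rfl : T = S := le_antisymm TS fun y hy => by_contra fun k => k <| (mul_mem_cancel_left hx).1
    (AT (e ▸ u.out_mul (TS hx) hy (e ▸ xA) fun k' => k (AT (e ▸ k'))))
  exact .inr ⟨t, u.four_mem w.four (w.VA.trans AT), u.t2.ne, hS, h.syl.qd hS, ⟨u⟩⟩

theorem sq_mem (hT : PiGrp {2} T) (AT : A ≤ T) (hg : g ∈ T) : g * g ∈ A := by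
  rcases w.two_cases h hT AT with rfl | ⟨t, -, -, -, -, ⟨u⟩⟩
  exacts [mul_mem hg hg, w.eqA u AT ▸ u.sq_mem hg]

omit h in
theorem toA (AX : A ≤ X) (hg : g ∈ X ⊓ 𝐍(V)) : ∃ k ∈ X ⊓ 𝐍(A), ∀ v ∈ V, k * v * k⁻¹ = g * v * g⁻¹ := by
  have hN : X ⊓ 𝐂(V) ⊴ X ⊓ 𝐍(V) := ⟨inf_le_inf_left _ (centralizer_le_normalizer _),
    norms_inf (inf_le_left.trans le_normalizer) (inf_le_right.trans (norms_cent le_rfl))⟩
  obtain ⟨c, hc, k, hk, rfl⟩ := frattini_exists_mul hN (w.of_le AX le_top).syl g hg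
  refine ⟨k, ⟨hk.1.1, hk.2⟩, fun v hv => ?_⟩
  have := mem_cent1_iff.1 (cent_le_cent1 (conj_mem_of_mem_normalizer hk.1.2 hv) hc.2)
  rw [show c * k * v * (c * k)⁻¹ = c * (k * v * k⁻¹) * c⁻¹ by group, this, mul_inv_cancel_right]

theorem sig (ha : a ∈ V) (hb : b ∈ V) (a1 : a ≠ 1) (b1 : b ≠ 1) (ab : a ≠ b) :
    ∃ σ ∈ 𝐍(A) ⊓ 𝐂[a], σ * σ = 1 ∧ σ * b * σ⁻¹ = a * b := by
  obtain ⟨S, u, -, -, -, e, -⟩ := w.sw h ha a1
  exact ⟨u.y, ⟨e ▸ u.norm u.yS, u.S_le u.yS⟩, u.y2, u.in_inv (e ▸ w.VA hb) (w.four.inv2 hb b1) ab.symm⟩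

theorem rho (ha : a ∈ V) (hb : b ∈ V) (a1 : a ≠ 1) (b1 : b ≠ 1) (ab : a ≠ b) :
    ∃ ρ ∈ 𝐍(A), ρ * a * ρ⁻¹ = b ∧ ρ * b * ρ⁻¹ = a * b ∧ ρ * (a * b) * ρ⁻¹ = a := by
  obtain ⟨g, hg, e1, e2, e3⟩ := h.rot3 w.four le_top ha hb a1 b1 ab
  obtain ⟨k, hk, e⟩ := w.toA le_top hg
  exact ⟨k, hk.2, (e a ha).trans e1, (e b hb).trans e2, (e _ (mul_mem ha hb)).trans e3⟩

theorem rotA (ha : a ∈ V) (hb : b ∈ V) (a1 : a ≠ 1) (b1 : b ≠ 1) : ∃ g ∈ 𝐍(A), g * a * g⁻¹ = b := by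
  obtain ⟨g, hg, e1⟩ := h.rot w.four le_top ha hb a1 b1
  obtain ⟨k, hk, e⟩ := w.toA le_top hg
  exact ⟨k, hk.2, (e a ha).trans e1⟩

/-- fusion of the elements of `V` in `X ⊇ A` takes place in `N_X(A)` -/
theorem toN (AX : A ≤ X) (ha : a ∈ V) (hg : g ∈ X) (hb : g * a * g⁻¹ ∈ V) :
    ∃ k ∈ X ⊓ 𝐍(A), k * a * k⁻¹ = g * a * g⁻¹ := by
  have h1 : CA.cj g A ≤ X ⊓ 𝐂[g * a * g⁻¹] :=
    le_inf (cj_le_of_le AX hg) (cj_centralizer_singleton g a ▸ cj_mono g (w.le_cent1 ha))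
  obtain ⟨T, hT, AT⟩ := exists_sylowIn_ge w.two (le_inf AX (w.le_cent1 hb))
  obtain ⟨k, hk, e⟩ := hT.exists_cj_le (w.two.cj g) h1
  rw [← cj_mul] at e
  have h2 : k * g ∈ 𝐍(V) := mem_normalizer_of_cj_le (cj_le_iff'.2 fun v hv => by
    obtain ⟨x, hx, rfl⟩ := w.sq v hv
    refine w.mem_V h ?_ (by rw [conj_mul, w.four.sq _ hv]; group)
    rw [← conj_mul]
    exact w.sq_mem h hT.piGrp AT (e (mem_cj'.2 ⟨x, hx, rfl⟩)))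
  obtain ⟨l, hl, e1⟩ := w.toA AX (mem_inf.2 ⟨mul_mem hk.1 hg, h2⟩)
  refine ⟨l, hl, (e1 a ha).trans ?_⟩
  rw [show k * g * a * (k * g)⁻¹ = k * (g * a * g⁻¹) * k⁻¹ by group, mem_cent1_iff.1 hk.2, mul_inv_cancel_right]

/-- ROT -/
theorem rot (AX : A ≤ X) : (∃ t ∈ V, t ≠ 1 ∧ X ≤ 𝐎(X) ⊔ X ⊓ 𝐂[t]) ∨
    ∀ a ∈ V, ∀ b ∈ V, a ≠ 1 → b ≠ 1 → ∃ g ∈ X ⊓ 𝐍(A), g * a * g⁻¹ = b := by
  have V4 := w.four
  obtain ⟨T, hT, AT⟩ := exists_sylowIn_ge w.two AX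
  have fin : ∀ t ∈ V, (∀ a ∈ V, a ≠ 1 → ∃ g ∈ X, g * t * g⁻¹ = a) →
      ∀ a ∈ V, ∀ b ∈ V, a ≠ 1 → b ≠ 1 → ∃ g ∈ X ⊓ 𝐍(A), g * a * g⁻¹ = b := fun t _ k a ha b hb a1 b1 => by
    obtain ⟨g, hg, e⟩ := k a ha a1
    obtain ⟨l, hl, e'⟩ := k b hb b1
    have e1 : l * g⁻¹ * a * (l * g⁻¹)⁻¹ = b := by rw [← e, ← e']; group
    exact e1 ▸ w.toN h AX ha (mul_mem hl (inv_mem hg)) (e1 ▸ hb)
  rcases w.two_cases h hT.piGrp AT with rfl | ⟨t, tV, t1, -, -, ⟨u⟩⟩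
  · obtain ⟨t, tV, t1, -⟩ := V4.exists (one_mem V)
    have t2 := V4.inv2 tV t1
    by_cases hi : ∀ g ∈ X, g * t * g⁻¹ ∈ T → g * t * g⁻¹ = t
    · exact .inl ⟨t, tV, t1, le_of_isol hT (w.VA tV) t2.sq hi⟩
    push Not at hi
    obtain ⟨g, hg, h1, h2⟩ := hi
    obtain ⟨l, hl, e⟩ := w.toN h AX tV hg (w.mem_V h h1 (t2.conj g).sq)
    have h3 : constt {2} l ∈ 𝐂[t] := w.le_cent1 tV ((hT.of_le (le_inf AX le_normalizer) inf_le_left).mem_of_normal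
      inf_le_right (constt_mem _ hl) (constt_piElt _ _))
    have h4 := constt_mem {2}ᶜ hl
    have h5 := odd_elt_iff.2 (constt_piElt {2}ᶜ l)
    have h6 : constt {2}ᶜ l ∉ 𝐂[t] := fun k => h2 (by
      rw [← e, mem_cent1_iff.1 (constt_mul_compl {2} l ▸ mul_mem h3 k : l ∈ 𝐂[t]), mul_inv_cancel_right])
    generalize constt {2}ᶜ l = k at *
    have kV := w.normV h h4.2
    have bV := conj_mem_of_mem_normalizer kV tV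
    have bt : t ≠ k * t * k⁻¹ := fun e => h6 (mem_cent1_iff.2 (mul_inv_eq_iff_eq_mul.1 e.symm))
    have hm := V4.mem tV bV t1 (t2.conj k).ne bt
    refine .inr (fin t tV fun a ha a1 => ?_)
    rcases (hm a).1 ha with rfl | rfl | rfl | rfl
    · exact absurd rfl a1
    · exact ⟨1, one_mem _, by group⟩
    · exact ⟨k, h4.1, rfl⟩
    refine ⟨k * k, mul_mem h4.1 h4.1, ?_⟩
    rcases (hm _).1 (conj_mem_of_mem_normalizer (mul_mem kV kV) tV) with f | f | f | f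
    · exact absurd f (t2.conj _).ne
    · exact absurd (mem_of_sq_mem h5 (mem_cent1_iff.2 (mul_inv_eq_iff_eq_mul.1 f))) h6
    · exact absurd (by
        have : k * (k * t * k⁻¹) * k⁻¹ = k * t * k⁻¹ := Eq.trans (by group) f
        exact (mul_left_cancel (mul_right_cancel this)).symm) bt
    · exact f
  · by_cases hi : ∀ g ∈ X, g * t * g⁻¹ ∈ T → g * t * g⁻¹ = t
    · exact .inl ⟨t, tV, t1, le_of_isol hT u.tS u.t2.sq hi⟩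
    push Not at hi
    exact .inr (fin t tV fun a ha a1 => u.fuse_in hT hi (w.eqA u AT ▸ w.VA ha) (V4.inv2 ha a1))

end WA

/-- a group of type QDT with a wreathed Sylow 2-subgroup -/
theorem QDT.wa (h : QDT (⊤ : Subgroup G)) (hS : SylowIn 2 S ⊤) (hw : IsWreathed S) (V4 : Four V)
    (hA : SylowIn 2 A 𝐂(V)) : WA ⊤ V A := by
  obtain ⟨t, ⟨u⟩⟩ := sw_wr hw
  obtain ⟨wr, s, sA, s2, st⟩ := u.wr hw
  obtain ⟨W, W4, hW⟩ := four_of u.t2 s2 st.symm (u.ab _ u.tA _ sA)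
  have tW := (hW t).2 (.inr (.inl rfl))
  have WA' : W ≤ u.A := W4.le_of tW ((hW s).2 (.inr (.inr (.inl rfl)))) u.t2.ne s2.ne st.symm u.tA sA
  have AC : u.A ≤ 𝐂(W) := (abelian_iff.1 u.abelian).trans (cent_mono WA')
  have h1 : SylowIn 2 u.A 𝐂(W) := by
    obtain ⟨B, hB, AB⟩ := exists_sylowIn_ge (u.two.of_le u.le) AC
    obtain ⟨S', t', hS', BS, ⟨u'⟩⟩ := h.syl.exists hB.piGrp le_top
    have c1 := card_mul_relIndex u.le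
    obtain ⟨g, -, rfl⟩ := hS.exists_cj hS'
    have lt : B < cj g S := lt_of_le_of_ne BS fun e => u'.dd_ne (by
      have := abelian_iff'.1 (u'.cent_ab W4 (WA'.trans (AB.trans BS)) (T := cj g S) (le_inf le_rfl (e ▸ hB.le))) _ u'.yS _
        (u'.le u'.xA)
      rw [← u'.hd, this, mul_inv_cancel_right, inv_mul_cancel, mul_one])
    have c2 := card_lt_of_lt' lt
    rw [card_cj] at c2
    obtain ⟨n, hn⟩ := card_dvd_of_le AB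
    have c3 : 0 < Nat.card u.A := Nat.card_pos
    have c4 : 0 < Nat.card B := Nat.card_pos
    rw [u.idx] at c1
    obtain rfl : n = 1 := by
      rcases n with _ | _ | n
      · omega
      · rfl
      · nlinarith
    rwa [eq_of_le_of_card_eq AB (by omega)]
  have hN : 𝐂(W) ⊴ 𝐍(W) := ⟨centralizer_le_normalizer _, norms_cent le_rfl⟩
  have w0 : WA ⊤ W u.A := ⟨W4, le_top, by rwa [top_inf_eq], u.abelian, fun v hv => by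
    by_cases v1 : v = 1
    · exact ⟨1, one_mem _, by rw [v1, one_mul]⟩
    obtain ⟨c, hc, e⟩ := u.exists_four_elt wr
    obtain ⟨g, hg, e1⟩ := h.rot W4 le_top tW hv u.t2.ne v1
    obtain ⟨l, hl, k, hk, rfl⟩ := frattini_exists_mul hN h1 g hg.2
    refine ⟨k * c * k⁻¹, conj_mem_of_mem_normalizer hk.2 (u.Z_le hc), ?_⟩
    rw [conj_mul, e, ← e1, show l * k * t * (l * k)⁻¹ = l * (k * t * k⁻¹) * l⁻¹ by group,
      mem_cent1_iff.1 (cent_le_cent1 (conj_mem_of_mem_normalizer hk.1 tW) hl), mul_inv_cancel_right]⟩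
  obtain ⟨g, -, rfl⟩ := h.four_conj W4 V4 le_top le_top
  have w1 := w0.cj g
  rw [cj_top] at w1
  obtain ⟨k, hk, rfl⟩ := w1.syl'.exists_cj hA
  have w2 := w1.cj k
  rwa [cj_top, mem_normalizer_iff_cj.1 (centralizer_le_normalizer _ hk)] at w2

/-- TY -/
theorem SW.ty (u : SW S t) (h : QDT (⊤ : Subgroup G)) (hS : SylowIn 2 S ⊤) (wr : t ∈ zpowers (u.z * u.z))
    (SΓ : S ≤ Γ) (cov : 𝐂[t] ≤ Γ ⊓ 𝐂[t] ⊔ 𝐎(𝐂[t])) : Γ ≤ 𝐎(Γ) ⊔ Γ ⊓ 𝐂[t] ∨ QDT Γ := by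
  have hS' : SylowIn 2 S Γ := hS.of_le SΓ le_top
  rcases u.types hS' (h.syl.qd hS) with e | e | ⟨-, N, -, -, ⟨-, e, -⟩ | ⟨-, -, e⟩⟩
  · exact .inl (le_of_isol hS' u.tS u.t2.sq e)
  · exact .inr e
  · obtain ⟨c, hc, e1⟩ := u.exists_four_elt wr
    rw [e] at hc
    rcases (mem_zpowers_sq u.t2.sq).1 hc with rfl | rfl
    exacts [absurd (by simpa using e1.symm) u.t2.ne, absurd (e1.symm.trans u.t2.sq) u.t2.ne]
  exfalso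
  obtain ⟨g, hg, k⟩ := u.fuse_y hS wr fun s _ s2 => h.one _ trivial _ trivial u.t2 s2
  have hO := piCoreOf_normalIn {2}ᶜ 𝐂[t]
  rw [sup_comm] at cov
  obtain ⟨o, ho, l, hl, rfl⟩ := (mem_sup_of_norm_right (inf_le_right.trans hO.norm)).1 (cov hg.2)
  have yΓ : l * u.y * l⁻¹ ∈ Γ ⊓ 𝐂[t] := mul_mem (mul_mem hl ⟨SΓ u.yS, u.S_le u.yS⟩) (inv_mem hl)
  have e1 : o * l * u.y * (o * l)⁻¹ = o * (l * u.y * l⁻¹) * o⁻¹ := by group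
  have i1 := u.y_inv2.conj l
  rw [e1] at k
  have i2 := i1.conj o
  have m1 : l * u.y * l⁻¹ * (o * (l * u.y * l⁻¹) * o⁻¹)⁻¹ ∈ Γ ⊓ 𝐎(𝐂[t]) := by
    refine mem_inf.2 ⟨mul_mem yΓ.1 (inv_mem (SΓ (u.le k))), ?_⟩
    generalize l * u.y * l⁻¹ = v at *
    rw [show v * (o * v * o⁻¹)⁻¹ = v * o * v⁻¹ * o⁻¹ by group]
    exact mul_mem (conj_mem_of_mem_normalizer (hO.norm yΓ.2) ho) (inv_mem ho)
  have m2 : Γ ⊓ 𝐂[t] ≤ 𝐍(Γ ⊓ 𝐎(𝐂[t])) := norms_inf (inf_le_left.trans le_normalizer) (inf_le_right.trans hO.norm)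
  have m3 : Odd (Nat.card ↥(Γ ⊓ 𝐎(𝐂[t]))) := odd_iff.2 ((core_pi 𝐂[t]).of_le inf_le_right)
  obtain ⟨p, hp, e2⟩ := conj2 m3 (m2 yΓ) i1.piElt i2.piElt m1
  have e3 : p * l * u.y * (p * l)⁻¹ = p * (l * u.y * l⁻¹) * p⁻¹ := by group
  exact e (p * l) (mul_mem hp.1 hl.1) (by rwa [e3, e2])

namespace WA
variable (w : WA ⊤ V A) (h : QDT (⊤ : Subgroup G))
include w h

/-- a subgroup containing `A` and covering `C(t)/O(C(t))` contains a Sylow 2-subgroup -/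
theorem syl_of_cov (ht : t ∈ V) (t1 : t ≠ 1) (AΓ : A ≤ Γ) (cov : 𝐂[t] ≤ Γ ⊓ 𝐂[t] ⊔ 𝐎(𝐂[t])) :
    ∃ (S : Subgroup G) (u : SW S t), S ≤ Γ ∧ SylowIn 2 S ⊤ ∧ SylowIn 2 S 𝐂[t] ∧ QD S ∧ u.A = A ∧
      t ∈ zpowers (u.z * u.z) := by
  obtain ⟨S, hS, AS⟩ := exists_sylowIn_ge w.two (le_inf AΓ (w.le_cent1 ht))
  have hO := piCoreOf_normalIn {2}ᶜ 𝐂[t]
  have h1 : SylowIn 2 S 𝐂[t] := hS.of_not_dvd_relIndex inf_le_right Nat.prime_two (by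
    have e : Γ ⊓ 𝐂[t] ⊔ 𝐎(𝐂[t]) = 𝐂[t] := le_antisymm (sup_le inf_le_right hO.le) cov
    conv => enter [1, 2, 2]; rw [← e]
    rw [relIndex_sup_of_norm' (inf_le_right.trans hO.norm)]
    exact fun k => (odd_core 𝐂[t]).not_two_dvd_nat (k.trans (relIndex_dvd_card _ _)))
  obtain ⟨h2, h3, ⟨u⟩⟩ := h.syl_cent trivial (w.four.inv2 ht t1) (by rwa [top_inf_eq])
  exact ⟨S, u, hS.le.trans inf_le_left, h2, h1, h3, w.eqA u AS, w.wr u AS⟩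

theorem ty (ht : t ∈ V) (t1 : t ≠ 1) (AΓ : A ≤ Γ) (cov : 𝐂[t] ≤ Γ ⊓ 𝐂[t] ⊔ 𝐎(𝐂[t])) :
    Γ ≤ 𝐎(Γ) ⊔ Γ ⊓ 𝐂[t] ∨ QDT Γ := by
  obtain ⟨S, u, h1, h2, -, -, -, h3⟩ := w.syl_of_cov h ht t1 AΓ cov
  exact u.ty h h2 h3 h1 cov

theorem ty_rot (ht : t ∈ V) (t1 : t ≠ 1) (AΓ : A ≤ Γ) (cov : 𝐂[t] ≤ Γ ⊓ 𝐂[t] ⊔ 𝐎(𝐂[t])) (hg : g ∈ Γ)
    (h1 : g * t * g⁻¹ ∈ V) (h2 : g * t * g⁻¹ ≠ t) : QDT Γ :=
  (w.ty h ht t1 AΓ cov).resolve_left fun e =>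
    h2 (isol_of_le (w.four.inv2 ht t1) (AΓ (w.VA ht)) e hg (w.four.comm ht h1))

end WA

end

end CA.ABG
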