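/-
Alperin–Brauer–Gorenstein, semidihedral case, `q = 5`: the `C(t)`-invariant `3`-subgroups are abelian.
-/
import Cfsg.Agent.Lib.ABG.BetaC
import Cfsg.Agent.Lib.ABG.Chi5
import Cfsg.Agent.Lib.ABG.WS
import Cfsg.Agent.Lib.PF.Dade

set_option autoImplicit false
set_option linter.unusedSectionVars false

namespace CA.ABG.Bt8

open Cfsg Subgroup CA CA.FStar CA.GW
open CA.Ch hiding avg avg_const avg_bot avg_conj avg_congr avg_add
open CA.Br.OmB (zp_mul_odd comm_of_zp)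

variable {G : Type*} [Group G] [Finite G] {N A S : Subgroup G} {χ : G → ℂ} {g t : G} {ε : ℂ}

theorem avg_cent (hχ : IsCF χ) (ho : PiGrp {2}ᶜ N) (hg : g ∈ 𝐍(N)) (g2 : PiElt {2} g) :
    avg N χ g = avg (N ⊓ 𝐂[g]) χ g := by
  have k : ∀ K : Subgroup G, avg K χ g = Ch.avg K fun k => χ (k * g) := fun K => by
    have := Fintype.ofFinite K
    rw [avg, ip_one_right, avg_def]
    simp only [hχ.comm g]
  rw [k, k]
  exact avg_coset_eq N (fun k hk => conj_mem_of_mem_normalizer hg hk) (Nat.coprime_of_dvd fun p hp h1 h2 =>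
    ho p hp h2 (g2 p hp h1)) hχ

open Classical in
theorem sum_ind (K D : Subgroup G) [Fintype K] (c : ℂ) :
    ∑ g : K, (if (g : G) ∈ D then c else 0) = Nat.card (D.subgroupOf K) * c := by
  rw [← Finset.sum_filter, Finset.sum_const, nsmul_eq_mul, Nat.card_eq_fintype_card, Fintype.card_subtype]; rfl

theorem val_inv (hχ : IsCF χ) (hε : ε = 1 ∨ ε = -1) (g2 : Inv2 g) (c4 : ∀ u ∈ 𝐎(𝐂[g]), χ (g * u) = 5 * ε)
    (c5 : ∀ y ∈ 𝐂[g], PiElt {3} y → y ∉ 𝐎(𝐂[g]) → χ (g * y) = -ε) (N3 : PiGrp {3} N) (hg : g ∈ 𝐍(N))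
    (hi : AInt (χ g - avg N χ g)) : ∃ v : ℤ, χ g - avg N χ g = 4 * v := by
  classical
  have ho : PiGrp {2}ᶜ N := N3.mono (by simp)
  have := Fintype.ofFinite ↥(N ⊓ 𝐂[g])
  have e := index_mul_card ((𝐎(𝐂[g])).subgroupOf (N ⊓ 𝐂[g]))
  obtain ⟨j, hj⟩ : Odd ((𝐎(𝐂[g])).subgroupOf (N ⊓ 𝐂[g])).index :=
    (odd_iff.2 (ho.inf_left _)).of_dvd_nat (index_dvd_card _)
  have j0 : (2 * j + 1 : ℂ) ≠ 0 := by exact_mod_cast Nat.succ_ne_zero (2 * j)
  have e1 : (χ g - avg N χ g) * (2 * j + 1) = 12 * j * ε := by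
    rw [avg_cent hχ ho hg (Blk.piElt_two_of_sq g2.sq), avg, ip_one_right, Finset.sum_congr rfl
      (f := fun c : ↥(N ⊓ 𝐂[g]) => χ (g * c)) (g := fun c => -ε + if (c : G) ∈ 𝐎(𝐂[g]) then 6 * ε else 0) fun c _ => by
        split_ifs with h
        · rw [c4 _ h]; ring
        · rw [c5 _ c.2.2 (N3.piElt c.2.1) h, add_zero], Finset.sum_add_distrib, sum_ind, Finset.sum_const,
      Finset.card_univ, ← Nat.card_eq_fintype_card, ← e, hj, show χ g = 5 * ε by simpa using c4 1 (one_mem _)]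
    have := Ch.card_ne_zero' ((𝐎(𝐂[g])).subgroupOf (N ⊓ 𝐂[g]))
    rw [nsmul_eq_mul]
    push_cast
    field_simp
    ring
  obtain ⟨e, rfl, he⟩ : ∃ e : ℤ, ε = e ∧ (e = 1 ∨ e = -1) := by
    rcases hε with rfl | rfl
    exacts [⟨1, by simp, .inl rfl⟩, ⟨-1, by simp, .inr rfl⟩]
  obtain ⟨v, hv⟩ := hi.int_of_rat ⟨12 * j * e / (2 * j + 1), by rw [eq_div_of_mul_eq j0 e1]; push_cast; rfl⟩
  rw [hv] at e1 ⊢
  have e2 : v * (2 * j + 1) = 12 * j * e := by exact_mod_cast e1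
  have e3 : (2 * j + 1 : ℤ) ∣ 6 := by
    rcases he with rfl | rfl
    exacts [⟨6 - v, by linarith⟩, ⟨6 + v, by linarith⟩]
  have e4 := Int.le_of_dvd (by norm_num) e3
  have e5 : j ≤ 2 := by omega
  refine ⟨v / 4, ?_⟩
  rw [show v = 4 * (v / 4) by interval_cases j <;> omega]
  simp

theorem ab_of_chi [IsSimpleGroup G] (w : SW S t) (sd : w.z = t) (hq : QD S) (hχ : IsIrr χ) {n : ℕ} (hn : χ 1 = n)
    (h1 : 1 < n) (h2 : n < 48) (hε : ε = 1 ∨ ε = -1) (c4 : ∀ a, Inv2 a → ∀ u ∈ 𝐎(𝐂[a]), χ (a * u) = 5 * ε)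
    (c5 : ∀ a, Inv2 a → ∀ y ∈ 𝐂[a], PiElt {3} y → y ∉ 𝐎(𝐂[a]) → χ (a * y) = -ε)
    (c6 : ∀ a x u, Inv2 a → a ∈ zpowers x → u ∈ 𝐎(𝐂[a]) → a ∈ zpowers (x * u) → χ (x * u) = χ x)
    (Ap : PiGrp {3} A) (nA : S ≤ 𝐍(A)) (cA : A ⊓ 𝐂[t] ≤ 𝐎(𝐂[t])) : ⁅A, A⁆ = ⊥ := by
  classical
  have zz : t ∉ zpowers (w.z * w.z) := fun e => w.t2.ne (by simpa [sd, w.t2.sq] using e)
  have hA := (w.typ.resolve_right fun e => zz e.2).1
  obtain ⟨i, hi, hS, -⟩ := hq.resolve_right fun e => zz (w.wr e).1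
  have nN := norms_commutator nA nA
  have AN := comm_normalIn_left (le_normalizer (H := A))
  obtain ⟨k, hk⟩ := avg_dvd_p hχ.isChar Nat.prime_three Ap AN le_rfl
  generalize ⁅A, A⁆ = N at *
  have N3 := Ap.of_le AN.le
  have ho : PiGrp {2}ᶜ N := N3.mono (by simp)
  have cψ := avg_diff hχ.isChar bot_le (N := N) (X := 𝐍(N)) ⟨bot_le, by simp⟩ ⟨le_normalizer, le_rfl⟩
  rw [avg_bot] at cψ
  obtain ⟨m, hm⟩ := (avg_char hχ.isChar (N := N) (X := 𝐍(N)) ⟨le_normalizer, le_rfl⟩).nat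
  obtain ⟨r, hr⟩ := (cψ.comp (inclusion nN)).ip_nat isIrr_one.isChar
  obtain ⟨v, hv⟩ := val_inv hχ.isCF hε w.y_inv2 (c4 _ w.y_inv2) (c5 _ w.y_inv2) N3 (nN w.yS) (cψ.aint ⟨_, nN w.yS⟩)
  have z : ∀ g ∈ S, t ∈ zpowers g → χ g - avg N χ g = 0 := fun g hg h => by
    rw [avg_cent hχ.isCF ho (nN hg) (w.two.piElt hg), avg_const (N := N ⊓ 𝐂[g]) fun c hc => c6 t g c w.t2 h
      (cA ⟨AN.le hc.1, mem_cent1_iff.2 (comm_of_zp h (mem_cent1_iff.1 hc.2))⟩) (zp_mul_odd h w.t2.sq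
        (mem_cent1_iff.1 hc.2).symm ((odd_iff.2 ho).of_dvd_nat (orderOf_dvd_natCard _ hc.1))), sub_self]
  have val : ∀ g : S, χ g - avg N χ g = (if g = 1 then 3 * (k : ℂ) else 0) +
      if ((g * ⟨w.y, w.yS⟩ : S) : G) ∈ zpowers w.d then 4 * (v : ℂ) else 0 := fun ⟨g, hg⟩ => by
    have o : g * w.y ∈ w.A → g ∉ w.A := fun h h' => w.yA ((mul_mem_cancel_left h').1 h)
    change χ g - avg N χ g = _ + if g * w.y ∈ zpowers w.d then _ else _
    by_cases h : g * w.y ∈ zpowers w.d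
    · have gA := o (w.D_le h)
      obtain ⟨b, hb, e⟩ := w.out_conj hg gA (by
        obtain ⟨j, hj⟩ := h
        replace hj : w.d ^ j = g * w.y := hj
        have : w.y * (g * w.y) * w.y⁻¹ = (g * w.y)⁻¹ := by rw [← hj, ← conj_zpow, w.yd, inv_zpow]
        rw [mul_assoc, mul_assoc, mul_inv_cancel, mul_one, _root_.mul_inv_rev, w.yinv, mul_right_inj] at this
        rw [← inv_eq_iff_mul_eq_one, ← this])
      rw [if_pos h, if_neg fun e : (⟨g, hg⟩ : S) = 1 => gA (by rw [show g = 1 from congrArg Subtype.val e]; exact one_mem _), zero_add, ← hv, ← e,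
        hχ.isCF.conj, avg_conj hχ.isCF (nN (w.le hb))]
    rw [if_neg h, add_zero]
    split_ifs with g1
    · rw [show g = 1 from Subtype.ext_iff.1 g1, hk]; simp
    refine z g hg ?_
    by_cases gA : g ∈ w.A
    · obtain ⟨u, hu, u2⟩ := exists_inv2' (piGrp_zpowers.2 (w.two.piElt hg)) fun e => g1 (Subtype.ext
        (zpowers_eq_bot.1 e))
      exact w.eq_t_of_cyc hA (zpowers_le.2 gA hu) u2 ▸ hu
    rcases (mem_zpowers_sq w.t2.sq).1 (sd ▸ w.sq_out hg gA) with e | e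
    · refine absurd (w.ker (w.out_mul hg w.yS gA w.yA) ?_) h
      rw [mul_assoc w.y, mul_inv_cancel_right, mul_assoc, ← mul_assoc w.y, w.y2, one_mul, e]
    · exact e ▸ mul_mem (mem_zpowers g) (mem_zpowers g)
  obtain ⟨c, hc⟩ : 4 ∣ Nat.card ((zpowers w.d).subgroupOf S) := by
    rw [Nat.card_congr (subgroupOfEquivOfLe (w.D_le.trans w.le)).toEquiv, Nat.card_zpowers]
    have := Fact.mk Nat.prime_two
    obtain ⟨j, hj⟩ := IsPGroup.iff_orderOf.1 (w.two.isPGroup Nat.prime_two) ⟨w.d, w.le w.dA⟩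
    replace hj : orderOf w.d = 2 ^ j := by rw [← hj, ← Subgroup.orderOf_coe]
    rcases j with _ | _ | j
    · exact absurd (by rw [orderOf_eq_one_iff.1 hj, one_mul]) w.dd_ne
    · exact absurd (by rw [← pow_two]; exact orderOf_dvd_iff_pow_eq_one.1 hj.dvd) w.dd_ne
    · exact ⟨2 ^ j, hj.trans (by ring)⟩
  have := Fintype.ofFinite S
  rw [ip_one_right] at hr
  change _ * ∑ g : S, (χ g - avg N χ g) = _ at hr
  rw [Finset.sum_congr rfl fun g _ => val g, Finset.sum_add_distrib, Finset.sum_ite_eq',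
    if_pos (Finset.mem_univ _), Fintype.sum_equiv (Equiv.mulRight (⟨w.y, w.yS⟩ : S)) _
      (fun g : S => if (g : G) ∈ zpowers w.d then 4 * (v : ℂ) else 0) fun _ => by rfl, sum_ind, hc,
    inv_mul_eq_iff_eq_mul₀ (Ch.card_ne_zero' _), hS] at hr
  obtain ⟨i, rfl⟩ : ∃ j, i = j + 3 := ⟨i - 3, by omega⟩
  have e1 : (3 * k : ℤ) = 16 * (2 ^ i * r - c * v) := by
    have : (3 * k + (4 * c : ℕ) * (4 * v) : ℤ) = (2 ^ (i + 3 + 1) : ℕ) * r := by exact_mod_cast hr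
    push_cast at this
    linear_combination this
  have e2 : n = 3 * k + m := by
    rw [OneMemClass.coe_one] at hm
    rw [hn, hm, sub_eq_iff_eq_add] at hk
    exact_mod_cast hk
  obtain rfl : k = 0 := by omega
  have e3 := cψ.eq_zero (by simpa using hk)
  refine eq_bot_iff.2 fun x hx => hχ.isCF.cfker_normal.eq_bot_or_eq_top.resolve_right (hχ.cfker_ne_top fun e => ?_) ▸
    hχ.mem_cfker.2 ?_
  · rw [e, Pi.one_apply] at hn
    exact h1.ne (by exact_mod_cast hn)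
  · have e4 := congrFun e3 ⟨x, le_normalizer hx⟩
    have e5 := avg_mul (χ := χ) (g := 1) hx
    simp only [Pi.zero_apply, one_mul, Nat.cast_zero, mul_zero] at e4 e5 hk
    linear_combination e4 + e5 - hk

end CA.ABG.Bt8

namespace CA.ABG

open Cfsg Subgroup CA CA.FStar CA.GW

theorem QE.abA {G : Type*} [Group G] [Finite G] [IsSimpleGroup G] {S A : Subgroup G} {t : G} (h : QDT (⊤ : Subgroup G))
    (w : SW S t) (hS : SylowIn 2 S 𝐂[t]) (hq : QD S) (sd : w.z = t) {Z : Subgroup (Quo 𝐎(𝐂[t]))} {F : Type} [Field F]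
    [Fintype F] (e : QE F (𝐂[t] /ₛ 𝐎(𝐂[t])) Z) (et : e.t = qel _ t) (h5 : Fintype.card F = 5) (Ap : PiGrp {3} A)
    (nA : 𝐂[t] ≤ 𝐍(A)) (cA : A ⊓ 𝐂[t] ≤ 𝐎(𝐂[t])) : IsMulCommutative A := by
  obtain ⟨χ, ε, c1, c2, c3, c4, c5, c6⟩ := e.chi5 h w hS hq sd et h5
  obtain ⟨n, hn, h1, h2⟩ : ∃ n : ℕ, χ 1 = n ∧ 1 < n ∧ n < 48 := by
    rcases c2 with c | c | c
    exacts [⟨19, by simpa using c, by norm_num⟩, ⟨21, by simpa using c, by norm_num⟩, ⟨35, by simpa using c, by norm_num⟩]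
  exact le_centralizer_iff_isMulCommutative.1 (commutator_eq_bot_iff_le_centralizer.1
    (Bt8.ab_of_chi w sd hq c1 hn h1 h2 c3 c4 c5 c6 Ap (hS.le.trans nA) cA))

end CA.ABG
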