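/-
Alperin–Brauer–Gorenstein theorem: from the centralizer of an involution to the statements.
-/
import Cfsg.Agent.Lib.ABG.Defs
import Cfsg.Agent.S0484
import Cfsg.Agent.S0485

set_option autoImplicit false

namespace CA.ABG

open Cfsg CA CA.FStar CA.GW Subgroup Matrix

/-- in a semidihedral group the centralizer of an element of order `> 2` is abelian -/
theorem sd_comm {S : Type*} [Group S] (h : IsQuasiDihedral S) {w a b : S} (hw : w * w ≠ 1) (ha : a * w = w * a)
    (hb : b * w = w * b) : a * b = b * a := by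
  obtain ⟨n, hn, hc, x, y, hx, -, hy⟩ := h
  haveI : Finite S := Nat.finite_of_card_ne_zero (by rw [hc]; positivity)
  obtain ⟨k, rfl⟩ : ∃ k, n = k + 3 := ⟨n - 3, by omega⟩
  have hi : (zpowers x).index = 2 := by
    have := (zpowers x).card_mul_index
    rw [Nat.card_zpowers, hx, hc, pow_succ 2 (k + 3)] at this
    exact Nat.eq_of_mul_eq_mul_left (by positivity) this
  have comm : ∀ a ∈ zpowers x, ∀ b ∈ zpowers x, a * b = b * a := abelian_iff'.1 (abelian_zpowers x)
  have e2 : 2 ^ (k + 3 - 1) - 1 = 2 * (2 * 2 ^ k - 1) + 1 := by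
    rw [show k + 3 - 1 = k + 2 by omega, pow_add]; have := Nat.two_pow_pos k; omega
  have key : ∀ v ∈ zpowers x, y * v = v * y → v * v = 1 := fun v hv e => by
    obtain ⟨i, rfl⟩ := mem_powers_iff_mem_zpowers.2 hv
    have h1 : (x ^ i) ^ (2 * (2 * 2 ^ k - 1) + 1) = x ^ i := by
      rw [← pow_mul, mul_comm, pow_mul, ← e2, ← hy, conj_pow, e, mul_inv_cancel_right]
    rw [pow_succ, mul_eq_right, pow_mul] at h1
    have h2 : ((x ^ i) ^ 2) ^ (2 ^ (k + 3)) = 1 := by
      rw [← pow_mul, ← pow_mul, ← mul_assoc, mul_comm, pow_mul, ← hx, pow_orderOf_eq_one, one_pow]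
    have h3 : (2 * 2 ^ k - 1).Coprime (2 ^ (k + 3)) := Nat.Coprime.pow_right _ (Nat.coprime_two_right.2 (by
      have := Nat.two_pow_pos k; exact ⟨2 ^ k - 1, by omega⟩))
    rw [← pow_two]
    exact orderOf_eq_one_iff.1 (Nat.eq_one_of_dvd_coprimes h3 (orderOf_dvd_of_pow_eq_one h1) (orderOf_dvd_of_pow_eq_one h2))
  have hy' : y ∉ zpowers x := fun e => by
    have h1 := orderOf_dvd_of_pow_eq_one (x := x) (n := 2) (by rw [pow_two]; exact key x (mem_zpowers x) (comm y e x (mem_zpowers x)))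
    rw [hx] at h1
    have := Nat.le_of_dvd two_pos h1
    rw [pow_add] at this; have := Nat.two_pow_pos k; omega
  have mm : ∀ a b, a ∉ zpowers x → b ∉ zpowers x → a * b ∈ zpowers x := fun a b h1 h2 =>
    (mul_mem_iff_of_index_two hi).2 (iff_of_false h1 h2)
  by_cases e : w ∈ zpowers x
  · have k1 : ∀ a, a * w = w * a → a ∈ zpowers x := fun a ha => by_contra fun e' => hw (key w e (by
      have h1 := comm _ (mm a⁻¹ y (by simpa using e') hy') w e
      calc y * w = a * (a⁻¹ * y * w) := by group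
        _ = w * y := by rw [h1, ← mul_assoc, ha]; group))
    exact comm a (k1 a ha) b (k1 b hb)
  · have k1 : ∀ a, a * w = w * a → ∃ c ∈ zpowers x, c * w = w * c ∧ (a = c ∨ a = c * w) := fun a ha => by
      by_cases e' : a ∈ zpowers x
      · exact ⟨a, e', ha, .inl rfl⟩
      · exact ⟨a * w⁻¹, mm _ _ e' (by simpa using e), by rw [← mul_assoc, ← ha]; group, .inr (by group)⟩
    obtain ⟨c, c1, c2, h1⟩ := k1 a ha
    obtain ⟨d, d1, d2, h2⟩ := k1 b hb
    have cd := comm c c1 d d1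
    rcases h1 with rfl | rfl <;> rcases h2 with rfl | rfl
    · exact cd
    · rw [← mul_assoc, cd, mul_assoc, c2, mul_assoc]
    · rw [mul_assoc, ← d2, ← mul_assoc, cd, mul_assoc]
    · calc c * w * (d * w) = c * d * w * w := by rw [mul_assoc c, ← mul_assoc w, ← d2]; group
        _ = _ := by rw [cd, mul_assoc d c, c2, mul_assoc d, mul_assoc d, mul_assoc w, c2]

variable {G : Type*} [Group G] [Finite G]

/-- a dihedral group of order 8 centralized by an element of order 4 is not inside a semidihedral group -/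
theorem not_sd {S : Subgroup G} (hS : SylowIn 2 S ⊤) (h : IsQuasiDihedral S) {K : Type*} [Group K] {H : Subgroup G}
    {Z : Subgroup K} [Z.Normal] (hZ : Odd (Nat.card Z)) (e : H ≃* K ⧸ Z) {w a b : K} (w4 : (w * w) * (w * w) = 1)
    (w2 : w * w ≠ 1) (a2 : a * a = 1) (b2 : b * b = 1) (ha : a * w = w * a) (hb : b * w = w * b)
    (hab : a * b = w * w * (b * a)) : False := by
  let f : K →* G := H.subtype.comp (e.symm.toMonoidHom.comp (QuotientGroup.mk' Z))
  have hf : f (w * w) ≠ 1 := fun e1 => by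
    have e2 : w * w ∈ Z := by simpa [f, -map_mul, -QuotientGroup.mk_mul] using e1
    exact (⟨w4, w2⟩ : Inv2 (w * w)).not_mem hZ e2
  replace w4 := congrArg f w4
  replace a2 := congrArg f a2
  replace b2 := congrArg f b2
  replace ha := congrArg f ha
  replace hb := congrArg f hb
  replace hab := congrArg f hab
  simp only [map_mul, map_one] at w4 a2 b2 ha hb hab hf
  generalize f w = w, f a = a, f b = b at *
  have p : ∀ {x : G} {n : ℕ}, x ^ 2 ^ n = 1 → PiGrp {2} (zpowers x) := fun {x n} h =>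
    piGrp_zpowers.2 (piElt_of_pow_eq_one (PiNum.pow (π := {2}) ((piNum_prime Nat.prime_two).2 rfl) n) h)
  have pw : PiGrp {2} (zpowers w) := p (n := 2) (by rw [← w4, ← pow_two, ← pow_two, ← pow_mul]; rfl)
  have pa : PiGrp {2} (zpowers a) := p (n := 1) (by rw [← a2, ← pow_two]; rfl)
  have pb : PiGrp {2} (zpowers b) := p (n := 1) (by rw [← b2, ← pow_two]; rfl)
  have n1 : zpowers a ≤ 𝐍(zpowers w) := norms_zpowers_of_cent1 (zpowers_le.2 (mem_cent1_iff.2 ha))
  have n2 : zpowers b ≤ 𝐍(zpowers w ⊔ zpowers a) := zpowers_le.2 (mem_normalizer_of_cj_le (cj_le_iff'.2 fun x hx => by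
    revert x
    rw [← cj_le_iff', cj_sup, cj_zpowers, cj_zpowers, hb, mul_inv_cancel_right]
    refine sup_le le_sup_left (zpowers_le.2 ?_)
    rw [show b * a * b⁻¹ = (w * w)⁻¹ * (w * w * (b * a)) * b⁻¹ by group, ← hab, mul_assoc, mul_inv_cancel_right]
    exact mul_mem (mem_sup_left (inv_mem (mul_mem (mem_zpowers w) (mem_zpowers w)))) (mem_sup_right (mem_zpowers a))))
  obtain ⟨g, -, hg⟩ := hS.exists_cj_le ((pw.sup pa (.inl n1)).sup pb (.inl n2)) le_top
  have m : ∀ x ∈ zpowers w ⊔ zpowers a ⊔ zpowers b, g * x * g⁻¹ ∈ S := cj_le_iff'.1 hg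
  have mw := m w (mem_sup_left (mem_sup_left (mem_zpowers w)))
  have ma := m a (mem_sup_left (mem_sup_right (mem_zpowers a)))
  have mb := m b (mem_sup_right (mem_zpowers b))
  have := sd_comm h (w := ⟨_, mw⟩) (a := ⟨_, ma⟩) (b := ⟨_, mb⟩)
    (fun e => hf (by simpa [conj_mul] using congrArg Subtype.val e))
    (Subtype.ext (by simp only [coe_mul, conj_mul, ha])) (Subtype.ext (by simp only [coe_mul, conj_mul, hb]))
  have h1 : a * b = b * a := by simpa [conj_mul] using congrArg Subtype.val this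
  rw [h1] at hab
  exact hf (by simpa using hab)

section mat
variable {F : Type*} [Field F]

theorem mats (h2 : (2 : F) ≠ 0) {i : F} (hi : i * i = -1) : ∃ w a b : GL (Fin 2) F,
    (w : Matrix (Fin 2) (Fin 2) F) = !![i, 0; 0, i] ∧ (a : Matrix (Fin 2) (Fin 2) F) = !![1, 0; 0, -1] ∧
    (b : Matrix (Fin 2) (Fin 2) F) = !![0, 1; 1, 0] ∧ (w * w) * (w * w) = 1 ∧
    w * w ≠ 1 ∧ a * a = 1 ∧ b * b = 1 ∧ a * w = w * a ∧ b * w = w * b ∧ a * b = w * w * (b * a) := by
  have i0 : i ≠ 0 := fun e => by simp [e] at hi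
  refine ⟨GeneralLinearGroup.mkOfDetNeZero !![i, 0; 0, i] (by simp [det_fin_two, i0]),
    GeneralLinearGroup.mkOfDetNeZero !![1, 0; 0, -1] (by simp [det_fin_two]),
    GeneralLinearGroup.mkOfDetNeZero !![0, 1; 1, 0] (by simp [det_fin_two]), rfl, rfl, rfl, ?_, fun e => ?_, ?_, ?_, ?_, ?_, ?_⟩
  swap
  · have := congrArg (fun m : GL (Fin 2) F => m 0 0) e
    simp [hi] at this
    exact h2 (by linear_combination -this)
  all_goals
    ext j k
    fin_cases j <;> fin_cases k <;> simp [hi, Matrix.mul_apply, Fin.sum_univ_two]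

end mat

variable [IsSimpleGroup G]

theorem Ident.s523 (h : Ident G) :
    (∃ (F : Type) (_ : Field F) (_ : Fintype F), Odd (Fintype.card F) ∧
        Nonempty (G ≃* Matrix.ProjectiveSpecialLinearGroup (Fin 3) F)) ∨
      (∃ (F : Type) (_ : Field F) (_ : Fintype F) (q : ℕ), Fintype.card F = q ^ 2 ∧ Odd q ∧
        Nonempty (G ≃* Cfsg.PSU 3 F q)) ∨
      Cfsg.IsM11 G := by
  obtain ⟨t, t2, ⟨F, _, _, Z, _, h1, h2, h3, h4⟩ | ⟨F, _, _, q, Z, _, h1, h0, h2, h3, h4⟩⟩ := h
  · rcases Cfsg.Agent.S0484.result h1 Z h2 h3 t t2.ord h4 with h | h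
    exacts [.inl ⟨F, _, _, h1, h⟩, .inr (.inr h)]
  · exact .inr (.inl ⟨F, _, _, q, h0, h1, Cfsg.Agent.S0485.result q h1 h0 Z h2 h3 t t2.ord h4⟩)

theorem Ident.s507 (h : Ident G) (S : Sylow 2 G) (hS : IsQuasiDihedral (S : Subgroup G)) :
    (∃ (F : Type) (_ : Field F) (_ : Fintype F), Fintype.card F % 4 = 3 ∧
        Nonempty (G ≃* Matrix.ProjectiveSpecialLinearGroup (Fin 3) F)) ∨
      (∃ (F : Type) (_ : Field F) (_ : Fintype F) (q : ℕ), Fintype.card F = q ^ 2 ∧ q % 4 = 1 ∧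
        Nonempty (G ≃* Cfsg.PSU 3 F q)) ∨ Cfsg.IsM11 G := by
  classical
  haveI : Fact (Nat.Prime 2) := ⟨Nat.prime_two⟩
  have two : ∀ (F : Type) [Field F] [Fintype F], Odd (Fintype.card F) → (2 : F) ≠ 0 := fun F _ _ h =>
    Ring.two_ne_zero fun e => by
      have := FiniteField.even_card_of_char_two e
      rw [Nat.odd_iff] at h; omega
  obtain ⟨t, t2, ⟨F, _, _, Z, _, h1, h2, h3, h4⟩ | ⟨F, _, _, q, Z, _, h1, h0, h2, h3, h4⟩⟩ := h
  · have : Fintype.card F % 4 = 3 := by_contra fun e => by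
      obtain ⟨i, hi⟩ := FiniteField.isSquare_neg_one_iff.2 e
      obtain ⟨w, a, b, -, -, -, k1, k2, k3, k4, k5, k6, k7⟩ := mats (two F h1) hi.symm
      obtain ⟨f⟩ := h4
      exact not_sd (sylowIn_top S) hS h3 f k1 k2 k3 k4 k5 k6 k7
    rcases Cfsg.Agent.S0484.result h1 Z h2 h3 t t2.ord h4 with h | h
    exacts [.inl ⟨F, _, _, this, h⟩, .inr (.inr h)]
  · refine .inr (.inl ⟨F, _, _, q, h0, by_contra fun e => ?_, Cfsg.Agent.S0485.result q h1 h0 Z h2 h3 t t2.ord h4⟩)
    obtain ⟨k, rfl⟩ : ∃ k, q = 4 * k + 3 := ⟨q / 4, by rw [Nat.odd_iff] at h1; omega⟩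
    obtain ⟨i, hi⟩ := (FiniteField.isSquare_neg_one_iff (F := F)).2 (by
      rw [h0, show (4 * k + 3) ^ 2 = 4 * (4 * k ^ 2 + 6 * k + 2) + 1 by ring]; omega)
    obtain ⟨w, a, b, e1, e2, e3, k1, k2, k3, k4, k5, k6, k7⟩ := mats (two F (h0 ▸ h1.pow)) hi.symm
    have iq : i * i ^ (4 * k + 3) = 1 := by
      rw [← pow_succ', show 4 * k + 3 + 1 = 2 * (2 * (k + 1)) by ring, pow_mul, pow_two, ← hi, pow_mul, neg_one_sq, one_pow]
    have hw : w ∈ GU 2 F (4 * k + 3) := fun u v => by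
      simp only [hermForm, Units.coeHom_apply, e1, Fin.sum_univ_two, mulVec, dotProduct]
      simp only [of_apply, cons_val', cons_val_zero, cons_val_one, cons_val_fin_one, zero_mul, add_zero, zero_add, mul_pow]
      linear_combination (u 0 * v 0 ^ (4 * k + 3) + u 1 * v 1 ^ (4 * k + 3)) * iq
    have ha : a ∈ GU 2 F (4 * k + 3) := fun u v => by
      simp [hermForm, e2, Fin.sum_univ_two, mulVec, dotProduct, h1.neg_pow]
    have hb : b ∈ GU 2 F (4 * k + 3) := fun u v => by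
      simp [hermForm, e3, Fin.sum_univ_two, mulVec, dotProduct, add_comm]
    obtain ⟨f⟩ := h4
    exact not_sd (sylowIn_top S) hS h3 f (w := ⟨w, hw⟩) (a := ⟨a, ha⟩) (b := ⟨b, hb⟩) (Subtype.ext k1)
      (fun e => k2 (congrArg Subtype.val e)) (Subtype.ext k3) (Subtype.ext k4) (Subtype.ext k5) (Subtype.ext k6)
      (Subtype.ext k7)

end CA.ABG
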