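/-
Steps G2, G3 of the wreathed case: the centralizer of a normal Sylow subgroup of `O(Γ)` has odd order.
-/
import Cfsg.Agent.Lib.ABG.Top

set_option autoImplicit false
set_option linter.unusedSectionVars false

namespace CA.ABG
open Cfsg CA CA.GW Subgroup

variable {G : Type*} [Group G] [Finite G] {r : ℕ} [hr : Fact r.Prime] {P O S Γ : Subgroup G} {t : G}

theorem cnt_mod (hP : IsPGroup r P) (h : ∀ g, P ≤ 𝐂[g * t * g⁻¹] ↔ ∃ o ∈ O, o * t * o⁻¹ = g * t * g⁻¹) :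
    (𝐂[t]).index ≡ (𝐂[t]).relIndex O [MOD r] := by
  have e : MulAction.fixedPoints P (G ⧸ 𝐂[t]) = MulAction.orbit O ((1 : G) : G ⧸ 𝐂[t]) := Set.ext fun x => by
    obtain ⟨g, rfl⟩ := QuotientGroup.mk_surjective x
    have k : ∀ a : G, ((a : G ⧸ 𝐂[t]) = g) ↔ a * t * a⁻¹ = g * t * g⁻¹ := fun a => by
      rw [QuotientGroup.eq, mem_cent1_iff]
      exact ⟨fun e => by rw [← mul_inv_cancel_left a g, mul_assoc a _ t, e]; group,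
        fun e => by rw [← inv_mul_cancel_right (_ * t) g⁻¹⁻¹, inv_inv, mul_assoc a⁻¹, mul_assoc a⁻¹, ← e]; group⟩
    refine Iff.trans ?_ ((h g).trans ⟨fun ⟨o, ho, e⟩ => ⟨⟨o, ho⟩, (k _).2 (by simpa using e)⟩,
      fun ⟨o, e⟩ => ⟨o, o.2, by simpa using (k _).1 e⟩⟩)
    refine Subtype.forall.trans (forall₂_congr fun a _ => (k (a * g)).trans ?_)
    rw [mem_cent1_iff, show a * g * t * (a * g)⁻¹ = a * (g * t * g⁻¹) * a⁻¹ by group, mul_inv_eq_iff_eq_mul]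
  have := hP.card_modEq_card_fixedPoints (G ⧸ 𝐂[t])
  rwa [e, Nat.card_coe_set_eq, ← MulAction.index_stabilizer, show MulAction.stabilizer O ((1 : G) : G ⧸ 𝐂[t]) = 𝐂[t].subgroupOf O from
    Subgroup.ext fun o => QuotientGroup.eq.trans (by simp [mem_subgroupOf])] at this

/-- G2, G3 -/
theorem g23 (w : SW S t) (hS : SylowIn 2 S Γ) (hΓ : Γ ≤ 𝐎(Γ) ⊔ Γ ⊓ 𝐂[t]) (hP : SylowIn r P 𝐎(Γ)) (hN : Γ ≤ 𝐍(P))
    (hC : 𝐂(P) ≤ Γ) (nc : ∀ u ∈ 𝐂[t], Inv2 u → u ≠ t → ¬ P ≤ 𝐂[u]) (hd : r ∣ (𝐂[t]).index) : 𝐂(P) ≤ 𝐎(Γ) := by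
  have hO : 𝐎(Γ) ⊴ Γ := piCoreOf_normalIn _ _
  have CN : 𝐂(P) ⊴ Γ := ⟨hC, norms_cent hN⟩
  refine le_piCoreOf CN (by_contra fun h2 => ?_)
  have tP := mem_cent_iff_le_cent1.1 (w.mem_normal hS CN h2)
  have := cnt_mod (t := t) (O := 𝐎(Γ)) (hP.isPGroup hr.out) fun g => ⟨fun h => ?_, fun ⟨o, ho, e⟩ =>
    e ▸ mem_cent_iff_le_cent1.1 (conj_mem_of_mem_normalizer (CN.2 (hO.1 ho)) (mem_cent_iff_le_cent1.2 tP))⟩
  · exact hP.not_dvd hr.out (((Nat.modEq_zero_iff_dvd.1 (this.symm.trans (Nat.modEq_zero_iff_dvd.2 hd)))).trans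
      (relIndex_dvd_of_le_left _ tP))
  have u2 := w.t2.conj g
  have hu := mem_cent_iff_le_cent1.2 h
  obtain ⟨k, hk, e⟩ := hS.exists_conj_mem (hC hu) u2.piElt
  have e' : k * (g * t * g⁻¹) * k⁻¹ = t := by_contra fun e' => nc _ (w.S_le e) (u2.conj k) e'
    (mem_cent_iff_le_cent1.1 (conj_mem_of_mem_normalizer (CN.2 hk) hu))
  obtain ⟨a, ha, b, hb, e⟩ := (mem_sup_of_norm_right (inf_le_left.trans hO.2)).1 (hΓ (inv_mem hk))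
  refine ⟨a, ha, ?_⟩
  calc a * t * a⁻¹ = a * (b * t) * b⁻¹ * a⁻¹ := by rw [mem_cent1_iff.1 hb.2]; group
    _ = k⁻¹ * t * k⁻¹⁻¹ := by rw [← e]; group
    _ = _ := by nth_rw 1 [← e']; group

end CA.ABG
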