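/-
Quadratic elements acting on an irreducible module of a central extension of `SL₂(q)`.
-/
import Cfsg.Agent.Lib.ABG.QuadA

set_option autoImplicit false
set_option linter.unusedSectionVars false

namespace CA.ABG
open Cfsg CA CA.GW Matrix.SpecialLinearGroup CA.SL2 CA.Br Subgroup
open scoped MatrixGroups commutatorElement

section nil
variable {K V : Type*} [Field K] [AddCommGroup V] [Module K V]

/-- vectors killed by all words of length `i` in `α, β` -/
def kf (α β : Module.End K V) : ℕ → Submodule K V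
  | 0 => ⊥
  | i + 1 => (kf α β i).comap α ⊓ (kf α β i).comap β

variable {α β : Module.End K V}

theorem mem_kf {i : ℕ} {v : V} : v ∈ kf α β (i + 1) ↔ α v ∈ kf α β i ∧ β v ∈ kf α β i := Iff.rfl

theorem kf_le (i : ℕ) : kf α β i ≤ kf α β (i + 1) := by
  induction i with
  | zero => exact bot_le
  | succ i ih => exact fun v hv => ⟨ih hv.1, ih hv.2⟩

theorem kf_top (hα : α * α = 0) (hβ : β * β = 0) (k : ℕ) : ∀ v, ((α * β + β * α) ^ k) v = 0 → v ∈ kf α β (3 * k) := by
  have a2 : ∀ v, α (α v) = 0 := fun v => LinearMap.congr_fun hα v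
  have b2 : ∀ v, β (β v) = 0 := fun v => LinearMap.congr_fun hβ v
  have ca : Commute (α * β + β * α) α := by
    change _ * _ = _ * _
    linear_combination (norm := noncomm_ring) β * hα - hα * β
  have cb : Commute (α * β + β * α) β := by
    change _ * _ = _ * _
    linear_combination (norm := noncomm_ring) α * hβ - hβ * α
  induction k with
  | zero => exact fun v hv => by simpa [kf] using hv
  | succ k ih =>
    intro v hv
    have k1 : α (β (α v)) ∈ kf α β (3 * k) := ih _ (by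
      have : α * (α * β + β * α) ^ (k + 1) = (α * β + β * α) ^ k * (α * β * α) := by
        rw [← (ca.pow_left _).eq, pow_succ, mul_assoc]
        congr 1
        linear_combination (norm := noncomm_ring) β * hα
      have := LinearMap.congr_fun this v
      simpa only [Module.End.mul_apply, hv, map_zero, eq_comm] using this)
    have k2 : β (α (β v)) ∈ kf α β (3 * k) := ih _ (by
      have : β * (α * β + β * α) ^ (k + 1) = (α * β + β * α) ^ k * (β * α * β) := by
        rw [← (cb.pow_left _).eq, pow_succ, mul_assoc]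
        congr 1
        linear_combination (norm := noncomm_ring) α * hβ
      have := LinearMap.congr_fun this v
      simpa only [Module.End.mul_apply, hv, map_zero, eq_comm] using this)
    change v ∈ kf α β (3 * k + 1 + 1 + 1)
    simp only [mem_kf, a2, b2, map_zero, zero_mem, k1, k2, and_self]

theorem pow_char_of_nil {r : ℕ} [hr : Fact r.Prime] [CharP (Module.End K V) r] {u : Module.End K V} {n : ℕ}
    (h : (u - 1) ^ n = 0) : u ^ r ^ n = 1 := by
  have := sub_pow_char_pow_of_commute r n (Commute.one_right u)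
  rw [pow_eq_zero_of_le (Nat.lt_pow_self hr.out.one_lt).le h, one_pow] at this
  exact sub_eq_zero.1 this.symm

theorem unip_of_nil {N : Type*} [Group N] (ρ : N →* Module.End K V) {x y : N} (hx : (ρ x - 1) * (ρ x - 1) = 0)
    (hy : (ρ y - 1) * (ρ y - 1) = 0) {k : ℕ} (hk : ((ρ x - 1) * (ρ y - 1) + (ρ y - 1) * (ρ x - 1)) ^ k = 0) {h : N}
    (hh : h ∈ closure {x, y}) : (ρ h - 1) ^ (3 * k) = 0 := by
  have iv : ∀ {z}, (ρ z - 1) * (ρ z - 1) = 0 → ρ z⁻¹ - 1 = -(ρ z - 1) := fun {z} hz => by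
    rw [q_inv (X' := ρ z⁻¹) hz (by rw [← map_mul, inv_mul_cancel, map_one]), ← one_add_one_eq_two]; abel
  have key : ∀ i, ∀ v ∈ kf (ρ x - 1) (ρ y - 1) (i + 1), (ρ h - 1) v ∈ kf (ρ x - 1) (ρ y - 1) i := by
    induction hh using closure_induction'' with
    | mem z hz => rcases hz with rfl | rfl; exacts [fun i v hv => hv.1, fun i v hv => hv.2]
    | inv_mem z hz =>
      rcases hz with rfl | rfl
      · exact fun i v hv => by rw [iv hx]; exact neg_mem hv.1
      · exact fun i v hv => by rw [iv hy]; exact neg_mem hv.2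
    | one => exact fun i v _ => by simp
    | mul a b _ _ ha hb =>
      intro i v hv
      have := add_mem (ha i _ (add_mem (kf_le i (hb i v hv)) hv)) (hb i v hv)
      simpa using this
  have : ∀ n, ∀ v ∈ kf (ρ x - 1) (ρ y - 1) n, ((ρ h - 1) ^ n) v = 0 := fun n => by
    induction n with
    | zero => exact fun v hv => hv
    | succ n ih => exact fun v hv => by rw [pow_succ, Module.End.mul_apply]; exact ih _ (key n v hv)
  exact LinearMap.ext fun v => this _ v (kf_top hx hy k v (by rw [hk]; rfl))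

end nil

variable {F : Type*} [Field F] [Fintype F] {N : Type*} [Group N]

/-- the subgroup `±U` -/
def PU (F : Type*) [Field F] : Subgroup SL(2, F) where
  carrier := {g | ∃ s, g = up s ∨ g = -up s}
  one_mem' := ⟨0, .inl (by simp)⟩
  mul_mem' := by
    rintro _ _ ⟨s, rfl | rfl⟩ ⟨t, rfl | rfl⟩ <;> refine ⟨s + t, ?_⟩ <;> simp [up_add]
  inv_mem' := by
    rintro _ ⟨s, rfl | rfl⟩ <;> refine ⟨-s, ?_⟩ <;> simp [up_neg]

/-- the diagonal torus -/
def dS : Fˣ →* SL(2, F) := MonoidHom.mk' (fun u => mk2 u 0 0 (u⁻¹ : Fˣ) (by simp)) fun a b => by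
  refine sext ?_ ?_ ?_ ?_ <;> simp [mul_apply', mul_comm]

theorem dS_up (u : Fˣ) (s : F) : dS u * up s * (dS u)⁻¹ = up (u ^ 2 * s) :=
  conj_up_of_upper (n := dS u) rfl s

section cext
variable {Γ : Type*} [Group Γ] {π : N →* SL(2, F)} {ρ : N →* Γ} (cen : ∀ c, π c = 1 → ∀ n, ρ c * ρ n = ρ n * ρ c)
include cen

theorem cj_ker {c : N} (hc : π c = 1) (n : N) : ρ (c * n * c⁻¹) = ρ n := by
  rw [map_mul, map_mul, cen c hc, map_inv, mul_inv_cancel_right]

theorem cj_ker' {c : N} (hc : π c = 1) (n : N) : ρ (n * c * n⁻¹) = ρ c := by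
  rw [map_mul, map_mul, ← cen c hc, map_inv, mul_inv_cancel_right]

theorem cj_congr {d d' : N} (e : π d = π d') (n : N) : ρ (d * n * d⁻¹) = ρ (d' * n * d'⁻¹) := by
  rw [← cj_ker cen (c := d * d'⁻¹) (by rw [map_mul, map_inv, e, mul_inv_cancel]) (d' * n * d'⁻¹)]
  congr 1; group

theorem comm_of_sq (odd : ∀ c, π c = 1 → Odd (orderOf c)) {n w : N} (e : π n * π w = π w * π n)
    (h : ρ n * ρ (w * w) = ρ (w * w) * ρ n) : ρ n * ρ w = ρ w * ρ n := by
  have he : π (n * w * n⁻¹ * w⁻¹) = 1 := by simp [e]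
  set c := n * w * n⁻¹ * w⁻¹ with hc
  have h1 : ρ (c * c) = 1 := by
    have : ρ (c * c) * ρ (w * w) = ρ (n * (w * w) * n⁻¹) := by
      rw [show n * (w * w) * n⁻¹ = c * (w * c) * w by rw [hc]; group]
      rw [map_mul ρ (c * _), map_mul ρ c (w * c), map_mul ρ w c, ← cen c he w]
      simp only [map_mul, mul_assoc]
    rw [map_mul ρ (n * _), map_mul ρ n, h, map_inv, mul_inv_cancel_right] at this
    simpa using this
  obtain ⟨k, hk⟩ := odd c he
  have h2 : ρ c = 1 := by
    have : ρ ((c * c) ^ k * c) = 1 := by rw [← sq, ← pow_mul, ← pow_succ, ← hk, pow_orderOf_eq_one, map_one]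
    rwa [map_mul, map_pow, h1, one_pow, one_mul] at this
  rw [← map_mul, show n * w = c * (w * n) by rw [hc]; group, map_mul, h2, one_mul, map_mul]

theorem up_comm (sur : Function.Surjective π) {m₁ m₂ m₃ : Fˣ} (e : (m₁ : F) ^ 2 + m₂ ^ 2 = m₃ ^ 2)
    (ne : ((m₁ : F) ^ 2)⁻¹ + ((m₂ : F) ^ 2)⁻¹ - ((m₃ : F) ^ 2)⁻¹ ≠ 0) {a b : N} {s t : F} (ha : π a = up s) (hb : π b = up t) :
    ρ a * ρ b = ρ b * ρ a := by
  choose σ hσ using sur
  let B : F → F → Γ := fun s t => ρ ⁅σ (up s), σ (up t)⁆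
  have c1 : ∀ s t, π ⁅σ (up s), σ (up t)⁆ = 1 := fun s t => by
    rw [map_commutatorElement, hσ, hσ, commutatorElement_eq_one_iff_mul_comm, ← up_add, ← up_add, add_comm]
  have w1 : ∀ {a a' : N} (b : N), π a = π a' → ρ ⁅a, b⁆ = ρ ⁅a', b⁆ := fun {a a'} b h => by
    rw [commutatorElement_def, commutatorElement_def, map_mul, map_mul ρ _ b⁻¹, cj_congr cen h]
  have w : ∀ {a b : N} {s t : F}, π a = up s → π b = up t → ρ ⁅a, b⁆ = B s t := fun {a b s t} ha hb => by
    rw [w1 b (ha.trans (hσ _).symm), ← commutatorElement_inv, map_inv, w1 _ (hb.trans (hσ _).symm), ← map_inv,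
      commutatorElement_inv]
  have add1 : ∀ s s' t, B (s' + s) t = B s t * B s' t := fun s s' t => by
    rw [← w (a := σ (up s') * σ (up s)) (b := σ (up t)) (by rw [map_mul, hσ, hσ, up_add]) (hσ _)]
    simp only [B]
    rw [← cj_ker' cen (c1 s t) (σ (up s')), ← map_mul]
    congr 1; simp only [commutatorElement_def]; group
  have add2 : ∀ s t t', B s (t + t') = B s t * B s t' := fun s t t' => by
    rw [← w (a := σ (up s)) (b := σ (up t) * σ (up t')) (hσ _) (by rw [map_mul, hσ, hσ, up_add])]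
    simp only [B]
    rw [← cj_ker' cen (c1 s t') (σ (up t)), ← map_mul]
    congr 1; simp only [commutatorElement_def]; group
  have inv : ∀ (m : Fˣ) s t, B (m ^ 2 * s) t = B s (((m : F) ^ 2)⁻¹ * t) := fun m s t => by
    refine Eq.trans ?_ (cj_ker' cen (c1 s _) (σ (dS m)))
    rw [conjugate_commutatorElement]
    refine (w (by simp only [map_mul, map_inv, hσ, dS_up]) ?_).symm
    simp only [map_mul, map_inv, hσ, dS_up]
    rw [mul_inv_cancel_left₀ (pow_ne_zero 2 m.ne_zero)]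
  set u := t / (((m₁ : F) ^ 2)⁻¹ + ((m₂ : F) ^ 2)⁻¹ - ((m₃ : F) ^ 2)⁻¹) with hu
  have h1 := add1 (m₁ ^ 2 * s) (m₂ ^ 2 * s) u
  rw [← add_mul, add_comm, e, inv, inv, inv, ← add2, show ((m₁ : F) ^ 2)⁻¹ * u + ((m₂ : F) ^ 2)⁻¹ * u =
    ((m₃ : F) ^ 2)⁻¹ * u + t by rw [← mul_div_cancel₀ t ne, ← hu]; ring, add2, left_eq_mul, ← w ha hb,
    map_commutatorElement] at h1
  exact commutatorElement_eq_one_iff_mul_comm.1 h1

theorem pu_comm (odd : ∀ c, π c = 1 → Odd (orderOf c)) (sur : Function.Surjective π) {m₁ m₂ m₃ : Fˣ}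
    (e : (m₁ : F) ^ 2 + m₂ ^ 2 = m₃ ^ 2) (ne : ((m₁ : F) ^ 2)⁻¹ + ((m₂ : F) ^ 2)⁻¹ - ((m₃ : F) ^ 2)⁻¹ ≠ 0) {a b : N}
    (ha : π a ∈ PU F) (hb : π b ∈ PU F) : ρ a * ρ b = ρ b * ρ a := by
  have c : ∀ {g k}, g ∈ PU F → k ∈ PU F → g * k = k * g := by
    rintro _ _ ⟨s, rfl | rfl⟩ ⟨t, rfl | rfl⟩ <;> simp [← up_add, add_comm]
  have q : ∀ {a}, π a ∈ PU F → ∃ s, π (a * a) = up s := fun ⟨s, h⟩ => ⟨s + s, by
    rcases h with h | h <;> simp [h, up_add]⟩
  obtain ⟨s, hs⟩ := q ha
  obtain ⟨t, ht⟩ := q hb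
  exact (comm_of_sq cen odd (c hb ha) (comm_of_sq cen odd (c (map_mul π a a ▸ mul_mem ha ha) hb)
    (up_comm cen sur e ne hs ht)).symm).symm

end cext

end CA.ABG
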