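/-
No quadratic `r`-elements on irreducible modules of central extensions of `SL₂(q)`, except for `q = 5`, `r = 3`.
-/
import Cfsg.Agent.Lib.ABG.QuadB

set_option autoImplicit false
set_option linter.unusedSectionVars false

namespace CA.ABG
open Cfsg CA CA.GW Matrix.SpecialLinearGroup CA.SL2 CA.Br Subgroup
open scoped MatrixGroups commutatorElement

variable {F : Type*} [Field F] [Fintype F] {N : Type*} [Group N] {r : ℕ} [hr : Fact r.Prime] {V : Type*} [AddCommGroup V]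
  [Module (ZMod r) V] [Finite V]

/-- an irreducible module of a group that is, modulo the kernel, a central extension of `SL₂(F)` of odd kernel -/
structure QH (π : N →* SL(2, F)) (ρ : N →* Module.End (ZMod r) V) : Prop where
  sur : Function.Surjective π
  irr : ∀ W : Submodule (ZMod r) V, (∀ g, ∀ v ∈ W, ρ g v ∈ W) → W = ⊥ ∨ W = ⊤
  cen : ∀ c, π c = 1 → ∀ n, ρ c * ρ n = ρ n * ρ c
  odd : ∀ c, π c = 1 → Odd (orderOf c)
  ker : ∀ n, ρ n = 1 → π n = 1 ∨ π n = -1
  nt : Nontrivial V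

theorem schur {ρ : N →* Module.End (ZMod r) V}
    (irr : ∀ W : Submodule (ZMod r) V, (∀ g, ∀ v ∈ W, ρ g v ∈ W) → W = ⊥ ∨ W = ⊤) {φ : Module.End (ZMod r) V}
    (hφ : ∀ n, φ * ρ n = ρ n * φ) : φ = 0 ∨ Function.Injective φ :=
  (irr (LinearMap.ker φ) fun g v hv => by
    rw [LinearMap.mem_ker] at hv ⊢
    rw [← Module.End.mul_apply, hφ, Module.End.mul_apply, hv, map_zero]).symm.imp LinearMap.ker_eq_top.1 LinearMap.ker_eq_bot.1

theorem rep_inv (ρ : N →* Module.End (ZMod r) V) {x y : N} (hx : (ρ x - 1) * (ρ x - 1) = 0)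
    (hy : (ρ y - 1) * (ρ y - 1) = 0) : ρ (x * y)⁻¹ = (2 - ρ y) * (2 - ρ x) := by
  rw [mul_inv_rev, map_mul, q_inv (X' := ρ x⁻¹) hx (by rw [← map_mul, inv_mul_cancel, map_one]),
    q_inv (X' := ρ y⁻¹) hy (by rw [← map_mul, inv_mul_cancel, map_one])]

namespace QH
variable {π : N →* SL(2, F)} {ρ : N →* Module.End (ZMod r) V} (h : QH π ρ) {x y : N}
include h

theorem charP : CharP (Module.End (ZMod r) V) r :=
  have := h.nt
  charP_of_injective_algebraMap' (ZMod r) r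

theorem pow_eq_one (hx : (ρ x - 1) * (ρ x - 1) = 0) (hy : (ρ y - 1) * (ρ y - 1) = 0) {k : ℕ} (hk : π ((x * y) ^ k) = 1)
    (ne : ρ x ≠ ρ y) : ρ ((x * y) ^ k) = 1 := by
  have j : ∀ k : ℕ, (ρ x - ρ y) * ρ ((x * y) ^ k) = ρ ((x * y) ^ k)⁻¹ * (ρ x - ρ y) := fun k => by
    induction k with
    | zero => simp
    | succ k ih =>
      rw [pow_succ, map_mul, ← mul_assoc, ih, mul_assoc, map_mul, q_j hx hy, ← rep_inv ρ hx hy, ← mul_assoc, ← map_mul,
        ← mul_inv_rev, ← pow_succ, ← pow_succ']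
  set c := (x * y) ^ k
  have h1 : (ρ (c * c) - 1) * (ρ x - ρ y) = 0 := by
    rw [sub_mul, map_mul, mul_assoc, mul_sub, h.cen c hk, h.cen c hk, ← sub_mul, j k, ← mul_assoc, ← map_mul, mul_inv_cancel,
      map_one, sub_self]
  rcases schur h.irr (φ := ρ (c * c) - 1) (fun n => by
    rw [sub_mul, mul_sub, h.cen _ (by rw [map_mul, hk, one_mul]), one_mul, mul_one]) with e | e
  · obtain ⟨m, hm⟩ := h.odd c hk
    have : ρ ((c * c) ^ m * c) = 1 := by rw [← sq, ← pow_mul, ← pow_succ, ← hm, pow_orderOf_eq_one, map_one]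
    rwa [map_mul, map_pow, sub_eq_zero.1 e, one_pow, one_mul] at this
  · exact absurd (sub_eq_zero.1 (LinearMap.ext fun v => e ((LinearMap.congr_fun h1 v).trans (map_zero _).symm))) ne

theorem comm_pair (p : ℕ) [Fact p.Prime] [CharP F p] (h2 : (2 : F) ≠ 0) (r2 : r ≠ 2) (rp : r ≠ p)
    (hx : (ρ x - 1) * (ρ x - 1) = 0) (hy : (ρ y - 1) * (ρ y - 1) = 0) {k : ℕ} (hk : π ((x * y) ^ r ^ k) = 1)
    (ht : tr (π x * π y) ≠ 0) : π x * π y = π y * π x := by
  have := h.charP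
  by_cases ne : ρ x = ρ y
  · have := h.ker (x * y⁻¹) (by rw [map_mul, ne, ← map_mul, mul_inv_cancel, map_one])
    rw [map_mul, map_inv, mul_inv_eq_one, mul_inv_eq_iff_eq_mul] at this
    rcases this with e | e <;> simp [e]
  have g1 := h.pow_eq_one hx hy hk ne
  rw [map_pow] at g1
  have gi : ρ (x * y) * ρ (x * y)⁻¹ = 1 := by rw [← map_mul, mul_inv_cancel, map_one]
  have gi' : ρ (x * y)⁻¹ * ρ (x * y) = 1 := by rw [← map_mul, inv_mul_cancel, map_one]
  have eγ : (ρ x - 1) * (ρ y - 1) + (ρ y - 1) * (ρ x - 1) = ρ (x * y) + ρ (x * y)⁻¹ - 2 := by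
    rw [rep_inv ρ hx hy, map_mul, ← one_add_one_eq_two]; noncomm_ring
  have hγ : ((ρ x - 1) * (ρ y - 1) + (ρ y - 1) * (ρ x - 1)) ^ r ^ k = 0 := by
    rw [eγ]
    generalize ρ (x * y)⁻¹ = g' at gi gi'
    generalize ρ (x * y) = g at gi gi' g1
    have c : Commute g (g + g' - 2) := ((Commute.refl g).add_right (gi.trans gi'.symm)).sub_right (Commute.ofNat_right g 2)
    have e : g * (g + g' - 2) = (g - 1) ^ 2 := by
      linear_combination (norm := (rw [← one_add_one_eq_two]; noncomm_ring)) gi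
    rw [← one_mul (_ ^ _), ← g1, ← c.mul_pow, e, ← pow_mul, mul_comm, pow_mul,
      sub_pow_char_pow_of_commute r k (Commute.one_right g), g1, one_pow, sub_self, zero_pow two_ne_zero]
  let φ := (QuotientGroup.mk' (center SL(2, F))).comp π
  have hP : IsPGroup r ((closure {x, y}).map φ) := by
    rintro ⟨_, z, hz, rfl⟩
    refine ⟨3 * r ^ k, Subtype.ext ?_⟩
    change φ z ^ _ = 1
    rw [← map_pow]
    exact (pm_mk _).2 (h.ker _ (by rw [map_pow]; exact pow_char_of_nil (unip_of_nil ρ hx hy hγ hz)))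
  obtain ⟨P, hP⟩ := hP.exists_le_sylow
  obtain ⟨Q, rfl⟩ := Sylow.mapSurjective_surjective (QuotientGroup.mk'_surjective (center SL(2, F))) r P
  have := sylow_isCyclic p r r2 rp Q
  obtain ⟨a, ha, ea⟩ := hP ⟨x, subset_closure (by simp), rfl⟩
  obtain ⟨b, hb, eb⟩ := hP ⟨y, subset_closure (by simp), rfl⟩
  have ab : a * b = b * a := congrArg Subtype.val (mul_comm' (⟨a, ha⟩ : Q) ⟨b, hb⟩)
  refine (pm_mk.eq.1 (?_ : QuotientGroup.mk' (center SL(2, F)) _ = _)).resolve_right fun e => ht ?_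
  · rw [map_mul, map_mul, ← show _ = QuotientGroup.mk' _ (π x) from ea, ← show _ = QuotientGroup.mk' _ (π y) from eb,
      ← map_mul, ab, map_mul]
  · have := congrArg tr e
    rw [tr_neg, tr_mul_comm (π y)] at this
    exact (mul_eq_zero.1 (by linear_combination this : 2 * tr (π x * π y) = 0)).resolve_left h2

theorem not_neg_up (p : ℕ) [hp : Fact p.Prime] [CharP F p] (p2 : p ≠ 2) (p3 : p ≠ 3) (rp : r ≠ p) {m₁ m₂ m₃ : Fˣ}
    (e : (m₁ : F) ^ 2 + m₂ ^ 2 = m₃ ^ 2) (ne : ((m₁ : F) ^ 2)⁻¹ + ((m₂ : F) ^ 2)⁻¹ - ((m₃ : F) ^ 2)⁻¹ ≠ 0)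
    (hx : (ρ x - 1) * (ρ x - 1) = 0) (hy : (ρ y - 1) * (ρ y - 1) = 0) (hw : π (x * y) = -up 1) (h0 : π x 0 0 = 0) : False := by
  classical
  have := h.charP
  have := h.nt
  have cen : ∀ c, π c = 1 → ∀ n, ρ.toHomUnits c * ρ.toHomUnits n = ρ.toHomUnits n * ρ.toHomUnits c :=
    fun c hc n => Units.ext (h.cen c hc n)
  have cA : ∀ {a b}, π a ∈ PU F → π b ∈ PU F → ρ a * ρ b = ρ b * ρ a := fun ha hb =>
    congrArg Units.val (pu_comm cen h.odd h.sur e ne ha hb)
  have cj : ∀ {d d'}, π d = π d' → ∀ n, ρ (d * n * d⁻¹) = ρ (d' * n * d'⁻¹) := fun e n =>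
    congrArg Units.val (cj_congr cen e n)
  choose σ hσ using h.sur
  have jj := q_jj hx hy
  have jg := q_j hx hy
  have zx := q_zx hx (Y := ρ y)
  rw [← rep_inv ρ hx hy, ← map_mul] at jj jg zx
  have hk := fun k => h.pow_eq_one hx hy (k := k)
  generalize x * y = w at *
  have wA : π w ∈ PU F := ⟨1, .inr hw⟩
  have ri : ∀ n, ρ n * ρ n⁻¹ = 1 := fun n => by rw [← map_mul, mul_inv_cancel, map_one]
  have li : ∀ n, ρ n⁻¹ * ρ n = 1 := fun n => by rw [← map_mul, inv_mul_cancel, map_one]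
  set Z := ρ w + ρ w⁻¹ with hZ
  have ZA : ∀ {a}, π a ∈ PU F → ρ a * Z = Z * ρ a := fun ha => by
    rw [hZ, mul_add, add_mul, cA ha wA, cA ha (map_inv π w ▸ inv_mem wA)]
  have cZ : ∀ n, Z * ρ n = ρ n * Z := fun n => by
    let D : Subgroup N :=
      { carrier := {n | Commute (ρ n) Z}
        one_mem' := by simp
        mul_mem' := fun ha hb => by rw [Set.mem_setOf_eq, map_mul]; exact Commute.mul_left ha hb
        inv_mem' := fun {a} ha => by
          have := Commute.units_inv_left (u := ρ.toHomUnits a) ha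
          rwa [← map_inv] at this }
    obtain ⟨d, hd, ed⟩ := (top_of_up (D.map π) (fun s => ⟨σ (up s), ZA ⟨s, .inl (hσ _)⟩, hσ _⟩) ⟨x, zx, rfl⟩ h0 ▸
      mem_top _ : π n ∈ D.map π)
    have : n * d⁻¹ * d ∈ D := mul_mem (ZA (by rw [map_mul, map_inv, ed, mul_inv_cancel]; exact one_mem _)) hd
    rw [inv_mul_cancel_right] at this
    exact this.symm
  have pw : ∀ k : ℕ, π (w ^ (2 * k)) = up ((2 * k : ℕ) : F) := fun k => by
    rw [map_pow, hw, Even.neg_pow (even_two_mul k), up_pow, mul_one]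
  have hne : ∀ u : Module.End (ZMod r) V, u * u = ρ w * ρ w → (u - 1) ^ 2 ≠ 0 := fun u hu e => by
    have h1 : ρ (w ^ (2 * r ^ 2)) = 1 := by
      rw [map_pow, pow_mul, sq, ← hu, ← sq, ← pow_mul, mul_comm, pow_mul, pow_char_of_nil e, one_pow]
    have h3 : ((2 * r ^ 2 : ℕ) : F) = 0 := by
      rcases h.ker _ h1 with e | e <;> simpa only [pw, up_01, neg_ent, one_ent01, neg_zero] using (s_ent e).2.1
    rcases hp.out.dvd_mul.1 ((CharP.cast_eq_zero_iff F p _).1 h3) with e | e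
    · exact p2 ((Nat.prime_dvd_prime_iff_eq hp.out Nat.prime_two).1 e)
    · exact rp ((Nat.prime_dvd_prime_iff_eq hp.out hr.out).1 (hp.out.dvd_of_dvd_pow e)).symm
  have i1 : Function.Injective (2 - Z : Module.End (ZMod r) V) := (schur h.irr fun n => by
    rw [sub_mul, mul_sub, cZ, (Commute.ofNat_left 2 _).eq]).resolve_left fun e => hne _ rfl (by
      linear_combination (norm := (rw [hZ, ← one_add_one_eq_two]; noncomm_ring)) -ρ w * e - ri w)
  have i2 : Function.Injective (Z + 2 : Module.End (ZMod r) V) := (schur h.irr fun n => by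
    rw [add_mul, mul_add, cZ, (Commute.ofNat_left 2 _).eq]).resolve_left fun e => hne (-ρ w) (neg_mul_neg _ _) (by
      linear_combination (norm := (rw [hZ, ← one_add_one_eq_two]; noncomm_ring)) ρ w * e - ri w)
  have iJ : Function.Injective (ρ x - ρ y : Module.End (ZMod r) V) := Function.Injective.of_comp (f := (ρ x - ρ y : Module.End (ZMod r) V)) (by
    rw [← jj] at i1; exact i1)
  have wp : ρ (w ^ (2 * p)) = 1 := hk _ (by rw [pw, Nat.cast_mul, CharP.cast_eq_zero F p, mul_zero]; simp) fun e => by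
    obtain ⟨v, hv⟩ := exists_ne (0 : V)
    exact hv (iJ (by rw [e, sub_self]; rfl))
  have sq0 : ∀ v, ρ (w ^ 2) v = v → v = 0 := fun v hv => by
    have h1 : ρ w⁻¹ (ρ w⁻¹ v) = v := by
      conv_lhs => rw [← hv, ← Module.End.mul_apply, ← Module.End.mul_apply, ← map_mul, ← map_mul]
      simp [sq]
    have h3 : (2 - Z) * (Z + 2) = 2 - ρ w * ρ w - ρ w⁻¹ * ρ w⁻¹ := by
      linear_combination (norm := (rw [hZ, ← one_add_one_eq_two]; noncomm_ring)) -ri w - li w
    refine i2 (i1 ?_)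
    rw [← Module.End.mul_apply, h3, ← map_mul, ← sq]
    simp only [LinearMap.sub_apply, Module.End.mul_apply, hv, h1, map_zero, Module.End.ofNat_apply, two_smul]
    abel
  let W : Fˣ → N := fun u => σ (dS u) * w * (σ (dS u))⁻¹
  have πW : ∀ u, π (W u) = -up ((u : F) ^ 2) := fun u => by
    simp only [W, map_mul, map_inv, hσ, hw, mul_neg, neg_mul, dS_up, mul_one]
  have WA : ∀ u, π (W u) ∈ PU F := fun u => ⟨_, .inr (πW u)⟩
  have WZ : ∀ u, ρ (W u) + ρ (W u)⁻¹ = Z := fun u => by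
    rw [show (W u)⁻¹ = σ (dS u) * w⁻¹ * (σ (dS u))⁻¹ by simp only [W]; group]
    simp only [W, map_mul]
    rw [← add_mul, ← mul_add, ← hZ, ← cZ, mul_assoc, ri, mul_one]
  have W1 : ρ (W 1) = ρ w := by rw [cj (d' := 1) (by rw [hσ, map_one, map_one])]; simp
  set c := W m₁ * W m₂ * (W m₃)⁻¹ with hc
  have πc : π c = -1 := by
    rw [hc, map_mul, map_mul, map_inv, πW, πW, πW, neg_mul_neg, ← up_add, e, mul_inv_eq_iff_eq_mul]; simp
  have cA' : π c ∈ PU F := ⟨0, .inr (by simp [πc])⟩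
  have cc : ∀ n, ρ n * ρ c = ρ c * ρ n := fun n => congrArg Units.val (comm_of_sq cen h.odd (by simp [πc])
    (cen _ (by simp [πc]) n).symm)
  have rel : ∀ n, ρ (W (n * m₁)) * ρ (W (n * m₂)) = ρ c * ρ (W (n * m₃)) := fun n => by
    have k : ∀ m, ρ (W (n * m)) = ρ (σ (dS n) * W m * (σ (dS n))⁻¹) := fun m => by
      rw [cj (d' := σ (dS n) * σ (dS m)) (by simp only [map_mul, hσ])]
      congr 1; simp only [W]; group
    rw [k, k, k, ← mul_one (ρ c), ← ri (σ (dS n)), ← mul_assoc (ρ c), ← cc]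
    simp only [← map_mul]
    congr 1; rw [hc]; group
  have main : ∀ V₀ : Submodule (ZMod r) V, V₀ ≠ ⊥ → (∀ a, π a ∈ PU F → ∀ v ∈ V₀, ρ a v ∈ V₀) →
      ∃ v ∈ V₀, v ≠ 0 ∧ ρ w v = ρ c v := fun V₀ hV hA => by
    obtain ⟨U, ⟨UV, U0, UA⟩, hm⟩ := (wellFounded_lt (α := Submodule (ZMod r) V)).has_min
      {U | U ≤ V₀ ∧ U ≠ ⊥ ∧ ∀ a, π a ∈ PU F → ∀ v ∈ U, ρ a v ∈ U} ⟨V₀, le_rfl, hV, hA⟩
    have dich : ∀ u, ¬ (∀ v ∈ U, ρ (W u) v = ρ w v) → ∀ v ∈ U, ρ (W u) v = ρ w⁻¹ v := fun u hn v hv => by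
      have h1 : U ⊓ LinearMap.ker (ρ (W u) - ρ w) = ⊥ := by_contra fun h1 => hm _ ⟨inf_le_left.trans UV, h1,
        fun a ha v hv => ⟨UA a ha v hv.1, by
          have := hv.2
          rw [SetLike.mem_coe, LinearMap.mem_ker] at this ⊢
          rw [← Module.End.mul_apply, sub_mul, cA (WA u) ha, cA wA ha, ← mul_sub, Module.End.mul_apply, this, map_zero]⟩⟩
        (lt_of_le_of_ne inf_le_left fun e => hn fun v hv => sub_eq_zero.1 (e.ge hv).2)
      have h3 : (ρ (W u) - ρ w) * (ρ (W u) - ρ w⁻¹) = 0 := by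
        linear_combination (norm := (rw [hZ]; noncomm_ring)) ρ (W u) * WZ u + cA (WA u) wA + ri w - ri (W u)
      exact sub_eq_zero.1 ((Submodule.eq_bot_iff _).1 h1 _ ⟨sub_mem (UA _ (WA u) v hv) (UA _ (map_inv π w ▸ inv_mem wA) v hv),
        LinearMap.congr_fun h3 v⟩)
    let f : Fˣ → ℤ := fun u => if ∀ v ∈ U, ρ (W u) v = ρ w v then 1 else -1
    have hf : ∀ u, ∀ v ∈ U, ρ (W u) v = ρ (w ^ f u) v := fun u v hv => by
      simp only [f]
      split_ifs with h1
      · rw [zpow_one, h1 v hv]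
      · rw [zpow_neg_one, dich u h1 v hv]
    have f1 : ∀ u, f u = 1 ∨ f u = -1 := fun u => by simp only [f]; split_ifs <;> simp
    have f2 : f 1 = 1 := if_pos fun v _ => by rw [W1]
    obtain ⟨v, hv, v0⟩ := (Submodule.ne_bot_iff _).1 U0
    have zA : ∀ k : ℤ, π (w ^ k) ∈ PU F := fun k => map_zpow π w k ▸ zpow_mem wA k
    have he : ∀ n, ρ (w ^ (f (n * m₁) + f (n * m₂) - f (n * m₃))) v = ρ c v := fun n => by
      have := LinearMap.congr_fun (rel n) v
      rw [Module.End.mul_apply, Module.End.mul_apply, hf _ v hv, hf _ v hv, hf _ _ (UA _ (zA _) v hv),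
        ← Module.End.mul_apply, ← Module.End.mul_apply, ← cc, ← map_mul, ← zpow_add] at this
      rw [sub_eq_neg_add, zpow_add, map_mul, Module.End.mul_apply, this, ← Module.End.mul_apply, ← mul_assoc, zpow_neg, li,
        one_mul]
    let S : Subgroup N :=
      { carrier := {n | ρ n v = v}
        one_mem' := by simp
        mul_mem' := fun {a b} ha hb => by
          rw [Set.mem_setOf_eq] at ha hb ⊢
          rw [map_mul, Module.End.mul_apply, hb, ha]
        inv_mem' := fun {a} ha => by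
          rw [Set.mem_setOf_eq] at ha ⊢
          conv_lhs => rw [← ha, ← Module.End.mul_apply, li, Module.End.one_apply] }
    have hd : ∀ j : ℤ, w ^ (2 * j) ∈ S → j.natAbs ≤ 3 → j = 0 := fun j hj h3 => by_contra fun j0 => by
      have p5 : 5 ≤ p := hp.out.five_le_of_ne_two_of_ne_three p2 p3
      obtain ⟨a, b, hab⟩ : IsCoprime j (p : ℤ) := Int.isCoprime_iff_gcd_eq_one.2 (by
        rw [Int.gcd, Int.natAbs_natCast]
        exact (Nat.coprime_comm.1 (Nat.coprime_of_lt_prime (by omega) (by omega) hp.out)))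
      have h1 : w ^ (2 * p) ∈ S := by change ρ _ v = v; rw [wp]; rfl
      have := mul_mem (zpow_mem hj a) (zpow_mem h1 b)
      rw [← zpow_natCast, ← zpow_mul, ← zpow_mul, ← zpow_add, show 2 * j * a + ((2 * p : ℕ) : ℤ) * b = (2 : ℕ) by
        push_cast; linear_combination 2 * hab, zpow_natCast] at this
      exact v0 (sq0 v this)
    set E := f (1 * m₁) + f (1 * m₂) - f (1 * m₃) with hE
    have con : ∀ n, f (n * m₁) + f (n * m₂) - f (n * m₃) = E := fun n => by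
      have h1 : w ^ (f (n * m₁) + f (n * m₂) - f (n * m₃) - E) ∈ S := by
        change ρ _ v = v
        rw [sub_eq_neg_add, zpow_add, map_mul, Module.End.mul_apply, he, ← he 1, ← Module.End.mul_apply, zpow_neg, li]
        rfl
      have h2 := f1 (n * m₁); have h3 := f1 (n * m₂); have h4 := f1 (n * m₃)
      have h5 := f1 (1 * m₁); have h6 := f1 (1 * m₂); have h7 := f1 (1 * m₃)
      obtain ⟨j, hj⟩ : ∃ j, f (n * m₁) + f (n * m₂) - f (n * m₃) - E = 2 * j :=
        ⟨(f (n * m₁) + f (n * m₂) - f (n * m₃) - E) / 2, by omega⟩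
      have := hd j (hj ▸ h1) (by omega)
      omega
    have sm : ∑ n, f n = Fintype.card Fˣ * E := by
      have := Finset.sum_congr rfl fun n (_ : n ∈ Finset.univ) => con n
      have k : ∀ m, ∑ n, f (n * m) = ∑ n, f n := fun m => Equiv.sum_comp (Equiv.mulRight m) f
      rw [Finset.sum_sub_distrib, Finset.sum_add_distrib, k, k, k] at this
      simpa using this
    have s1 : ∑ n, f n ≤ ∑ _n : Fˣ, (1 : ℤ) := Finset.sum_le_sum fun n _ => by rcases f1 n with e | e <;> omega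
    have s2 : ∑ _n : Fˣ, (-1 : ℤ) < ∑ n, f n := Finset.sum_lt_sum (fun n _ => by rcases f1 n with e | e <;> omega)
      ⟨1, Finset.mem_univ _, by omega⟩
    simp only [sm, Finset.sum_const, Finset.card_univ, nsmul_eq_mul] at s1 s2
    have c0 : (0 : ℤ) < Fintype.card Fˣ := by exact_mod_cast Fintype.card_pos
    have e1 : E = 1 := by
      have := le_of_mul_le_mul_left s1 c0
      have := lt_of_mul_lt_mul_left s2 c0.le
      have h5 := f1 (1 * m₁); have h6 := f1 (1 * m₂); have h7 := f1 (1 * m₃)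
      omega
    exact ⟨v, UV hv, v0, by rw [← he 1, ← hE, e1, zpow_one]⟩
  obtain ⟨v, -, v0, hv⟩ := main ⊤ top_ne_bot fun _ _ _ _ => trivial
  have hm : (ρ x - ρ y) v ∈ LinearMap.ker (ρ w * ρ c - 1) := by
    have : ρ c * (ρ x - ρ y) = (ρ x - ρ y) * ρ c := by rw [mul_sub, sub_mul, cc, cc]
    rw [LinearMap.mem_ker, LinearMap.sub_apply, Module.End.mul_apply, ← Module.End.mul_apply (ρ c), this,
      Module.End.mul_apply, ← hv, ← Module.End.mul_apply (ρ x - ρ y), jg, ← Module.End.mul_apply, ← mul_assoc, ri, one_mul]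
    exact sub_self _
  obtain ⟨u, hu, u0, hu'⟩ := main (LinearMap.ker (ρ w * ρ c - 1)) ((Submodule.ne_bot_iff _).2
    ⟨_, hm, fun e => v0 (iJ (e.trans (map_zero _).symm))⟩) fun a ha v hv => by
      rw [LinearMap.mem_ker] at hv ⊢
      rw [← Module.End.mul_apply, sub_mul, mul_assoc, ← cc, ← mul_assoc, cA wA ha, mul_assoc, one_mul, ← mul_sub_one,
        Module.End.mul_apply, hv, map_zero]
  refine u0 (sq0 u ?_)
  rw [sq, map_mul, Module.End.mul_apply, hu']
  exact sub_eq_zero.1 hu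

/-- QUAD: if every element of trace `τ` (a noncentral `r`-element) has a quadratic lift then `q = 5` and `τ = -1`. -/
theorem five (hF : Odd (Fintype.card F)) (p : ℕ) [hp : Fact p.Prime] [CharP F p] (r2 : r ≠ 2) (rp : r ≠ p) {τ : F}
    (h4 : τ ^ 2 ≠ 4) (h0 : τ ≠ 0) {k : ℕ} (hk : ∀ a, tr a = τ → a ^ r ^ k = 1)
    (hq : ∀ a, tr a = τ → ∃ x, π x = a ∧ (ρ x - 1) * (ρ x - 1) = 0) : τ = -1 ∧ ∀ m : F, m ≠ 0 → m ^ 4 = 1 := by
  have h2 := two_ne_zero_of_odd hF
  have h1 : ¬ (τ ≠ -1 ∨ ∃ ω : F, ω ^ 2 + ω + 1 = 0) := fun h1 => by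
    obtain ⟨a, b, ta, tb, tab, nc⟩ := exists_pair hF h4 h1
    obtain ⟨x, rfl, hx⟩ := hq a ta
    obtain ⟨y, rfl, hy⟩ := hq b tb
    exact nc (h.comm_pair p h2 r2 rp hx hy (by rw [map_pow, map_mul, hk _ tab]) (tab ▸ h0))
  push Not at h1
  obtain ⟨rfl, hω⟩ := h1
  refine ⟨rfl, fun m m0 => by_contra fun m4 => ?_⟩
  have n1 : m ^ 2 - 1 ≠ 0 := fun e => m4 (by linear_combination (m ^ 2 + 1) * e)
  have n2 : 2 * m ≠ 0 := mul_ne_zero h2 m0
  have n3 : m ^ 2 + 1 ≠ 0 := fun e => m4 (by linear_combination (m ^ 2 - 1) * e)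
  have hd : (0 : F) * -1 - 2⁻¹ * -2 = 1 := by field_simp; ring
  obtain ⟨x, ex, hx⟩ := hq (mk2 0 2⁻¹ (-2) (-1) hd) (by simp [tr])
  obtain ⟨y, ey, hy⟩ := hq (mk2 1 (3 / 2) (-2) (-2) (by field_simp; ring)) (by simp only [tr, mk2_00, mk2_11]; ring)
  refine h.not_neg_up p (fun e => h2 (by subst e; exact_mod_cast CharP.cast_eq_zero F 2))
    (fun e => h4 (by subst e; linear_combination -(by exact_mod_cast CharP.cast_eq_zero F 3 : (3 : F) = 0))) rp
    (m₁ := Units.mk0 _ n1) (m₂ := Units.mk0 _ n2) (m₃ := Units.mk0 _ n3) (by simp only [Units.val_mk0]; ring)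
    (fun e => hω ((m ^ 2 - 1) ^ 2 / (2 * m) ^ 2) ?_) hx hy ?_ (by rw [ex, mk2_00])
  · simp only [Units.val_mk0] at e
    field_simp at e ⊢
    linear_combination e
  · rw [map_mul, ex, ey]
    refine sext ?_ ?_ ?_ ?_ <;> simp only [mul_apply', mk2_00, mk2_01, mk2_10, mk2_11, neg_ent, up_00, up_01, up_10, up_11] <;>
      field_simp <;> ring

end QH

end CA.ABG
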