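/-
Relative stability for groups of `Q`-type.
-/
import Cfsg.Agent.Lib.ABG.QuadC

set_option autoImplicit false
set_option linter.unusedSectionVars false

namespace CA.ABG
open Cfsg CA CA.Loc CA.GW Matrix.SpecialLinearGroup CA.SL2 CA.Br Subgroup
open scoped MatrixGroups commutatorElement

universe u

theorem rep_eq_one_of_normal {H V : Type*} [Group H] [Finite H] {p : ℕ} [hp : Fact p.Prime] [AddCommGroup V]
    [Module (ZMod p) V] (ρ : H →* Module.End (ZMod p) V)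
    (irr : ∀ W : Submodule (ZMod p) V, (∀ g, ∀ v ∈ W, ρ g v ∈ W) → W = ⊥ ∨ W = ⊤) (N : Subgroup H) [hN : N.Normal]
    (h : ∀ x ∈ N, PiElt {p}ᶜ x → ρ x = 1) {g : H} (hg : g ∈ N) : ρ g = 1 := by
  have := hN.map _ (QuotientGroup.mk'_surjective ρ.ker)
  refine GL2.rep_eq_one_of_normal_isPGroup p (QuotientGroup.lift ρ.ker ρ fun _ h => h) (fun W hW => irr W fun g => hW g)
    (N := N.map (QuotientGroup.mk' ρ.ker)) (isPGroup_of_forall_piElt ?_) ⟨g, hg, rfl⟩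
  rintro _ ⟨x, hx, rfl⟩ hx'
  rw [← constt_eq_self hx', ← map_constt]
  exact (QuotientGroup.eq_one_iff _).2 (h _ (constt_mem _ hx) (constt_piElt _ x))

/-- a `p'`-element that is trivial on all irreducible sections of the `p`-group `E` centralizes `E` -/
theorem cent_of_reps {G : Type u} [Group G] [Finite G] {p : ℕ} [hp : Fact p.Prime] {E H : Subgroup G} {z : G}
    (hE : IsPGroup p E) (hn : H ≤ 𝐍(E)) (hz : z ∈ H) (hz' : PiElt {p}ᶜ z)
    (h : ∀ (V : Type u) [AddCommGroup V] [Module (ZMod p) V] [Finite V] (ρ : H →* Module.End (ZMod p) V),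
      (∀ W : Submodule (ZMod p) V, (∀ g, ∀ v ∈ W, ρ g v ∈ W) → W = ⊥ ∨ W = ⊤) → (∀ y : H, (y : G) ∈ 𝐂(E) → ρ y = 1) →
      (∀ y : H, ⁅⁅E, zpowers (y : G)⁆, zpowers (y : G)⁆ = ⊥ → (ρ y - 1) * (ρ y - 1) = 0) → ρ ⟨z, hz⟩ = 1) : z ∈ 𝐂(E) := by
  refine (zpowers_le (H := 𝐂(E))).1 ((copAct_zpowers_of_piElt hE (hn hz) hz').cents_of_chief
    (normalIn_sup_left hn) fun V U hc hU => ?_)
  have nV : H ≤ 𝐍(V) := le_sup_right.trans hc.norm_bot
  have nU : U ≤ 𝐍(V) := hc.normalIn.norm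
  have nE : E ≤ 𝐍(V) := le_sup_left.trans hc.norm_bot
  have hEU : E /ₛ V ≤ 𝐂(U /ₛ V) := quo_cents_of_comm_le nE nU
    (hc.comm_le_of_nil (normalIn_sup_left hn) (nilpotent_of_pgroup hp.out hE))
  have := Fact.mk (hc.minNormal.elemAb_of_pgroup hp.out (pgroup_quo (hE.to_le hU) V))
  have hn' : H /ₛ V ≤ 𝐍(U /ₛ V) := quo_norms V (le_sup_right.trans hc.top_normalIn.norm)
  let φ : H →* 𝐍(U /ₛ V) := (inclusion hn').comp (pmapHom (qmk V) nV)
  have eφ : ∀ y : H, (φ y : Quo V) = qel V y := fun y => pmapHom_apply _ nV y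
  have k : ∀ y : H, (AbV.rep p (U /ₛ V)).comp φ y = 1 ↔ ⁅zpowers (y : G), U⁆ ≤ V := fun y => by
    rw [MonoidHom.comp_apply, AbV.rep_eq_one_iff, eφ, ← quo_cents_iff (zpowers_le.2 (nV y.2)) nU, quo_zpowers (nV y.2),
      zpowers_le]
  rw [commutator_comm]
  refine (k ⟨z, hz⟩).1 (h _ _ (fun W hW => ?_) (fun y hy => (k y).2 ?_) fun y q => ?_)
  · rw [← AbV.toSub_eq_bot_iff, ← AbV.toSub_eq_self_iff]
    refine hc.minNormal.eq_bot_or_eq (AbV.toSub_le W) ?_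
    rw [quo_sup nE nV]
    refine sup_le (norms_of_cents (hEU.trans (cent_mono (AbV.toSub_le W)))) fun g hg => ?_
    obtain ⟨y, hy, rfl⟩ := (mem_quo nV).1 hg
    exact eφ ⟨y, hy⟩ ▸ AbV.mem_norm_toSub (φ ⟨y, hy⟩) (hW ⟨y, hy⟩)
  · exact (commutator_eq_bot_iff_le_centralizer.2 (zpowers_le.2 (cent_mono hU hy))).le.trans bot_le
  · have nw := zpowers_le.2 (nV y.2)
    have q' : ⁅⁅U /ₛ V, zpowers (φ y : Quo V)⁆, zpowers (φ y : Quo V)⁆ = ⊥ := by
      rw [eφ, ← quo_zpowers (nV y.2), ← quo_commutator nU nw, ← quo_commutator (comm_le_of_le nU nw) nw]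
      exact quo_eq_bot_of_le (((commutator_mono (commutator_mono hU le_rfl) le_rfl).trans q.le).trans bot_le)
    refine LinearMap.ext fun v => AbV.val_eq_one_iff.1 ?_
    have e := AbV.val_rep_sub (p := p) (φ y)
    change (AbV.rep p _ (φ y) (AbV.rep p _ (φ y) v - v) - (AbV.rep p _ (φ y) v - v)).val = 1
    rw [e, e, ← mem_bot, ← q', commutator_comm, commutator_comm (U /ₛ V)]
    exact commutator_mem_commutator (mem_zpowers _) (commutator_mem_commutator (mem_zpowers _) v.val_mem)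

section
variable {F : Type*} [Field F] [Fintype F]

theorem pow_of_tr (p : ℕ) [CharP F p] {a : SL(2, F)} (h : tr a ^ 2 = 4 ∨ tr a = 0) : a ^ (4 * p) = 1 := by
  rcases h with h | h
  · rcases sq_eq_sq_iff_eq_or_eq_neg.1 (h.trans (by norm_num : (4 : F) = 2 ^ 2)) with h | h
    · rw [mul_comm, pow_mul, pow_char_of_tr p h, one_pow]
    · rw [← (by decide : Even 4).mul_right p |>.neg_pow, mul_comm, pow_mul, pow_char_of_tr p (by rw [tr_neg, h, neg_neg]),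
        one_pow]
  · have : a * a = -1 := Subtype.ext (by
      have := sq_eq a
      rw [Matrix.trace_fin_two, show a.1 0 0 + a.1 1 1 = 0 from h] at this
      simpa using this)
    rw [pow_mul, show a ^ 4 = (a * a) ^ 2 by rw [← sq, ← pow_mul], this]; simp

theorem conj_of_tr {a b : SL(2, F)} (h : tr a ^ 2 ≠ 4) (e : tr b = tr a) : ∃ k, piH k a = b := by
  have ns : ∀ {b : SL(2, F)}, tr b ^ 2 ≠ 4 → ¬ aSc (toGL b) := fun {b} h ⟨h1, h2, h3⟩ => h (by
    have := det_eq b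
    simp only [toGL_ent] at h1 h2 h3
    rw [tr]
    linear_combination 4 * this + 4 * b 1 0 * h1 + (b 0 0 - b 1 1) * h3)
  obtain ⟨k, hk⟩ := a_conj (ns h) (ns (e ▸ h)) e.symm ((aDet_toGL a).trans (aDet_toGL b).symm)
  exact ⟨k, piH_eq_iff.2 (by rw [← hk]; group)⟩

end

variable {G : Type u} [Group G] [Finite G] {Y : Type*} [Group Y] [Finite Y] {r : ℕ} [hr : Fact r.Prime]
  {D M B S : Subgroup G} {f : D →* Y} {Z : Subgroup Y} {F : Type} [Field F] [Fintype F] {s d : Y} {τ σ : SL(2, F)} {n m : ℕ}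

theorem QT.le_Z {X K : Subgroup Y} (h : QT F X Z) (hF : ∃ a : F, a ≠ 0 ∧ a ^ 2 ≠ 1) (hK : K ⊴ X) (hL : ¬ h.L ≤ K) : K ≤ Z := by
  have : (K.comap h.ι).Normal := ⟨fun a ha g => by
    rw [mem_comap, map_mul, map_mul, map_inv]; exact conj_mem_of_mem_normalizer (hK.2 (h.mem g)) ha⟩
  refine fun e he => (h.φ1 (hK.1 he)).1 (pm_conj.aut_ext h.odd fun g => pm_conj.eq.2 ?_)
  have : pel h.Φ e g * g⁻¹ = 1 ∨ pel h.Φ e g * g⁻¹ = -1 := by_contra fun h1 => hL (by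
    rintro _ ⟨k, rfl⟩
    refine (sl_normal hF (K.comap h.ι) ?_ h1).ge (mem_top k)
    rw [mem_comap, map_mul, map_inv, ← h.act e (hK.1 he), mul_assoc, mul_assoc, ← mul_assoc (h.ι g), ← inv_inv (h.ι g * _ * _)]
    exact mul_mem he (inv_mem (by simpa [mul_assoc] using conj_mem_of_mem_normalizer (hK.2 (h.mem g)) he)))
  simpa [mul_inv_eq_iff_eq_mul] using this

/-- QUAD: a quadratic `r`-element centralizing `s` lies in the odd kernel, unless `C_M(B)` covers `SL₂(q)`. -/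
theorem QT.Tor.quad {h : QT F (pmap f M) Z} (t : h.Tor s d τ σ n m) (hD : M ≤ D) (oW : Odd (Nat.card ↥(M ⊓ pker f)))
    (r2 : r ≠ 2) (hB : M ≤ 𝐍(B)) (Bp : IsPGroup r B) (ex : r = 3 → Fintype.card F = 5 → n ≠ 6) {a : G} (ha : a ∈ M)
    (ar : PiElt {r} a) (hs : pel f a ∈ 𝐂[s]) (hq : ⁅⁅B, zpowers a⁆, zpowers a⁆ = ⊥) (h1 : pel f a ≠ 1) :
    h.L ≤ pmap f (piEltGen {r}ᶜ (M ⊓ 𝐂(B))) := by
  by_contra hL
  have ro : Odd r := hr.out.odd_of_ne_two r2
  obtain ⟨j, hj⟩ := (piElt_singleton_iff' hr.out).1 ar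
  have aX : pel f a ∈ pmap f M ⊓ 𝐂[s] := ⟨pel_mem_pmap f ha, hs⟩
  have ao : Odd (orderOf (pel f a)) := ro.pow.of_dvd_nat (orderOf_dvd_of_pow_eq_one (by rw [← pel_pow f (hD ha), hj, pel_one]))
  have hn := t.hn
  have qo := h.odd
  have hF : ∃ c : F, c ≠ 0 ∧ c ^ 2 ≠ 1 := by
    by_contra! hc
    have h3 := Nat.le_of_dvd two_pos ((FiniteField.forall_pow_eq_one_iff F 2).1 fun x => Units.ext (by simpa using hc x x.ne_zero))
    have h4 : 1 < Fintype.card F := Fintype.one_lt_card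
    have : ∀ b ∈ zpowers (h.ι τ), Odd (orderOf b) → b = 1 := fun b hb bo => orderOf_eq_one_iff.1 (Nat.eq_one_of_dvd_coprimes
      (Nat.Coprime.pow_left 2 (Nat.coprime_two_left.2 bo)) ((orderOf_dvd_of_mem_zpowers hb).trans (by
        obtain ⟨k, hk⟩ := qo
        rw [t.ord']
        rcases (by omega : n = 2 ∨ n = 4) with rfl | rfl <;> decide)) dvd_rfl)
    exact h1 (this _ (t.odd_mem ⟨t.al hr.out r2 aX (ar.pel f) fun b hb bo _ => by simp [this b hb bo], hs⟩ ao) ao)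
  have nC : M ≤ 𝐍(M ⊓ 𝐂(B)) := norms_inf le_normalizer (norms_cent hB)
  have KZ := h.le_Z hF (NormalIn.pmap ⟨(piEltGen_le _ _).trans inf_le_left, norms_piEltGen {r}ᶜ nC⟩ f) hL
  have KZ' : ∀ z ∈ M, z ∈ 𝐂(B) → PiElt {r}ᶜ z → pel f z ∈ Z := fun z h1 h2 h3 => KZ (pel_mem_pmap f (mem_piEltGen ⟨h1, h2⟩ h3))
  set E := M ⊓ pcomap f 𝐎(pmap f M ⊓ 𝐂[s]) with hE
  have oE : Odd (Nat.card E) := odd_iff.2 (piGrp_of_pmap (inf_le_left.trans hD) ((odd_iff.1 oW).of_le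
    (le_inf (inf_le_right.trans inf_le_left) inf_le_left)) ((core_pi _).of_le ((pmap_mono f inf_le_right).trans (pmap_pcomap_le f _))))
  have aE : a ∈ E := ⟨ha, mem_pcomap.2 ⟨hD ha, t.mem_core aX ao⟩⟩
  have nE : E ≤ 𝐍(B) := inf_le_left.trans hB
  have cE : E ⊓ 𝐂(B) ⊴ E := normalIn_inf_of_norm (norms_cent nE)
  have aR := zpowers_le.1 (le_coreMod_of_quadratic r2 oE Bp nE (zpowers_le.2 aE) hq)
  have RE := coreMod_normalIn {r} cE
  have cR : ∀ z ∈ coreMod {r} E (E ⊓ 𝐂(B)), PiElt {r}ᶜ z → z ∈ 𝐂(B) := fun z hz hz' =>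
    (mem_of_piElt (normalIn_coreMod {r} E _) (by rw [compl_compl]; exact piNum_relIndex_coreMod _ _ _) hz hz').2
  generalize coreMod {r} E (E ⊓ 𝐂(B)) = R at aR RE cR
  obtain ⟨i, hi⟩ : pel f a ∈ zpowers (h.ι τ) := by
    refine t.odd_mem ⟨t.al hr.out r2 aX (ar.pel f) fun b hb bo br => ?_, hs⟩ ao
    have bX : b ∈ pmap f M ⊓ 𝐂[s] := inf_le_inf_right _ h.LX (t.cent ▸ hb)
    obtain ⟨y, hy, rfl⟩ := (mem_pmap_of_le hD).1 bX.1
    have yE : y ∈ E := ⟨hy, mem_pcomap.2 ⟨hD hy, t.mem_core bX bo⟩⟩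
    have c1 : pel f a * pel f y * (pel f a)⁻¹ * (pel f y)⁻¹ ∈ zpowers (pel f y) := mul_mem (conj_mem_of_mem_normalizer
      (t.norm aX (zpowers_le.2 hb)) (mem_zpowers _)) (inv_mem (mem_zpowers _))
    obtain ⟨z, hz, hz', e⟩ := exists_piElt_pel ((RE.1.trans inf_le_left).trans hD) (f := f) (by
      rw [← pel_comm f (hD ha) (hD hy), mul_assoc, mul_assoc, ← mul_assoc y]
      exact pel_mem_pmap f (mul_mem aR (conj_mem_of_mem_normalizer (RE.2 yE) (inv_mem aR)))) (br.of_mem_zpowers c1)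
    rw [← mul_inv_eq_one, mul_inv_rev, ← mul_assoc, ← e]
    exact (h.two.piElt (KZ' z (RE.1 hz).1 (cR z hz hz') hz')).eq_one (e ▸ (odd_elt_iff.1 bo).of_mem_zpowers c1)
  set W := M ⊓ pker f with hW
  have WM : W ⊴ M := normalIn_inf_of_norm (hD.trans (pker_normalIn f).2)
  have WE : W ≤ E := inf_le_inf_left _ (pker_le_pcomap _ _)
  have cW : W ⊓ 𝐂(B) ⊴ W := normalIn_inf_of_norm (norms_cent (WM.1.trans hB))
  have nR : M ≤ 𝐍(coreMod {r} W (W ⊓ 𝐂(B))) := norms_coreMod _ WM.2 (norms_inf WM.2 (norms_cent hB))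
  have cW' : ∀ z ∈ coreMod {r} W (W ⊓ 𝐂(B)), PiElt {r}ᶜ z → z ∈ 𝐂(B) := fun z hz hz' =>
    (mem_of_piElt (normalIn_coreMod {r} W _) (by rw [compl_compl]; exact piNum_relIndex_coreMod _ _ _) hz hz').2
  have WR : W ⊓ R ≤ coreMod {r} W (W ⊓ 𝐂(B)) := le_coreMod cW.2 (normalIn_inf_of_norm (WE.trans RE.2)) (by
    rw [← piGrp_quo_iff_relIndex (inf_le_left.trans cW.2)]
    exact (isPGroup_quo_of_forall_piElt (inf_le_left.trans cW.2) fun x hx hx' => ⟨hx.1, cR x hx.2 hx'⟩).piGrp hr.out)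
  generalize coreMod {r} W (W ⊓ 𝐂(B)) = T at nR cW' WR
  let N : Subgroup G :=
    { carrier := {x | x ∈ M ⊓ pcomap f h.L ∧ ∀ w ∈ W, x * w * x⁻¹ * w⁻¹ ∈ T}
      one_mem' := ⟨one_mem _, fun w _ => by simp⟩
      mul_mem' := fun {x y} hx hy => ⟨mul_mem hx.1 hy.1, fun w hw => by
        convert mul_mem (conj_mem_of_mem_normalizer (nR hx.1.1) (hy.2 w hw)) (hx.2 w hw) using 1; group⟩
      inv_mem' := fun {x} hx => ⟨inv_mem hx.1, fun w hw => by
        convert conj_inv_mem_of_mem_normalizer (nR hx.1.1) (inv_mem (hx.2 w hw)) using 1; group⟩ }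
  have NM : N ≤ M := fun x hx => hx.1.1
  have cN : ∀ g ∈ M, ∀ x ∈ N, g * x * g⁻¹ ∈ N := fun g hg x hx => ⟨⟨M.mul_mem (mul_mem hg hx.1.1) (inv_mem hg),
    mem_pcomap.2 ⟨hD (mul_mem (mul_mem hg hx.1.1) (inv_mem hg)), by
      rw [pel_conj f (hD hg) (hD hx.1.1)]
      exact conj_mem_of_mem_normalizer (h.LN.2 (pel_mem_pmap f hg)) (mem_pcomap.1 hx.1.2).2⟩⟩, fun w hw => by
    convert conj_mem_of_mem_normalizer (nR hg) (hx.2 _ (conj_inv_mem_of_mem_normalizer (WM.2 hg) hw)) using 1; group⟩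
  choose π' hπ' using fun x : N => (mem_pcomap.1 x.2.1.2).2
  let π : N →* SL(2, F) := MonoidHom.mk' π' fun x y => h.inj (by
    rw [map_mul, hπ', hπ', hπ', Subgroup.coe_mul, pel_mul f (hD (NM x.2)) (hD (NM y.2))])
  have hπ : ∀ x : N, h.ι (π x) = pel f x := hπ'
  have aN : a ∈ N := ⟨⟨ha, mem_pcomap.2 ⟨hD ha, τ ^ i, (map_zpow _ _ _).trans hi⟩⟩, fun w hw => WR ⟨W.mul_mem
    (conj_mem_of_mem_normalizer (WM.2 ha) hw) (inv_mem hw), by
      rw [mul_assoc, mul_assoc, ← mul_assoc w]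
      exact mul_mem aR (conj_mem_of_mem_normalizer (RE.2 (WE hw)) (inv_mem aR))⟩⟩
  set x₀ : N := ⟨a, aN⟩
  have a1 : π x₀ ≠ 1 := fun e => h1 ((hπ x₀).symm.trans (by rw [e, map_one]))
  have aj : π x₀ ^ r ^ j = 1 := by rw [← map_pow, show x₀ ^ r ^ j = 1 from Subtype.ext hj, map_one]
  have rn : r ∣ n := by
    obtain ⟨k, -, hk⟩ := (Nat.dvd_prime_pow hr.out).1 (orderOf_dvd_of_pow_eq_one aj)
    refine (dvd_pow_self r (n := k) fun e => a1 (orderOf_eq_one_iff.1 (by rw [hk, e, pow_zero]))).trans ?_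
    rw [← hk, ← t.ord', ← orderOf_injective _ h.inj, hπ]
    exact orderOf_dvd_of_mem_zpowers ⟨i, hi⟩
  obtain ⟨p, hp, e, hp', he⟩ := FiniteField.card' F
  have : Fact p.Prime := ⟨hp'⟩
  have rp : r ≠ p := by
    rintro rfl
    have h3 : r ∣ Fintype.card F := he ▸ dvd_pow_self r e.ne_zero
    refine hr.out.one_lt.ne' (Nat.dvd_one.1 ?_)
    rcases hn with hn | hn
    · exact (Nat.dvd_add_right rn).1 (hn ▸ h3)
    · exact (Nat.dvd_add_right h3).1 (hn ▸ rn)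
  have tr4 : ¬ (tr (π x₀) ^ 2 = 4 ∨ tr (π x₀) = 0) := fun e => a1 (orderOf_eq_one_iff.1 (Nat.eq_one_of_dvd_coprimes
    (Nat.Coprime.pow_left j (Nat.Coprime.mul_right (Nat.Coprime.pow_right 2 ((Nat.coprime_primes hr.out Nat.prime_two).2 r2))
      ((Nat.coprime_primes hr.out hp').2 rp))) (orderOf_dvd_of_pow_eq_one aj) (orderOf_dvd_of_pow_eq_one (pow_of_tr p e))))
  have nc : ¬ (π x₀ = 1 ∨ π x₀ = -1) := fun e => tr4 (.inl (by
    rcases e with e | e <;> simp only [e, tr, neg_ent, one_ent00, one_ent11] <;> norm_num))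
  have cj : ∀ k : L2 F, ∃ g ∈ M, ∀ x y : N, (y : G) = g * x * g⁻¹ → π y = piH k (π x) := fun k => by
    obtain ⟨y, hy, e⟩ := (h.gen_full t.gen).ex k
    obtain ⟨g, hg, rfl⟩ := (mem_pmap_of_le hD).1 (h.PX hy)
    exact ⟨g, hg, fun x y e' => h.inj (by
      rw [hπ, e', pel_conj f (hD hg) (hD (NM x.2)), ← hπ, h.act _ (h.PX hy), e])⟩
  have sur : Function.Surjective π := by
    have : π.range.Normal := ⟨by
      rintro _ ⟨x, rfl⟩ g
      obtain ⟨y, hy, e⟩ := cj (toGL g)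
      exact ⟨⟨_, cN y hy x x.2⟩, by rw [e x _ rfl, piH_toGL, MulAut.conj_apply]⟩⟩
    exact MonoidHom.range_eq_top.1 (sl_normal hF π.range ⟨x₀, rfl⟩ nc)
  have := (normalClosure_normal (s := {x₀})).map π sur
  obtain ⟨z, hz, ez⟩ := (sl_normal hF ((normalClosure {x₀}).map π) ⟨x₀, subset_normalClosure rfl, rfl⟩ nc).ge (mem_top (up 1))
  have ez' : π (constt {r}ᶜ z) = up 1 := by
    rw [map_constt, ez, constt_eq_self (piElt_of_pow_eq_one ((piNum_prime hp').2 rp.symm) (pow_char_of_tr p (tr_up 1)))]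
  have hz' := constt_mem {r}ᶜ hz
  have zr := constt_piElt {r}ᶜ z
  generalize constt {r}ᶜ z = z at ez' hz' zr
  have zC : (z : G) ∈ 𝐂(B) := cent_of_reps Bp (NM.trans hB) z.2 (piElt_coe.2 zr) fun V _ _ _ ρ irr hc hq' => by
    refine (normalClosure_le_normal (N := ρ.ker) (Set.singleton_subset_iff.2 ?_) :) hz'
    by_contra ne
    have cen : ∀ c, π c = 1 → ∀ n, ρ c * ρ n = ρ n * ρ c := fun c hc' n => by
      have : (T.subgroupOf N).Normal := (normal_subgroupOf_iff_le_normalizer_inf).2 (NM.trans nR |>.trans' le_rfl |> fun h =>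
        norms_inf h le_normalizer)
      have := rep_eq_one_of_normal ρ irr (T.subgroupOf N) (fun x hx hx' => hc x (cW' x hx (piElt_coe.2 hx')))
        (g := n * c * n⁻¹ * c⁻¹) (n.2.2 c ⟨NM c.2, mem_pker.2 ⟨hD (NM c.2), by rw [← hπ, hc', map_one]⟩⟩)
      rw [← map_mul, ← map_mul, show n * c = n * c * n⁻¹ * c⁻¹ * (c * n) by group, map_mul ρ (_ * _), this, one_mul]
    have Q : QH π ρ := ⟨sur, irr, cen, fun c hc' => orderOf_coe c ▸ odd_of_mem oW
      ⟨NM c.2, mem_pker.2 ⟨hD (NM c.2), by rw [← hπ, hc', map_one]⟩⟩, fun n hn => by_contra fun h3 => by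
        have := (ρ.normal_ker).map π sur
        obtain ⟨n', hn', e⟩ := (sl_normal hF (ρ.ker.map π) ⟨n, hn, rfl⟩ h3).ge (mem_top (π x₀))
        have e1 : ρ x₀ = ρ (n'⁻¹ * x₀) := by rw [map_mul, show ρ n'⁻¹ = 1 from inv_mem hn', one_mul]
        rcases schur irr (φ := ρ x₀ - 1) (fun k => by
          rw [sub_mul, mul_sub, e1, cen _ (by rw [map_mul, map_inv, e, inv_mul_cancel]), one_mul, mul_one]) with e | e
        · exact ne (sub_eq_zero.1 e)
        · exact ne (sub_eq_zero.1 (LinearMap.ext fun v => e ((LinearMap.congr_fun (hq' x₀ hq) v).trans (map_zero _).symm))),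
      by_contra fun e => ne (by have := not_nontrivial_iff_subsingleton.1 e; exact Subsingleton.elim _ _)⟩
    obtain ⟨-, h5⟩ := Q.five qo p r2 rp (fun e => tr4 (.inl e)) (fun e => tr4 (.inr e)) (k := j) (fun b hb => by
      obtain ⟨k, rfl⟩ := conj_of_tr (fun e => tr4 (.inl e)) hb
      rw [← map_pow, aj, map_one]) fun b hb => by
        obtain ⟨k, rfl⟩ := conj_of_tr (fun e => tr4 (.inl e)) hb
        obtain ⟨g, hg, e⟩ := cj k
        refine ⟨⟨_, cN g hg a aN⟩, e x₀ _ rfl, hq' _ ?_⟩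
        rw [← cj_zpowers, ← cj_eq_of_mem_normalizer (hB hg), ← cj_commutator, ← cj_commutator, hq, cj_bot]
    have h4 := (FiniteField.forall_pow_eq_one_iff F 4).1 fun x => Units.ext (by simpa using h5 x x.ne_zero)
    have q5 : Fintype.card F = 5 := by
      have h6 := Nat.le_of_dvd (by decide) h4
      have h7 : 1 < Fintype.card F := Fintype.one_lt_card
      obtain ⟨k, hk⟩ := qo
      refine by_contra fun e => ?_
      obtain ⟨c, c0, c2⟩ := hF
      have := FiniteField.pow_card_sub_one_eq_one c c0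
      rw [show Fintype.card F - 1 = 2 by omega] at this
      exact c2 this
    rcases (by omega : n = 4 ∨ n = 6) with rfl | rfl
    · exact r2 ((Nat.prime_dvd_prime_iff_eq hr.out Nat.prime_two).1 (hr.out.dvd_of_dvd_pow (n := 2) rn))
    · exact ex ((Nat.prime_dvd_prime_iff_eq hr.out Nat.prime_three).1 ((hr.out.dvd_mul.1 (rn : r ∣ 2 * 3)).resolve_left fun e =>
        r2 ((Nat.prime_dvd_prime_iff_eq hr.out Nat.prime_two).1 e))) q5 rfl
  have := h.mem_Z.1 (hπ z ▸ KZ' z (NM z.2) zC (piElt_coe.2 zr))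
  rw [ez'] at this
  rcases this with e | e <;> simpa only [up_01, neg_ent, one_ent01, neg_zero, one_ne_zero] using (s_ent e).2.1

end CA.ABG
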