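/-
The relative ZJ-theorem for groups of `Q`-type.
-/
import Cfsg.Agent.Lib.ABG.Quad
import Cfsg.Agent.Lib.ABG.SylQ

set_option autoImplicit false
set_option linter.unusedSectionVars false

namespace CA.ABG
open Cfsg CA CA.Loc CA.GW Subgroup
open scoped MatrixGroups commutatorElement

universe u

variable {G : Type u} [Group G] [Finite G] {Y : Type*} [Group Y] [Finite Y] {r : ℕ} [hr : Fact r.Prime]
  {D M B S : Subgroup G} {f : D →* Y} {Z : Subgroup Y} {F : Type} [Field F] [Fintype F] {s d : Y} {τ σ : SL(2, F)} {n m : ℕ}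

namespace QT.Tor
variable {h : QT F (pmap f M) Z} (t : h.Tor s d τ σ n m) (hD : M ≤ D) (oW : Odd (Nat.card ↥(M ⊓ pker f)))
  (r2 : r ≠ 2) (ex : r = 3 → Fintype.card F = 5 → n ≠ 6)
include t hD oW r2 ex

theorem rstab (hS : S ≤ M) (Sp : PiGrp {r} S) (Ss : pmap f S ≤ 𝐂[s]) (hN : M ⊓ pcomap f 𝐂[s] ≤ 𝐍(𝐙(Je r S))) :
    RStab r M (M ⊓ pker f) S := fun B hB Bp => by
  by_cases hL : h.L ≤ pmap f (piEltGen {r}ᶜ (M ⊓ 𝐂(B)))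
  · refine .inl fun g hg => ?_
    have KM : piEltGen {r}ᶜ (M ⊓ 𝐂(B)) ≤ M := (piEltGen_le _ _).trans inf_le_left
    have : pel f g ∈ pmap f (piEltGen {r}ᶜ (M ⊓ 𝐂(B)) ⊔ M ⊓ pcomap f 𝐂[s]) := by
      refine (sup_le (hL.trans (pmap_mono f le_sup_left)) fun y hy => ?_ :) ((h.fratt t.gen t.sX t.s2 t.sZ).le (pel_mem_pmap f hg))
      obtain ⟨x, hx, rfl⟩ := (mem_pmap_of_le hD).1 hy.1
      exact pel_mem_pmap f (mem_sup_right ⟨hx, mem_pcomap.2 ⟨hD hx, hy.2⟩⟩)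
    obtain ⟨x, hx, e⟩ := (mem_pmap_of_le ((sup_le KM inf_le_left).trans hD)).1 this
    have xM := sup_le KM inf_le_left hx
    have m := mul_mem hg (inv_mem xM)
    rw [← inv_mul_cancel_right g x]
    exact mul_mem (mem_sup_right ⟨m, hN ⟨m, mem_pcomap.2 ⟨hD m, by
      rw [pel_mul f (hD hg) (hD (inv_mem xM)), pel_inv f (hD xM), e, mul_inv_cancel]; exact one_mem _⟩⟩⟩)
      (sup_le_sup_left (le_inf inf_le_left hN) _ hx)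
  · exact .inr fun a ha q => ⟨hS ha, mem_pker.2 ⟨hD (hS ha), by_contra fun e => hL (t.quad hD oW r2 hB.2 (Bp.isPGroup hr.out) ex
      (hS ha) (Sp.piElt ha) (Ss (pel_mem_pmap f ha)) q e)⟩⟩

omit r2 ex in
theorem odd_E : Odd (Nat.card ↥(M ⊓ pcomap f 𝐎(pmap f M ⊓ 𝐂[s]))) :=
  odd_iff.2 (piGrp_of_pmap (inf_le_left.trans hD) ((odd_iff.1 oW).of_le (le_inf (inf_le_right.trans inf_le_left) inf_le_left))
    ((core_pi _).of_le ((pmap_mono f inf_le_right).trans (pmap_pcomap_le f _))))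

theorem rstab' (hS : SylowIn r S (M ⊓ pcomap f 𝐎(pmap f M ⊓ 𝐂[s])))
    (hN : M ⊓ pcomap f 𝐎(pmap f M ⊓ 𝐂[s]) ≤ 𝐍(𝐙(Je r S))) : RStab r M (M ⊓ pker f) S := by
  refine t.rstab hD oW r2 ex (hS.le.trans inf_le_left) hS.piGrp ((pmap_mono f (hS.le.trans inf_le_right)).trans
    ((pmap_pcomap_le f _).trans ((piCoreOf_le _ _).trans inf_le_right))) fun g hg => ?_
  obtain ⟨a, ha, b, hb, rfl⟩ := frattini_exists_mul (M := M ⊓ pcomap f 𝐂[s]) ⟨inf_le_inf_left _ (pcomap_mono f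
    ((piCoreOf_le _ _).trans inf_le_right)), norms_inf (inf_le_left.trans le_normalizer) (norms_pcomap (inf_le_left.trans hD)
      ((le_inf (pmap_mono f inf_le_left) ((pmap_mono f inf_le_right).trans (pmap_pcomap_le f _))).trans (piCoreOf_norm _ _)))⟩
    hS g hg
  exact mul_mem (hN ha) (norms_center (norm_le_norm_Je S) hb.2)

/-- relative ZJ in characteristic `r` -/
theorem relZJ (hO : piCoreOf {r} M ≤ pker f) (hC : M ⊓ 𝐂(piCoreOf {r} M) ≤ piCoreOf {r} M)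
    (hS : SylowIn r S (M ⊓ pcomap f 𝐎(pmap f M ⊓ 𝐂[s]))) : M ≤ 𝐍(𝐙(Je r S)) := by
  have WM : M ⊓ pker f ⊴ M := normalIn_inf_of_norm (hD.trans (pker_normalIn f).2)
  have WE : M ⊓ pker f ≤ M ⊓ pcomap f 𝐎(pmap f M ⊓ 𝐂[s]) := inf_le_inf_left _ (pker_le_pcomap _ _)
  have hO' : piCoreOf {r} M ≤ M ⊓ pker f := le_inf (piCoreOf_le _ _) hO
  have oE := t.odd_E hD oW
  refine ABG.relZJ r2 WM oW hO' hC (hS.le.trans inf_le_left) hS.piGrp (hS.inf_normal (WM.of_le WE inf_le_left))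
    (t.rstab' hD oW r2 ex hS (zj_core oE (solv_odd oE) ?_ hS))
  have N := (piCoreOf_normalIn {r} M).of_le (hO'.trans WE) inf_le_left
  have EM : M ⊓ pcomap f 𝐎(pmap f M ⊓ 𝐂[s]) ≤ M := inf_le_left
  generalize M ⊓ pcomap f 𝐎(pmap f M ⊓ 𝐂[s]) = E at N EM
  have d := (piCoreOf_piGrp {r}ᶜ E).inf_eq_bot' (piCoreOf_piGrp {r} M)
  exact eq_bot_iff.2 ((le_inf le_rfl ((le_inf ((piCoreOf_le _ _).trans EM) (cents_of_norms_of_disjoint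
    (N.1.trans (piCoreOf_norm _ _)) ((piCoreOf_le _ _).trans N.2) d)).trans hC)).trans d.le)

/-- relative ZJ when the Sylow subgroup of the odd kernel is normal -/
theorem zj_of_norm (hO : piCoreOf {r} M ≤ pker f) (hS : SylowIn r S (M ⊓ pcomap f 𝐎(pmap f M ⊓ 𝐂[s])))
    (hP : M ≤ 𝐍(S ⊓ pker f)) (hC : M ⊓ 𝐂(S ⊓ pker f) ≤ pker f) : M ≤ 𝐍(𝐙(Je r S)) := by
  have WM : M ⊓ pker f ⊴ M := normalIn_inf_of_norm (hD.trans (pker_normalIn f).2)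
  have WE : M ⊓ pker f ≤ M ⊓ pcomap f 𝐎(pmap f M ⊓ 𝐂[s]) := inf_le_inf_left _ (pker_le_pcomap _ _)
  have oE := t.odd_E hD oW
  have SM : S ≤ M := hS.le.trans inf_le_left
  have Pp : PiGrp {r} (S ⊓ pker f) := hS.piGrp.inf_left _
  have ZS : 𝐙(Je r S) ≤ S := inf_le_left.trans (Je_le r S)
  have ZP : 𝐙(Je r S) ≤ S ⊓ pker f := fun a ha => ⟨ZS ha, mem_pker.2 ⟨hD (SM (ZS ha)), by_contra fun e => by
    have := t.quad hD oW r2 hP (Pp.isPGroup hr.out) ex (SM (ZS ha)) (hS.piGrp.piElt (ZS ha))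
      (piCoreOf_le _ (pmap f M ⊓ 𝐂[s]) (mem_pcomap.1 (hS.le (ZS ha)).2).2).2 (le_bot_iff.1 ((commutator_mono (commutator_mono
        le_rfl (zpowers_le.2 ha)) (zpowers_le.2 ha)).trans (quadratic_of_abelian (abelian_center _) (inf_le_left.trans
          (le_normalizer.trans (norms_center (norm_le_norm_Je S))))).le)) e ⟨-1, rfl⟩
    obtain ⟨x, hx, e⟩ := (mem_pmap_of_le ((piEltGen_le _ _).trans (inf_le_left.trans hD))).1 this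
    exact h.neg2.ne (e.symm.trans (mem_pker.1 (hC (piEltGen_le _ _ hx))).2)⟩⟩
  have hN : M ⊓ pcomap f 𝐎(pmap f M ⊓ 𝐂[s]) ≤ 𝐍(𝐙(Je r S)) := by
    have := norms_inf (zj oE (solv_odd oE) hS) (inf_le_left.trans hP)
    rwa [dedekind_right (.inl ((ZS.trans hS.le).trans (piCoreOf_norm _ _))) ZP, inf_comm _ (S ⊓ _),
      Pp.inf_eq_bot (piCoreOf_piGrp _ _), bot_sup_eq] at this
  have := rzj_aux r2 WM oW (le_inf (piCoreOf_le _ _) hO) SM (hS.piGrp.isPGroup hr.out) (hS.inf_normal (WM.of_le WE inf_le_left))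
    (t.rstab' hD oW r2 ex hS hN) _ _ le_rfl ⟨inf_le_left.trans SM, hP⟩ Pp
  rwa [inf_eq_left.2 ZP] at this

end QT.Tor

/-- `E_Γ = O(Γ)(Γ ∩ D)` is the preimage of `O(C(s̄))`. -/
theorem QT.Tor.E_eq {Γ O D : Subgroup G} {t s : G} {Z : Subgroup (Quo O)} {d : Quo O} {h : QT F (Γ /ₛ O) Z}
    (T : h.Tor (qel O s) d τ σ n m) (hO : O ⊴ Γ) (oO : Odd (Nat.card O)) (ht : t ∈ Γ) (t2 : Inv2 t) (hs : s ∈ Γ) (s2 : Inv2 s)
    (c : s ∈ 𝐂[t]) (hΓ : Γ /ₛ O ≤ 𝐂[qel O t]) (D1 : D ≤ 𝐂[s]) (D2 : Odd (Nat.card D))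
    (D3 : ∀ x ∈ 𝐂[t] ⊓ 𝐂[s], Odd (orderOf x) → x ∈ D) :
    Γ ⊓ pcomap (qmk O) 𝐎((Γ /ₛ O) ⊓ 𝐂[qel O s]) = O ⊔ Γ ⊓ D := by
  refine le_antisymm (fun x hx => ?_) (sup_le (le_inf hO.1 (le_coq _)) fun x hx => ⟨hx.1, mem_coq.2 ⟨hO.2 hx.1,
    T.mem_core ⟨qel_mem_quo O hx.1, ?_⟩ (odd_elt_iff.2 ((odd_elt_iff.1 (odd_of_mem D2 hx.2)).qel O))⟩⟩)
  · have h1 := (mem_coq.1 hx.2).2
    have h2 := piCoreOf_le _ _ h1
    rw [← inf_eq_left.2 hΓ, ← quo_cent_inv t2 (hO.2 ht) oO (le_normalizer ht), ← quo_cent_inv s2 (hO.2 hs) oO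
      (le_normalizer (⟨hs, c⟩ : s ∈ Γ ⊓ 𝐂[t]))] at h2
    obtain ⟨y, hy, yo, e⟩ := exists_piElt_pel ((inf_le_left.trans inf_le_left).trans hO.2) h2 ((core_pi _).piElt h1)
    rw [← inv_mul_cancel_right x y]
    exact mul_mem (mem_sup_left ((qel_eq_iff' (hO.2 hx.1) (hO.2 hy.1.1)).1 e.symm))
      (mem_sup_right ⟨hy.1.1, D3 y ⟨hy.1.2, hy.2⟩ (odd_elt_iff.2 yo)⟩)
  · refine mem_cent1_iff.2 ?_
    rw [← pel_mul _ (hO.2 hx.1) (hO.2 hs), ← pel_mul _ (hO.2 hs) (hO.2 hx.1), mem_cent1_iff.1 (D1 hx.2)]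

/-- G4: the relative ZJ-theorem for `Γ = O(Γ) C_Γ(t)` with wreathed Sylow 2-subgroup `S`. -/
theorem g4 {Γ D R : Subgroup G} {t s : G} (w : SW S t) (hq : QD S) (wr : t ∈ zpowers (w.z * w.z)) (hS : SylowIn 2 S Γ)
    (hΓ : Γ ≤ 𝐎(Γ) ⊔ Γ ⊓ 𝐂[t]) (hs : s ∈ Γ ⊓ 𝐂[t]) (s2 : Inv2 s) (st : s ≠ t) (D1 : D ≤ 𝐂[s]) (D2 : Odd (Nat.card D))
    (D3 : ∀ x ∈ 𝐂[t] ⊓ 𝐂[s], Odd (orderOf x) → x ∈ D) (r2 : r ≠ 2) (hR : SylowIn r R (𝐎(Γ) ⊔ Γ ⊓ D))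
    (hP : Γ ≤ 𝐍(R ⊓ 𝐎(Γ))) (hC : Γ ⊓ 𝐂(R ⊓ 𝐎(Γ)) ≤ 𝐎(Γ)) : Γ ≤ 𝐍(𝐙(Je r R)) := by
  have hO : 𝐎(Γ) ⊴ Γ := piCoreOf_normalIn _ _
  have oO := odd_core Γ
  have ht : t ∈ Γ := hS.le w.tS
  by_cases h2 : PiGrp {2} (Γ /ₛ 𝐎(Γ))
  · have : R ≤ 𝐎(Γ) := hR.le.trans (sup_le le_rfl fun x hx => (qel_eq_one_iff (hO.2 hx.1)).1
      ((h2.piElt (qel_mem_quo _ hx.1)).eq_one ((odd_elt_iff.1 (odd_of_mem D2 hx.2)).qel _)))
    rw [inf_eq_left.2 this] at hP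
    exact hP.trans (norms_center (norm_le_norm_Je R))
  have nS : S ≤ 𝐍(𝐎(Γ)) := hS.le.trans hO.2
  have t2 := inv2_qel w.t2 (hO.2 ht) oO
  have hX : Γ /ₛ 𝐎(Γ) ≤ 𝐂[qel 𝐎(Γ) t] := fun y hy => by
    obtain ⟨x, hx, rfl⟩ := (mem_quo hO.2).1 hy
    obtain ⟨a, ha, b, hb, rfl⟩ := (mem_sup_of_norm_right (inf_le_left.trans hO.2)).1 (hΓ hx)
    rw [mem_cent1_iff, pel_mul _ (le_normalizer ha) (hO.2 hb.1), qel_eq_one ha, one_mul,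
      ← pel_mul _ (hO.2 hb.1) (hO.2 ht), ← pel_mul _ (hO.2 ht) (hO.2 hb.1), mem_cent1_iff.1 hb.2]
  obtain ⟨w'⟩ := (hq.quo nS oO).sw (qel_mem_quo _ w.tS) t2 ((quo_mono _ hS.le).trans hX)
  obtain ⟨F, _, _, ⟨e⟩⟩ := w'.qe (hS.quo nS) hX (piCoreOf_quo_self _ _) h2
  have s2' := inv2_qel s2 (hO.2 hs.1) oO
  obtain ⟨d, τ, σ, n, m, T⟩ := e.toQT.tor e.gen (qel_mem_quo _ hs.1) s2' fun h => by
    refine (w'.uz h s2'.sq).elim s2'.ne fun h => ?_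
    have c := mem_cent1_iff.1 hs.2
    refine Inv2.not_mem (s := s * t⁻¹) ⟨?_, fun e => st (mul_inv_eq_one.1 e)⟩ oO ((qel_eq_iff' (hO.2 hs.1) (hO.2 ht)).1 h)
    rw [inv_eq_of_mul_eq_one_right w.t2.sq, mul_assoc, ← mul_assoc t, ← c, mul_assoc, w.t2.sq, mul_one, s2.sq]
  have k : pker (qmk 𝐎(Γ)) = 𝐎(Γ) := pker_qmk _
  refine T.zj_of_norm hO.2 (by rw [k]; exact odd_card_of_le oO inf_le_right) r2 (fun _ _ h6 => ?_)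
    (k.symm ▸ le_piCoreOf (piCoreOf_normalIn _ _) ((piCoreOf_piGrp _ _).mono (by simpa using r2.symm)))
    (by rwa [T.E_eq hO oO ht w.t2 hs.1 s2 hs.2 hX D1 D2 D3]) (by rwa [k]) (by rwa [k])
  obtain ⟨i, hi⟩ := wr
  have cS : w.z ^ i ∈ S := zpow_mem (w.le w.zA) i
  have e : qel 𝐎(Γ) (w.z ^ i) ^ 2 = qel 𝐎(Γ) t := by
    rw [← pel_pow _ (nS cS)]
    exact congrArg _ (by rw [← zpow_natCast, ← zpow_mul, mul_comm, zpow_mul, zpow_natCast, sq]; exact hi)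
  have c1 : qel 𝐎(Γ) (w.z ^ i) ∈ zpowers w'.z := w'.center ▸ ⟨qel_mem_quo _ cS, quo_cents _ w.Z_cent (qel_mem_quo _ ⟨i, rfl⟩)⟩
  refine t2.ne (e ▸ orderOf_dvd_iff_pow_eq_one.1 (Nat.dvd_gcd (n := 6) (m := 4) (orderOf_dvd_of_pow_eq_one ?_)
    ((orderOf_dvd_natCard _ c1).trans ⟨m, h6 ▸ T.nm⟩)))
  rw [show 4 = 2 * 2 from rfl, pow_mul, e, sq, t2.sq]

end CA.ABG
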