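/-
The field `zj` of `LocW`.
-/
import Cfsg.Agent.Lib.ABG.G4
import Cfsg.Agent.Lib.ABG.WI

set_option autoImplicit false
set_option linter.unusedSectionVars false

namespace CA.ABG
open Cfsg CA CA.Loc CA.GW Subgroup

universe u

variable {G : Type u} [Group G] [Finite G] {S T V A X R : Subgroup G} {t a g : G} {r : ℕ}

theorem SW.wr_cj (w : SW T t) (hw : IsWreathed S) (e : T = cj g S) : t ∈ zpowers (w.z * w.z) := by
  refine (w.typ.resolve_left fun h => ?_).2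
  obtain ⟨n, hn, -, x, y, z, ox, -, hi, -, e'⟩ := hw
  obtain ⟨k, rfl⟩ : ∃ k, n = k + 2 := ⟨n - 2, by omega⟩
  have oy : orderOf y = 2 ^ (k + 2) := by rw [← e', orderOf_conj', ox]
  have key : ∀ x : S, orderOf x = 2 ^ (k + 2) → g * (x ^ 2 ^ (k + 1) : S) * g⁻¹ = t := fun x ox => by
    refine w.eq_t_of_cyc h.1 ?_ (Inv2.conj (inv2_of_ord ?_) g)
    · rw [pow_succ, pow_mul, sq, Subgroup.coe_mul, ← conj_mul]
      exact w.sq_mem (e ▸ conj_mem_cj.2 (x ^ 2 ^ k).2)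
    · rw [orderOf_coe, orderOf_pow' _ (by positivity), ox, Nat.gcd_eq_right (pow_dvd_pow 2 (by omega)), pow_succ,
        Nat.mul_div_cancel_left _ (by positivity)]
  have h1 : x ^ 2 ^ (k + 1) ∈ zpowers x ⊓ zpowers y := ⟨pow_mem (mem_zpowers x) _, by
    rw [show x ^ 2 ^ (k + 1) = y ^ 2 ^ (k + 1) from Subtype.ext (by simpa using (key x ox).trans (key y oy).symm)]
    exact pow_mem (mem_zpowers y) _⟩
  rw [hi, mem_bot] at h1
  exact w.t2.ne (by rw [← key x ox, h1]; simp)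

theorem WS.cov_syl (h : WS V A) (ha : a ∈ V) (a1 : a ≠ 1) (hA : A ≤ X) (cov : Cov X a) :
    ∃ (S : Subgroup G) (w : SW S a), A ≤ S ∧ SylowIn 2 S X ∧ SylowIn 2 S ⊤ ∧ QD S ∧ a ∈ zpowers (w.z * w.z) := by
  have a2 := h.four.inv2 ha a1
  obtain ⟨S, hS, AS⟩ := exists_sylowIn_ge (M := X ⊓ 𝐂[a]) h.syl.piGrp
    (le_inf hA (h.syl.le.trans (cent_le_cent1 ha)))
  have h1 : SylowIn 2 S (⊤ ⊓ 𝐂[a]) := by
    rw [top_inf_eq]
    refine hS.of_not_dvd_relIndex inf_le_right Nat.prime_two ?_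
    rw [show (X ⊓ 𝐂[a]).relIndex 𝐂[a] = (X ⊓ 𝐂[a]).relIndex 𝐎(𝐂[a]) from by
      rw [← relIndex_sup_of_norm' (inf_le_right.trans (piCoreOf_norm _ _)), ← le_antisymm cov (sup_le inf_le_right
        (piCoreOf_le _ _))]]
    exact fun e => (core_pi _).relIndex _ 2 Nat.prime_two e rfl
  obtain ⟨h2, hq, ⟨w⟩⟩ := h.qdt.syl_cent trivial a2 h1
  obtain ⟨S₀, σ, h3, hw, -⟩ := h.swp a ha a1
  obtain ⟨g, -, e⟩ := h3.exists_cj h2
  exact ⟨S, w, AS, h2.of_le (hS.le.trans inf_le_left) le_top, h2, hq, w.wr_cj hw e⟩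

theorem WS.zj (h : WS V A) (ha : a ∈ V) (a1 : a ≠ 1) (hr : r.Prime) (r2 : r ≠ 2) (hA : A ≤ X) (cov : Cov X a) (iso : Iso X a)
    (hR : SylowIn r R (EX V X)) (hP : R ⊓ 𝐎(X) ⊴ X) (hC : X ⊓ 𝐂(R ⊓ 𝐎(X)) ≤ 𝐎(X)) : X ≤ 𝐍(𝐙(Je r R)) := by
  have := Fact.mk hr
  obtain ⟨S, w, -, hS, -, hq, wr⟩ := h.cov_syl ha a1 hA cov
  obtain ⟨b, hb, b1, ba⟩ := h.four.exists ha
  refine g4 w hq wr hS iso ⟨hA (h.VA hb), h.four.le_cent1 ha hb⟩ (h.four.inv2 hb b1) ba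
    ((piCoreOf_le _ _).trans (cent_le_cent1 hb)) (odd_core _) (fun x hx xo => ?_) r2 hR hP.2 hC
  have hx' : x ∈ 𝐂(V) := mem_cent_iff_le_cent1.2 (h.four.le_of ha hb a1 b1 ba.symm (mem_cent1_comm.1 hx.1) (mem_cent1_comm.1 hx.2))
  have := (h.qdt.syl.qg.npc V le_top h.four)
  rw [top_inf_eq] at this
  exact (this.mem_iff hx').2 (odd_elt_iff.1 xo)

end CA.ABG
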