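/-
The local facts `LocW` about the centralizer of an involution, wreathed case.
-/
import Cfsg.Agent.Lib.ABG.LA
import Cfsg.Agent.Lib.ABG.WZJ
import Cfsg.Agent.Lib.ABG.P3

set_option autoImplicit false
set_option linter.unusedSectionVars false

namespace CA.ABG
open Cfsg CA CA.FStar CA.GW Subgroup
open scoped MatrixGroups

universe u

theorem q_unique {q q' n n' x : ℕ} (h : Odd q) (h' : Odd q') (q1 : 1 < q) (q1' : 1 < q') (e : n + 1 = q ∨ n = q + 1)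
    (e' : n' + 1 = q' ∨ n' = q' + 1) (k : x * n = q * (q ^ 2 - 1)) (k' : x * n' = q' * (q' ^ 2 - 1)) :
    q = q' ∧ n = n' := by
  have f : ∀ {q n}, 1 < q → n + 1 = q ∨ n = q + 1 → x * n = q * (q ^ 2 - 1) →
      n + 1 = q ∧ x = q * (q + 1) ∨ n = q + 1 ∧ x + q = q * q := fun {q n} q1 e k => by
    obtain ⟨q, rfl⟩ : ∃ j, q = j + 1 := ⟨q - 1, by omega⟩
    rw [show (q + 1) ^ 2 - 1 = q * (q + 2) from Nat.sub_eq_of_eq_add (by ring)] at k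
    rcases e with e | rfl
    · obtain rfl : n = q := by omega
      exact .inl ⟨rfl, Nat.eq_of_mul_eq_mul_right (show 0 < n by omega) (by linarith)⟩
    · exact .inr ⟨rfl, Nat.eq_of_mul_eq_mul_right (show 0 < q + 2 by omega) (by linarith)⟩
  obtain ⟨a, rfl⟩ := h
  obtain ⟨b, rfl⟩ := h'
  rcases f q1 e k with ⟨e, k⟩ | ⟨e, k⟩ <;> rcases f q1' e' k' with ⟨e', k'⟩ | ⟨e', k'⟩ <;>
    rcases lt_trichotomy a b with c | rfl | c <;> first | omega | (exfalso; nlinarith)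

variable {G : Type u} [Group G] [Finite G] {V A X Y : Subgroup G} {a b : G} {Z Q : Subgroup (Quo 𝐎(𝐂[a]))} {F : Type} [Field F]
  [Fintype F] {h : QT F (𝐂[a] /ₛ 𝐎(𝐂[a])) Z} {d : Quo 𝐎(𝐂[a])} {τ σ : SL(2, F)} {n m : ℕ}

local notation "𝐔" => 𝐎(𝐂[a])

/-- two different involutions of a four-group -/
structure Fab (V : Subgroup G) (a b : G) : Prop where
  four : Four V
  ha : a ∈ V
  hb : b ∈ V
  a1 : a ≠ 1
  b1 : b ≠ 1
  ab : a ≠ b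

theorem nU (h : X ≤ 𝐂[a]) : X ≤ 𝐍(𝐔) := h.trans (piCoreOf_norm _ _)

namespace Fab
variable (f : Fab V a b)
include f

theorem VH : V ≤ 𝐂[a] := f.four.le_cent1 f.ha
theorem CH : 𝐂(V) ≤ 𝐂[a] := cent_le_cent1 f.ha
theorem quoC : 𝐂(V) /ₛ 𝐔 = (𝐂[a] /ₛ 𝐔) ⊓ 𝐂[qel 𝐔 b] := by
  rw [four_cent f.four f.ha f.hb f.a1 f.b1 f.ab, quo_cent2 (f.VH f.hb) (f.four.inv2 f.hb f.b1)]

theorem comm_iff (hY : Y ≤ 𝐂[a]) : ⁅Y, V⁆ ≤ 𝐔 ↔ Y /ₛ 𝐔 ≤ 𝐂[qel 𝐔 b] := by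
  rw [← quo_cents_iff (nU hY) (nU f.VH)]
  refine ⟨fun e => e.trans (cent_le_cent1 (qel_mem_quo _ f.hb)), fun e => cents_symm ((le_coq_iff (nU f.VH)).1 ?_)⟩
  refine f.four.le_of f.ha f.hb f.a1 f.b1 f.ab (mem_coq.2 ⟨nU f.VH f.ha, ?_⟩) (mem_coq.2 ⟨nU f.VH f.hb, mem_cent_iff_le_cent1.2 e⟩)
  exact quo_cents _ (zpowers_le.2 (mem_cent_iff_le_cent1.2 hY)) (qel_mem_quo _ (mem_zpowers a))

theorem t_eq (t : h.Tor (qel 𝐔 b) d τ σ n m) : h.t = qel 𝐔 a := by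
  have aH := f.VH f.ha
  refine (h.inv_Z t.gen (h.cent_L.le ⟨qel_mem_quo _ aH, cent_mono h.LX ?_⟩)
    (inv2_qel (f.four.inv2 f.ha f.a1) (nU le_rfl aH) (odd_core _))).symm
  exact quo_cents _ (zpowers_le.2 (mem_cent_iff_le_cent1.2 le_rfl)) (qel_mem_quo _ (mem_zpowers a))

theorem swp (t : h.Tor (qel 𝐔 b) d τ σ n m) (r : h.Root (qel 𝐔 b) Q) {x : G} (hx : Swp V a x) : qel 𝐔 x ∉ 𝐍(Q) := by
  refine r.swap' t (qel_mem_quo _ hx.1) ?_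
  rw [← pel_conj _ (nU le_rfl hx.1) (nU f.VH f.hb), hx.2 b f.hb f.b1 f.ab.symm, f.four.comm f.ha f.hb,
    pel_mul _ (nU f.VH f.hb) (nU f.VH f.ha), f.t_eq t]

theorem cov (t : h.Tor (qel 𝐔 b) d τ σ n m) (hX : X ≤ 𝐂[a]) (h1 : h.L ≤ X /ₛ 𝐔) : 𝐂[a] ≤ X ⊔ 𝐔 ⊔ 𝐂(V) := by
  rw [sup_comm X, sup_assoc, ← quo_le_quo_iff (nU le_rfl) (nU (sup_le hX f.CH)), quo_sup (nU hX) (nU f.CH), f.quoC]
  exact (h.fratt t.gen t.sX t.s2 t.sZ).le.trans (sup_le_sup_right h1 _)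

theorem ord (t : h.Tor (qel 𝐔 b) d τ σ n m) : ∃ x, (𝐂(V)).relIndex 𝐂[a] = (𝐂[b]).relIndex 𝐔 * x ∧
    x * n = Fintype.card F * (Fintype.card F ^ 2 - 1) := by
  refine ⟨_, ?_, t.idx⟩
  have e := four_cent f.four f.ha f.hb f.a1 f.b1 f.ab
  rw [← relIndex_mul_relIndex 𝐂(V) (𝐂(V) ⊔ 𝐔) 𝐂[a] le_sup_left (sup_le f.CH (piCoreOf_le _ _)),
    relIndex_sup_of_norm' (nU f.CH), ← relIndex_quo ⟨le_sup_right, nU (sup_le f.CH (piCoreOf_le _ _))⟩ (nU le_rfl),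
    quo_sup_right (nU f.CH), f.quoC, inf_relIndex_left, e, ← inf_relIndex_right, inf_right_comm,
    inf_eq_right.2 (piCoreOf_le _ _), inf_relIndex_left]

theorem odd_coq (r : h.Root (qel 𝐔 b) Q) : Odd (Nat.card (coq 𝐔 Q)) := by
  rw [card_coq]; exact (odd_core _).mul r.odd

theorem not_L (hY : Odd (Nat.card Y)) : ¬ h.L ≤ Y /ₛ 𝐔 := fun e => h.neg2.not_mem (odd_card_quo hY _) (e ⟨_, rfl⟩)

end Fab

/-- All the local facts. -/
noncomputable def WS.locW (w : WS V A) (f : Fab V a b) (t : h.Tor (qel 𝐔 b) d τ σ n m) (h4 : 4 ∣ Nat.card Z) {p : ℕ}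
    (hp : p.Prime) [CharP F p] : LocW V A a p (Fintype.card F) ((𝐂[b]).relIndex 𝐔) (n + 1 = Fintype.card F) where
  Rt Y := ∃ Q, h.Root (qel 𝐔 b) Q ∧ Q ≤ (Y ⊓ 𝐂[a]) /ₛ 𝐔
  la r Y hr r2 rp hY Yr hA := (f.comm_iff hY).2 (t.lar h4 (quo_mono _ hY) r2 (Yr.quo _)
    (quo_norms _ hA (t.d_mem (f.quoC ▸ w.syl.quo (nU (w.syl.le.trans f.CH))))) fun e hd => by
      obtain ⟨k, -, hk⟩ := FiniteField.card F p
      exact rp e ((Nat.prime_dvd_prime_iff_eq hr hp).1 (hr.dvd_of_dvd_pow (hk ▸ hd))))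
  zj r X R hr r2 _ := w.zj f.ha f.a1 hr r2
  nc e N hN VN := f.cov t hN.1 (by_contra fun e1 => t.sZ (h.le_Z (Sp.exists_sq_ne_one_of_four_le (by
    have := Nat.le_of_dvd (t.ord' ▸ orderOf_pos _) (h4.trans ⟨m, t.nm⟩)
    rw [Nat.card_eq_fintype_card]; omega)) (hN.quo _) e1 (qel_mem_quo _ (VN f.hb))))
  ord e := by
    obtain ⟨x, h1, h2⟩ := f.ord t
    have : 1 < Fintype.card F := Fintype.one_lt_card
    rw [h1, Nat.eq_of_mul_eq_mul_right (show 0 < n by omega) (show x * n = Fintype.card F * (Fintype.card F + 1) * n by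
      rw [h2, ← e, show (n + 1) ^ 2 - 1 = n * (n + 2) from Nat.sub_eq_of_eq_add (by ring)]; ring)]
  od e := by
    have hN : piCoreOf {p} 𝐎(𝐂(V)) ⊴ 𝐂(V) := (piCoreOf_charIn _ _).trans_normalIn (piCoreOf_normalIn _ _)
    obtain ⟨k, -, hk⟩ := FiniteField.card F p
    have pq : p ∣ Fintype.card F := hk ▸ dvd_pow_self p k.ne_zero
    refine (quo_eq_bot_iff (nU (hN.1.trans f.CH))).1 (t.od hp (fun e => h.odd.not_two_dvd_nat (e ▸ pq)) (fun e1 => ?_)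
      (f.quoC ▸ hN.quo _) ((piCoreOf_piGrp _ _).quo _))
    exact hp.one_lt.ne' (Nat.dvd_one.1 ((Nat.dvd_add_right e1).1 (e ▸ pq)))
  rt_of Y hY ho hn e := by
    rw [f.comm_iff hY] at e
    obtain ⟨e1, r⟩ := (t.ll0 (quo_mono _ hY) (odd_card_quo ho _) (f.quoC ▸ quo_norms _ hn)).resolve_left e
    refine ⟨e1, _, r, ?_⟩
    rw [inf_eq_left.2 hY]
    exact comm_le_left (zpowers_le.2 (quo_norms _ hn (qel_mem_quo _ (f.four.le_cent f.hb))))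
  rt_not Y := fun ⟨Q, r, k⟩ e => r.not_cent t.sX (k.trans ((f.comm_iff inf_le_right).1
    ((commutator_mono inf_le_left le_rfl).trans e)))
  rt_gen Y X x := fun ⟨Q, r, k⟩ YX CX hx sw => (f.cov t inf_le_right ((r.le_or (k.trans (quo_mono _ (inf_le_inf_right _ YX)))
    (quo_mono _ inf_le_right)).resolve_right fun e => f.swp t r sw (e (qel_mem_quo _ ⟨hx, sw.1⟩)))).trans
      (sup_le le_rfl ((le_inf CX f.CH).trans le_sup_left))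
  rt_swap Y x := fun ⟨Q, r, k⟩ hY ho sw hn => by
    rw [inf_eq_left.2 hY] at k
    refine f.not_L ho (r.gen (qel_mem_quo _ sw.1) (f.swp t r sw) ▸ sup_le k ?_)
    rw [← cj_eq_of_mem_normalizer (quo_norms _ (zpowers_le.2 hn) (qel_mem_quo _ (mem_zpowers x)))]
    exact cj_mono _ k
  rt_ex e := by
    obtain ⟨Q, r⟩ := t.root e
    have k : coq 𝐔 Q ≤ 𝐂[a] := coq_le_of_le_quo (piCoreOf_le _ _) (r.le_L.trans h.LX)
    exact ⟨_, k, f.odd_coq r, norms_coq (nU f.CH) (f.quoC ▸ r.norm t), Q, r, by rw [inf_eq_left.2 k, quo_coq]⟩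
  rt_idx Y := fun ⟨Q, r, k⟩ hY _ _ => by
    have l : 𝐔 ⊔ Y ⊔ 𝐂(V) ≤ 𝐂[a] := sup_le (sup_le (piCoreOf_le _ _) hY) f.CH
    rw [← relIndex_quo ⟨le_sup_left.trans le_sup_left, nU l⟩ (nU le_rfl)]
    exact r.idx t hp (k.trans (quo_mono _ (inf_le_left.trans (le_sup_right.trans le_sup_left))))
      (f.quoC ▸ quo_mono _ le_sup_right) (quo_mono _ l)
  rt_norm Y X := fun ⟨Q, r, k⟩ hY ho hX hn => by
    rw [inf_eq_left.2 hY] at k
    rw [sup_assoc, ← quo_le_quo_iff (nU hX) (nU (sup_le hY f.CH)), quo_sup (nU hY) (nU f.CH), f.quoC]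
    refine le_trans (fun x hx => (r.nz t).le ⟨quo_mono _ hX hx, by_contra fun e => ?_⟩) (sup_le_sup_right k _)
    refine f.not_L ho (r.gen (quo_mono _ hX hx) e ▸ sup_le k ?_)
    rw [← cj_eq_of_mem_normalizer (quo_norms _ hn hx)]
    exact cj_mono _ k
  ovr e X hX CX := or_iff_not_imp_left.2 fun hd => by
    have c : (𝐂[a] /ₛ 𝐔) ⊓ 𝐂[qel 𝐔 b] ≤ X /ₛ 𝐔 := f.quoC ▸ quo_mono _ CX
    rw [not_not, ← relIndex_quo ⟨le_sup_left, nU (sup_le (piCoreOf_le _ _) f.CH)⟩ (nU hX), quo_sup_left (nU f.CH), f.quoC,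
      ← inf_eq_left.2 ((quo_mono _ hX).trans (h.fratt t.gen t.sX t.s2 t.sZ).le),
      dedekind_right' (.inl (inf_le_left.trans h.LN.2)) c, sup_comm,
      relIndex_sup_of_norm' (norms_inf (c.trans le_normalizer) (inf_le_left.trans h.LN.2))] at hd
    obtain ⟨y, hy, o⟩ := exists_orderOf_eq_prime hp (hd.trans (relIndex_dvd_card _ _))
    obtain ⟨Q, k, r⟩ := t.ovr e hp (c.trans le_normalizer) hy (fun e => hp.one_lt.ne (by rw [← o, e, orderOf_one]))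
      (o ▸ pow_orderOf_eq_one y)
    refine ⟨X ⊓ coq 𝐔 Q, inf_le_left, odd_card_of_le (f.odd_coq r) inf_le_right,
      norms_inf (CX.trans le_normalizer) (norms_coq (nU f.CH) (f.quoC ▸ r.norm t)), Q, r, ?_⟩
    rw [inf_eq_left.2 (inf_le_left.trans hX), quo_inf_of_le_right _ (le_coq Q), quo_coq]
    exact le_inf k le_rfl

end CA.ABG
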