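/-
Alperin–Brauer–Gorenstein theorem, wreathed case: the induction.
-/
import Cfsg.Agent.Lib.ABG.WI

set_option autoImplicit false
set_option linter.unusedSectionVars false

namespace CA.ABG

open Cfsg CA CA.FStar CA.GW Subgroup

universe u

/-- The Sylow 2-subgroups of `L` are wreathed. -/
def WSyl {G : Type*} [Group G] (L : Subgroup G) : Prop := ∃ S, SylowIn 2 S L ∧ IsWreathed S

/-- A minimal simple group with wreathed Sylow 2-subgroups that is not balanced. -/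
structure MinW (G : Type u) [Group G] : Prop where
  simple : IsSimpleGroup G
  wsyl : WSyl (⊤ : Subgroup G)
  ind : ∀ (K : Type u) [Group K] [Finite K] [IsSimpleGroup K], Nat.card K < Nat.card G →
    WSyl (⊤ : Subgroup K) → Bal K
  unbal : ¬ Bal G

theorem WSyl.qsyl {G : Type*} [Group G] {L : Subgroup G} (h : WSyl L) : QSyl L := let ⟨S, h1, h2⟩ := h; ⟨S, h1, .inr h2⟩

theorem WS.wsyl {G : Type*} [Group G] [Finite G] {V A : Subgroup G} (h : WS V A) : WSyl (⊤ : Subgroup G) := by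
  obtain ⟨a, ha, a1, -⟩ := h.four.exists (one_mem V)
  obtain ⟨S, -, h1, h2, -⟩ := h.swp a ha a1
  exact ⟨S, h1, h2⟩

/-- The induction: every simple group with wreathed Sylow 2-subgroups is balanced. -/
theorem balW_of (h : ∀ (G : Type u) [Group G] [Finite G], MinW G → False) (K : Type u) [Group K] [Finite K]
    [IsSimpleGroup K] (hd : WSyl (⊤ : Subgroup K)) : Bal K := by
  induction hn : Nat.card K using Nat.strong_induction_on generalizing K with
  | _ n ih => exact by_contra fun e => h K ⟨inferInstance, hd, fun L _ _ _ h1 h3 => ih _ (hn ▸ h1) L h3 rfl, e⟩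

section
variable {G : Type*} [Group G] [Finite G] {X : Subgroup G} {a b : G}

theorem QSyl.ne_top (s : IsSimpleGroup G) (q : QSyl (⊤ : Subgroup G)) (h : Group.IsSolvable X) : X ≠ ⊤ := fun e =>
  q.not_solv_top (by subst e; exact solvable_of_surjective (f := (⊤ : Subgroup G).subtype) fun x => ⟨⟨x, trivial⟩, rfl⟩)

omit [Finite G] in
theorem norm_ne_top (s : IsSimpleGroup G) (h1 : X ≠ ⊥) (h2 : X ≠ ⊤) : 𝐍(X) ≠ ⊤ := fun e =>
  (s.eq_bot_or_eq_top_of_normal X (normalizer_eq_top_iff.1 e)).elim h1 h2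

theorem QSyl.norm_ne (s : IsSimpleGroup G) (q : QSyl (⊤ : Subgroup G)) (h1 : X ≠ ⊥) (h : Group.IsSolvable X) :
    𝐍(X) ≠ ⊤ := norm_ne_top s h1 (q.ne_top s h)

theorem QSyl.cent1_ne (s : IsSimpleGroup G) (q : QSyl (⊤ : Subgroup G)) (h : a ≠ 1) : 𝐂[a] ≠ ⊤ := fun e =>
  q.norm_ne s (ne_bot_of_mem (mem_zpowers a) h) (solvable_of_abelian inferInstance)
    (top_le_iff.1 (norms_zpowers_of_cent1 e.ge))

/-- in an unbalanced group no involution `b ≠ a` of `C(a)` centralizes `O(C(a))` -/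
theorem QDT.unb (h : QDT (⊤ : Subgroup G)) (hu : ¬ Bal G) (a2 : Inv2 a) (b2 : Inv2 b) (hab : a ≠ b) (hb : b ∈ 𝐂[a]) :
    ¬ 𝐎(𝐂[a]) ≤ 𝐂[b] := fun e => hu fun t s t2 s2 st => by
  by_cases k : t = s
  · exact k ▸ piCoreOf_le _ _
  obtain ⟨g, -, rfl, rfl⟩ := h.conj_pair trivial trivial trivial trivial a2 b2 t2 s2 (mem_cent1_iff.1 hb).symm
    (mem_cent1_iff.1 st).symm hab k
  rw [← cj_centralizer_singleton, ← cj_piCoreOf, ← cj_centralizer_singleton]
  exact cj_mono g e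

end

namespace MinW
variable {G : Type u} [Group G] [Finite G] (m : MinW G) {X : Subgroup G} {a b : G}
include m

theorem qsyl : QSyl (⊤ : Subgroup G) := m.wsyl.qsyl

theorem qdt : QDT (⊤ : Subgroup G) := haveI := m.simple; qdt_top m.qsyl

theorem one (a b : G) (a2 : Inv2 a) (b2 : Inv2 b) : ∃ g, g * a * g⁻¹ = b :=
  let ⟨g, _, e⟩ := m.qdt.one a trivial b trivial a2 b2; ⟨g, e⟩

theorem ne_top (h : Group.IsSolvable X) : X ≠ ⊤ := m.qsyl.ne_top m.simple h

theorem norm_ne (h1 : X ≠ ⊥) (h2 : X ≠ ⊤) : 𝐍(X) ≠ ⊤ := norm_ne_top m.simple h1 h2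

theorem cent1_ne (h : a ≠ 1) : 𝐂[a] ≠ ⊤ := m.qsyl.cent1_ne m.simple h

theorem unb (a2 : Inv2 a) (b2 : Inv2 b) (hab : a ≠ b) (hb : b ∈ 𝐂[a]) : ¬ 𝐎(𝐂[a]) ≤ 𝐂[b] :=
  m.qdt.unb m.unbal a2 b2 hab hb

end MinW

end CA.ABG
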