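/-
Alperin–Brauer–Gorenstein theorem, wreathed case: proper subgroups containing the homocyclic group `A` are balanced.
-/
import Cfsg.Agent.Lib.ABG.BX
import Cfsg.Agent.Lib.ABG.MinW
import Cfsg.Agent.Lib.ABG.WZJ

set_option autoImplicit false
set_option linter.unusedSectionVars false

namespace CA.ABG

open Cfsg CA CA.FStar CA.GW Subgroup

universe u

/-- a central element of a semidihedral group has order `≤ 2` -/
theorem sd_central {S : Type*} [Group S] (h : IsQuasiDihedral S) {v : S} (hv : ∀ a, a * v = v * a) : v * v = 1 := by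
  obtain ⟨n, hn, hc, x, y, hx, oy, hy⟩ := h
  haveI : Finite S := Nat.finite_of_card_ne_zero (by rw [hc]; positivity)
  obtain ⟨k, rfl⟩ : ∃ k, n = k + 3 := ⟨n - 3, by omega⟩
  have hi : (zpowers x).index = 2 := by
    have := (zpowers x).card_mul_index
    rw [Nat.card_zpowers, hx, hc, pow_succ 2 (k + 3)] at this
    exact Nat.eq_of_mul_eq_mul_left (by positivity) this
  have comm : ∀ a ∈ zpowers x, ∀ b ∈ zpowers x, a * b = b * a := abelian_iff'.1 (abelian_zpowers x)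
  have e2 : 2 ^ (k + 3 - 1) - 1 = 2 * (2 * 2 ^ k - 1) + 1 := by
    rw [show k + 3 - 1 = k + 2 by omega, pow_add]; have := Nat.two_pow_pos k; omega
  have key : ∀ v ∈ zpowers x, y * v = v * y → v * v = 1 := fun v hv e => by
    obtain ⟨i, rfl⟩ := mem_powers_iff_mem_zpowers.2 hv
    have h1 : (x ^ i) ^ (2 * (2 * 2 ^ k - 1) + 1) = x ^ i := by
      rw [← pow_mul, mul_comm, pow_mul, ← e2, ← hy, conj_pow, e, mul_inv_cancel_right]
    rw [pow_succ, mul_eq_right, pow_mul] at h1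
    have h2 : ((x ^ i) ^ 2) ^ (2 ^ (k + 3)) = 1 := by
      rw [← pow_mul, ← pow_mul, ← mul_assoc, mul_comm, pow_mul, ← hx, pow_orderOf_eq_one, one_pow]
    have h3 : (2 * 2 ^ k - 1).Coprime (2 ^ (k + 3)) := Nat.Coprime.pow_right _ (Nat.coprime_two_right.2 (by
      have := Nat.two_pow_pos k; exact ⟨2 ^ k - 1, by omega⟩))
    rw [← pow_two]
    exact orderOf_eq_one_iff.1 (Nat.eq_one_of_dvd_coprimes h3 (orderOf_dvd_of_pow_eq_one h1) (orderOf_dvd_of_pow_eq_one h2))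
  have nc : y * x ≠ x * y := fun e => by
    have h1 := orderOf_dvd_of_pow_eq_one (x := x) (n := 2) (by rw [pow_two]; exact key x (mem_zpowers x) e)
    rw [hx] at h1
    have := Nat.le_of_dvd two_pos h1
    rw [pow_add] at this; have := Nat.two_pow_pos k; omega
  refine key v (by_contra fun e => nc ?_) (hv y)
  have h1 := comm _ ((mul_mem_iff_of_index_two hi).2 (iff_of_false (fun e => nc (comm y e x (mem_zpowers x))) e)) x
    (mem_zpowers x)
  rw [mul_assoc, ← hv x, ← mul_assoc, ← mul_assoc] at h1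
  exact mul_right_cancel h1

section
variable {G : Type*} [Group G] [Finite G] {S X V A K : Subgroup G} {t s a k : G}

theorem SW.sd (w : SW S t) (h : IsQuasiDihedral S) : w.A = zpowers w.x ∧ w.z = t := by
  have e : w.z * w.z = 1 := congrArg Subtype.val (sd_central h (v := ⟨w.z, w.le w.zA⟩) fun a =>
    Subtype.ext (w.Z_cent (mem_zpowers _) _ a.2))
  exact w.typ.resolve_right fun k => w.t2.ne (by simpa [e] using k.2)

/-- four-groups are Sylow 2-subgroups of their centralizers -/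
theorem sd_cent (hS : SylowIn 2 S ⊤) (h : IsQuasiDihedral S) (V4 : Four V) (hs : s ∈ 𝐂(V)) (s2 : PiElt {2} s) :
    s ∈ V := by
  obtain ⟨g, -, e⟩ := hS.exists_cj_le (V4.piGrp.sup (piGrp_zpowers.2 s2) (.inl (norms_of_cents (zpowers_le.2 hs)))) le_top
  have VS := (cj_mono g le_sup_left).trans e
  have sS := e (conj_mem_cj.2 (mem_sup_right (mem_zpowers s)))
  have sc : g * s * g⁻¹ ∈ 𝐂(cj g V) := by rw [← cj_centralizer]; exact conj_mem_cj.2 hs
  rw [← conj_mem_cj (g := g)]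
  replace V4 := V4.cj g
  generalize cj g V = V at *
  generalize g * s * g⁻¹ = s at *
  obtain ⟨t, ⟨w⟩⟩ := sw_sd h
  obtain ⟨h1, h2⟩ := w.sd h
  obtain ⟨v, hv, vA⟩ := SetLike.not_le_iff_exists.1 (V4.not_le (T := w.A) (h1 ▸ inferInstance))
  have key : ∀ c ∈ w.A, c ∈ 𝐂(V) → c ∈ V := fun c hc hc' =>
    zpowers_le.2 (by rw [h2]; exact w.four_mem V4 VS) (w.cen_out (VS hv) vA hc (mem_cent_iff.1 hc' v hv))
  by_cases k : s ∈ w.A
  exacts [key s k sc, (mul_mem_cancel_right hv).1 (key _ (w.out_mul sS (VS hv) k vA) (mul_mem sc (V4.le_cent hv)))]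

/-- if `A ⊓ K = V` for a normal subgroup `K`, then `N_K(V)` centralizes `V` -/
theorem WA.fix (h : WA X V A) (hK : K ⊴ X) (AV : A ⊓ K ≤ V) (hk : k ∈ K ⊓ 𝐍(V)) (ha : a ∈ V) : k * a * k⁻¹ = a := by
  have AK := h.AX.trans hK.norm
  have hY := h.of_le le_sup_right (sup_le hK.le h.AX)
  have KY := normalIn_sup_left AK
  obtain ⟨c, hc, e2⟩ := SylowIn.exists_cj hY.syl (hY.syl.cj_of_mem_norm (norms_inf (inf_le_left.trans
    (KY.le.trans le_normalizer)) (inf_le_right.trans (norms_cent le_rfl)) hk))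
  obtain ⟨x, hx, rfl⟩ := h.sq a ha
  have gY : c⁻¹ * k ∈ K ⊔ A := mul_mem (inv_mem hc.1) (mem_sup_left hk.1)
  have yA : c⁻¹ * k * x * (c⁻¹ * k)⁻¹ ∈ A := by
    have := mem_cj.1 (e2 ▸ mem_cj'.2 ⟨x, hx, rfl⟩ : k * x * k⁻¹ ∈ cj c A)
    simpa [mul_assoc] using this
  have yK : c⁻¹ * k * x * (c⁻¹ * k)⁻¹ * x⁻¹ ∈ K := by
    have : IsMulCommutative ↥((K ⊔ A) /ₛ K) := by rw [quo_sup_left AK]; exact abelian_quo h.ab _
    exact (abelian_quo_iff KY.norm).1 this (comm_mem gY (mem_sup_right hx))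
  have yV := AV (mem_inf.2 ⟨mul_mem yA (inv_mem hx), yK⟩)
  have h1 := h.four.sq _ yV
  have h2 := mem_cent_iff.1 (h.AC hx) _ yV
  generalize hy : c⁻¹ * k * x * (c⁻¹ * k)⁻¹ * x⁻¹ = y at h1 h2
  have h4 : c⁻¹ * k * (x * x) * (c⁻¹ * k)⁻¹ = x * x := by
    rw [← conj_mul, eq_mul_of_mul_inv_eq hy, mul_assoc, ← mul_assoc x, ← h2, ← mul_assoc, ← mul_assoc, h1, one_mul]
  calc k * (x * x) * k⁻¹ = c * (c⁻¹ * k * (x * x) * (c⁻¹ * k)⁻¹) * c⁻¹ := by group
    _ = _ := by rw [h4, ← mem_cent_iff.1 hc.2 _ ha, mul_inv_cancel_right]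

/-- a normal simple subgroup containing `V` has wreathed Sylow 2-subgroups -/
theorem WA.wsyl (h : WA X V A) (hK : K ⊴ X) [IsSimpleGroup K] (VK : V ≤ K) (hq : QSyl (⊤ : Subgroup K)) :
    WSyl (⊤ : Subgroup K) := by
  have q := qdt_top hq
  obtain ⟨S, hS, e⟩ := hq
  refine ⟨S, hS, e.resolve_left fun e => ?_⟩
  have V4 := h.four
  have W4 : Four (V.subgroupOf K) := ⟨(card_subgroupOf_of_le VK).trans V4.card, fun x hx => Subtype.ext (V4.sq _ hx)⟩
  obtain ⟨a, ha, b, hb, a1, b1, ab⟩ := V4.exists_two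
  obtain ⟨g, hg, e1⟩ := q.rot W4 le_top (a := ⟨a, VK ha⟩) (b := ⟨b, VK hb⟩) ha hb (fun k => a1 (congrArg Subtype.val k))
    fun k => b1 (congrArg Subtype.val k)
  have AV : A ⊓ K ≤ V := fun x hx => sd_cent hS e W4 (s := ⟨x, hx.2⟩) (by rw [← subgroupOf_cent VK]; exact h.AC hx.1)
    (piElt_coe.1 (h.syl.piGrp.piElt hx.1))
  have e2 : (g : G) * a * (g : G)⁻¹ = b := congrArg Subtype.val e1
  refine ab ((h.fix hK AV (mem_inf.2 ⟨g.2, ?_⟩) ha).symm.trans e2)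
  exact mem_normalizer_of_cj_le (cj_le_iff'.2 fun x hx => conj_mem_of_mem_normalizer hg.2 (x := ⟨x, VK hx⟩) hx)

end

theorem WA.balW {G : Type u} [Group G] [Finite G] {X V A : Subgroup G} {a b : G} {n : ℕ} (w : WA X V A) (h : QG X)
    (hO : 𝐎(X) = ⊥)
    (ind : ∀ (K : Type u) [Group K] [Finite K] [IsSimpleGroup K], Nat.card K < n → WSyl (⊤ : Subgroup K) → Bal K)
    (hn : Nat.card X < n) (VK : ∀ K, K ⊴ X → QS K → K ⊓ 𝐂(K) = ⊥ → V ≤ K) (ha : a ∈ V) (hb : b ∈ V) (b1 : b ≠ 1) :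
    𝐎(X ⊓ 𝐂[b]) ≤ 𝐂[a] := by
  have V4 := w.four
  have hV := w.le
  by_cases a1 : a = 1
  · rw [a1]; exact fun x _ => mem_cent1_iff.2 (by simp)
  have a2 := V4.inv2 ha a1
  rcases h.str hO (ne_bot_of_mem (hV ha) a1) with ⟨z, hz, z2, e⟩ | ⟨U, U4, hU⟩ | ⟨K, KX, hq, hC, -, -⟩
  · have zV := h.rk V hV V4 z hz z2.sq (mem_cent_iff_le_cent1.2 (hV.trans e))
    by_cases e1 : b = z
    · rw [e1, inf_eq_left.2 e, hO]; exact bot_le
    refine (piCoreOf_le _ _).trans fun x hx => mem_cent1_iff.2 (mem_cent1_iff.1 (V4.le_of hb zV b1 z2.ne e1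
      (mem_cent1_iff.2 (mem_cent1_iff.1 hx.2).symm) (mem_cent1_iff.2 (mem_cent1_iff.1 (e hx.1)).symm) ha)).symm
  · have VU : V ≤ U := fun v hv => by
      obtain ⟨x, hx, rfl⟩ := w.sq v hv
      refine h.rk U hU.le U4 _ (hV hv) (V4.sq _ hv) ?_
      have n := zpowers_le.2 (hU.norm (w.AX hx))
      have h6 := four_aut U4 n
      have h2 := ((piGrp_zpowers.2 (w.syl.piGrp.piElt hx)).relIndex 𝐂(U))
      have : 𝐂(U).relIndex (zpowers x) ∣ 2 := (Nat.Coprime.symm ((Nat.Prime.coprime_iff_not_dvd Nat.prime_three).2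
        fun k => absurd (h2 3 Nat.prime_three k) (by simp))).dvd_of_dvd_mul_left h6
      obtain ⟨j, hj⟩ := this
      have hN : (𝐂(U).subgroupOf (zpowers x)).Normal := inferInstance
      have := pow_mem (pow_index_mem (H := 𝐂(U).subgroupOf (zpowers x)) ⟨x, mem_zpowers x⟩) j
      rwa [← pow_mul, ← relIndex, ← hj, pow_two] at this
    exact fun x hx => cent_le_cent1 (VU ha) (U4.cents_odd (hU.norm (piCoreOf_le _ _ hx).1)
      (odd_elt_iff.2 ((core_pi _).piElt hx)) (VU hb) b1 (piCoreOf_le _ _ hx).2)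
  have ZK := le_bot_iff.1 ((inf_le_inf_right _ KX.le).trans hC.le)
  replace VK := VK K KX hq ZK
  haveI := qs_simple hq ZK
  have k := w.wsyl KX VK (((h.of_le KX.le).syl hq).resolve_left (w.not_dsyl KX hq VK))
  have aY := piCoreOf_norm {2}ᶜ (X ⊓ 𝐂[b]) ⟨hV ha, V4.le_cent1 hb ha⟩
  have h1 := comm_le_left (zpowers_le.2 aY)
  rw [← cent_zpowers a, ← comm_eq_bot_iff, ← (copAct_inv a2.sq (odd_core _) aY).comm_comm, comm_eq_bot_iff, cent_zpowers]
  refine le_trans ?_ ((ind K ((card_le_of_le' KX.le).trans_lt hn) k).sub (VK ha) (VK hb) a2 (V4.inv2 hb b1)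
    (V4.le_cent1 hb ha))
  exact le_trans (le_inf h1 (le_inf ((commutator_mono le_rfl (zpowers_le.2 (VK ha))).trans (comm_le_right
    ((piCoreOf_le _ _).trans (inf_le_left.trans KX.norm)))) (h1.trans ((piCoreOf_le _ _).trans inf_le_right))))
    (piCoreOf_inf_le _ (inf_le_inf_right _ KX.le))

theorem WS.wa {G : Type u} [Group G] [Finite G] {V A : Subgroup G} (h : WS V A) : WA ⊤ V A := by
  refine ⟨h.four, le_top, by rw [top_inf_eq]; exact h.syl, abelian_iff.2 h.ab, fun a ha => ?_⟩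
  by_cases a1 : a = 1
  · exact ⟨1, one_mem _, by rw [a1, one_mul]⟩
  obtain ⟨S, w, AS, -, -, -, e⟩ := h.cov_syl ha a1 le_top (X := ⊤) (by rw [Cov, top_inf_eq]; exact le_sup_left)
  obtain ⟨r, hr, e⟩ := w.exists_four_elt e
  have rS := w.Z_cent hr
  exact ⟨r, h.syl.mem_of_mem_norm (centralizer_le_normalizer _ (cent_mono AS rS)) (cent_mono (h.VA.trans AS) rS)
    (w.two.piElt (w.le (w.Z_le hr))), e⟩

namespace MinW
variable {G : Type u} [Group G] [Finite G] (m : MinW G) {X V A : Subgroup G} {a b : G}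
include m

/-- BX -/
theorem bx' (w : WA ⊤ V A) (hX : X ≠ ⊤) (hA : A ≤ X) (ha : a ∈ V) (a1 : a ≠ 1) (hb : b ∈ V) :
    ⁅𝐎(X ⊓ 𝐂[a]), zpowers b⁆ ≤ 𝐎(X) := by
  have V4 := w.four
  have VL := w.VA.trans hA
  have hO := piCoreOf_normalIn {2}ᶜ X
  have ho := core_pi X
  have hk : PiGrp {2}ᶜ (pker (qmk 𝐎(X))) := by rw [pker_qmk]; exact ho
  have Vn := VL.trans hO.norm
  have vn := zpowers_le.2 (Vn hb)
  have FO := (piCoreOf_le {2}ᶜ (X ⊓ 𝐂[a])).trans (inf_le_left.trans hO.norm)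
  rw [← quo_eq_bot_iff (comm_le_of_le FO vn), quo_commutator FO vn, quo_zpowers (Vn hb), comm_eq_bot_iff, cent_zpowers]
  refine (quo_piCoreOf_le _ _ _).trans ?_
  rw [pm_cent hk (Vn ha) (V4.inv2 ha a1) (le_normalizer (VL ha))]
  refine ((w.of_le hA le_top).quo hO ho).balW ((m.qsyl.qg.of_le le_top).quo hO ho) (piCoreOf_quo_self _ X) m.ind
    ((card_quo_le X _).trans_lt ((card_lt_of_lt' hX.lt_top).trans_eq card_top)) (fun K hK hq hZ => ?_)
    (qel_mem_quo _ hb) (qel_mem_quo _ ha) ((V4.inv2 ha a1).pm (Vn ha) hk).ne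
  refine (le_coq_iff Vn).1 (w.four_le m.qsyl hA (coq_normalIn hO hK) (fun e => hq.not_solvable (solv_odd (odd_iff.2
    (quo_coq K ▸ e.quo _)))) fun z hz z2 e => ?_)
  obtain ⟨z1, z3⟩ := mem_coq.1 hz
  refine (z2.pm z1 hk).ne (mem_bot.1 (hZ ▸ mem_inf.2 ⟨z3, mem_cent_iff.2 fun g hg => ?_⟩))
  obtain ⟨g, hg', rfl⟩ := (mem_quo hO.norm).1 (hK.le hg)
  have gn := hO.norm hg'
  refine isol_comm (z2.pm z1 hk) ?_
  rw [← pel_inv _ gn, ← pel_mul _ gn z1, ← pel_mul _ (mul_mem gn z1) (inv_mem gn),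
    ← pel_mul _ z1 (mul_mem (mul_mem gn z1) (inv_mem gn))]
  exact (qel_eq_one_iff (hO.norm (hO.le (e g hg')))).2 (e g hg')

theorem bx1 (w : WA ⊤ V A) (hX : X ≠ ⊤) (hA : A ≤ X) (ha : a ∈ V) (a1 : a ≠ 1) (hb : b ∈ V) :
    ⁅𝐎(𝐂[a]) ⊓ X, zpowers b⁆ ≤ 𝐎(X) :=
  (commutator_mono ((le_inf inf_le_left (le_inf inf_le_right (inf_le_left.trans (piCoreOf_le _ _)))).trans
    (piCoreOf_inf_le _ inf_le_right)) le_rfl).trans (m.bx' w hX hA ha a1 hb)

/-- the field `bx` of `WI` -/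
theorem bx (h : WS V A) (X : Subgroup G) (hX : X ≠ ⊤) (hA : A ≤ X) (a : G) (ha : a ∈ V) (a1 : a ≠ 1) :
    ⁅𝐎(𝐂[a]) ⊓ X, V⁆ ≤ 𝐎(X) :=
  comm_le_iff.2 fun _ hy _ hb => m.bx1 h.wa hX hA ha a1 hb (comm_mem hy (mem_zpowers _))

end MinW

end CA.ABG
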