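/-
Alperin–Brauer–Gorenstein theorem: the parameters `q`, `δ` do not depend on the involution.
-/
import Cfsg.Agent.Lib.ABG.P3
import Cfsg.Agent.Lib.ABG.LA

set_option autoImplicit false
set_option linter.unusedSectionVars false

namespace CA.ABG

open Cfsg Subgroup CA CA.FStar CA.GW

variable {G : Type*} [Group G] [Finite G] {t s a b : G}

theorem relIndex_cent2 (hs : s ∈ 𝐂[t]) (s2 : Inv2 s) : (𝐂[qel 𝐎(𝐂[t]) s]).relIndex (𝐂[t] /ₛ 𝐎(𝐂[t])) =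
    (𝐎(𝐂[t]) ⊔ 𝐂[t] ⊓ 𝐂[s]).relIndex 𝐂[t] := by
  have n := piCoreOf_norm {2}ᶜ 𝐂[t]
  rw [← inf_relIndex_left, ← quo_cent2 hs s2, relIndex_pmap _ (inf_le_left.trans n) n, pker_qmk,
    sup_eq_right.2 (piCoreOf_le _ _)]

theorem tor_arith {I n n' q q' : ℕ} (o : Odd q) (o' : Odd q') (h : n + 1 = q ∨ n = q + 1) (h' : n' + 1 = q' ∨ n' = q' + 1)
    (n0 : 0 < n) (n0' : 0 < n') (e : I * n = q * (q ^ 2 - 1)) (e' : I * n' = q' * (q' ^ 2 - 1)) : q = q' ∧ n = n' := by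
  have k : ∀ {n q : ℕ}, Odd q → 0 < n → n + 1 = q ∨ n = q + 1 → I * n = q * (q ^ 2 - 1) →
      (n + 1 = q ∧ I = q * (q + 1)) ∨ (n = q + 1 ∧ I + q = q * q) := fun {n q} o n0 h e => by
    have h1 : 1 ≤ q ^ 2 := Nat.one_le_pow _ _ o.pos
    zify [h1] at e ⊢
    have : (n : ℤ) ≠ 0 := by exact_mod_cast n0.ne'
    rcases h with rfl | rfl
    · exact .inl ⟨by push_cast; rfl, mul_right_cancel₀ this (by rw [e]; push_cast; ring)⟩
    · exact .inr ⟨by push_cast; rfl, mul_right_cancel₀ this (by rw [add_mul, e]; push_cast; ring)⟩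
  obtain ⟨c, rfl⟩ := o
  obtain ⟨c', rfl⟩ := o'
  rcases k ⟨c, rfl⟩ n0 h e with ⟨a1, a2⟩ | ⟨a1, a2⟩ <;> rcases k ⟨c', rfl⟩ n0' h' e' with ⟨b1, b2⟩ | ⟨b1, b2⟩ <;>
    rcases lt_trichotomy c c' with l | l | l <;> first | omega | (exfalso; nlinarith)

theorem QDT.tor_uniq (h : QDT (⊤ : Subgroup G)) (t2 : Inv2 t) (s2 : Inv2 s) (ts : t ≠ s) (hs : s ∈ 𝐂[t]) (a2 : Inv2 a)
    (b2 : Inv2 b) (ab : a ≠ b) (hb : b ∈ 𝐂[a]) {F F' : Type} [Field F] [Fintype F] [Field F'] [Fintype F'] {Z Z'}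
    {e : QT F (𝐂[t] /ₛ 𝐎(𝐂[t])) Z} {e' : QT F' (𝐂[a] /ₛ 𝐎(𝐂[a])) Z'} {d τ σ n m d' τ' σ' n' m'}
    (r : e.Tor (qel _ s) d τ σ n m) (r' : e'.Tor (qel _ b) d' τ' σ' n' m') :
    Fintype.card F = Fintype.card F' ∧ n = n' := by
  have h1 := r.idx
  have h2 := r'.idx
  rw [relIndex_cent2 hs s2] at h1
  rw [relIndex_cent2 hb b2] at h2
  obtain ⟨g, -, rfl, rfl⟩ := h.conj_pair (mem_top t) (mem_top s) (mem_top a) (mem_top b) t2 s2 a2 b2
    (mem_cent1_iff.1 hs).symm (mem_cent1_iff.1 hb).symm ts ab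
  rw [← cj_centralizer_singleton g s, ← cj_centralizer_singleton g t, ← cj_piCoreOf, ← cj_inf, ← cj_sup, relIndex_cj] at h2
  exact tor_arith e.odd e'.odd r.hn r'.hn (r.ord ▸ orderOf_pos τ) (r'.ord ▸ orderOf_pos τ') h1 h2

theorem ringChar_eq {F F' : Type} [Field F] [Fintype F] [Field F'] [Fintype F'] (h : Fintype.card F = Fintype.card F') :
    ringChar F = ringChar F' := by
  obtain ⟨n, hp, e⟩ := FiniteField.card F (ringChar F)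
  obtain ⟨n', hp', e'⟩ := FiniteField.card F' (ringChar F')
  exact (Nat.prime_dvd_prime_iff_eq hp hp').1 (hp.dvd_of_dvd_pow (by rw [← e', ← h, e]; exact dvd_pow_self _ n.ne_zero))

end CA.ABG
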