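/-
Alperin–Brauer–Gorenstein theorem, semidihedral case: the local facts about the centralizers of involutions.
-/
import Cfsg.Agent.Lib.ABG.A4c
import Cfsg.Agent.Lib.ABG.LocW
import Cfsg.Agent.Lib.ABG.WU
import Cfsg.Agent.Lib.ABG.WBX

set_option autoImplicit false
set_option linter.unusedSectionVars false

namespace CA.ABG

open Cfsg CA CA.FStar CA.Loc CA.GW Subgroup
open scoped MatrixGroups

universe u

/-- `C(a)/O(C(a))` is described over a field of order `q` and characteristic `p`, for all involutions `a`. -/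
structure SDat (G : Type*) [Group G] (p q : ℕ) : Prop where
  hp : p.Prime
  p2 : p ≠ 2
  qdt : QDT (⊤ : Subgroup G)
  ex : ∀ a b : G, Inv2 a → Inv2 b → b ∈ 𝐂[a] → a ≠ b → ∃ (Z : Subgroup (Quo 𝐎(𝐂[a]))) (F : Type) (_ : Field F)
    (_ : Fintype F) (_ : CharP F p) (e : QE F (𝐂[a] /ₛ 𝐎(𝐂[a])) Z) (d : Quo 𝐎(𝐂[a])) (τ σ : SL(2, F)) (n m : ℕ),
    e.t = qel _ a ∧ Nat.card Z = 2 ∧ Fintype.card F = q ∧ e.Tor (qel _ b) d τ σ n m ∧ (n + 1 = Fintype.card F ↔ q % 4 = 3)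

theorem Min.sdat {G : Type u} [Group G] [Finite G] (m : Min G) (sd : IsQuasiDihedral m.S) : ∃ p q, SDat G p q := by
  have h := m.qdt
  have t2 := m.inv
  obtain ⟨s, hs, s2, st⟩ := h.exists_four trivial t2
  replace hs := hs.2
  obtain ⟨Z, F, _, _, e, et⟩ := h.qe' t2 le_top
  obtain ⟨d, τ, σ, n, n', tor⟩ := e.tor' et t2 hs s2 st
  have hp : (ringChar F).Prime := CharP.char_is_prime F _
  obtain ⟨f, -, hf⟩ := FiniteField.card F (ringChar F)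
  refine ⟨ringChar F, Fintype.card F, hp, fun k => ?_, h, fun a b a2 b2 hb ab => ?_⟩
  · have := e.odd
    rw [hf, k] at this
    exact (Nat.not_odd_iff_even.2 (Nat.even_pow.2 ⟨even_two, f.ne_zero⟩)) this
  obtain ⟨Z', F', _, _, e', et'⟩ := h.qe' a2 le_top
  obtain ⟨d', τ', σ', l, l', tor'⟩ := e'.tor' et' a2 hb b2 ab.symm
  obtain ⟨e1, -⟩ := h.tor_uniq t2 s2 st.symm hs a2 b2 ab hb tor tor'
  obtain ⟨S, h1, h2, hq, ⟨w⟩⟩ := h.sw0 (mem_top a) a2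
  rw [top_inf_eq] at h2
  obtain ⟨g, -, rfl⟩ := m.syl.exists_cj h1
  have sd' : IsQuasiDihedral (cj g m.S) := by
    obtain ⟨n, hn, hc, x, y, ox, oy, k⟩ := sd
    let e := cjEquiv g m.S
    exact ⟨n, hn, (Nat.card_congr e.toEquiv).symm.trans hc, e x, e y, (e.orderOf_eq x).trans ox, (e.orderOf_eq y).trans oy,
      by simpa using congrArg e k⟩
  have z2 := e'.card_two h2 hq w (w.sd sd').2
  refine ⟨Z', F', _, _, ringChar_eq e1 ▸ ringChar.charP F', e', d', τ', σ', l, l', et', z2, e1.symm, tor', ?_⟩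
  have k1 := tor'.nm
  obtain ⟨j, hj⟩ := tor'.mo
  rw [z2] at k1
  rcases tor'.hn with k | k <;> omega

section
variable {G : Type*} [Group G] [Finite G] {V X Y : Subgroup G} {a b x : G}

theorem Swp.mem_norm (V4 : Four V) (ha : a ∈ V) (h : Swp V a x) : x ∈ 𝐂[a] ⊓ 𝐍(V) :=
  ⟨h.1, mem_norm_of fun v hv => by
    by_cases v1 : v = 1
    · simpa [v1] using one_mem V
    by_cases va : v = a
    · rwa [va, mem_cent1_iff.1 h.1, mul_inv_cancel_right]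
    rw [h.2 v hv v1 va]
    exact mul_mem ha hv⟩

theorem Fab.swp_of (f : Fab V a b) (hx : x ∈ 𝐂[a]) (e : x * b * x⁻¹ = a * b) : Swp V a x :=
  ⟨hx, fun v hv v1 va => by
    rcases (f.four.mem f.ha f.hb f.a1 f.b1 f.ab v).1 hv with rfl | rfl | rfl | rfl
    exacts [absurd rfl v1, absurd rfl va, e, by
      rw [← conj_mul, e, mem_cent1_iff.1 hx, mul_inv_cancel_right]]⟩

theorem QDT.exists_swp (h : QDT (⊤ : Subgroup G)) (V4 : Four V) (ha : a ∈ V) (a1 : a ≠ 1) : ∃ σ, Swp V a σ := by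
  obtain ⟨b, hb, b1, ba⟩ := V4.exists ha
  obtain ⟨σ, hσ, -, e⟩ := h.swap trivial trivial (V4.inv2 ha a1) (V4.inv2 hb b1) (V4.comm ha hb) ba.symm
  exact ⟨σ, Fab.swp_of ⟨V4, ha, hb, a1, b1, ba.symm⟩ hσ.2 e⟩

theorem Swp.le (V4 : Four V) (ha : a ∈ V) (a1 : a ≠ 1) (h : Swp V a x) (hx : x ∈ X) (CX : 𝐂(V) ≤ X) :
    𝐂[a] ⊓ 𝐍(V) ≤ X := fun g hg => by
  obtain ⟨b, hb, b1, ba⟩ := V4.exists ha
  have c := four_cent' V4 ha hb a1 b1 ba.symm
  rcases (V4.mem ha hb a1 b1 ba.symm _).1 (conj_mem_of_mem_normalizer hg.2 hb) with e | e | e | e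
  · exact absurd e ((V4.inv2 hb b1).conj g).ne
  · exact absurd (mul_left_cancel ((mul_inv_eq_iff_eq_mul.1 e).trans (mem_cent1_iff.1 hg.1).symm)) ba
  · exact CX (c ⟨hg.1, mem_cent1_iff.2 (mul_inv_eq_iff_eq_mul.1 e)⟩)
  · refine (mul_mem_cancel_left (inv_mem hx)).1 (CX (c (mem_inf.2 ⟨mul_mem (inv_mem h.1) hg.1, mem_cent1_iff.2 ?_⟩)))
    calc x⁻¹ * g * b = x⁻¹ * (g * b * g⁻¹) * g := by group
      _ = _ := by rw [e, ← h.2 b hb b1 ba]; group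

/-- a subgroup of `C(a)` in which `b` and `a b` are conjugate modulo `O(C(a))` contains a swap -/
theorem Fab.lift_swp (f : Fab V a b) (VX : V ≤ 𝐍(X)) (hX : X ≤ 𝐂[a]) (hx : x ∈ X)
    (e : qel 𝐎(𝐂[a]) x * qel _ b * (qel 𝐎(𝐂[a]) x)⁻¹ = qel _ b * qel _ a) : ∃ y ∈ X ⊔ zpowers a, Swp V a y := by
  have n := piCoreOf_norm {2}ᶜ 𝐂[a]
  have aH := f.VH f.ha
  have bH := f.VH f.hb
  have b2 := f.four.inv2 f.hb f.b1
  have c2 : Inv2 (a * b) := (f.four.inv2 f.ha f.a1).mul b2 f.ab (f.four.comm f.ha f.hb)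
  rw [← pel_conj _ (n (hX hx)) (n bH), ← pel_mul _ (n bH) (n aH), ← f.four.comm f.ha f.hb] at e
  have h1 := (qel_eq_iff' (n (conj_mem_of_mem_normalizer (le_normalizer (hX hx)) bH)) (n (mul_mem aH bH))).1 e
  rw [c2.inv] at h1
  obtain ⟨k, hk⟩ := Inv.conj_of_odd (b2.conj x).sq c2.sq (odd_of_mem (odd_core _) h1)
  have h2 : x * b * x⁻¹ * (a * b) ∈ X ⊔ zpowers a := by
    rw [f.four.comm f.ha f.hb, show x * b * x⁻¹ * (b * a) = x * (b * x⁻¹ * b⁻¹) * a by rw [b2.inv]; group]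
    exact mul_mem (mem_sup_left (mul_mem hx (conj_mem_of_mem_normalizer (VX f.hb) (inv_mem hx)))) (mem_sup_right (mem_zpowers a))
  refine ⟨_, mul_mem (zpow_mem h2 k) (mem_sup_left hx), f.swp_of (mul_mem (zpow_mem (piCoreOf_le _ _ h1) k) (hX hx)) ?_⟩
  generalize (x * b * x⁻¹ * (a * b)) ^ k = y at hk
  rw [← hk]; group

end

namespace SDat
variable {G : Type*} [Group G] [Finite G] {p q r : ℕ} (h : SDat G p q) {V X Y : Subgroup G} {a b : G}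
include h

theorem ll0 (hr : q % 4 = 3 → r ≠ p) : LL0 G r := fun a b a2 b2 ha Y hY ho hn R hR Rr => by
  by_cases ab : b = a
  · subst ab
    rw [comm_eq_bot_iff.2 (cent_zpowers b ▸ hY)] at hR
    exact hR.trans bot_le
  obtain ⟨Z, F, _, _, _, e, d, τ, σ, n, m, -, -, -, t, k⟩ := h.ex b a b2 a2 ha ab
  rcases t.ll0' (piCoreOf_normalIn _ _) (odd_core _) ha a2.sq hY ho hn with e1 | ⟨e1, e2⟩
  · exact hR.trans e1
  have RH := hR.trans ((comm_le_left (zpowers_le.2 (hn ⟨ha, self_mem_cent1 a⟩))).trans hY)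
  exact (quo_eq_bot_iff (nU RH)).1 ((Rr.quo _).eq_bot (((e2.piGrp h.hp).of_le (quo_mono _ hR)).compl_singleton
    (by simpa using hr (k.1 e1))))

theorem bal (hq : q % 4 ≠ 3) : BAL G := fun a b Y a2 b2 ha ho hn => by
  by_cases ab : b = a
  · subst ab
    rw [comm_eq_bot_iff.2 (cent_zpowers b ▸ inf_le_right)]
    exact bot_le
  obtain ⟨Z, F, _, _, _, e, d, τ, σ, n, m, -, -, -, t, k⟩ := h.ex b a b2 a2 ha ab
  exact (t.ll0' (piCoreOf_normalIn _ _) (odd_core _) ha a2.sq inf_le_right (odd_card_of_le ho inf_le_left)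
    (norms_inf (inf_le_right.trans hn) (inf_le_left.trans le_normalizer))).resolve_right fun e => hq (k.1 e.1)

theorem nr : NR G := fun V a Y V4 ha a1 hY ho hn => by
  obtain ⟨b, hb, b1, ba⟩ := V4.exists ha
  have f : Fab V a b := ⟨V4, ha, hb, a1, b1, ba.symm⟩
  obtain ⟨Z, F, _, _, _, e, d, τ, σ, n, m, -, -, -, t, -⟩ := h.ex a b (V4.inv2 ha a1) (V4.inv2 hb b1) (f.VH hb) ba.symm
  have c : 𝐂(V) ≤ 𝐍(Y) := (le_inf f.CH (centralizer_le_normalizer _)).trans hn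
  refine (f.comm_iff hY).2 ((t.ll0 (quo_mono _ hY) (odd_card_quo ho _) (f.quoC ▸ quo_norms _ c)).resolve_right
    fun ⟨_, r⟩ => ?_)
  obtain ⟨x, sw⟩ := h.qdt.exists_swp V4 ha a1
  have k := comm_le_left (zpowers_le.2 (quo_norms 𝐎(𝐂[a]) c (qel_mem_quo _ (V4.le_cent hb))))
  refine f.not_L ho (r.gen (qel_mem_quo _ sw.1) (f.swp t r sw) ▸ sup_le k ?_)
  exact (cj_mono _ k).trans (cj_eq_of_mem_normalizer (quo_norms _ hn (qel_mem_quo _ (sw.mem_norm V4 ha)))).le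

theorem rf : RF G := fun V a X Y V4 ha a1 YX hX CX ho hn => by
  obtain ⟨b, hb, b1, ba⟩ := V4.exists ha
  have f : Fab V a b := ⟨V4, ha, hb, a1, b1, ba.symm⟩
  obtain ⟨Z, F, _, _, _, e, d, τ, σ, n, m, et, -, -, t, -⟩ := h.ex a b (V4.inv2 ha a1) (V4.inv2 hb b1) (f.VH hb) ba.symm
  obtain ⟨S, h1, -, h2, -⟩ := h.qdt.sw0 (mem_top a) (V4.inv2 ha a1)
  have hY := YX.trans hX
  have bn := hn (V4.le_cent hb)
  have fin : ∀ N, N ⊴ X → Odd (Nat.card N) → ⁅Y, zpowers b⁆ ≤ N → Y ≤ 𝐎(X) ⊔ 𝐎(𝐂(V)) := fun N k1 k2 k3 => by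
    refine ((copAct_inv (V4.sq b hb) ho bn).le_sup_cent (k3.trans (le_piCoreOf k1 (odd_iff.1 k2)))).trans (sup_le_sup_left ?_ _)
    rw [cent_zpowers]
    have := (QSyl.qg ⟨S, h1, h2⟩).npc V le_top V4
    rw [top_inf_eq] at this
    exact this.le_piCoreOf ((inf_le_inf_right _ hY).trans (four_cent' V4 ha hb a1 b1 ba.symm))
      (odd_iff.1 (odd_card_of_le ho inf_le_left))
  have k0 := comm_le_left (zpowers_le.2 bn)
  rcases t.ll0' (piCoreOf_normalIn _ _) (odd_core _) (f.VH hb) (V4.sq b hb) hY ho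
    ((four_cent' V4 ha hb a1 b1 ba.symm).trans hn) with e1 | ⟨-, r⟩
  · exact .inr (fin (X ⊓ 𝐎(𝐂[a])) (normalIn_inf_of_norm (nU hX)) (odd_card_of_le (odd_core _) inf_le_right)
      (le_inf (k0.trans YX) e1))
  rcases r.le_or (quo_mono _ (k0.trans YX)) (quo_mono _ hX) with e1 | e1
  · obtain ⟨x, hx, e2⟩ := (mem_quo (nU hX)).1 (e1 ⟨σ, rfl⟩)
    obtain ⟨y, hy, sw⟩ := f.lift_swp ((V4.le_cent.trans CX).trans le_normalizer) hX hx (by rw [e2, ← et]; exact t.swap)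
    exact .inl (sw.le V4 ha a1 (sup_le le_rfl (zpowers_le.2 (CX (V4.le_cent ha))) hy) CX)
  · exact .inr (fin (X ⊓ coq _ (⁅Y, zpowers b⁆ /ₛ 𝐎(𝐂[a]))) (normalIn_inf_of_norm (norms_coq (nU hX) e1))
      (odd_card_of_le (f.odd_coq r) inf_le_right) (le_inf (k0.trans YX) ((le_coq_iff (nU (k0.trans hY))).2 le_rfl)))

end SDat

end CA.ABG
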