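/-
Alperin–Brauer–Gorenstein theorem: the relative ZJ-theorem for the maximal subgroups `M = O(M) C(a)`.
-/
import Cfsg.Agent.Lib.ABG.A4b
import Cfsg.Agent.Lib.ABG.G4
import Cfsg.Agent.Lib.ABG.P3

set_option autoImplicit false
set_option linter.unusedSectionVars false

namespace CA.ABG

open Cfsg CA CA.FStar CA.Loc CA.GW Subgroup

universe u

variable {G : Type u} [Group G] [Finite G] {M H W U : Subgroup G} {a : G} {r : ℕ}

/-- the projection `M = W H → H / U`, `U = W ∩ H` -/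
theorem exists_cover (HM : H ≤ M) (hW : W ⊴ M) (sup : M ≤ W ⊔ H) (hU : H ≤ 𝐍(U)) (e : W ⊓ H = U ⊓ H) :
    ∃ f : M →* Quo U, ∀ w ∈ W, ∀ x ∈ H, pel f (w * x) = qel U x := by
  obtain ⟨φ, hφ⟩ := exists_pmap_equiv (f := qmk W) (qmk U) (HM.trans hW.2) hU (by rw [pker_qmk, pker_qmk, e])
  have k : ∀ w ∈ W, ∀ x ∈ H, qel W (w * x) = qel W x := fun w hw x hx => by
    rw [pel_mul _ (le_normalizer hw) (hW.2 (HM hx)), qel_eq_one hw, one_mul]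
  have le : M /ₛ W ≤ H /ₛ W := fun y hy => by
    obtain ⟨x, hx, rfl⟩ := (mem_quo hW.2).1 hy
    obtain ⟨w, hw, c, hc, rfl⟩ := (mem_sup_of_norm_right (HM.trans hW.2)).1 (sup hx)
    rw [k w hw c hc]
    exact qel_mem_quo _ hc
  refine ⟨(Subgroup.subtype _).comp (φ.toMonoidHom.comp ((inclusion le).comp (pmapHom (qmk W) hW.2))), fun w hw x hx => ?_⟩
  rw [pel_of_mem _ (mul_mem (hW.1 hw) (HM hx))]
  refine Eq.trans ?_ ((congrArg Subtype.val (hφ ⟨x, hx⟩)).trans (pmapHom_apply _ hU ⟨x, hx⟩))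
  refine congrArg (fun y => (φ y : Quo U)) (Subtype.ext ?_)
  exact (pmapHom_apply _ hW.2 ⟨w * x, mul_mem (hW.1 hw) (HM hx)⟩).trans ((k w hw x hx).trans (pmapHom_apply _ _ ⟨x, hx⟩).symm)

theorem A4.inf_eq (h : A4 a M r) : 𝐎(M) ⊓ 𝐂[a] = 𝐎(𝐂[a]) :=
  le_antisymm (le_piCoreOf ⟨inf_le_right, norms_inf (h.le.trans (piCoreOf_norm _ _)) le_normalizer⟩ ((core_pi _).inf_left _))
    (le_inf h.core_le (piCoreOf_le _ _))

theorem QDT.rzm (h : QDT (⊤ : Subgroup G)) (ex : r = 3 → ∀ (a s : G) (Z : Subgroup (Quo 𝐎(𝐂[a]))) (F : Type) [Field F]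
    [Fintype F] (e : QE F (𝐂[a] /ₛ 𝐎(𝐂[a])) Z) d τ σ n m, Inv2 a → e.t = qel _ a → e.Tor (qel _ s) d τ σ n m →
    Fintype.card F = 5 → n ≠ 6) : RZM G r := fun V M a R V4 ha a1 k hC hR => by
  haveI : Fact r.Prime := ⟨k.prime⟩
  have a2 := V4.inv2 ha a1
  obtain ⟨s, hs, s1, sa⟩ := V4.exists ha
  have s2 := V4.inv2 hs s1
  have c := V4.le_cent1 ha hs
  obtain ⟨Z, F, _, _, e, et⟩ := h.qe' a2 le_top
  obtain ⟨d, τ, σ, n, m, T⟩ := e.tor' et a2 c s2 sa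
  have ex' := fun h3 => ex h3 a s Z F e d τ σ n m a2 et T
  have nU := piCoreOf_norm {2}ᶜ 𝐂[a]
  have hW := piCoreOf_normalIn {2}ᶜ M
  obtain ⟨f, hf⟩ := exists_cover k.le hW k.eq.ge nU (by rw [k.inf_eq, inf_eq_left.2 (piCoreOf_le _ _)])
  have dec : ∀ x ∈ M, ∃ w ∈ 𝐎(M), ∃ y ∈ 𝐂[a], w * y = x := fun x hx =>
    (mem_sup_of_norm_right (k.le.trans hW.2)).1 (k.eq.ge hx)
  have kf : pker f = 𝐎(M) := le_antisymm (fun x hx => by
    obtain ⟨h1, h2⟩ := mem_pker.1 hx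
    obtain ⟨w, hw, y, hy, rfl⟩ := dec x h1
    rw [hf w hw y hy] at h2
    exact mul_mem hw (k.core_le ((qel_eq_one_iff (nU hy)).1 h2))) fun x hx => mem_pker.2 ⟨hW.1 hx, by
      rw [← mul_one x, hf x hx 1 (one_mem _), pel_one]⟩
  have E : pmap f M = 𝐂[a] /ₛ 𝐎(𝐂[a]) := le_antisymm (fun y hy => by
    obtain ⟨x, hx, rfl⟩ := (mem_pmap_of_le le_rfl).1 hy
    obtain ⟨w, hw, y, hy', rfl⟩ := dec x hx
    rw [hf w hw y hy']
    exact qel_mem_quo _ hy') fun y hy => by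
      obtain ⟨x, hx, rfl⟩ := (mem_quo nU).1 hy
      rw [← hf 1 (one_mem _) x hx, one_mul]
      exact pel_mem_pmap f (k.le hx)
  have np : NormalPCompl 2 𝐂(V) := by
    have := h.syl.qg.npc V le_top V4
    rwa [top_inf_eq] at this
  have DH := (piCoreOf_le {2}ᶜ 𝐂(V)).trans (cent_le_cent1 ha)
  have E2 := T.E_eq (piCoreOf_normalIn _ _) (odd_core _) (self_mem_cent1 a) a2 c s2 c
    (fun y hy => by
      obtain ⟨x, hx, rfl⟩ := (mem_quo nU).1 hy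
      rw [mem_cent1_iff, ← pel_mul _ (nU hx) (nU (self_mem_cent1 a)), ← pel_mul _ (nU (self_mem_cent1 a)) (nU hx),
        mem_cent1_iff.1 hx])
    ((piCoreOf_le _ 𝐂(V)).trans (cent_le_cent1 hs)) (odd_core _) fun x hx o =>
      (np.mem_iff (four_cent' V4 ha hs a1 s1 sa.symm hx)).2 (odd_elt_iff.1 o)
  rw [inf_eq_right.2 DH] at E2
  have E3 : M ⊓ pcomap f 𝐎((𝐂[a] /ₛ 𝐎(𝐂[a])) ⊓ 𝐂[qel 𝐎(𝐂[a]) s]) = Ex V M a := by
    rw [k.ex]
    refine le_antisymm (fun x hx => ?_) (sup_le (le_inf hW.1 (kf ▸ pker_le_pcomap _ _)) fun x hx => ?_)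
    · obtain ⟨w, hw, y, hy, rfl⟩ := dec x hx.1
      have := (mem_pcomap.1 hx.2).2
      rw [hf w hw y hy] at this
      exact mul_mem (mem_sup_left hw) (sup_le_sup_right k.core_le _ (E2.le ⟨hy, mem_pcomap.2 ⟨nU hy, this⟩⟩))
    · refine ⟨k.le (DH hx), mem_pcomap.2 ⟨k.le (DH hx), ?_⟩⟩
      rw [← one_mul x, hf 1 (one_mem _) x (DH hx)]
      exact (mem_pcomap.1 (E2.ge (mem_sup_right hx)).2).2
  generalize e.toQT = e' at T
  clear et E2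
  generalize 𝐂[a] /ₛ 𝐎(𝐂[a]) = X at E E3 e' T
  subst E
  exact T.relZJ le_rfl (by rw [kf]; exact odd_card_of_le (odd_core M) inf_le_right) k.ne ex' (kf ▸ k.pc_le) hC (E3 ▸ hR)

end CA.ABG
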