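/-
Alperin–Brauer–Gorenstein theorem: the local hypotheses of the analysis of the configuration `A4`.
-/
import Cfsg.Agent.Lib.ABG.A4f
import Cfsg.Agent.Lib.ABG.RZM
import Cfsg.Agent.Lib.ABG.LocW
import Cfsg.Agent.Lib.ABG.WU
import Cfsg.Agent.Lib.ABG.WBX

set_option autoImplicit false
set_option linter.unusedSectionVars false

namespace CA.ABG

open Cfsg CA CA.FStar CA.Loc CA.GW Subgroup

universe u

variable {G : Type u} [Group G] [Finite G] {a b : G} {r : ℕ} (h : QDT (⊤ : Subgroup G))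
include h

theorem QDT.tors (a2 : Inv2 a) (b2 : Inv2 b) (ab : a ≠ b) (hb : b ∈ 𝐂[a]) : ∃ (Z : Subgroup (Quo 𝐎(𝐂[a]))) (F : Type)
    (_ : Field F) (_ : Fintype F) (e : QE F (𝐂[a] /ₛ 𝐎(𝐂[a])) Z), e.t = qel _ a ∧ ∃ d τ σ n m, e.Tor (qel _ b) d τ σ n m := by
  obtain ⟨Z, F, _, _, e, et⟩ := h.qe' a2 le_top
  exact ⟨Z, F, _, _, e, et, e.tor' et a2 hb b2 ab.symm⟩

theorem QDT.nrA : NR G := fun V a Y V4 ha a1 hY ho hn => by
  obtain ⟨b, hb, b1, ba⟩ := V4.exists ha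
  have f : Fab V a b := ⟨V4, ha, hb, a1, b1, ba.symm⟩
  obtain ⟨Z, F, _, _, e, -, d, τ, σ, n, m, t⟩ := h.tors (V4.inv2 ha a1) (V4.inv2 hb b1) ba.symm (f.VH hb)
  rw [f.comm_iff hY]
  have c : 𝐂(V) ≤ 𝐍(Y) := (le_inf f.CH (norms_of_cents le_rfl)).trans hn
  refine (t.ll0 (quo_mono _ hY) (odd_card_quo ho _) (f.quoC ▸ quo_norms _ c)).resolve_right fun ⟨_, r⟩ => ?_
  obtain ⟨x, ⟨-, hx⟩, -, ex⟩ := h.swap (mem_top a) (mem_top b) (V4.inv2 ha a1) (V4.inv2 hb b1) (V4.comm ha hb) ba.symm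
  have xa : x * a * x⁻¹ = a := by rw [mem_cent1_iff.1 hx, mul_inv_cancel_right]
  have sw : Swp V a x := ⟨hx, fun c hc c1 ca => by
    rcases (V4.mem ha hb a1 b1 ba.symm c).1 hc with rfl | rfl | rfl | rfl
    exacts [absurd rfl c1, absurd rfl ca, ex, by rw [← conj_mul, xa, ex]]⟩
  have xn := quo_norms 𝐎(𝐂[a]) (zpowers_le.2 (hn ⟨hx, V4.norm_of ha hb a1 b1 ba.symm (xa.symm ▸ ha) (ex ▸ mul_mem ha hb)⟩))
    (qel_mem_quo _ (mem_zpowers x))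
  have k : ⁅Y /ₛ 𝐎(𝐂[a]), zpowers (qel 𝐎(𝐂[a]) b)⁆ ≤ Y /ₛ 𝐎(𝐂[a]) :=
    comm_le_left (zpowers_le.2 (quo_norms _ c (qel_mem_quo _ (V4.le_cent hb))))
  refine f.not_L ho (r.gen (qel_mem_quo _ hx) (f.swp t r sw) ▸ sup_le k
    ((cj_mono _ k).trans (cj_eq_of_mem_normalizer xn).le))

variable {t s : G} {Z : Subgroup (Quo 𝐎(𝐂[t]))} {F : Type} [Field F] [Fintype F] {e : QT F (𝐂[t] /ₛ 𝐎(𝐂[t])) Z}
  {d τ σ n m} (T : e.Tor (qel _ s) d τ σ n m) (t2 : Inv2 t) (s2 : Inv2 s) (ts : t ≠ s) (hs : s ∈ 𝐂[t])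
include T t2 s2 ts hs

theorem QDT.ll0A (H : n + 1 = Fintype.card F → ¬ r ∣ Fintype.card F) : LL0 G r := fun a b a2 b2 ab Y hY ho hn R hR Rr => by
  by_cases c : b = a
  · subst c
    exact hR.trans ((commutator_eq_bot_iff_le_centralizer.2 (hY.trans (cent_zpowers b).ge)).le.trans bot_le)
  obtain ⟨Z', F', _, _, e', -, d', τ', σ', n', m', T'⟩ := h.tors b2 a2 c ab
  obtain ⟨k1, k2⟩ := h.tor_uniq t2 s2 ts hs b2 a2 c ab T T'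
  rcases T'.ll0' (piCoreOf_normalIn _ _) (odd_core _) ab a2.sq hY ho hn with k | ⟨k, ρ⟩
  · exact hR.trans k
  have RH : R ≤ 𝐂[b] := hR.trans ((comm_le_left (zpowers_le.2 (hn ⟨ab, self_mem_cent1 a⟩))).trans hY)
  refine (quo_eq_bot_iff (nU RH)).1 (by_contra fun e1 => H (by omega) ?_)
  rw [k1, ← ρ.card]
  exact ((Rr.quo _).dvd_card_of_ne_bot e1).trans (card_dvd_of_le (quo_mono _ hR))

theorem QDT.rzmA (H : r = 3 → Fintype.card F ≠ 5) : RZM G r :=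
  h.rzm fun h3 a b Z' F' _ _ e' d' τ' σ' n' m' a2 et _ h5 _ => by
    obtain ⟨c, ⟨-, hc⟩, c2, ca⟩ := h.exists_four (mem_top a) a2
    obtain ⟨d'', τ'', σ'', n'', m'', T''⟩ := e'.tor' et a2 hc c2 ca
    exact H h3 ((h.tor_uniq t2 s2 ts hs a2 c2 ca.symm hc T T'').1.trans h5)

omit T t2 s2 ts hs in
theorem QDT.sdA (hw : ¬ WSyl (⊤ : Subgroup G)) (t2 : Inv2 t) :
    ∃ (S : Subgroup G) (w : SW S t), SylowIn 2 S 𝐂[t] ∧ QD S ∧ w.z = t := by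
  obtain ⟨S, h1, h2, h3, ⟨w⟩⟩ := h.sw0 (mem_top t) t2
  rw [top_inf_eq] at h2
  exact ⟨S, w, h2, h3, (w.sd (h3.resolve_right fun k => hw ⟨S, h1, k⟩)).2⟩

end CA.ABG
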