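/-
The order formula of Brauer and Wielandt for a four-group acting on a group of odd order.
-/
import Cfsg.Agent.Lib.GW.Basic
import Cfsg.Agent.Lib.BG.S03a

set_option autoImplicit false

namespace CA.ABG

open Cfsg CA CA.FStar CA.GW CA.BG Subgroup

variable {G : Type*} [Group G] [Finite G] {V M A : Subgroup G} {a b : G}

theorem ssum_finset (s : Finset G) (h : ∀ x, x ∈ A ↔ x ∈ s) (f : G → ℂ) : ssum A f = ∑ x ∈ s, f x := by
  haveI := Fintype.ofFinite A
  rw [ssum_def, Finset.sum_subtype s (fun x => (h x).symm) f]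

theorem avg_inv (a2 : Inv2 a) (f : G → ℂ) : 2 * avg (zpowers a) f = f 1 + f a := by
  classical
  have := card_mul_avg (zpowers a) f
  rw [a2.card, ssum_finset {1, a} (fun x => by simp [mem_zpowers_sq a2.sq]), Finset.sum_pair a2.ne.symm] at this
  exact_mod_cast this

theorem wielandt_four (hV : Four V) (ha : a ∈ V) (hb : b ∈ V) (a1 : a ≠ 1) (b1 : b ≠ 1) (hab : a ≠ b) (hn : V ≤ 𝐍(M))
    (ho : Odd (Nat.card M)) : Nat.card M * Nat.card ↥(M ⊓ 𝐂(V)) ^ 2 =
      Nat.card ↥(M ⊓ 𝐂[a]) * Nat.card ↥(M ⊓ 𝐂[b]) * Nat.card ↥(M ⊓ 𝐂[a * b]) := by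
  classical
  have a2 := hV.inv2 ha a1
  have b2 := hV.inv2 hb b1
  have c2 := a2.mul b2 hab (hV.comm ha hb)
  refine Nat.eq_of_factorization_eq (mul_ne_zero (CA.card_ne_zero' _) (pow_ne_zero _ (CA.card_ne_zero' _)))
    (mul_ne_zero (mul_ne_zero (CA.card_ne_zero' _) (CA.card_ne_zero' _)) (CA.card_ne_zero' _)) fun p => ?_
  by_cases hp : p.Prime
  · obtain ⟨f, hf⟩ := exists_fixChar hp (solv_odd ho) hn (by
      rw [hV.card]; exact (Nat.coprime_two_right.2 ho).pow_right 2)
    have h4 := card_mul_avg V f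
    rw [hV.card, ssum_finset {1, a, b, a * b} (fun x => by simp [hV.mem ha hb a1 b1 hab x]),
      Finset.sum_insert (by simp [a1.symm, b1.symm, c2.ne.symm]),
      Finset.sum_insert (by simp [hab, b1]), Finset.sum_pair (by simp [a1]), hf.2 V le_rfl] at h4
    have h1 := avg_inv a2 f
    have h2 := avg_inv b2 f
    have h3 := avg_inv c2 f
    rw [hf.2 _ (zpowers_le.2 ha), cent_zpowers] at h1
    rw [hf.2 _ (zpowers_le.2 hb), cent_zpowers] at h2
    rw [hf.2 _ (zpowers_le.2 (mul_mem ha hb)), cent_zpowers] at h3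
    rw [Nat.factorization_mul (CA.card_ne_zero' _) (pow_ne_zero _ (CA.card_ne_zero' _)), Nat.factorization_pow,
      Nat.factorization_mul (mul_ne_zero (CA.card_ne_zero' _) (CA.card_ne_zero' _)) (CA.card_ne_zero' _),
      Nat.factorization_mul (CA.card_ne_zero' _) (CA.card_ne_zero' _)]
    simp only [Finsupp.add_apply, Finsupp.smul_apply, smul_eq_mul]
    have h0 := hf.one
    have : (((Nat.card M).factorization p + 2 * (Nat.card ↥(M ⊓ 𝐂(V))).factorization p : ℕ) : ℂ) =
        (((Nat.card ↥(M ⊓ 𝐂[a])).factorization p + (Nat.card ↥(M ⊓ 𝐂[b])).factorization p +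
          (Nat.card ↥(M ⊓ 𝐂[a * b])).factorization p : ℕ) : ℂ) := by
      push_cast at h4 ⊢
      linear_combination (1 / 2 : ℂ) * (h4 - h1 - h2 - h3) - h0
    exact_mod_cast this
  · simp [Nat.factorization_eq_zero_of_not_prime _ hp]

end CA.ABG
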