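/-
Alperin–Brauer–Gorenstein theorem, wreathed case, `k` a power of the characteristic: local lemmas (steps P1, P2, P5, P6).
-/
import Cfsg.Agent.Lib.ABG.LL0
import Cfsg.Agent.Lib.ABG.Top
import Cfsg.Agent.Lib.ABG.Wie

set_option autoImplicit false
set_option linter.unusedSectionVars false

namespace CA.ABG

open Cfsg CA CA.FStar CA.GW Subgroup
open scoped MatrixGroups

section
variable {G : Type*} [Group G] [Finite G] {X Z Y Q : Subgroup G} {F : Type} [Field F] [Fintype F] {h : QT F X Z}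
  {s d x w : G} {τ σ : SL(2, F)} {n m p : ℕ}

theorem QT.p_ne (h : QT F X Z) (hp : p.Prime) [CharP F p] : p ≠ 2 ∧ p ∣ Fintype.card F := by
  haveI := Fact.mk hp
  obtain ⟨k, -, e⟩ := FiniteField.card F p
  have : p ∣ Fintype.card F := e ▸ dvd_pow_self p k.ne_zero
  exact ⟨fun e => (Nat.not_even_iff_odd.2 h.odd) (even_iff_two_dvd.2 (e ▸ this)), this⟩

theorem QT.Tor.cop (t : h.Tor s d τ σ n m) (hn : n + 1 = Fintype.card F) (hp : p.Prime) [CharP F p] :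
    PiGrp {p}ᶜ (zpowers (h.ι τ)) := by
  rw [piGrp_zpowers, PiElt, t.ord', piNum_compl_singleton hp]
  exact fun e => hp.one_lt.ne' (Nat.dvd_one.1 ((Nat.dvd_add_right e).1 (hn ▸ (h.p_ne hp).2)))

/-- F5: `O_p(C(s)) = 1` in the split case -/
theorem QT.Tor.f5 (t : h.Tor s d τ σ n m) (hn : n + 1 = Fintype.card F) (hp : p.Prime) [CharP F p]
    (hY : Y ⊴ X ⊓ 𝐂[s]) (Yp : PiGrp {p} Y) : Y = ⊥ := by
  have T := t.cop hn hp
  have hT : zpowers (h.ι τ) ⊴ X ⊓ 𝐂[s] := ⟨t.cent.ge.trans (inf_le_inf_right _ h.LX), fun _ hx => t.norm hx le_rfl⟩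
  have c := hY.cents_of_coprime hT (Yp.coprime T)
  refine eq_bot_iff.2 fun x hx => ?_
  have p2 := (h.p_ne hp).1
  exact (Yp.inf_eq_bot T).le ⟨hx, t.odd_mem ⟨t.al hp p2 (hY.le hx) (Yp.piElt hx) fun a ha _ _ => (c hx a ha).symm,
    (hY.le hx).2⟩ ((Yp.piElt hx).odd (by simpa using p2.symm))⟩

/-- an element conjugating `s` to `s t` does not normalize a root group that is normalized by `C(s)` -/
theorem QT.Tor.swap' (t : h.Tor s d τ σ n m) (r : h.Root s Q) (hn : X ⊓ 𝐂[s] ≤ 𝐍(Q)) (hw : w ∈ X)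
    (e : w * s * w⁻¹ = s * h.t) : w ∉ 𝐍(Q) := fun k => r.swap t.sX t.swap (by
  have : w⁻¹ * h.ι σ ∈ X ⊓ 𝐂[s] := ⟨X.mul_mem (X.inv_mem hw) (h.mem σ), mem_cent1_iff.2 (by
    calc w⁻¹ * h.ι σ * s = w⁻¹ * (h.ι σ * s * (h.ι σ)⁻¹) * h.ι σ := by group
      _ = _ := by rw [t.swap, ← e]; group)⟩
  simpa using mul_mem k (hn this))

theorem QT.Tor.over (t : h.Tor s d τ σ n m) (r : h.Root s Q) (hn : X ⊓ 𝐂[s] ≤ Y) (hQ : X ⊓ 𝐂[s] ≤ 𝐍(Q)) (hw : w ∈ Y)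
    (e : w * s * w⁻¹ = s * h.t) (h1 : Q ≤ Y) (hY : Y ≤ X) : Y = X :=
  le_antisymm hY ((h.fratt t.gen t.sX t.s2 t.sZ).le.trans (sup_le
    ((r.le_or h1 hY).resolve_right fun k => t.swap' r hQ (hY hw) e (k hw)) hn))

end

section
variable {G : Type*} [Group G] [Finite G] {H O X Y : Subgroup G} {F : Type} [Field F] [Fintype F]
  {Z : Subgroup (Quo O)} {h : QT F (H /ₛ O) Z} {d : Quo O} {s a w : G} {τ σ : SL(2, F)} {n m p : ℕ}

theorem quo_cent1 (hO : O ⊴ H) (oo : Odd (Nat.card O)) (hs : s ∈ H) (s2 : s * s = 1) :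
    (H ⊓ 𝐂[s]) /ₛ O = (H /ₛ O) ⊓ 𝐂[qel O s] :=
  quo_inf_cent1_of_le hO.le (hO.norm hs) (by simpa using (copAct_inv s2 oo (hO.norm hs)).cop)

theorem QT.Tor.f5' (t : h.Tor (qel O s) d τ σ n m) (hO : O ⊴ H) (oo : Odd (Nat.card O)) (hs : s ∈ H) (s2 : s * s = 1)
    (hn : n + 1 = Fintype.card F) (hp : p.Prime) [CharP F p] (hY : Y ⊴ H ⊓ 𝐂[s]) (Yp : PiGrp {p} Y) : Y ≤ O :=
  (quo_eq_bot_iff ((hY.le.trans inf_le_left).trans hO.norm)).1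
    (t.f5 hn hp (quo_cent1 hO oo hs s2 ▸ hY.quo O) (Yp.quo O))

/-- an odd subgroup `Y` normalized by `C_H(s)`, with `[Y, s] ≰ O`, covers a root group -/
theorem QT.Tor.py (t : h.Tor (qel O s) d τ σ n m) (hO : O ⊴ H) (oo : Odd (Nat.card O)) (hs : s ∈ H) (s2 : s * s = 1)
    (ha : a ∈ H) (ea : h.t = qel O a) (hw : w ∈ H) (e : w * s * w⁻¹ = s * a) (hY : Y ≤ H) (ho : Odd (Nat.card Y))
    (hn : H ⊓ 𝐂[s] ≤ 𝐍(Y)) (h1 : ¬ ⁅Y, zpowers s⁆ ≤ O) :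
    w ∉ 𝐍(⁅Y, zpowers s⁆) ∧ ∀ X, H ⊓ 𝐂[s] ≤ X → w ∈ X → Y ≤ X → O ⊔ (X ⊓ H) = H := by
  obtain ⟨-, r⟩ := (t.ll0' hO oo hs s2 hY ho hn).resolve_left h1
  have n1 : H ⊓ 𝐂[s] ≤ 𝐍(⁅Y, zpowers s⁆) := norms_commutator hn (inf_le_right.trans (by
    rw [← cent_zpowers]; exact centralizer_le_normalizer _))
  have n2 := quo_norms O n1
  rw [quo_cent1 hO oo hs s2] at n2
  have e' : qel O w * qel O s * (qel O w)⁻¹ = qel O s * h.t := by
    rw [ea, ← pel_conj _ (hO.norm hw) (hO.norm hs), e, pel_mul _ (hO.norm hs) (hO.norm ha)]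
  refine ⟨fun k => t.swap' r n2 (qel_mem_quo O hw) e' (quo_norms O (zpowers_le.2 k) (qel_mem_quo O (mem_zpowers w))),
    fun X h1 h2 h3 => ?_⟩
  have := t.over r (Y := (X ⊓ H) /ₛ O) (quo_cent1 hO oo hs s2 ▸ quo_mono O (le_inf h1 inf_le_left)) n2
    (qel_mem_quo O ⟨h2, hw⟩) e' (quo_mono O ((comm_le_left (zpowers_le.2 (hn ⟨hs, self_mem_cent1 s⟩))).trans (le_inf h3 hY)))
    (quo_mono O inf_le_right)
  rw [sup_eq_of_quo_eq (inf_le_right.trans hO.norm) hO.norm this, sup_eq_right.2 hO.le]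

/-- the characteristic divides `|H : O|` -/
theorem QT.dvd_relIndex (h : QT F (H /ₛ O) Z) (hO : O ⊴ H) (hp : p.Prime) [CharP F p] : p ∣ O.relIndex H := by
  rw [← card_quo hO.norm]
  exact (((h.p_ne hp).2.mul_right _).trans h.card_L.symm.dvd).trans (card_dvd_of_le h.LX)

end

section
variable {G : Type*} [Group G] [Finite G] {V A E U Y R : Subgroup G} {a b : G} {p r : ℕ}

/-- if `r ∤ |U : C_U(b)|` then `b` centralizes every `b`-invariant `r`-subgroup of `U` -/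
theorem cent_of_not_dvd (b2 : b * b = 1) (hU : Odd (Nat.card U)) (hb : b ∈ 𝐍(U)) (hr : r.Prime)
    (h : ¬ r ∣ (𝐂[b]).relIndex U) (hY : Y ≤ U) (Yr : PiGrp {r} Y) (hn : b ∈ 𝐍(Y)) : Y ≤ 𝐂[b] := by
  have cp := copAct_inv b2 hU hb
  obtain ⟨P, hP, nP, le⟩ := cp.exists_sylowIn_ge hY Yr (zpowers_le.2 hn)
  have h1 := cp.sylowIn_inf_cent hP nP
  rw [cent_zpowers] at h1
  have h2 := h1.of_not_dvd_relIndex inf_le_left hr (by rwa [inf_relIndex_left])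
  exact le.trans ((h2.eq_of_le inf_le_left hP.le hP.piGrp).le.trans inf_le_right)

/-- P1 -/
theorem p1_of (hV : Four V) (hA : PiGrp {2} A) (VA : V ≤ A) (AV : A ≤ 𝐂(V))
    (LA : ∀ a ∈ V, ∀ b ∈ V, a ≠ 1 → b ≠ 1 → a ≠ b → ∀ (r : ℕ) (Y : Subgroup G), r.Prime → r ≠ 2 → r ≠ p → PiGrp {r} Y →
      Y ≤ 𝐂[a] → A ≤ 𝐍(Y) → ⁅Y, zpowers b⁆ ≤ 𝐎(𝐂[a]))
    (hk : ∀ a ∈ V, ∀ b ∈ V, a ≠ 1 → b ≠ 1 → a ≠ b → PiNum {p} ((𝐂[b]).relIndex 𝐎(𝐂[a])))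
    (hE : Odd (Nat.card E)) (hn : A ≤ 𝐍(E)) : ⁅E, V⁆ ≤ piCoreOf {p} E := by
  have cp : CopAct E A := copAct_of_pi' hn (odd_iff.1 hE) hA (.inl (solv_odd hE))
  obtain ⟨K, hK, nK⟩ := cp.exists_hall (solv_odd hE) {p}ᶜ
  refine (cp.right VA).comm_le_piCoreOf (solv_odd hE) hK ((cp.left hK.le nK).le_of_forall_sylowIn fun r R hr hd hR nR => ?_)
  have oR : Odd (Nat.card R) := odd_card_of_le hE (hR.le.trans hK.le)
  have r2 : r ≠ 2 := fun e => (odd_iff.1 hE) r hr (hd.trans (card_dvd_of_le hK.le)) e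
  have rp : r ≠ p := hK.piGrp r hr hd
  refine hV.gen (VA.trans nR) oR fun a ha a1 => cents_symm fun b hb => ?_
  rw [mem_cent_iff_le_cent1]
  by_cases b1 : b = 1
  · simp [b1]
  by_cases ab : a = b
  · exact ab ▸ inf_le_right
  have b2 := hV.inv2 hb b1
  have nY : A ≤ 𝐍(R ⊓ 𝐂[a]) := norms_inf nR (norms_cent1 (AV.trans (cent_le_cent1 ha)))
  have cY := copAct_inv b2.sq (odd_card_of_le oR inf_le_left) (nY (VA hb))
  have := cent_of_not_dvd b2.sq (odd_core _) (piCoreOf_norm _ _ (hV.le_cent1 ha hb)) hr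
    (fun e => rp (hk a ha b hb a1 b1 ab r hr e)) (LA a ha b hb a1 b1 ab r _ hr r2 rp (hR.piGrp.inf_left _) inf_le_right nY)
    ((hR.piGrp.inf_left _).of_le cY.comm_le) (cY.comm.norm (mem_zpowers b))
  rw [← cent_zpowers b] at this ⊢
  exact cents_symm (cY.cents_of_comm_cents this)

end

end CA.ABG
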