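/-
Alperin–Brauer–Gorenstein theorem, wreathed case: the input from character theory.
-/
import Cfsg.Agent.Lib.ABG.P2W
import Cfsg.Agent.Lib.ABG.PPa
import Cfsg.Agent.Lib.ABG.MinW
import Cfsg.Agent.Lib.ABG.WZJ

set_option autoImplicit false
set_option linter.unusedSectionVars false

namespace CA.ABG

open Cfsg Subgroup CA CA.FStar CA.GW

variable {G : Type*} [Group G] [Finite G] {V : Subgroup G} {t s a b : G}

theorem QDT.k_eq (h : QDT (⊤ : Subgroup G)) (t2 : Inv2 t) (s2 : Inv2 s) (ts : t ≠ s) (hs : s ∈ 𝐂[t]) (a2 : Inv2 a)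
    (b2 : Inv2 b) (ab : a ≠ b) (hb : b ∈ 𝐂[a]) : (𝐂[b]).relIndex 𝐎(𝐂[a]) = (𝐂[s]).relIndex 𝐎(𝐂[t]) := by
  obtain ⟨g, -, rfl, rfl⟩ := h.conj_pair (mem_top t) (mem_top s) (mem_top a) (mem_top b) t2 s2 a2 b2
    (mem_cent1_iff.1 hs).symm (mem_cent1_iff.1 hb).symm ts ab
  rw [← cj_centralizer_singleton, ← cj_centralizer_singleton, ← cj_piCoreOf, relIndex_cj]

theorem QDT.index_eq (h : QDT (⊤ : Subgroup G)) (t2 : Inv2 t) (a2 : Inv2 a) : (𝐂[a]).index = (𝐂[t]).index := by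
  obtain ⟨g, -, rfl⟩ := h.one t (mem_top _) a (mem_top _) t2 a2
  rw [← cj_centralizer_singleton, ← relIndex_top_right, ← relIndex_top_right, ← relIndex_cj g 𝐂[t] ⊤, cj_top]

variable (hw : WSyl (⊤ : Subgroup G)) (h : QDT (⊤ : Subgroup G))
include hw h

theorem WSyl.sw (t2 : Inv2 t) :
    ∃ (S : Subgroup G) (w : SW S t), SylowIn 2 S 𝐂[t] ∧ QD S ∧ t ∈ zpowers (w.z * w.z) := by
  obtain ⟨S, h1, h2, hq, ⟨w⟩⟩ := h.sw0 (mem_top t) t2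
  obtain ⟨T, hT, wr⟩ := hw
  obtain ⟨g, -, e⟩ := hT.exists_cj h1
  exact ⟨S, w, by rwa [top_inf_eq] at h2, hq, w.wr_cj wr e⟩

theorem WSyl.a1 (t2 : Inv2 t) {M : Subgroup G} (hM : 𝐂[t] ≤ M) (hq : QDT M) : M = ⊤ :=
  let ⟨_, w, h1, h2, h3⟩ := hw.sw h t2
  a1_W h w h1 h2 h3 hM hq

theorem WSyl.kill (a2 : Inv2 a) (b2 : Inv2 b) (ab : a ≠ b) (hb : b ∈ 𝐂[a]) :
    (𝐂[b]).relIndex 𝐎(𝐂[a]) ∣ (𝐂[a]).index :=
  let ⟨_, w, h1, h2, h3⟩ := hw.sw h a2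
  (dvd_pow_self _ two_ne_zero).trans (kill_W h w h1 h2 h3 hb b2 ab.symm)

section
variable {Z : Subgroup (Quo 𝐎(𝐂[t]))} {F : Type} [Field F] [Fintype F] (e : QE F (𝐂[t] /ₛ 𝐎(𝐂[t])) Z)
  (et : e.t = qel _ t) (t2 : Inv2 t)
include e et t2

theorem WSyl.four_dvd : 4 ∣ Nat.card Z :=
  let ⟨_, w, h1, h2, h3⟩ := hw.sw h t2
  e.four_dvd h1 h2 w h3

theorem WSyl.idx (hs : s ∈ 𝐂[t]) (s2 : Inv2 s) (st : s ≠ t) {u d τ σ n m} (tor : e.Tor u d τ σ n m)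
    (hn : n + 1 = Fintype.card F) (a2 : Inv2 a) : (𝐂[a]).index = (𝐂[s]).relIndex 𝐎(𝐂[t]) ^ 2 * Fintype.card F ^ 2 *
      (Fintype.card F ^ 2 + Fintype.card F + 1) :=
  let ⟨_, w, h1, h2, h3⟩ := hw.sw h t2
  (h.index_eq t2 a2).trans (e.index_W' h w h1 h2 h3 et hs s2 st tor hn)

theorem WSyl.nf [IsSimpleGroup G] (hV : Four V) (tV : t ∈ V) (sV : s ∈ V) (s1 : s ≠ 1) (st : s ≠ t) {d τ σ n m}
    (tor : e.Tor (qel _ s) d τ σ n m) (hn : n + 1 = Fintype.card F) {p : ℕ} (hp : p.Prime) [CharP F p]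
    (H : ∀ a ∈ V, a ≠ 1 → ⁅𝐎(𝐂[a]), V⁆ ≤ piCoreOf {p} 𝐂[a]) :
    ∀ a ∈ V, a ≠ 1 → ∀ x ∈ 𝐎(𝐂(V)), PiElt {p} x → x ∈ 𝐎(𝐂[a]) := by
  obtain ⟨S, w, h1, h2, h3⟩ := hw.sw h t2
  have s2 := hV.inv2 sV s1
  have hs := hV.le_cent1 tV sV
  have hP := e.no_field_W h w h1 h2 h3 et hs s2 st (piCoreOf_normalIn {p} _)
    ((commutator_mono le_rfl (zpowers_le.2 tV)).trans (H s sV s1))
    (tor.f5' (piCoreOf_normalIn _ _) (odd_core _) hs s2.sq hn hp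
      ⟨le_inf inf_le_right (inf_le_left.trans (piCoreOf_le _ _)),
        norms_inf (inf_le_right.trans (piCoreOf_norm _ _)) (inf_le_left.trans le_normalizer)⟩
      ((piCoreOf_piGrp _ _).inf_left _))
  have c := four_cent hV tV sV t2.ne s1 st.symm
  have key : ∀ x ∈ 𝐎(𝐂(V)), PiElt {p} x → x ∈ 𝐎(𝐂[t]) := fun x hx xp => by
    have h4 := c.le (piCoreOf_le _ _ hx)
    have h5 := (quo_cent2 hs s2).le (qel_mem_quo _ h4)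
    exact (qel_eq_one_iff (piCoreOf_norm _ _ h4.1)).1 ((xp.qel _).eq_one ((tor.cop hn hp).piElt (tor.odd_mem ⟨hP h5.1, h5.2⟩
      (odd_elt_iff.2 ((odd_elt_iff.1 (odd_of_mem (odd_core _) hx)).qel _)))))
  intro a ha a1 x hx xp
  obtain ⟨g, hg, rfl⟩ := h.rot hV le_top ha tV a1 t2.ne
  have := key _ (conj_mem_of_mem_normalizer (norms_piCoreOf _ (norms_cent le_rfl) hg.2) hx) (piElt_conj.2 xp)
  rwa [← cj_centralizer_singleton, ← cj_piCoreOf, conj_mem_cj] at this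

end

omit h in
theorem identW [IsSimpleGroup G] (hb : Bal G) : Ident G := by
  have h := qdt_top hw.qsyl
  obtain ⟨S, t, -, -, ⟨w⟩⟩ := hw.qsyl.ex
  obtain ⟨_, w, h1, h2, h3⟩ := hw.sw h w.t2
  exact ident_W h w h1 h2 h3 hb

end CA.ABG
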