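/-
Alperin-Brauer-Gorenstein, wreathed case: a subgroup of type `QDT` which covers `C(t)/O(C(t))` has no odd core.
-/
import Cfsg.Agent.Lib.ABG.ZZ1
import Cfsg.Agent.Lib.ABG.PW
import Cfsg.Agent.Lib.ABG.MkPS

set_option autoImplicit false
set_option linter.unusedSectionVars false

namespace CA.ABG

open Cfsg Subgroup CA CA.FStar CA.GW CA.Ch

namespace PB
variable {G E : Type*} [Group G] [Group E] [Finite G] [Finite E] (B : PB G E) {X : Subgroup G} {o x y : G}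

theorem f_cj (ho : o ∈ B.O) (hx : x ∈ B.H1) : pel B.f (o * x * o⁻¹) = pel B.f x := by
  rw [pel_conj _ (B.O_le ho) hx, B.f_O ho, one_mul, inv_one, mul_one]

/-- move the four-group by an element of `O` -/
def move (ho : o ∈ B.O) : PB G E :=
  { B with
    s := o * B.s * o⁻¹
    V := cj o B.V
    four := B.four.cj o
    τV := mem_cj'.2 ⟨_, B.τV, by rw [mem_cent1_iff.1 (B.H1_le (B.O_le ho)), mul_inv_cancel_right]⟩
    sV := mem_cj'.2 ⟨_, B.sV, rfl⟩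
    fs := by rw [B.f_cj ho (B.V_le B.sV), B.fs]
    tc := fun c hc x hx x2 => by
      rw [← cj_centralizer] at hc hx
      obtain ⟨c, hc', rfl⟩ := mem_cj'.1 hc
      obtain ⟨x, hx', rfl⟩ := mem_cj'.1 hx
      have x2' := piElt_conj.1 x2
      rw [show o * c * o⁻¹ * (o * x * o⁻¹) * (o * c * o⁻¹)⁻¹ = o * (c * x * c⁻¹) * o⁻¹ by group,
        B.f_cj ho (B.C_two (mul_mem (mul_mem hc' hx') (inv_mem hc')) (piElt_conj.2 x2')), B.f_cj ho (B.C_two hx' x2'),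
        B.tc c hc' x hx' x2'] }

theorem conjX (hx : x ∈ B.H1) (hy : y ∈ B.H1) (xX : x ∈ X) (yX : y ∈ X) (x2 : PiElt {2} x) (y2 : PiElt {2} y)
    (e : pel B.f x = pel B.f y) : ∃ o ∈ B.O ⊓ X, o * x * o⁻¹ = y :=
  conj2 (B.O_odd.of_dvd_nat (card_dvd_of_le inf_le_left))
    (norms_inf (zpowers_le.2 (B.O_norm (B.H1_le hx))) (zpowers_le.2 (le_normalizer xX))
      (mem_zpowers x)) x2 y2 (mem_inf.2 ⟨B.mem_O hx hy e, mul_mem xX (inv_mem yX)⟩)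

/-- the setting for `G`, with the fusion inside `X` -/
theorem exists_cov (h : QDT X) (hV : B.V ≤ X) (cov : 𝐂[B.τ] ≤ (X ⊓ 𝐂[B.τ]) ⊔ B.O) (one : ∀ i, Inv2 i → IsConj B.τ i) :
    ∃ P : PS G E, P.S.toHA = B.S ∧ P.Cov X := by
  obtain ⟨ρ, hρ, h1, h2, -⟩ := h.rot3 B.four hV B.τV B.sV B.τ1 B.s1 B.τs
  obtain ⟨R, e, r⟩ := B.exists_ra hρ.2 h1 h2
  have m : ∀ a, a ∈ R.H := fun a => by rw [e, B.top]; exact mem_top a
  have fus : ∀ M : Subgroup G, X ≤ M → ∀ (x y : B.H1) (a : R.T), (x : G) ∈ M → (y : G) ∈ M → PiElt {2} x →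
      PiElt {2} y → B.f x = a → B.f y = R.r a → ∃ g ∈ M, g * x * g⁻¹ = y := fun M hM x y a xM yM x2 y2 e1 e2 => by
    have ha : (a : E) ∈ B.S.T := e ▸ a.2
    have sH := B.V_le B.sV
    have sM := hM (hV B.sV)
    obtain ⟨o, ho, e3⟩ := B.conjX (mul_mem (mul_mem x.2 sH) (inv_mem x.2)) sH (mul_mem (mul_mem xM sM) (inv_mem xM)) sM
      (piElt_conj.2 B.s2.piElt) B.s2.piElt (by
        rw [pel_conj _ x.2 sH, B.fs, pel_coe, e1, (B.S.mem_T.1 ha).2, mul_inv_cancel_right])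
    have h3 : o * x ∈ B.H1 := mul_mem (B.O_le ho.1) x.2
    have h4 : o * x ∈ 𝐂(B.V) := B.mem_C (B.H1_le h3) (mul_inv_eq_iff_eq_mul.1 (by
      rw [show o * x * B.s * (o * x)⁻¹ = o * (x * B.s * (x : G)⁻¹) * o⁻¹ by group, e3]))
    have z1 := constt_mem {2} h4
    have z2 := constt_piElt {2} (o * x)
    have zM := constt_mem {2} (mul_mem ho.2 xM)
    have e4 : pel B.f (constt {2} (o * x)) = a := by
      rw [pel_constt _ _ h3, pel_mul _ (B.O_le ho.1) x.2, B.f_O ho.1, one_mul, pel_coe, e1,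
        constt_eq_self (e1 ▸ x2.map B.f)]
    generalize constt {2} (o * x) = z at z1 z2 zM e4
    obtain ⟨o1, ho1, e5⟩ := B.conjX x.2 (B.C_two z1 z2) xM zM (piElt_coe.2 x2) z2 (by rw [pel_coe, e1, e4])
    obtain ⟨o2, ho2, e6⟩ := B.conjX (B.C_two (B.cj_C hρ.2 z1) (piElt_conj.2 z2)) y.2
      (mul_mem (mul_mem (hM hρ.1) zM) (inv_mem (hM hρ.1))) yM (piElt_conj.2 z2) (piElt_coe.2 y2)
      (by rw [pel_coe, e2, r z z1 z2 a e4])
    exact ⟨o2 * ρ * o1, mul_mem (mul_mem ho2.2 (hM hρ.1)) ho1.2, by rw [← e6, ← e5]; group⟩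
  have tX := hV B.τV
  refine ⟨⟨R, B.τ, B.H1, B.O, B.f.codRestrict _ fun _ => m _, fun a => ?_, fun x => ?_, B.O_le, B.O_odd,
    fun h hh x hx => conj_mem_of_mem_normalizer (B.O_norm hh) hx, B.H1_le, B.comm, B.idx, B.cover, B.V_le B.τV, ?_,
    B.τ2.sq, fun i a b => one i ⟨a, b⟩, fun x y a x2 y2 e1 e2 => ?_⟩, e, tX, fun g hg => ?_, fun g hg => ?_,
    fun i hi a b => h.one _ tX i hi B.τ2 ⟨a, b⟩, fus X le_rfl⟩
  · obtain ⟨x, hx⟩ := B.surj a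
    exact ⟨x, Subtype.ext hx⟩
  · rw [← B.ker, mem_pker, pel_coe, Subtype.ext_iff]
    exact ⟨fun e => ⟨x.2, e⟩, fun e => e.2⟩
  · show B.f _ = R.toHA.t
    rw [e, ← B.fτ, pel_of_mem _ (B.V_le B.τV)]
  · obtain ⟨g, -, e⟩ := fus ⊤ le_top x y a trivial trivial x2 y2 e1 e2
    exact isConj_iff.2 ⟨g, e⟩
  · have := cov hg
    rw [sup_comm] at this
    obtain ⟨a, ha, b, hb, rfl⟩ := (mem_sup_of_norm_right (inf_le_right.trans B.O_norm)).1 this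
    exact ⟨b, hb.1, hb.2, by rw [mul_inv_cancel_right]; exact ha⟩
  · obtain ⟨T, -, hT, -, ⟨w⟩⟩ := h.sw0 tX B.τ2
    have n : 𝐂[B.τ] ≤ 𝐍(B.H1) := fun a ha => mem_normalizer_of_cj_le (by
      rintro _ ⟨b, hb, rfl⟩
      simpa using mul_mem (B.comm a ha b (B.H1_le hb)) hb)
    obtain ⟨c, hc, h1, h2⟩ := w.cover hT inf_le_right (N := X ⊓ B.H1)
      ⟨inf_le_inf_left _ B.H1_le, norms_inf (inf_le_left.trans le_normalizer) (inf_le_right.trans n)⟩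
      (fun x hx x2 => ⟨hx.1, B.two x hx.2 x2⟩) hg
    exact ⟨c, hc, h1.2, Nat.not_even_iff_odd.1 fun e => hT.not_dvd Nat.prime_two (e.two_dvd.trans
      (relIndex_dvd_of_le_left _ (mem_cent_iff_le_cent1.1 h2)))⟩

theorem exists_move (tX : B.τ ∈ X) (cov : 𝐂[B.τ] ≤ (X ⊓ 𝐂[B.τ]) ⊔ B.O) :
    ∃ (o : G) (ho : o ∈ B.O), (B.move ho).V ≤ X := by
  have sH := B.V_le B.sV
  have := cov (B.H1_le sH)
  rw [sup_comm] at this
  obtain ⟨a, ha, b, hb, e⟩ := (mem_sup_of_norm_right (inf_le_right.trans B.O_norm)).1 this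
  have bH : b ∈ B.H1 := (mul_mem_cancel_left (B.O_le ha)).1 (e ▸ sH)
  obtain ⟨s, hs, s2, fs⟩ := lift_inv (f := B.f) (X := X ⊓ B.H1) inf_le_right (by rw [B.ker]; exact odd_iff.1 B.O_odd)
    (u := B.S.u) (by
      rw [← B.fs, ← e, pel_mul _ (B.O_le ha) bH, B.f_O ha, one_mul]; exact pel_mem_pmap _ ⟨hb.1, bH⟩)
    ⟨B.S.uu, B.S.u_ne⟩
  obtain ⟨o, ho, e1⟩ := B.conj sH hs.2 B.s2.piElt s2.piElt (B.fs.trans fs.symm)
  refine ⟨o, ho, ?_⟩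
  exact (B.move ho).four.le_of (B.move ho).τV (B.move ho).sV (B.move ho).τ1 (B.move ho).s1 (B.move ho).τs tX
    (show o * B.s * o⁻¹ ∈ X from e1 ▸ hs.1)

end PB

/-- (ZZ) -/
theorem zz {G : Type*} [Group G] [Finite G] [IsSimpleGroup G] {S X : Subgroup G} {t : G} (hG : QDT (⊤ : Subgroup G))
    (t2 : Inv2 t) (hS : SylowIn 2 S 𝐂[t]) (hq : QD S) (w : SW S t) (wr : t ∈ zpowers (w.z * w.z)) (hX : QDT X)
    (tX : t ∈ X) (cov : 𝐂[t] ≤ (X ⊓ 𝐂[t]) ⊔ 𝐎(𝐂[t])) : 𝐎(X) = ⊥ := by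
  obtain ⟨Z, F, _, _, e, et⟩ := hG.qe' t2 le_top
  obtain ⟨B, e0, e1, -, e3, -, -⟩ := exists_pb e hG t2 le_top et
  have cov' : 𝐂[B.τ] ≤ (X ⊓ 𝐂[B.τ]) ⊔ B.O := by rw [e0, e1]; exact cov
  obtain ⟨o, ho, hV⟩ := B.exists_move (show B.τ ∈ X by rw [e0]; exact tX) cov'
  obtain ⟨P, a1, a2⟩ := (B.move ho).exists_cov hX hV cov' fun i i2 =>
    let ⟨g, _, k⟩ := hG.one _ trivial i trivial B.τ2 i2; isConj_iff.2 ⟨g, k⟩
  refine a2.zz P.par ?_ (piCoreOf_normalIn _ _) (odd_core X)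
  rw [show P.S.Q = B.S.Q from congrArg HA.Q a1]
  exact B.S.Q_one (e3 ▸ e.four_dvd hS hq w wr)

/-- (ZZ), with the case distinction for `X` -/
theorem zz' {G : Type*} [Group G] [Finite G] [IsSimpleGroup G] {X : Subgroup G} {t : G} (hG : QDT (⊤ : Subgroup G))
    (t2 : Inv2 t) (wr : ∀ (S : Subgroup G) (w : SW S t), SylowIn 2 S ⊤ → t ∈ zpowers (w.z * w.z))
    (cov : 𝐂[t] ≤ X ⊓ 𝐂[t] ⊔ 𝐎(𝐂[t])) : X ≤ 𝐎(X) ⊔ X ⊓ 𝐂[t] ∨ 𝐎(X) = ⊥ := by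
  have nO : X ⊓ 𝐂[t] ≤ 𝐍(𝐎(𝐂[t])) := inf_le_right.trans (piCoreOf_norm _ _)
  obtain ⟨S, hS, -⟩ := exists_sylowIn_ge (p := 2) (M := X ⊓ 𝐂[t]) (piGrp_bot _) bot_le
  have h0 : SylowIn 2 S 𝐂[t] := by
    refine hS.of_not_dvd_relIndex inf_le_right Nat.prime_two ?_
    rw [show (X ⊓ 𝐂[t]).relIndex 𝐂[t] = (X ⊓ 𝐂[t]).relIndex 𝐎(𝐂[t]) from by
      rw [← relIndex_sup_of_norm' nO, ← le_antisymm cov (sup_le inf_le_right (piCoreOf_le _ _))]]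
    exact fun e => (core_pi _).relIndex _ 2 Nat.prime_two e rfl
  obtain ⟨h2, hq, ⟨w⟩⟩ := hG.syl_cent trivial t2 (by rwa [top_inf_eq])
  have hX : SylowIn 2 S X := h2.of_le (hS.le.trans inf_le_left) le_top
  have tX := hX.le w.tS
  have wr' := wr S w h2
  rcases w.types hX hq with e | e | ⟨-, N, -, -, ⟨-, e, -⟩ | ⟨-, -, e⟩⟩
  · refine .inl fun g hg => ?_
    have h1 := Blk.zstar_in hX w.tS t2.sq e hg
    obtain ⟨k, hk⟩ := Inv.conj_of_odd t2.sq (t2.conj g).sq (odd_elt_iff.2 ((core_pi X).piElt h1))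
    have h3 := zpow_mem h1 k
    generalize (t * (g * t * g⁻¹)) ^ k = o at *
    exact (mul_mem_cancel_left (mem_sup_left (inv_mem h3))).1 (mem_sup_right (mem_inf.2
      ⟨mul_mem (inv_mem (piCoreOf_le _ _ h3)) hg, mem_cent1_iff.2 (by
        calc o⁻¹ * g * t = o⁻¹ * (g * t * g⁻¹) * g := by group
          _ = _ := by rw [← hk]; group)⟩))
  · exact .inr (zz hG t2 h0 hq w wr' e tX cov)
  · rw [e, t2.sq, zpowers_one_eq_bot, mem_bot] at wr'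
    exact absurd wr' t2.ne
  · obtain ⟨g, hg, k⟩ := w.fuse_y h2 wr' fun s _ s2 => hG.one _ trivial _ trivial t2 s2
    have := cov hg.2
    rw [sup_comm] at this
    obtain ⟨o, ho, x, hx, rfl⟩ := (mem_sup_of_norm_right nO).1 this
    have m : x * w.y * x⁻¹ ∈ X ⊓ 𝐂[t] := mul_mem (mul_mem hx (hS.le w.yS)) (inv_mem hx)
    obtain ⟨u, hu, e1⟩ := conj2 (O := 𝐎(𝐂[t]) ⊓ X) ((odd_core _).of_dvd_nat (card_dvd_of_le inf_le_left))
      (x := x * w.y * x⁻¹) (y := o * x * w.y * (o * x)⁻¹)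
      (norms_inf (zpowers_le.2 (nO m)) (zpowers_le.2 (le_normalizer m.1)) (mem_zpowers _))
      (w.y_inv2.conj x).piElt (w.y_inv2.conj _).piElt (mem_inf.2 ⟨by
        have := mul_mem (conj_mem_of_mem_normalizer (nO m) ho) (inv_mem ho)
        rwa [show x * w.y * x⁻¹ * o * (x * w.y * x⁻¹)⁻¹ * o⁻¹ = x * w.y * x⁻¹ * (o * x * w.y * (o * x)⁻¹)⁻¹ by group]
          at this, mul_mem m.1 (inv_mem (hX.le (w.le k)))⟩)
    exact absurd (by rw [← e1] at k; simpa [mul_assoc] using k) (e (u * x) (mul_mem hu.2 hx.1))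

end CA.ABG
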