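/-
The field `zz` of `WI`.
-/
import Cfsg.Agent.Lib.ABG.ZZ
import Cfsg.Agent.Lib.ABG.WZJ

set_option autoImplicit false

namespace CA.ABG
open Cfsg CA CA.GW Subgroup

universe u

theorem WS.zz {G : Type u} [Group G] [Finite G] [IsSimpleGroup G] {V A : Subgroup G} (h : WS V A) (X : Subgroup G)
    (a : G) (ha : a ∈ V) (a1 : a ≠ 1) (cov : Cov X a) : Iso X a ∨ 𝐎(X) = ⊥ := by
  obtain ⟨S, σ, h3, hw, -⟩ := h.swp a ha a1
  refine zz' h.qdt (h.four.inv2 ha a1) (fun T w hT => ?_) cov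
  obtain ⟨g, -, e⟩ := h3.exists_cj hT
  exact w.wr_cj hw e

end CA.ABG
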