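/-
Alperin–Brauer–Gorenstein theorem, wreathed case: construction of `WS` and `WI`.
-/
import Cfsg.Agent.Lib.ABG.WS
import Cfsg.Agent.Lib.ABG.WBX
import Cfsg.Agent.Lib.ABG.ZZW
import Cfsg.Agent.Lib.ABG.LocW
import Cfsg.Agent.Lib.ABG.WU
import Cfsg.Agent.Lib.ABG.WF

set_option autoImplicit false
set_option linter.unusedSectionVars false

namespace CA.ABG

open Cfsg CA CA.FStar CA.GW CA.Loc Subgroup

universe u

section
variable {G : Type*} [Group G] [Finite G] {S T X V A : Subgroup G} {a b g : G}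

omit [Finite G] in
theorem wreathed_equiv {K K' : Type*} [Group K] [Group K'] (h : IsWreathed K) (e : K ≃* K') : IsWreathed K' := by
  obtain ⟨n, hn, hc, x, x', y, ox, c, hi, oy, h⟩ := h
  refine ⟨n, hn, (Nat.card_congr e.toEquiv).symm.trans hc, e x, e x', e y, (e.orderOf_eq x).trans ox,
    by rw [← map_mul, c, map_mul], ?_, (e.orderOf_eq y).trans oy, by rw [← h, map_mul, map_mul, map_inv]⟩
  have := congrArg (map e.toMonoidHom) hi
  rwa [map_inf _ _ _ e.injective, MonoidHom.map_zpowers, MonoidHom.map_zpowers, Subgroup.map_bot] at this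

theorem WSyl.wr (hw : WSyl X) (hT : SylowIn 2 T X) : IsWreathed T := by
  obtain ⟨S, hS, h⟩ := hw
  obtain ⟨g, -, rfl⟩ := hS.exists_cj hT
  exact wreathed_equiv h (cjEquiv g S)

theorem WSyl.wa (hw : WSyl (⊤ : Subgroup G)) (h : QDT (⊤ : Subgroup G)) (V4 : Four V) (hA : SylowIn 2 A 𝐂(V)) :
    WA ⊤ V A := let ⟨_, hS, hw⟩ := hw; h.wa hS hw V4 hA

theorem WSyl.ws (hw : WSyl (⊤ : Subgroup G)) (h : QDT (⊤ : Subgroup G)) (V4 : Four V) (hA : SylowIn 2 A 𝐂(V)) :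
    WS V A := by
  have w := hw.wa h V4 hA
  refine ⟨V4, hA, abelian_iff.1 w.ab, w.VA, (w.cent h).symm, h, fun a ha b hb a1 b1 => ?_, fun a ha a1 => ?_,
    fun X hX => (w.rot h hX).imp_right fun k a ha b hb a1 b1 => ?_⟩
  · obtain ⟨g, hg, e⟩ := w.rotA h ha hb a1 b1
    exact ⟨g, ⟨hg, w.normV h hg⟩, e⟩
  · obtain ⟨S, u, h1, -, -, e, -⟩ := w.sw h ha a1
    exact ⟨S, u.y, h1, hw.wr h1, e ▸ u.le, u.S_le, e ▸ u.norm, (e ▸ u.norm : S ≤ 𝐍(A)).trans (w.normV h), u.yS,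
      u.S_le u.yS, fun b hb b1 ba => u.in_inv (e ▸ w.VA hb) (V4.inv2 hb b1) ba⟩
  · obtain ⟨g, hg, e⟩ := k a ha b hb a1 b1
    exact ⟨g, ⟨hg.1, w.normV h hg.2⟩, e⟩

/-- TY -/
theorem WS.ty (h : WS V A) (ha : a ∈ V) (a1 : a ≠ 1) (cov : Cov X a) : Iso X a ∨ QDT X := by
  have a2 := h.four.inv2 ha a1
  obtain ⟨S, hS⟩ := exists_sylowIn 2 (X ⊓ 𝐂[a])
  have hO := piCoreOf_normalIn {2}ᶜ 𝐂[a]
  have h1 : SylowIn 2 S 𝐂[a] := hS.of_not_dvd_relIndex inf_le_right Nat.prime_two (by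
    have e : X ⊓ 𝐂[a] ⊔ 𝐎(𝐂[a]) = 𝐂[a] := le_antisymm (sup_le inf_le_right hO.le) cov
    conv => enter [1, 2, 2]; rw [← e]
    rw [relIndex_sup_of_norm' (inf_le_right.trans hO.norm)]
    exact fun k => (odd_core 𝐂[a]).not_two_dvd_nat (k.trans (relIndex_dvd_card _ _)))
  obtain ⟨h2, -, ⟨u⟩⟩ := h.qdt.syl_cent trivial a2 (by rwa [top_inf_eq])
  exact u.ty h.qdt h2 (u.wr (h.wsyl.wr h2)).1 (hS.le.trans inf_le_left) cov

end

theorem MinW.wi {G : Type u} [Group G] [Finite G] (m : MinW G) : Nonempty (WI G) := by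
  have := m.simple
  have h := m.qdt
  have hw := m.wsyl
  obtain ⟨S, t, -, -, ⟨u⟩⟩ := m.qsyl.ex
  have t2 := u.t2
  obtain ⟨s, hs, s2, st⟩ := h.exists_four trivial t2
  replace hs := hs.2
  obtain ⟨V, V4, hV⟩ := four_of t2 s2 st.symm (mem_cent1_iff.1 hs).symm
  have tV := (hV t).2 (.inr (.inl rfl))
  have sV := (hV s).2 (.inr (.inr (.inl rfl)))
  obtain ⟨A, hA⟩ := exists_sylowIn 2 𝐂(V)
  have ws := hw.ws h V4 hA
  obtain ⟨Z, F, _, _, e, et⟩ := h.qe' t2 le_top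
  obtain ⟨d, τ, σ, n, n', tor⟩ := e.tor' et t2 hs s2 st
  have hp : (ringChar F).Prime := CharP.char_is_prime F _
  obtain ⟨f, -, hf⟩ := FiniteField.card F (ringChar F)
  have loc : ∀ a ∈ V, a ≠ 1 → Nonempty (LocW V A a (ringChar F) (Fintype.card F) ((𝐂[s]).relIndex 𝐎(𝐂[t]))
      (n + 1 = Fintype.card F)) := fun a ha a1 => by
    have a2 := V4.inv2 ha a1
    obtain ⟨b, hb, b1, ba⟩ := V4.exists ha
    have b2 := V4.inv2 hb b1
    have hc := V4.le_cent1 ha hb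
    obtain ⟨Z', F', _, _, e', et'⟩ := h.qe' a2 le_top
    obtain ⟨d', τ', σ', l, l', tor'⟩ := e'.tor' et' a2 hc b2 ba
    obtain ⟨e1, e2⟩ := h.tor_uniq t2 s2 st.symm hs a2 b2 ba.symm hc tor tor'
    rw [ringChar_eq e1, e1, e2, ← h.k_eq t2 s2 st.symm hs a2 b2 ba.symm hc]
    exact ⟨ws.locW ⟨V4, ha, hb, a1, b1, ba.symm⟩ tor' (hw.four_dvd h e' et' a2) (CharP.char_is_prime F' _)⟩
  exact ⟨{
    V := V, A := A, p := ringChar F, q := Fintype.card F, k := (𝐂[s]).relIndex 𝐎(𝐂[t])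
    pos := n + 1 = Fintype.card F
    simple := m.simple, ws := ws, hp := hp
    p2 := fun k => by
      have := e.odd
      rw [hf, k] at this
      exact (Nat.not_odd_iff_even.2 (Nat.even_pow.2 ⟨even_two, f.ne_zero⟩)) this
    hq := ⟨f, f.pos, hf⟩
    k_eq := fun a b a2 b2 ab hb => h.k_eq t2 s2 st.symm hs a2 b2 ab hb
    k_ne := fun k => m.unb t2 s2 st.symm hs (relIndex_eq_one.1 k)
    loc := fun a ha a1 => (loc a ha a1).some
    kill := fun a ha a1 => h.index_eq t2 (V4.inv2 ha a1) ▸ hw.kill h t2 s2 st.symm hs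
    idx := fun hn a ha a1 => hw.idx h e et t2 hs s2 st tor hn (V4.inv2 ha a1)
    bx := m.bx ws
    zz := fun X _ => ws.zz X
    nf := fun hn => hw.nf h e et t2 V4 tV sV s2.ne st tor hn hp }⟩

end CA.ABG
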