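/-
Alperin–Brauer–Gorenstein theorem, wreathed case, `δ = +` and `k` a power of the characteristic: steps P1, P2, P5, P6.
-/
import Cfsg.Agent.Lib.ABG.WI
import Cfsg.Agent.Lib.ABG.PPa

set_option autoImplicit false
set_option linter.unusedSectionVars false

namespace CA.ABG

open Cfsg CA CA.FStar CA.GW Subgroup

section
variable {G : Type*} [Group G] [Finite G] {V A Y X : Subgroup G} {a b : G}

theorem WS.hallD (h : WS V A) : IsPiHallOf {2}ᶜ 𝐎(𝐂(V)) 𝐂(V) := by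
  have := hall_of_sup_right (π := {2}ᶜ) (.inr (h.syl.le.trans (piCoreOf_norm {2}ᶜ 𝐂(V))))
    (by simpa using h.syl.piGrp) (core_pi 𝐂(V))
  rwa [← h.npc] at this

theorem WS.le_D (h : WS V A) (hY : Y ≤ 𝐂(V)) (ho : Odd (Nat.card Y)) : Y ≤ 𝐎(𝐂(V)) :=
  h.hallD.le_of_normal (piCoreOf_norm _ _) hY (odd_iff.1 ho)

theorem Iso.not_rot (h : Iso X a) (hV : Four V) (ha : a ∈ V) (a1 : a ≠ 1) (aX : a ∈ X) {g : G} (hg : g ∈ X)
    (hb : g * a * g⁻¹ ∈ V) : g * a * g⁻¹ = a := by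
  have hO := piCoreOf_normalIn {2}ᶜ X
  obtain ⟨o, ho, c, hc, rfl⟩ := (mem_sup_of_norm_right (inf_le_left.trans hO.norm)).1 (h hg)
  have e : o * c * a * (o * c)⁻¹ = o * a * o⁻¹ := by rw [mul_assoc o c, mem_cent1_iff.1 hc.2]; group
  rw [e] at hb ⊢
  have a2 := hV.inv2 ha a1
  have : a * (o * a * o⁻¹) ∈ 𝐎(X) := by
    have := mul_mem (conj_mem_of_mem_normalizer (hO.norm aX) ho) (inv_mem ho)
    rwa [a2.inv, mul_assoc, mul_assoc, ← mul_assoc o] at this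
  by_contra k
  exact (a2.mul (a2.conj o) (Ne.symm k) (hV.comm ha hb)).not_mem (odd_core X) this

end

namespace WI
variable {G : Type*} [Group G] [Finite G] (w : WI G) {E Y X P : Subgroup G} {a b : G}

theorem odd_p (h : PiGrp {w.p} Y) : Odd (Nat.card Y) := PiNum.odd h (by simpa using w.p2.symm)

theorem inv2 (ha : a ∈ w.V) (a1 : a ≠ 1) : Inv2 a := w.ws.four.inv2 ha a1

theorem CH (ha : a ∈ w.V) : 𝐂(w.V) ≤ 𝐂[a] := cent_le_cent1 ha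

theorem AH (ha : a ∈ w.V) : w.A ≤ 𝐂[a] := w.ws.syl.le.trans (w.CH ha)

theorem copV (hE : Odd (Nat.card E)) (hn : w.V ≤ 𝐍(E)) : CopAct E w.V :=
  copAct_p_right hn (odd_iff.1 hE) w.ws.four.piGrp

include w in
theorem norm_ne (h1 : Y ≠ ⊥) (ho : Odd (Nat.card Y)) : 𝐍(Y) ≠ ⊤ := fun e => by
  obtain ⟨a, ha, -, -, a1, -⟩ := w.ws.four.exists_two
  exact (w.simple.eq_bot_or_eq_top_of_normal Y (normalizer_eq_top_iff.1 e)).elim h1 fun e =>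
    (w.inv2 ha a1).not_mem ho (e ▸ trivial)

theorem k_pos : w.k ≠ 0 := by
  obtain ⟨a, ha, b, hb, a1, b1, ab⟩ := w.ws.four.exists_two
  rw [← w.k_eq a b (w.inv2 ha a1) (w.inv2 hb b1) ab (w.ws.four.le_cent1 ha hb)]
  exact relIndex_ne_zero' _ _

theorem U_not_le (ha : a ∈ w.V) (a1 : a ≠ 1) : ¬ 𝐎(𝐂[a]) ≤ 𝐂(w.V) := fun e => by
  obtain ⟨b, hb, b1, ab⟩ := w.ws.four.exists ha
  exact w.k_ne ((w.k_eq a b (w.inv2 ha a1) (w.inv2 hb b1) ab.symm (w.ws.four.le_cent1 ha hb)).symm.trans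
    (relIndex_eq_one.2 (e.trans (w.CH hb))))

/-- a proper subgroup containing `N(V)` and covering `C(a)/O(C(a))` has trivial core -/
theorem fin (ha : a ∈ w.V) (a1 : a ≠ 1) (h1 : Y ≠ ⊥) (ho : Odd (Nat.card Y)) (hV : w.V ≤ 𝐍(Y)) (hr : Rot 𝐍(Y) w.V)
    (hc : Cov 𝐍(Y) a) : False := by
  rcases w.zz _ (w.norm_ne h1 ho) a ha a1 hc with e | e
  · obtain ⟨b, hb, b1, ab⟩ := w.ws.four.exists ha
    obtain ⟨g, hg, rfl⟩ := hr a ha b hb a1 b1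
    exact ab (e.not_rot w.ws.four ha a1 (hV ha) hg.1 hb)
  · exact h1 (eq_bot_of_piCoreOf_eq_bot e ⟨le_normalizer, le_rfl⟩ (odd_iff.1 ho))

variable (hpos : w.pos) (hk : ∀ r, r.Prime → r ∣ w.k → r = w.p)
include hpos hk

/-- P1 -/
theorem p1 (hE : Odd (Nat.card E)) (hn : w.A ≤ 𝐍(E)) : ⁅E, w.V⁆ ≤ piCoreOf {w.p} E :=
  p1_of w.ws.four w.ws.syl.piGrp w.ws.VA w.ws.syl.le
    (fun a ha _ hb a1 _ _ r Y hr r2 rp Yr hY nY => (commutator_mono le_rfl (zpowers_le.2 hb)).trans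
      ((w.loc a ha a1).la r Y hr r2 (fun _ => rp) hY Yr nY))
    (fun a ha b hb a1 b1 ab => (w.k_eq a b (w.inv2 ha a1) (w.inv2 hb b1) ab (w.ws.four.le_cent1 ha hb)).symm ▸ hk) hE hn

theorem p1U (ha : a ∈ w.V) : ⁅𝐎(𝐂[a]), w.V⁆ ≤ piCoreOf {w.p} 𝐎(𝐂[a]) :=
  w.p1 hpos hk (odd_core _) ((w.AH ha).trans (piCoreOf_norm _ _))

/-- P2 -/
theorem p2a (ha : a ∈ w.V) : 𝐎(𝐂[a]) = piCoreOf {w.p} 𝐎(𝐂[a]) ⊔ 𝐎(𝐂[a]) ⊓ 𝐎(𝐂(w.V)) :=
  le_antisymm (((w.copV (odd_core _) ((w.ws.four.le_cent1 ha).trans (piCoreOf_norm _ _))).le_sup_cent (w.p1U hpos hk ha)).trans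
    (sup_le_sup_left (le_inf inf_le_left (w.ws.le_D inf_le_right (odd_card_of_le (odd_core _) inf_le_left))) _))
    (sup_le (piCoreOf_le _ _) inf_le_left)

theorem od_le (ha : a ∈ w.V) (a1 : a ≠ 1) : piCoreOf {w.p} 𝐎(𝐂(w.V)) ≤ piCoreOf {w.p} 𝐎(𝐂[a]) := by
  have h1 := (w.loc a ha a1).od hpos
  have hO := piCoreOf_normalIn {w.p} 𝐎(𝐂[a])
  refine le_sup_right.trans (le_piCoreOf ⟨sup_le hO.le h1, (w.p2a hpos hk ha).le.trans (sup_le (norms_self_of_le le_sup_left)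
    (norms_sup (inf_le_left.trans hO.norm) (inf_le_right.trans (piCoreOf_norm _ _))))⟩
    ((piCoreOf_piGrp _ _).sup (piCoreOf_piGrp _ _) (.inl (h1.trans hO.norm))))

theorem p2b (ha : a ∈ w.V) (a1 : a ≠ 1) : piCoreOf {w.p} 𝐎(𝐂[a]) ⊓ 𝐎(𝐂(w.V)) = piCoreOf {w.p} 𝐎(𝐂(w.V)) :=
  le_antisymm ((inf_comm _ _).le.trans (inf_piCoreOf_le _ (((piCoreOf_le _ _).trans (w.CH ha)).trans (piCoreOf_norm _ _))))
    (le_inf (w.od_le hpos hk ha a1) (piCoreOf_le _ _))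

/-- a `C(V)`-invariant `p`-subgroup of `C(a)` lies in `O_p(O(C(a)))` or covers a root group -/
theorem le_or_rt (ha : a ∈ w.V) (a1 : a ≠ 1) (hY : Y ≤ 𝐂[a]) (Yp : PiGrp {w.p} Y) (hn : 𝐂(w.V) ≤ 𝐍(Y)) :
    Y ≤ piCoreOf {w.p} 𝐎(𝐂[a]) ∨ (w.loc a ha a1).Rt Y := by
  by_cases e : ⁅Y, w.V⁆ ≤ 𝐎(𝐂[a])
  · have cp := w.copV (w.odd_p Yp) (w.ws.four.le_cent.trans hn)
    refine .inl ((cp.le_sup_cent (cp.comm_le_of_comm_le e (w.p1U hpos hk ha))).trans (sup_le le_rfl (le_trans ?_ (w.od_le hpos hk ha a1))))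
    have h1 := w.ws.le_D (Y := Y ⊓ 𝐂(w.V)) inf_le_right (w.odd_p (Yp.inf_left _))
    exact le_piCoreOf ⟨h1, (piCoreOf_le _ _).trans (norms_inf hn le_normalizer)⟩ (Yp.inf_left _)
  · exact .inr ((w.loc a ha a1).rt_of Y hY (w.odd_p Yp) hn e).2

/-- `p` divides `|C(a) : O(C(a))|` -/
theorem syl_not_le (ha : a ∈ w.V) (a1 : a ≠ 1) (hP : SylowIn w.p P 𝐂[a]) : ¬ P ≤ 𝐎(𝐂[a]) := fun e => by
  obtain ⟨Y, hY, ho, hn, r⟩ := (w.loc a ha a1).rt_ex hpos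
  obtain ⟨g, hg, k⟩ := hP.exists_le_cj (piCoreOf_piGrp {w.p} Y) ((piCoreOf_le _ _).trans hY)
  exact (w.loc a ha a1).rt_not Y r (((w.p1 hpos hk ho (w.ws.syl.le.trans hn)).trans k).trans
    (cj_le_of_mem_normalizer e (piCoreOf_norm _ _ hg)))

variable (P3 : SylowIn w.p (piCoreOf {w.p} 𝐎(𝐂(w.V))) 𝐎(𝐂(w.V)))
include P3

omit hpos hk in
theorem sylC : SylowIn w.p (piCoreOf {w.p} 𝐎(𝐂(w.V))) 𝐂(w.V) := P3.sylow_trans w.ws.hallD (by simpa using w.p2)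

theorem card_H (ha : a ∈ w.V) (a1 : a ≠ 1) :
    piPart {w.p} (Nat.card 𝐂[a]) = w.k * w.q * Nat.card (piCoreOf {w.p} 𝐎(𝐂(w.V))) := by
  obtain ⟨f, f0, e⟩ := w.hq
  have q0 : w.q ≠ 0 := e ▸ pow_ne_zero _ w.hp.ne_zero
  have qp : PiNum {w.p} w.q := e ▸ piNum_singleton_pow w.hp f
  have h1 : PiNum {w.p}ᶜ (w.q + 1) := (piNum_compl_singleton w.hp).2 fun h =>
    w.hp.one_lt.ne' (Nat.dvd_one.1 ((Nat.dvd_add_right (e ▸ dvd_pow_self _ f0.ne')).1 h))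
  rw [← card_mul_relIndex (w.CH ha), (w.loc a ha a1).ord hpos, piPart_mul _ (card_ne_zero' _)
    (mul_ne_zero w.k_pos (mul_ne_zero q0 (Nat.succ_ne_zero _))), ← (w.sylC P3).card_eq, ← mul_assoc,
    piPart_eq_of_mul (π := {w.p}) (PiNum.mul hk qp) h1 (mul_ne_zero (mul_ne_zero w.k_pos q0) (Nat.succ_ne_zero _)) rfl, mul_comm]

theorem card_G : piPart {w.p} (Nat.card (⊤ : Subgroup G)) =
    w.k ^ 3 * w.q ^ 3 * Nat.card (piCoreOf {w.p} 𝐎(𝐂(w.V))) := by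
  obtain ⟨a, ha, -, -, a1, -⟩ := w.ws.four.exists_two
  obtain ⟨f, f0, e⟩ := w.hq
  have q0 : w.q ≠ 0 := e ▸ pow_ne_zero _ w.hp.ne_zero
  have qp : PiNum {w.p} w.q := e ▸ piNum_singleton_pow w.hp f
  have pq : w.p ∣ w.q := e ▸ dvd_pow_self _ f0.ne'
  have h1 : PiNum {w.p}ᶜ (w.q ^ 2 + w.q + 1) := (piNum_compl_singleton w.hp).2 fun h =>
    w.hp.one_lt.ne' (Nat.dvd_one.1 ((Nat.dvd_add_right (dvd_add (pq.pow two_ne_zero) pq)).1 h))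
  have h0 := mul_ne_zero (mul_ne_zero (pow_ne_zero 2 w.k_pos) (pow_ne_zero 2 q0)) (Nat.succ_ne_zero (w.q ^ 2 + w.q))
  rw [← card_mul_relIndex (le_top (a := 𝐂[a])), relIndex_top_right, w.idx hpos a ha a1, piPart_mul _ (card_ne_zero' _) h0,
    w.card_H hpos hk P3 ha a1, piPart_eq_of_mul (π := {w.p}) (PiNum.mul (PiNum.pow hk 2) (qp.pow 2)) h1 h0 rfl]
  ring

omit hpos hk in
/-- the order formula for a `C(V)`-invariant `p`-subgroup containing `O_p(D)` -/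
theorem wie (Yp : PiGrp {w.p} Y) (hn : 𝐂(w.V) ≤ 𝐍(Y)) (h1 : piCoreOf {w.p} 𝐎(𝐂(w.V)) ≤ Y) (ha : a ∈ w.V) (hb : b ∈ w.V)
    (a1 : a ≠ 1) (b1 : b ≠ 1) (ab : a ≠ b) : Nat.card Y * Nat.card (piCoreOf {w.p} 𝐎(𝐂(w.V))) ^ 2 =
      Nat.card ↥(Y ⊓ 𝐂[a]) * Nat.card ↥(Y ⊓ 𝐂[b]) * Nat.card ↥(Y ⊓ 𝐂[a * b]) := by
  rw [← wielandt_four w.ws.four ha hb a1 b1 ab (w.ws.four.le_cent.trans hn) (w.odd_p Yp),
    (w.sylC P3).eq_of_le (le_inf h1 (w.sylC P3).le) inf_le_right (Yp.inf_left _)]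

/-- P5 -/
theorem p5 (hY : SylowIn w.p Y ⊤) (hn : 𝐂(w.V) ≤ 𝐍(Y)) (ha : a ∈ w.V) (a1 : a ≠ 1) : SylowIn w.p (Y ⊓ 𝐂[a]) 𝐂[a] := by
  obtain ⟨b, hb, b1, ab⟩ := w.ws.four.exists ha
  have hc := mul_mem ha hb
  have c1 := ((w.inv2 ha a1).mul (w.inv2 hb b1) ab.symm (w.ws.four.comm ha hb)).ne
  have h := w.wie P3 hY.piGrp hn (hY.le_of_norm' (piCoreOf_piGrp _ _) le_top ((w.sylC P3).le.trans hn)) ha hb a1 b1 ab.symm
  have le : ∀ c ∈ w.V, c ≠ 1 → Nat.card ↥(Y ⊓ 𝐂[c]) ≤ w.k * w.q * Nat.card (piCoreOf {w.p} 𝐎(𝐂(w.V))) := fun c hc c1 =>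
    w.card_H hpos hk P3 hc c1 ▸ Nat.le_of_dvd (Nat.pos_of_ne_zero (piPart_ne_zero _ _))
      ((hY.piGrp.inf_left _).card_dvd_piPart inf_le_right)
  refine isPiHallOf_of_card inf_le_right ?_
  have h0 := piPart_ne_zero {w.p} (Nat.card 𝐂[a])
  rw [w.card_H hpos hk P3 ha a1] at h0 ⊢
  rw [hY.card_eq, w.card_G hpos hk P3] at h
  have h1 := le a ha a1
  have h2 := Nat.mul_le_mul (le b hb b1) (le _ hc c1)
  refine le_antisymm h1 (Nat.le_of_mul_le_mul_right ?_ (Nat.pos_of_ne_zero (mul_ne_zero h0 h0)))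
  refine le_trans (le_of_eq ?_) (Nat.mul_le_mul_left _ h2)
  rw [← mul_assoc (Nat.card ↥(Y ⊓ 𝐂[a])), ← h]; ring

/-- P5 and P6: there is no `C(V)`-invariant Sylow `p`-subgroup -/
theorem p56 (hY : SylowIn w.p Y ⊤) (hn : 𝐂(w.V) ≤ 𝐍(Y)) : False := by
  have V4 := w.ws.four
  set T := sSup {O | ∃ a ∈ w.V, a ≠ 1 ∧ O = piCoreOf {w.p} 𝐎(𝐂[a])}
  have le : ∀ a ∈ w.V, a ≠ 1 → piCoreOf {w.p} 𝐎(𝐂[a]) ≤ T := fun a ha a1 => le_sSup ⟨a, ha, a1, rfl⟩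
  have nT : 𝐍(w.V) ≤ 𝐍(T) := norms_sSup_of_cj (by
    rintro g hg _ ⟨a, ha, a1, rfl⟩
    exact ⟨_, conj_mem_of_mem_normalizer hg ha, ((w.inv2 ha a1).conj g).ne, by
      rw [cj_piCoreOf, cj_piCoreOf, cj_centralizer_singleton]⟩)
  have cT := (centralizer_le_normalizer _).trans nT
  have TY : T ≤ Y := sSup_le (by
    rintro _ ⟨a, ha, a1, rfl⟩
    exact ((w.p5 hpos hk P3 hY hn ha a1).normal_le ((piCoreOf_normalIn _ _).piCoreOf _) (piCoreOf_piGrp _ _)).trans inf_le_left)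
  have Tp := hY.piGrp.of_le TY
  obtain ⟨a, ha, -, -, a1, -⟩ := V4.exists_two
  have T1 : T ≠ ⊥ := fun e => w.U_not_le ha a1 (comm_eq_bot_iff.1 (eq_bot_iff.2 (((w.p1U hpos hk ha).trans (le a ha a1)).trans e.le)))
  have lt : T < Y := TY.lt_of_ne fun e => by
    obtain ⟨S, σ, -, -, -, h1, -, h2, h3, h4⟩ := w.ws.swp a ha a1
    rcases w.le_or_rt hpos hk ha a1 inf_le_right (Tp.inf_left _) (norms_inf cT (norms_cent1 (w.CH ha))) with k | k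
    · exact w.syl_not_le hpos hk ha a1 (w.p5 hpos hk P3 hY hn ha a1) (e ▸ k.trans (piCoreOf_le _ _))
    · exact (w.loc a ha a1).rt_swap _ σ k inf_le_right (w.odd_p (Tp.inf_left _)) h4
        (norms_inf (h2.trans nT) (norms_cent1 h1) h3)
  have nN : 𝐂(w.V) ≤ 𝐍(Y ⊓ 𝐍(T)) := norms_inf hn (norms_norm cT)
  refine (lt_inf_norm_of_nilpotent hY.piGrp.nilpotent lt).not_ge
    (V4.gen (V4.le_cent.trans nN) (w.odd_p (hY.piGrp.inf_left _)) fun b hb b1 => ?_)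
  obtain ⟨S, σ, -, -, -, h1, -, h2, h3, h4⟩ := w.ws.swp b hb b1
  refine ((w.le_or_rt hpos hk hb b1 inf_le_right ((hY.piGrp.inf_left _).inf_left _)
    (norms_inf nN (norms_cent1 (w.CH hb)))).resolve_right fun k => ?_).trans (le b hb b1)
  refine w.fin hb b1 T1 (w.odd_p Tp) (V4.le_cent.trans cT) (fun a ha c hc a1 c1 => ?_)
    ((w.loc b hb b1).rt_gen _ _ σ k (inf_le_left.trans inf_le_right) cT (nT (h2 h3)) h4)
  obtain ⟨g, hg, e⟩ := w.ws.rotA a ha c hc a1 c1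
  exact ⟨g, ⟨nT hg.2, hg.2⟩, e⟩

end WI

end CA.ABG
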