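/-
Alperin–Brauer–Gorenstein theorem, wreathed case: a prime divisor of `k` is the characteristic, and `δ = +`.
-/
import Cfsg.Agent.Lib.ABG.WP1
import Cfsg.Agent.Lib.ABG.BX
import Cfsg.Agent.Lib.ABG.MkPS
import Cfsg.Agent.Lib.SF.MLc

set_option autoImplicit false
set_option linter.unusedSectionVars false

namespace CA.ABG

open Cfsg CA CA.FStar CA.GW CA.Loc Subgroup

section
variable {G : Type*} [Group G] [Finite G] {V X Y P S : Subgroup G} {a : G} {r : ℕ}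

theorem ex_odd (V X : Subgroup G) : PiGrp {2}ᶜ (EX V X) :=
  (core_pi _).sup ((core_pi _).inf_right _) (.inl (inf_le_left.trans (piCoreOf_norm _ _)))

theorem ex_norm (h1 : S ≤ X) (h2 : S ≤ 𝐍(V)) : S ≤ 𝐍(EX V X) :=
  norms_sup (h1.trans (piCoreOf_norm _ _)) (norms_inf (h1.trans le_normalizer)
    ((norms_cent h2).trans (norm_le_norm_piCoreOf _ _)))

theorem ex_le (V X : Subgroup G) : EX V X ≤ X := sup_le (piCoreOf_le _ _) inf_le_left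

theorem Cov.core_le (h : Cov X a) : 𝐎(X) ⊓ 𝐂[a] ≤ 𝐎(𝐂[a]) := by
  have hU := piCoreOf_normalIn {2}ᶜ 𝐂[a]
  refine le_sup_left.trans (le_piCoreOf ⟨sup_le inf_le_right hU.le, h.trans (sup_le (norms_sup (norms_inf
    (inf_le_left.trans (piCoreOf_norm _ _)) (inf_le_right.trans le_normalizer)) (inf_le_right.trans hU.norm))
    (norms_self_of_le le_sup_right))⟩ (((core_pi X).inf_left _).sup (core_pi _) (.inr (inf_le_right.trans hU.norm))))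

theorem Iso.core_le (h : Iso X a) : 𝐎(𝐂[a]) ⊓ X ≤ 𝐎(X) := by
  have hO := piCoreOf_normalIn {2}ᶜ X
  refine le_sup_right.trans (le_piCoreOf ⟨sup_le hO.le inf_le_right, h.trans (sup_le (norms_self_of_le le_sup_left)
    (norms_sup (inf_le_left.trans hO.norm) (norms_inf (inf_le_right.trans (piCoreOf_norm _ _))
    (inf_le_left.trans le_normalizer))))⟩ ((core_pi X).sup ((core_pi _).inf_left _) (.inl (inf_le_right.trans hO.norm))))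

theorem Iso.le_core (h : Iso X a) (a2 : Inv2 a) (aX : a ∈ X) (hY : Y ≤ X) (ho : Odd (Nat.card Y)) (hn : a ∈ 𝐍(Y))
    (hU : Y ⊓ 𝐂[a] ≤ 𝐎(𝐂[a])) : Y ≤ 𝐎(X) :=
  ((copAct_inv a2.sq ho hn).le_sup_cent (comm_le_of_sup (inf_le_left.trans (piCoreOf_norm _ _)) inf_le_right
    (piCoreOf_norm _ _ aX) (hY.trans h))).trans (sup_le le_rfl (by
      rw [cent_zpowers]; exact (le_inf hU (inf_le_left.trans hY)).trans h.core_le))

/-- Frattini argument for covering subgroups -/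
theorem Cov.frat (h : Cov X a) (a2 : Inv2 a) (aX : a ∈ X) (hP : SylowIn r P 𝐎(X)) (aP : a ∈ 𝐍(P)) : Cov 𝐍(P) a := by
  have hO := piCoreOf_normalIn {2}ᶜ X
  have e := (copAct_inv a2.sq (odd_core X) (hO.norm aX)).sup_inf_cent_left (H := X ⊓ 𝐍(P))
    (zpowers_le.2 (le_normalizer ⟨aX, aP⟩)) (.inl (inf_le_left.trans hO.norm))
  rw [frattini_arg hO hP, cent_zpowers] at e
  refine h.trans (sup_le (e.le.trans (sup_le (h.core_le.trans le_sup_right) ?_)) le_sup_right)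
  exact (inf_le_inf_right _ inf_le_right).trans le_sup_left

/-- counting the conjugates of `a` centralized by `P` -/
theorem cnt_cls (hr : r.Prime) (hP : PiGrp {r} P) (hd : r ∣ (𝐂[a]).index) (hY : ∀ g ∈ Y, g * a * g⁻¹ ∈ 𝐂(P))
    (h : ∀ g, g * a * g⁻¹ ∈ 𝐂(P) → ∃ o ∈ Y, o * a * o⁻¹ = g * a * g⁻¹) : r ∣ (𝐂[a]).relIndex Y := by
  have h1 := SF.dvd_ncard_conj hr hP (X := {y | ∃ o ∈ (⊤ : Subgroup G), o * a * o⁻¹ = y} \ {y | ∃ o ∈ Y, o * a * o⁻¹ = y})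
    (fun g hg y ⟨⟨o, _, e⟩, hy⟩ => ⟨⟨g * o, trivial, by rw [← e]; group⟩, fun ⟨u, hu, e'⟩ => hy ⟨u, hu, by
      have := mem_cent_iff.1 (hY u hu) g hg
      calc u * a * u⁻¹ = g⁻¹ * (u * a * u⁻¹) * g := by rw [mul_assoc g⁻¹, ← this]; group
        _ = y := by rw [e']; group⟩⟩)
    fun y ⟨⟨o, _, e⟩, hy⟩ k => hy (e ▸ h o (e ▸ k))
  have sub : {y | ∃ o ∈ Y, o * a * o⁻¹ = y} ⊆ {y | ∃ o ∈ (⊤ : Subgroup G), o * a * o⁻¹ = y} :=
    fun y ⟨o, _, e⟩ => ⟨o, trivial, e⟩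
  have h2 : {y | ∃ o ∈ (⊤ : Subgroup G), o * a * o⁻¹ = y}.ncard = _ := (card_cls ⊤ a).trans (relIndex_top_right _)
  have h3 : {y | ∃ o ∈ Y, o * a * o⁻¹ = y}.ncard = _ := card_cls Y a
  have h4 := Set.ncard_le_ncard sub
  rw [Set.ncard_sdiff sub] at h1
  rw [h2, h3] at h1 h4
  exact (Nat.dvd_sub_iff_right h4 hd).1 h1

end

namespace WI
variable {G : Type*} [Group G] [Finite G] (w : WI G) {X Y R R' : Subgroup G} {a b g : G} {r : ℕ}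

include w in
theorem cent_ne (a2 : Inv2 a) : 𝐂[a] ≠ ⊤ := fun e => by
  rcases w.simple.eq_bot_or_eq_top_of_normal (zpowers a) (normalizer_eq_top_iff.1 (top_le_iff.1
    (norms_zpowers_of_cent1 e.ge))) with k | k
  · exact a2.ne (zpowers_eq_bot.1 k)
  · exact w.ws.four.not_le inferInstance (k ▸ le_top)

theorem AN : w.A ≤ 𝐍(w.V) := w.ws.syl.le.trans (centralizer_le_normalizer _)

/-- `R` is a maximal `A`-invariant `r`-subgroup -/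
structure MaxI (r : ℕ) (R : Subgroup G) : Prop where
  pi : PiGrp {r} R
  norm : w.A ≤ 𝐍(R)
  max : ∀ Y, PiGrp {r} Y → w.A ≤ 𝐍(Y) → R ≤ Y → Y = R

theorem cjA (hg : g ∈ 𝐍(w.A)) (hY : w.A ≤ 𝐍(Y)) : w.A ≤ 𝐍(cj g Y) := by
  rw [← cj_normalizer, ← cj_eq_of_mem_normalizer hg]; exact cj_mono g hY

theorem MaxI.cj {w : WI G} (h : w.MaxI r R) (hg : g ∈ 𝐍(w.A)) : w.MaxI r (cj g R) :=
  ⟨h.pi.cj g, w.cjA hg h.norm, fun Y h1 h2 h3 => by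
    rw [← h.max _ (h1.cj g⁻¹) (w.cjA (inv_mem hg) h2) (cj_le_iff.1 h3), cj_cj_inv]⟩

theorem exists_maxI (h1 : PiGrp {r} Y) (h2 : w.A ≤ 𝐍(Y)) : ∃ R, Y ≤ R ∧ w.MaxI r R :=
  let ⟨R, h, ⟨k1, k2⟩, k⟩ := exists_maximal_ge (fun Y => PiGrp {r} Y ∧ w.A ≤ 𝐍(Y)) ⟨h1, h2⟩
  ⟨R, h, k1, k2, fun Y h1 h2 => k Y ⟨h1, h2⟩⟩

variable (hr : r.Prime) (r2 : r ≠ 2) (rp : w.pos → r ≠ w.p)
include hr r2 rp

/-- L1 -/
theorem l1 (hX : X ≠ ⊤) (hA : w.A ≤ X) (hY : Y ≤ X) (Yr : PiGrp {r} Y) (AY : w.A ≤ 𝐍(Y)) : Y ≤ EX w.V X := by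
  have Yo := odd_of_pi Yr r2
  have n := piCoreOf_norm {2}ᶜ X
  refine ((w.copV Yo (w.ws.VA.trans AY)).le_sup_cent (V := 𝐎(X)) ?_).trans (sup_le_sup_left (le_inf
    (inf_le_left.trans hY) (w.ws.le_D inf_le_right (odd_card_of_le Yo inf_le_left))) _)
  refine comm_le_iff.2 fun y hy b hb => comm_le_of_sup (inf_le_left.trans n) inf_le_right (n (hA (w.ws.VA hb)))
    (w.ws.four.gen (w.ws.VA.trans AY) Yo fun a ha a1 => ?_) (comm_mem hy (mem_zpowers b))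
  have AN : w.A ≤ 𝐍(Y ⊓ 𝐂[a]) := norms_inf AY ((w.AH ha).trans le_normalizer)
  have cp := copAct_inv (w.ws.four.sq b hb) (odd_card_of_le Yo inf_le_left) (AN (w.ws.VA hb))
  refine (cp.le_sup_cent (V := 𝐎(X)) ?_).trans (sup_le_sup_left (by
    rw [cent_zpowers]; exact inf_le_inf_right _ (inf_le_left.trans hY)) _)
  rw [← cp.comm_comm]
  exact (commutator_mono (le_inf ((commutator_mono le_rfl (zpowers_le.2 hb)).trans ((w.loc a ha a1).la r _ hr r2 rp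
    inf_le_right (Yr.inf_left _) AN)) ((comm_le_left cp.norm).trans (inf_le_left.trans hY))) (zpowers_le.2 hb)).trans
    (w.bx X hX hA a ha a1)

/-- L2 -/
theorem trans (m : w.MaxI r R) (m' : w.MaxI r R') (h : R ⊓ R' ≠ ⊥) : ∃ c ∈ 𝐂(w.A), R' = cj c R := by
  induction hn : Nat.card G - Nat.card ↥(R ⊓ R') using Nat.strong_induction_on generalizing R R' with
  | _ n ih =>
  by_cases e : R ≤ R'
  · exact ⟨1, one_mem _, by rw [m.max R' m'.pi m'.norm e, cj_one]⟩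
  by_cases e' : R' ≤ R
  · exact ⟨1, one_mem _, by rw [m'.max R m.pi m.norm e', cj_one]⟩
  have AI := norms_inf m.norm m'.norm
  have hX := w.norm_ne h (odd_of_pi (m.pi.inf_left R') r2)
  have AX : w.A ≤ 𝐍(𝐍(R ⊓ R')) := AI.trans le_normalizer
  have cp := copAct_p_right (ex_norm AI w.AN) (ex_odd _ _) w.ws.syl.piGrp
  obtain ⟨Q, hQ, AQ, RQ⟩ := cp.exists_sylowIn_ge (w.l1 hr r2 rp hX AI inf_le_right (m.pi.inf_left _) (norms_inf m.norm AX))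
    (m.pi.inf_left _) (norms_inf m.norm AX)
  obtain ⟨c, hc, RQ'⟩ := cp.sylowIn_le_cj hQ AQ (w.l1 hr r2 rp hX AI inf_le_right (m'.pi.inf_left _)
    (norms_inf m'.norm AX)) (m'.pi.inf_left _) (norms_inf m'.norm AX)
  obtain ⟨P, QP, mP⟩ := w.exists_maxI hQ.piGrp AQ
  have lt : ∀ Y Y' : Subgroup G, R ⊓ R' < Y ⊓ Y' → Nat.card G - Nat.card ↥(Y ⊓ Y') < n ∧ Y ⊓ Y' ≠ ⊥ := fun Y Y' k =>
    ⟨hn ▸ Nat.sub_lt_sub_left ((card_lt_of_lt' k).trans_le (card_le_card_group _)) (card_lt_of_lt' k), k.ne_bot⟩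
  obtain ⟨k1, k2⟩ := lt R P ((lt_inf_normalizer_nil m.pi.nilpotent (inf_lt_left.2 e)).trans_le
    (le_inf inf_le_left (RQ.trans QP)))
  obtain ⟨k3, k4⟩ := lt (cj c P) R' ((lt_inf_normalizer_nil m'.pi.nilpotent (inf_lt_right.2 e')).trans_le
    (le_inf (RQ'.trans (cj_mono c QP)) inf_le_left))
  obtain ⟨x, hx, rfl⟩ := ih _ k1 m mP k2 rfl
  obtain ⟨y, hy, rfl⟩ := ih _ k3 (mP.cj (centralizer_le_normalizer _ hc.2)) m' k4 rfl
  exact ⟨y * (c * x), mul_mem hy (mul_mem hc.2 hx), by rw [cj_mul, cj_mul]⟩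

/-- L4 -/
theorem l4 (m : w.MaxI r R) (ha : a ∈ w.V) (a1 : a ≠ 1) (h1 : R ⊓ 𝐎(𝐂[a]) ≠ ⊥) (h2 : ¬ R ≤ 𝐂[a]) :
    ∃ g ∈ 𝐍(R), g * a * g⁻¹ ∈ w.V ∧ g * a * g⁻¹ ≠ a := by
  obtain ⟨b, hb, b1, ba, hY⟩ : ∃ b ∈ w.V, b ≠ 1 ∧ b ≠ a ∧ R ⊓ 𝐂[b] ≠ ⊥ := by
    by_contra e
    push Not at e
    refine h2 (w.ws.four.gen (w.ws.VA.trans m.norm) (odd_of_pi m.pi r2) fun b hb b1 => ?_)
    by_cases k : b = a
    · exact k ▸ inf_le_right
    · rw [e b hb b1 k]; exact bot_le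
  obtain ⟨g, hg, rfl⟩ := w.ws.rotA a ha b hb a1 b1
  have AH := w.AH hb
  have cp := copAct_p_right (ex_norm AH w.AN) (ex_odd _ _) w.ws.syl.piGrp
  have AP : w.A ≤ 𝐍(cj g (R ⊓ 𝐎(𝐂[a]))) := w.cjA hg.1 (norms_inf m.norm ((w.AH ha).trans (piCoreOf_norm _ _)))
  have AY : w.A ≤ 𝐍(R ⊓ 𝐂[g * a * g⁻¹]) := norms_inf m.norm (AH.trans le_normalizer)
  obtain ⟨Q, hQ, AQ, PQ⟩ := cp.exists_sylowIn_ge (le_trans (by
    rw [← cj_centralizer_singleton, ← cj_piCoreOf]; exact cj_mono g inf_le_right) le_sup_left) ((m.pi.inf_left _).cj g) AP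
  obtain ⟨c, hc, YQ⟩ := cp.sylowIn_le_cj hQ AQ (w.l1 hr r2 rp (w.cent_ne (w.inv2 hb b1)) AH inf_le_right
    (m.pi.inf_left _) AY) (m.pi.inf_left _) AY
  obtain ⟨M, QM, mM⟩ := w.exists_maxI hQ.piGrp AQ
  obtain ⟨x, hx, rfl⟩ := w.trans hr r2 rp (m.cj hg.1) mM fun e => h1 (cj_eq_bot.1 (le_bot_iff.1
    ((le_inf (cj_mono g inf_le_left) (PQ.trans QM)).trans e.le)))
  obtain ⟨y, hy, e⟩ := w.trans hr r2 rp (mM.cj (centralizer_le_normalizer _ hc.2)) m fun e => hY (le_bot_iff.1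
    ((le_inf (YQ.trans (cj_mono c QM)) inf_le_left).trans e.le))
  have k : y * (c * (x * g)) * a * (y * (c * (x * g)))⁻¹ = g * a * g⁻¹ := by
    have := mem_cent_iff.1 (mul_mem hy (mul_mem hc.2 hx)) _ (w.ws.VA hb)
    calc _ = y * (c * x) * (g * a * g⁻¹) * (y * (c * x))⁻¹ := by group
      _ = _ := by rw [← this, mul_inv_cancel_right]
  exact ⟨y * (c * (x * g)), mem_normalizer_iff_cj.2 (by rw [cj_mul, cj_mul, cj_mul, ← e]), k ▸ hb, k ▸ ba⟩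

end WI

/-- the configuration of step CL -/
structure CLc {G : Type*} [Group G] (w : WI G) (r : ℕ) (a : G) (S P : Subgroup G) : Prop where
  hr : r.Prime
  r2 : r ≠ 2
  rp : w.pos → r ≠ w.p
  rk : r ∣ w.k
  ha : a ∈ w.V
  a1 : a ≠ 1
  hS : SylowIn 2 S ⊤
  AS : w.A ≤ S
  Sa : S ≤ 𝐂[a]
  SV : S ≤ 𝐍(w.V)
  hP : SylowIn r P 𝐎(𝐂[a])
  SP : S ≤ 𝐍(P)

/-- the proper subgroups containing `S P` and covering `C(a)/O(C(a))` -/
structure Gam {G : Type*} [Group G] (a : G) (S P X : Subgroup G) : Prop where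
  ne : X ≠ ⊤
  S : S ≤ X
  P : P ≤ X
  cov : Cov X a

namespace CLc
variable {G : Type*} [Group G] [Finite G] {w : WI G} {r : ℕ} {a u : G} {S P X Y R : Subgroup G} (c : CLc w r a S P)
include c

theorem a2 : Inv2 a := w.inv2 c.ha c.a1

theorem aS : a ∈ S := c.AS (w.ws.VA c.ha)

theorem nc (hu : u ∈ 𝐂[a]) (u2 : Inv2 u) (h : P ≤ 𝐂[u]) : u = a := by
  by_contra k
  have h1 := c.rk
  rw [← w.k_eq a u c.a2 u2 (Ne.symm k) hu, ← inf_relIndex_right] at h1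
  exact c.hP.not_dvd c.hr (h1.trans (relIndex_dvd_of_le_left _ (le_inf h c.hP.le)))

theorem ncV : ¬ P ≤ 𝐂(w.V) := fun h =>
  let ⟨_, hb, b1, ba⟩ := w.ws.four.exists c.ha
  ba (c.nc (w.ws.four.le_cent1 c.ha hb) (w.inv2 hb b1) (h.trans (w.CH hb)))

theorem P1 : P ≠ ⊥ := fun e => c.ncV (e ▸ bot_le)

theorem gam0 : Gam a S P 𝐂[a] := ⟨w.cent_ne c.a2, c.Sa, c.hP.le.trans (piCoreOf_le _ _), (inf_idem _).ge.trans le_sup_left⟩

/-- G1 -/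
theorem iso (h : Gam a S P X) : Iso X a := (w.zz X h.ne a c.ha c.a1 h.cov).resolve_right fun e => c.ncV (by
  have := w.bx X h.ne (c.AS.trans h.S) a c.ha c.a1
  rw [e, le_bot_iff, comm_eq_bot_iff] at this
  exact (le_inf c.hP.le h.P).trans this)

theorem cop (h : Gam a S P X) : CopAct (EX w.V X) S := copAct_p_right (ex_norm h.S c.SV) (ex_odd _ _) c.hS.piGrp

theorem l1 (h : Gam a S P X) (hY : Y ≤ X) (Yr : PiGrp {r} Y) (AY : w.A ≤ 𝐍(Y)) : Y ≤ EX w.V X :=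
  w.l1 c.hr c.r2 c.rp h.ne (c.AS.trans h.S) hY Yr AY

/-- G2, G3 -/
theorem g3 (h : Gam a S P 𝐍(Y)) (hY : SylowIn r Y 𝐎(𝐍(Y))) : ¬ Y ≤ 𝐂[a] ∧ 𝐂(Y) ≤ 𝐎(𝐍(Y)) := by
  have hO := piCoreOf_normalIn {2}ᶜ 𝐍(Y)
  have hC : 𝐂(Y) ⊴ 𝐍(Y) := ⟨centralizer_le_normalizer _, norms_cent le_rfl⟩
  have hS : SylowIn 2 S 𝐍(Y) := c.hS.of_le h.S le_top
  have PY : P ≤ Y := hY.le_of_normal (hO.le.trans le_rfl) ((le_inf c.hP.le h.P).trans (c.iso h).core_le) c.hP.piGrp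
  have key : ∀ u ∈ 𝐂(Y), Inv2 u → ∃ g ∈ 𝐍(Y), g * u * g⁻¹ = a := fun u hu u2 => by
    obtain ⟨g, hg, e⟩ := hS.exists_conj_mem (hC.le hu) u2.piElt
    exact ⟨g, hg, c.nc (c.Sa e) (u2.conj g) (PY.trans (mem_cent_iff_le_cent1.1 (conj_mem_of_mem_normalizer (hC.norm hg) hu)))⟩
  have g2 : ¬ Y ≤ 𝐂[a] := fun e => by
    have aC := mem_cent_iff_le_cent1.2 e
    have h1 := cnt_cls (Y := 𝐎(𝐍(Y))) c.hr hY.piGrp (c.rk.trans (w.kill a c.ha c.a1))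
      (fun g hg => conj_mem_of_mem_normalizer (hC.norm (hO.le hg)) aC) fun g hg => by
        obtain ⟨x, hx, k⟩ := key _ hg (c.a2.conj g)
        obtain ⟨o, ho, y, hy, e⟩ := (mem_sup_of_norm_right (inf_le_left.trans hO.norm)).1 (c.iso h (inv_mem hx))
        refine ⟨o, ho, ?_⟩
        calc o * a * o⁻¹ = o * y * a * (o * y)⁻¹ := by rw [mul_assoc o y, mem_cent1_iff.1 hy.2]; group
          _ = _ := by rw [e]; nth_rw 1 [← k]; group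
    rw [← inf_relIndex_right] at h1
    exact hY.not_dvd c.hr (h1.trans (relIndex_dvd_of_le_left _ (le_inf e hY.le)))
  refine ⟨g2, le_piCoreOf hC (by_contra fun e => g2 ?_)⟩
  obtain ⟨u, hu, u2⟩ := exists_inv2 e
  obtain ⟨g, hg, rfl⟩ := key u hu u2
  exact mem_cent_iff_le_cent1.1 (conj_mem_of_mem_normalizer (hC.norm hg) hu)

theorem false : False := by
  obtain ⟨R, PR, ⟨Rr, SR, X, hX, RX⟩, mR⟩ := exists_maximal_ge
    (fun R => PiGrp {r} R ∧ S ≤ 𝐍(R) ∧ ∃ X, Gam a S P X ∧ R ≤ EX w.V X) (A := P)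
    ⟨c.hP.piGrp, c.SP, _, c.gam0, c.hP.le.trans le_sup_left⟩
  have AR := c.AS.trans SR
  have syl : ∀ X, Gam a S P X → R ≤ X → SylowIn r R (EX w.V X) := fun X hX h =>
    (c.cop hX).sylowIn_of_max (c.l1 hX h Rr AR) Rr SR fun Y h1 h2 h3 => mR Y ⟨h2, h3, X, hX, h1⟩
  have core : ∀ X, Gam a S P X → R ≤ X → SylowIn r (R ⊓ 𝐎(X)) 𝐎(X) := fun X hX h =>
    (syl X hX h).inf_normal ⟨le_sup_left, (ex_le _ _).trans (piCoreOf_norm _ _)⟩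
  replace RX := RX.trans (ex_le _ _)
  have SY : S ≤ 𝐍(R ⊓ 𝐎(X)) := norms_inf SR (hX.S.trans (piCoreOf_norm _ _))
  have PY : P ≤ R ⊓ 𝐎(X) := le_inf PR ((le_inf c.hP.le hX.P).trans (c.iso hX).core_le)
  have Ro := odd_of_pi Rr c.r2
  have Yo : Odd (Nat.card ↥(R ⊓ 𝐎(X))) := odd_card_of_le Ro inf_le_left
  have g1 : Gam a S P 𝐍(R ⊓ 𝐎(X)) := ⟨w.norm_ne (ne_bot_of_le_ne_bot c.P1 PY) Yo, SY, PY.trans le_normalizer,
    hX.cov.frat c.a2 (hX.S c.aS) (core X hX RX) (SY c.aS)⟩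
  have RN : R ≤ 𝐍(R ⊓ 𝐎(X)) := norms_inf le_normalizer (RX.trans (piCoreOf_norm _ _))
  have e : R ⊓ 𝐎(𝐍(R ⊓ 𝐎(X))) = R ⊓ 𝐎(X) := le_antisymm (le_inf inf_le_left ((c.iso hX).le_core c.a2 (hX.S c.aS)
    (inf_le_left.trans RX) (odd_card_of_le Ro inf_le_left) (norms_inf SR (SY.trans (piCoreOf_norm _ _)) c.aS)
    ((inf_le_inf_right _ inf_le_right).trans g1.cov.core_le)))
    (le_inf inf_le_left (le_piCoreOf ⟨le_normalizer, le_rfl⟩ (odd_iff.1 Yo)))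
  obtain ⟨g2, g3⟩ := c.g3 g1 (by have := core _ g1 RN; rwa [e] at this)
  have g4 := (w.loc a c.ha c.a1).zj r _ R c.hr c.r2 c.rp (c.AS.trans SY) g1.cov (c.iso g1) (syl _ g1 RN)
    (e.symm ▸ ⟨le_normalizer, le_rfl⟩) (e.symm ▸ inf_le_right.trans g3)
  have := Fact.mk c.hr
  have Jr := Rr.of_le (Je_le r R)
  have g5 : Gam a S P 𝐍(𝐙(Je r R)) := ⟨w.norm_ne (center_ne_bot_nil Jr.nilpotent (Je_ne_bot (Rr.isPGroup c.hr)
    (ne_bot_of_le_ne_bot c.P1 PR))) (odd_of_pi (Jr.inf_left _) c.r2), SY.trans g4, g1.P.trans g4,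
    g1.cov.trans (sup_le_sup_right (inf_le_inf_right _ g4) _)⟩
  have NZ : 𝐍(R) ≤ 𝐍(𝐙(Je r R)) := norms_inf ((norm_le_norm_Je R)) (norms_cent (norm_le_norm_Je R))
  have m : w.MaxI r R := ⟨Rr, AR, fun Y h1 h2 h3 => by_contra fun k => (lt_inf_normalizer_nil h1.nilpotent
    (h3.lt_of_ne' k)).ne' ((syl _ g5 (le_normalizer.trans NZ)).eq_of_le (le_inf h3 le_normalizer)
    (c.l1 g5 (inf_le_right.trans NZ) (h1.inf_left _) (norms_inf h2 (AR.trans le_normalizer))) (h1.inf_left _))⟩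
  obtain ⟨g, hg, k1, k2⟩ := w.l4 c.hr c.r2 c.rp m c.ha c.a1 (ne_bot_of_le_ne_bot c.P1 (le_inf PR c.hP.le))
    fun k => g2 (inf_le_left.trans k)
  exact k2 ((c.iso g5).not_rot w.ws.four c.ha c.a1 (g5.S c.aS) (NZ hg) k1)

end CLc

/-- CL -/
theorem WI.cl {G : Type*} [Group G] [Finite G] (w : WI G) {r : ℕ} (hr : r.Prime) (rk : r ∣ w.k)
    (rp : w.pos → r ≠ w.p) : False := by
  obtain ⟨a, ha, b, hb, a1, b1, ab⟩ := w.ws.four.exists_two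
  obtain ⟨S, -, hS, -, AS, Sa, -, SV, -⟩ := w.ws.swp a ha a1
  obtain ⟨P, hP, SP⟩ := (copAct_p_right (Sa.trans (piCoreOf_norm _ _)) (core_pi _) hS.piGrp).exists_sylowIn r
  refine CLc.false ⟨hr, fun e => ?_, rp, rk, ha, a1, hS, AS, Sa, SV, hP, SP⟩
  rw [← w.k_eq a b (w.inv2 ha a1) (w.inv2 hb b1) ab (w.ws.four.le_cent1 ha hb)] at rk
  exact core_pi 𝐂[a] r hr (rk.trans (relIndex_dvd_card _ _)) e

end CA.ABG
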