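/-
Alperin–Brauer–Gorenstein theorem, wreathed case, `δ = +` and `k` a power of the characteristic: step P4.
-/
import Cfsg.Agent.Lib.ABG.WP1

set_option autoImplicit false
set_option linter.unusedSectionVars false

namespace CA.ABG

open Cfsg CA CA.FStar CA.GW Subgroup

theorem relIndex_cover {G : Type*} [Group G] {K W X : Subgroup G} (hK : K ⊴ W) (hn : X ≤ 𝐍(K)) :
    W.relIndex (K ⊔ X) = W.relIndex X := by
  rw [← relIndex_quo hK (sup_le le_normalizer hn), quo_sup_left hn, relIndex_quo hK hn]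

namespace WI
variable {G : Type*} [Group G] [Finite G] (w : WI G) {E Y X P : Subgroup G} {a b : G}
variable (hpos : w.pos) (hk : ∀ r, r.Prime → r ∣ w.k → r = w.p)
  (P3 : SylowIn w.p (piCoreOf {w.p} 𝐎(𝐂(w.V))) 𝐎(𝐂(w.V)))
include hpos hk P3

/-- `E C(V)` is `p`-closed for every odd `C(V)`-invariant `E` -/
theorem closed (hE : Odd (Nat.card E)) (hn : 𝐂(w.V) ≤ 𝐍(E)) :
    ∃ B, SylowIn w.p B (E ⊔ 𝐂(w.V)) ∧ E ⊔ 𝐂(w.V) ≤ 𝐍(B) := by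
  have hD := piCoreOf_normalIn {2}ᶜ 𝐂(w.V)
  have o := odd_card_sup (.inl (hD.le.trans hn)) hE (odd_core 𝐂(w.V))
  have n := norms_sup hn hD.norm
  have h1 := w.p1 hpos hk o (w.ws.syl.le.trans n)
  have hB := piCoreOf_normalIn {w.p} (E ⊔ 𝐎(𝐂(w.V)))
  have nB := norms_piCoreOf {w.p} n
  have h2 : E ≤ piCoreOf {w.p} (E ⊔ 𝐎(𝐂(w.V))) ⊔ 𝐂(w.V) := le_sup_left.trans
    (((w.copV o (w.ws.four.le_cent.trans n)).le_sup_cent h1).trans (sup_le_sup_left inf_le_right _))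
  have Bp := piCoreOf_piGrp {w.p} (E ⊔ 𝐎(𝐂(w.V)))
  have e : E ⊔ 𝐂(w.V) = piCoreOf {w.p} (E ⊔ 𝐎(𝐂(w.V))) ⊔ 𝐂(w.V) :=
    le_antisymm (sup_le h2 le_sup_right) (sup_le (hB.le.trans (sup_le_sup_left hD.le _)) le_sup_right)
  generalize piCoreOf {w.p} (E ⊔ 𝐎(𝐂(w.V))) = B at *
  have S := w.sylC P3
  have nO : 𝐂(w.V) ≤ 𝐍(piCoreOf {w.p} 𝐎(𝐂(w.V))) := (hD.piCoreOf _).norm
  rw [e]
  refine ⟨B ⊔ piCoreOf {w.p} 𝐎(𝐂(w.V)), hall_sup_of_quo (normalIn_sup_left nB) (S.le.trans nB) Bp ?_, sup_le ?_ ?_⟩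
  · rw [quo_sup_left nB]; exact S.quo (S.le.trans nB)
  · exact norms_self_of_le le_sup_left
  · exact norms_sup nB nO

/-- a `C(V)`-invariant Sylow `p`-subgroup of `C(a)` -/
theorem ex_B (ha : a ∈ w.V) (a1 : a ≠ 1) : ∃ B, SylowIn w.p B 𝐂[a] ∧ 𝐂(w.V) ≤ 𝐍(B) := by
  obtain ⟨Y, hY, ho, hn, r⟩ := (w.loc a ha a1).rt_ex hpos
  have hU := piCoreOf_normalIn {2}ᶜ 𝐂[a]
  obtain ⟨B, hB, nB⟩ := w.closed hpos hk P3 (odd_card_sup (.inl (hY.trans hU.norm)) (odd_core _) ho)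
    (norms_sup ((w.CH ha).trans hU.norm) hn)
  exact ⟨B, hB.of_not_dvd_relIndex (sup_le (sup_le hU.le hY) (w.CH ha)) w.hp ((w.loc a ha a1).rt_idx Y r hY ho hn),
    le_sup_right.trans nB⟩

/-- P4 -/
theorem p4 : ∃ Y, SylowIn w.p Y ⊤ ∧ 𝐂(w.V) ≤ 𝐍(Y) := by
  have V4 := w.ws.four
  obtain ⟨a, ha, b, hb, a1, b1, ab⟩ := V4.exists_two
  obtain ⟨B, hB, nB⟩ := w.ex_B hpos hk P3 ha a1
  obtain ⟨Y, BY, ⟨Yp, hn⟩, mx⟩ := exists_maximal_ge (fun Y => PiGrp {w.p} Y ∧ 𝐂(w.V) ≤ 𝐍(Y)) ⟨hB.piGrp, nB⟩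
  refine ⟨Y, ?_, hn⟩
  rcases w.ws.rot 𝐍(Y) (w.ws.syl.le.trans hn) with ⟨c, hc, c1, iso⟩ | hr
  · have hO := piCoreOf_normalIn {2}ᶜ 𝐍(Y)
    have hU := piCoreOf_normalIn {2}ᶜ 𝐂[c]
    have CX : 𝐂(w.V) ≤ 𝐍(Y) ⊓ 𝐂[c] := le_inf hn (w.CH hc)
    have nU := inf_le_right.trans hU.norm (a := 𝐍(Y) ⊓ 𝐂[c])
    obtain ⟨R, h1, h2, h3, h4⟩ : ∃ R ≤ 𝐍(Y) ⊓ 𝐂[c], Odd (Nat.card R) ∧ 𝐂(w.V) ≤ 𝐍(R) ∧
        ¬ w.p ∣ (𝐎(𝐂[c]) ⊔ R ⊔ 𝐂(w.V)).relIndex (𝐍(Y) ⊓ 𝐂[c]) := by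
      rcases (w.loc c hc c1).ovr hpos _ inf_le_right CX with e | ⟨R, h1, h2, h3, r⟩
      · exact ⟨⊥, bot_le, by simp, norms_bot, by rwa [sup_bot_eq]⟩
      have h5 : 𝐎(𝐂[c]) ⊔ R ⊔ 𝐂(w.V) ≤ 𝐎(𝐂[c]) ⊔ 𝐍(Y) ⊓ 𝐂[c] := sup_le (sup_le_sup_left h1 _) (CX.trans le_sup_right)
      have h6 : 𝐎(𝐂[c]) ⊔ 𝐍(Y) ⊓ 𝐂[c] ≤ 𝐂[c] := sup_le hU.le inf_le_right
      refine ⟨R, h1, h2, h3, fun e => (w.loc c hc c1).rt_idx R r (h1.trans inf_le_right) h2 h3 ?_⟩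
      rw [← relIndex_cover (hU.of_le (le_sup_left.trans le_sup_left) (h5.trans h6)) nU] at e
      exact e.trans (Dvd.intro _ (relIndex_mul_relIndex _ _ _ h5 h6))
    have hK := normalIn_inf_of_norm nU
    have k1 : 𝐍(Y) ⊓ 𝐂[c] ⊓ 𝐎(𝐂[c]) ⊔ R ≤ 𝐍(Y) := (sup_le hK.le h1).trans inf_le_left
    obtain ⟨B', hB', nB'⟩ := w.closed hpos hk P3 (odd_card_sup (.inl (k1.trans hO.norm)) (odd_core _)
      (odd_card_sup (.inl (h1.trans hK.norm)) (odd_card_of_le (odd_core _) inf_le_right) h2))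
      (norms_sup (hn.trans hO.norm) (norms_sup (CX.trans hK.norm) h3))
    have YO : Y ≤ 𝐎(𝐍(Y)) := le_piCoreOf ⟨le_normalizer, le_rfl⟩ (odd_iff.1 (w.odd_p Yp))
    have YM := (YO.trans le_sup_left).trans (le_sup_left (a := _ ⊔ (𝐍(Y) ⊓ 𝐂[c] ⊓ 𝐎(𝐂[c]) ⊔ R)) (b := 𝐂(w.V)))
    have MX := sup_le (sup_le hO.le k1) hn
    obtain rfl : B' = Y := mx B' ⟨hB'.piGrp, le_sup_right.trans nB'⟩ (hB'.le_of_normal nB' YM Yp)
    refine (hB'.of_not_dvd_relIndex MX w.hp fun e => h4 ?_).of_norm_le_top le_rfl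
    have e1 := relIndex_cover (hO.of_le (le_sup_left.trans le_sup_left) MX) (inf_le_left.trans hO.norm (a := 𝐍(B') ⊓ 𝐂[c]))
    rw [le_antisymm (sup_le hO.le inf_le_left) iso] at e1
    rw [e1] at e
    rw [← inf_relIndex_right, sup_assoc, dedekind_right (.inl ((sup_le h1 CX).trans nU)) (sup_le h1 CX)]
    exact e.trans (relIndex_dvd_of_le_left _ (sup_le ((inf_comm _ _).le.trans ((le_sup_left.trans le_sup_right).trans le_sup_left))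
      (sup_le ((le_sup_right.trans le_sup_right).trans le_sup_left) le_sup_right)))
  · have key : ∀ c ∈ w.V, c ≠ 1 → Nat.card ↥(Y ⊓ 𝐂[c]) = w.k * w.q * Nat.card (piCoreOf {w.p} 𝐎(𝐂(w.V))) := fun c hc c1 => by
      obtain ⟨g, hg, rfl⟩ := hr a ha c hc a1 c1
      rw [← cj_centralizer_singleton, ← cj_eq_of_mem_normalizer hg.1, ← cj_inf, card_cj, ← w.card_H hpos hk P3 ha a1,
        hB.eq_of_le (le_inf BY hB.le) inf_le_right (Yp.inf_left _), hB.card_eq]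
    have S := w.sylC P3
    have h := w.wie P3 Yp hn ((hB.le_of_norm' S.piGrp (S.le.trans (w.CH ha)) (S.le.trans nB)).trans BY) ha hb a1 b1 ab
    rw [key a ha a1, key b hb b1, key _ (mul_mem ha hb) ((w.inv2 ha a1).mul (w.inv2 hb b1) ab (V4.comm ha hb)).ne] at h
    refine isPiHallOf_of_card le_top ?_
    rw [w.card_G hpos hk P3]
    exact mul_right_cancel₀ (pow_ne_zero 2 (card_ne_zero' _)) (h.trans (by ring))

theorem pp_of : False := let ⟨_, h1, h2⟩ := w.p4 hpos hk P3; w.p56 hpos hk P3 h1 h2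

end WI

end CA.ABG
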