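/-
Alperin–Brauer–Gorenstein theorem, wreathed case, `δ = +` and `k` a power of the characteristic: step P3 and the end.
-/
import Cfsg.Agent.Lib.ABG.WP4

set_option autoImplicit false
set_option linter.unusedSectionVars false

namespace CA.ABG

open Cfsg CA CA.FStar CA.GW Subgroup

namespace WI
variable {G : Type*} [Group G] [Finite G] (w : WI G) {E Y X P : Subgroup G} {a b : G}
variable (hpos : w.pos) (hk : ∀ r, r.Prime → r ∣ w.k → r = w.p)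
include hpos hk

/-- a `C(V)`-invariant subgroup of `O(C(a)) ⊓ C(V)` is normal in `C(a)` modulo `O_p` -/
theorem sup_normal (ha : a ∈ w.V) (a1 : a ≠ 1) (hY : Y ≤ 𝐎(𝐂[a])) (hn : 𝐂(w.V) ≤ 𝐍(Y)) :
    piCoreOf {w.p} 𝐎(𝐂[a]) ⊔ Y ⊴ 𝐂[a] := by
  have hU := piCoreOf_normalIn {2}ᶜ 𝐂[a]
  have hO := hU.piCoreOf {w.p}
  have YO := (hY.trans hU.le).trans hO.norm
  have VH := w.ws.four.le_cent1 ha
  have nC := norms_sup ((w.CH ha).trans hO.norm) hn
  refine ⟨sup_le hO.le (hY.trans hU.le), ((w.loc a ha a1).nc hpos _ (coq_normalIn hO (normalIn_inf_of_norm (norms_cent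
    (quo_norms _ hU.norm)))) ((le_coq_iff (VH.trans hO.norm)).2 (le_inf (quo_mono _ VH) (cents_symm (quo_cents_of_comm_le
      (hU.le.trans hO.norm) (VH.trans hO.norm) (w.p1U hpos hk ha)))))).trans (sup_le (sup_le ?_ ?_) nC)⟩
  · rw [← quo_norms_iff (coq_le_norm _) YO, quo_coq]
    exact norms_of_cents (inf_le_right.trans (cent_mono (quo_mono _ hY)))
  · exact (w.p2a hpos hk ha).le.trans (sup_le (norms_self_of_le le_sup_left) ((inf_le_right.trans (piCoreOf_le _ _)).trans nC))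

/-- P3 -/
theorem p3 : SylowIn w.p (piCoreOf {w.p} 𝐎(𝐂(w.V))) 𝐎(𝐂(w.V)) := by
  have V4 := w.ws.four
  have hD := piCoreOf_normalIn {2}ᶜ 𝐂(w.V)
  have nD : 𝐍(w.V) ≤ 𝐍(𝐎(𝐂(w.V))) := norms_piCoreOf _ (norms_cent le_rfl)
  have nO := norms_piCoreOf {w.p} nD
  have CN : 𝐂(w.V) ≤ 𝐍(w.V) := centralizer_le_normalizer _
  set X := 𝐎(𝐂(w.V)) ⊓ ⨅ a, ⨅ (_ : a ∈ w.V), ⨅ (_ : a ≠ 1), 𝐎(𝐂[a]) with hX
  have mX : ∀ x, x ∈ X ↔ x ∈ 𝐎(𝐂(w.V)) ∧ ∀ a ∈ w.V, a ≠ 1 → x ∈ 𝐎(𝐂[a]) := fun x => by simp [hX, mem_iInf]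
  have XD : X ≤ 𝐎(𝐂(w.V)) := inf_le_left
  clear_value X
  have nX : 𝐍(w.V) ≤ 𝐍(X) := fun g hg => mem_normalizer_of_cj_le (cj_le_iff'.2 fun x hx => (mX _).2
    ⟨conj_mem_of_mem_normalizer (nD hg) (XD hx), fun a ha a1 => by
      have := ((mX x).1 hx).2 _ (conj_inv_mem_of_mem_normalizer hg ha) (by simpa using ((w.inv2 ha a1).conj g⁻¹).ne)
      rw [← mem_cj_inv, cj_piCoreOf, cj_centralizer_singleton, inv_inv]; exact this⟩)
  suffices h : X ≤ piCoreOf {w.p} 𝐎(𝐂(w.V)) from sylowIn_of_max (piCoreOf_piGrp _ _) (piCoreOf_le _ _) fun Q Qp h1 h2 =>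
    le_antisymm (fun x hx => h ((mX x).2 ⟨h2 hx, fun a ha a1 => w.nf hpos (fun a ha _ => (w.p1U hpos hk ha).trans
      (piCoreOf_le_of_normalIn _ (piCoreOf_normalIn _ _))) a ha a1 x (h2 hx) (Qp.piElt hx)⟩)) h1
  by_contra h
  have XN := XD.trans (piCoreOf_norm {w.p} _)
  obtain ⟨N, h1, hmin, r, hr, -, hN⟩ := exists_elemAb_norm (H := 𝐍(w.V) /ₛ piCoreOf {w.p} 𝐎(𝐂(w.V)))
    (solvable_quo (solv_odd (odd_card_of_le (odd_core _) XD)) _) (quo_ne_bot XN h) (quo_norms _ nX)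
  have OX : piCoreOf {w.p} 𝐎(𝐂(w.V)) ≤ X := fun x hx => (mX x).2 ⟨piCoreOf_le _ _ hx, fun a ha a1 => (w.loc a ha a1).od hpos hx⟩
  have YX := coq_le_of_le_quo OX h1
  have nY := norms_coq nO hmin.norm
  have Nr : PiGrp {r} N := haveI := Fact.mk hr; let ⟨_, e⟩ := hN.exists_card; piGrp_of_card_pow hr e
  have rp : r ≠ w.p := fun e => hmin.ne_bot (by
    rw [← quo_coq N, quo_eq_bot_iff (coq_le_norm _)]
    exact le_piCoreOf ⟨YX.trans XD, (hD.le.trans CN).trans nY⟩ (piGrp_coq (piCoreOf_piGrp _ _) (e ▸ Nr)))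
  have hd : r ∣ Nat.card (coq (piCoreOf {w.p} 𝐎(𝐂(w.V))) N) := card_coq N ▸ (Nr.dvd_card_of_ne_bot hmin.ne_bot).mul_left _
  generalize coq (piCoreOf {w.p} 𝐎(𝐂(w.V))) N = Y at *
  have YC := (YX.trans XD).trans hD.le
  obtain ⟨F, hF⟩ := exists_sylowIn r Y
  obtain ⟨a, ha, -, -, a1, -⟩ := V4.exists_two
  have YU : Y ≤ 𝐎(𝐂[a]) := fun x hx => ((mX x).1 (YX hx)).2 a ha a1
  have hn := w.sup_normal hpos hk ha a1 YU (CN.trans nY)
  refine w.fin ha a1 (hF.ne_bot hr hd) (odd_card_of_le (odd_core _) (hF.le.trans YU))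
    (norms_of_cents (cents_symm (hF.le.trans YC))) (fun b hb c hc b1 c1 => ?_) ?_
  · obtain ⟨g, hg, rfl⟩ := w.ws.rotA b hb c hc b1 c1
    obtain ⟨y, hy, n, hn, rfl⟩ := frattini_exists_mul ⟨YC.trans CN, nY⟩ hF g hg.2
    refine ⟨n, ⟨hn.2, hn.1⟩, ?_⟩
    rw [← conj_eq_of_mem_cent (YC hy) (conj_mem_of_mem_normalizer hn.1 hb)]; group
  · have := hF.of_not_dvd_relIndex (le_sup_right (a := piCoreOf {w.p} 𝐎(𝐂[a]))) hr (by
      rw [sup_comm, relIndex_sup_of_norm' (YU.trans (piCoreOf_norm _ _))]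
      exact fun e => rp ((piCoreOf_piGrp _ _).relIndex _ r hr e))
    exact (frattini_arg hn this).ge.trans (sup_le ((sup_le (piCoreOf_le _ _) YU).trans le_sup_right)
      ((inf_comm _ _).le.trans le_sup_left))

/-- PP -/
theorem pp : False := w.pp_of hpos hk (w.p3 hpos hk)

omit hpos hk in
/-- the wreathed case, given `CL` -/
theorem false_of (cl : ∀ r : ℕ, r.Prime → r ∣ w.k → (w.pos → r ≠ w.p) → False) : False := by
  obtain ⟨r, hr, hd⟩ := Nat.exists_prime_and_dvd w.k_ne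
  exact w.pp (by_contra fun e => cl r hr hd fun k => absurd k e) fun r hr hd => by_contra fun e => cl r hr hd fun _ => e

end WI

end CA.ABG
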