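/-
Alperin–Brauer–Gorenstein theorem, wreathed case: the local analysis is contradictory.
-/
import Cfsg.Agent.Lib.ABG.WCL
import Cfsg.Agent.Lib.ABG.WP3

set_option autoImplicit false

namespace CA.ABG

theorem WI.false {G : Type*} [Group G] [Finite G] (w : WI G) : False := w.false_of fun _ => w.cl

end CA.ABG
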