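/-
Alperin–Brauer–Gorenstein theorem, wreathed case.
-/
import Cfsg.Agent.Lib.ABG.MkWI
import Cfsg.Agent.Lib.ABG.WFalse
import Cfsg.Agent.Lib.ABG.WF

set_option autoImplicit false

namespace CA.ABG

universe u

theorem MinW.false {G : Type u} [Group G] [Finite G] (m : MinW G) : False := m.wi.elim WI.false

theorem balW {G : Type u} [Group G] [Finite G] [IsSimpleGroup G] (h : WSyl (⊤ : Subgroup G)) : Bal G :=
  balW_of (fun _ _ _ m => m.false) G h

theorem abgW {G : Type u} [Group G] [Finite G] [IsSimpleGroup G] (h : WSyl (⊤ : Subgroup G)) : Ident G :=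
  identW h (balW h)

end CA.ABG
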