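/-
Alperin–Brauer–Gorenstein, semidihedral case: two lattice arguments.
-/
import Cfsg.Agent.Lib.ABG.PDec

set_option autoImplicit false
set_option linter.unusedSectionVars false
set_option maxHeartbeats 400000

open scoped ComplexConjugate

namespace CA.ABG

open Cfsg Subgroup CA CA.Ch CA.Br

variable {E : Type*} [Group E] [Finite E] {S : RA E} {G : Type*} [Group G] [Finite G]

theorem orthZ {a b : G → ℂ} (ha : IsSIrr a) (hb : IsSIrr b) {x : G} {m n : ℤ} (e1 : a x = m) (e2 : b x = n)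
    (h1 : m ≠ n) (h2 : m ≠ -n) : ⟪a, b⟫ = 0 := by_contra fun h => by
  rcases ha.eq_or_of_ip_ne hb h with rfl | rfl
  · exact h1 (by exact_mod_cast e1.symm.trans e2)
  · rw [Pi.neg_apply, e2] at e1; exact h2 (by exact_mod_cast e1.symm)

theorem pick2 {f p : G → ℂ} (vf : IsVC f) (vp : IsVC p) (nf : ⟪f, f⟫ = 3) (np : ⟪p, p⟫ = 2) (h : ⟪f, p⟫ = 1) :
    ∃ a b, IsSIrr a ∧ IsSIrr b ∧ ⟪a, b⟫ = 0 ∧ p = a + b ∧ ⟪f, a⟫ = 1 := by
  obtain ⟨a, b, ha, hb, ab, rfl⟩ := vp.norm_two np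
  have n3 : nrm f = 3 := nrm_eq_of_ip (by simpa using nf)
  have h1 := vf.zi_sq_le ha
  have h2 := vf.zi_sq_le hb
  rw [ip_add_right, vf.zi_eq ha.isVC, vf.zi_eq hb.isVC] at h
  rw [n3] at h1 h2
  have h3 : zi f a + zi f b = 1 := by exact_mod_cast h
  have h4 : zi f a ^ 2 ≤ 3 := by exact_mod_cast h1
  have h5 : zi f b ^ 2 ≤ 3 := by exact_mod_cast h2
  have : zi f a = 1 ∨ zi f b = 1 := by
    have : zi f a ≤ 1 := by nlinarith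
    have : zi f b ≤ 1 := by nlinarith
    omega
  rcases this with e | e
  · exact ⟨a, b, ha, hb, ab, rfl, by rw [vf.zi_eq ha.isVC, e]; simp⟩
  · exact ⟨b, a, hb, ha, ip_eq_zero_symm ab, add_comm _ _, by rw [vf.zi_eq hb.isVC, e]; simp⟩

theorem orth22 {a b c d : G → ℂ} (ha : IsSIrr a) (hb : IsSIrr b) (hc : IsSIrr c) (hd : IsSIrr d) (ab : ⟪a, b⟫ = 0)
    (cd : ⟪c, d⟫ = 0) (h : ⟪a + b, c + d⟫ = 0) (h1 : (a + b) 1 = 0) (h2 : (c + d) 1 = 0) :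
    ⟪a, c⟫ = 0 ∧ ⟪b, c⟫ = 0 := by
  have := orth_of_diff_orth ha hb.neg hc hd.neg one_ne_zero one_ne_zero (by rw [ip_neg_right, ab, neg_zero])
    (by rw [ip_neg_right, cd, neg_zero]) (by simpa using h) (eq_neg_of_add_eq_zero_left h1)
    (by simpa using eq_neg_of_add_eq_zero_left h2)
  exact ⟨this.1, by simpa [ip_neg_left] using this.2.2.1⟩

theorem lat_p2c {τ : G} {N k Q : ℂ} (A : (G → ℂ) →ₗ[ℂ] ℂ) (hA : ∀ χ, IsSIrr χ → A χ = N * (χ τ ^ 2 / χ 1))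
    (N0 : N ≠ 0) (k0 : k ≠ 0) (Q0 : Q ≠ 0) (Q1 : Q - 1 ≠ 0) (Q2 : Q + 1 ≠ 0) {p m f f' : G → ℂ} (vp : IsVC p)
    (vm : IsVC m) (vf : IsVC f) (vf' : IsVC f') (pp : ⟪p, p⟫ = 2) (mm : ⟪m, m⟫ = 2) (pm : ⟪p, m⟫ = 0) (ff : ⟪f, f⟫ = 3)
    (ff' : ⟪f, f'⟫ = 2) (f'f' : ⟪f', f'⟫ = 3) (fp : ⟪f, p⟫ = 1) (fm : ⟪f, m⟫ = 1) (fp' : ⟪f', p⟫ = 1)
    (fm' : ⟪f', m⟫ = 1) (dp : p 1 = 0) (dm : m 1 = 0) (df : f 1 = 0) (df' : f' 1 = 0) (tp : p τ = 2 * (Q + 1))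
    (tm : m τ = -2 * (Q + 1)) (tf : f τ = 2 * (1 - Q)) (tf' : f' τ = 0) (Ap : A p = 4 * k ^ 2 * Q ^ 2 * (Q + 1))
    (Am : A m = -4 * k ^ 2 * Q ^ 2 * (Q + 1)) (Af : A f = k ^ 2 * Q * (Q - 1) * (Q + 1) ^ 2) (Af' : A f' = A f) :
    ∃ n : ℤ, N = k ^ 2 * Q ^ 2 * n := by
  obtain ⟨a, a', ha, ha', aa, rfl, fa⟩ := pick2 vf vp ff pp fp
  obtain ⟨b, b', hb, hb', bb, rfl, fb⟩ := pick2 vf vm ff mm fm
  obtain ⟨c, c', hc, hc', cc, e⟩ := (vf.sub vf').norm_two (by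
    rw [ip_sub_left, ip_sub_right, ip_sub_right, ff, ff', f'f', ← vf.ip_comm vf', ff']; norm_num)
  have ab := (orth22 ha ha' hb hb' aa bb pm dp dm).1
  have d0 : (c + c') 1 = 0 := by rw [← e, Pi.sub_apply, df, df', sub_self]
  have kk : ∀ {a a'}, IsSIrr a → IsSIrr a' → ⟪a, a'⟫ = 0 → (a + a') 1 = 0 → ⟪f, a + a'⟫ = 1 → ⟪f', a + a'⟫ = 1 →
      ⟪f, a⟫ = 1 → ⟪f', a⟫ = 1 := fun {a a'} ha ha' aa d h h' h1 => by
    have := orth22 hc hc' ha ha' cc aa (by rw [← e, ip_sub_left, h, h', sub_self]) d0 d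
    have h2 : ⟪f - f', a⟫ = 0 := by rw [e, ip_add_left, this.1, this.2, add_zero]
    rw [ip_sub_left, h1] at h2
    linear_combination -h2
  have X : ∀ {f}, IsVC f → ⟪f, f⟫ = 3 → ⟪f, a⟫ = 1 → ⟪f, b⟫ = 1 → f 1 = 0 → a 1 + b 1 ≠ 0 ∧
      A f = N * (a τ ^ 2 / a 1) + N * (b τ ^ 2 / b 1) - N * ((f τ - a τ - b τ) ^ 2 / (a 1 + b 1)) :=
    fun {f} v n h1 h2 d => by
      have := ((v.sub ha.isVC).sub hb.isVC).isSIrr_of_nrm (by
        rw [nrm_sub_sirr hb (by rw [ip_sub_left, h2, ab, sub_zero]), nrm_sub_sirr ha h1,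
          nrm_eq_of_ip (r := 3) (by simpa using n)]; norm_num)
      have h3 := hA _ this
      have h4 := this.ne_zero_one
      simp only [map_sub, hA _ ha, hA _ hb, Pi.sub_apply, d, zero_sub, ← neg_add', div_neg] at h3 h4
      exact ⟨neg_ne_zero.1 h4, by linear_combination h3⟩
  obtain ⟨c0, e1⟩ := X vf ff fa fb df
  obtain ⟨-, e2⟩ := X vf' f'f' (kk ha ha' aa dp fp fp' fa) (kk hb hb' bb dm fm fm' fb) df'
  rw [map_add, hA _ ha, hA _ ha', show a' 1 = -a 1 from eq_neg_of_add_eq_zero_right dp,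
    show a' τ = 2 * (Q + 1) - a τ from eq_sub_of_add_eq' tp] at Ap
  rw [map_add, hA _ hb, hA _ hb', show b' 1 = -b 1 from eq_neg_of_add_eq_zero_right dm,
    show b' τ = -2 * (Q + 1) - b τ from eq_sub_of_add_eq' tm] at Am
  rw [Af', e1, tf, tf'] at e2
  rw [Af, tf] at e1
  obtain ⟨x, hx⟩ := ha.isVC.int
  obtain ⟨y, hy⟩ := hb.isVC.int
  have a0 := ha.ne_zero_one
  have b0 := hb.ne_zero_one
  rw [hx] at a0
  rw [hy] at b0
  rw [hx, hy] at e1 e2 c0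
  rw [hx] at Ap
  rw [hy] at Am
  clear X kk
  have f4 : (4 : ℂ) ≠ 0 := by norm_num
  generalize a τ = u, b τ = v at *
  have g1 : N * (u - (Q + 1)) = k ^ 2 * Q ^ 2 * x := mul_left_cancel₀ (mul_ne_zero f4 Q2) (by
    field_simp at Ap; linear_combination Ap)
  have g2 : N * (v + (Q + 1)) = k ^ 2 * Q ^ 2 * y := mul_left_cancel₀ (mul_ne_zero f4 Q2) (by
    field_simp at Am; linear_combination -Am)
  have g3 : u + v = 1 - Q := mul_left_cancel₀ (mul_ne_zero (mul_ne_zero f4 Q1) (mul_ne_zero a0 b0)) (by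
    field_simp at e2; linear_combination -e2)
  obtain rfl : v = 1 - Q - u := by linear_combination g3
  have kQ : k ^ 2 * Q ^ 2 ≠ 0 := mul_ne_zero (pow_ne_zero _ k0) (pow_ne_zero _ Q0)
  have hx' : (x : ℂ) = N * (u - (Q + 1)) / (k ^ 2 * Q ^ 2) := by rw [g1]; field_simp
  have hy' : (y : ℂ) = N * (1 - Q - u + (Q + 1)) / (k ^ 2 * Q ^ 2) := by rw [g2]; field_simp
  have hc' : (x : ℂ) + y = N * (1 - Q) / (k ^ 2 * Q ^ 2) := by rw [hx', hy']; field_simp; ring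
  have z1 : u - (Q + 1) ≠ 0 := fun e => a0 (by rw [hx', e]; simp)
  have z2 : 1 - Q - u + (Q + 1) ≠ 0 := fun e => b0 (by rw [hy', e]; simp)
  have Q1' : 1 - Q ≠ 0 := fun e => Q1 (by linear_combination -e)
  have g4 : (u - (Q + 1) - 1) * (1 - Q - u + (Q + 1) - 1) = 0 := by
    rw [hc', hx', hy'] at e1
    field_simp at e1
    refine mul_left_cancel₀ (mul_ne_zero (mul_ne_zero Q1 Q1) (pow_ne_zero 2 Q2)) ?_
    linear_combination -e1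
  rcases mul_eq_zero.1 g4 with e | e
  · exact ⟨x, by linear_combination g1 - N * e⟩
  · exact ⟨y, by linear_combination g2 - N * e⟩

namespace POm.Cons

variable {O : POm S G} {α : Du S.H} {φ : Du S.W} {χS X Y1 Y2 Z : G → ℂ} (c : O.Cons α φ 1 χS X Y1 Y2 Z)
include c

theorem p2d (hp : _root_.commutator G = ⊤) {Θ : G → ℂ} (v : IsVC Θ) (n3 : ⟪Θ, Θ⟫ = 3) (h1 : ⟪Θ, 1⟫ = 0)
    (hφ : ⟪Θ, O.θ φ⟫ = 1) (hα : ⟪Θ, O.θ (S.rW α)⟫ = 0) (hη : ⟪Θ, O.η α⟫ = 1) (d : Θ 1 = 0) (t : Θ O.τ = 0)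
    (A : O.A Θ = -2 * (O.k ^ 2 * S.Q * (S.Q + 1) ^ 2)) : False := by
  have q3 : (3 : ℤ) ≤ S.q := by exact_mod_cast S.three_le
  have hQ : 3 ≤ S.Q ∨ S.Q ≤ -3 := by rcases S.Q_cases with ⟨-, h⟩ | ⟨-, h⟩ <;> omega
  have vS : χS O.τ = (S.Q : ℤ) := c.St
  have vX : X O.τ = (1 - S.Q : ℤ) := by rw [c.Xt]; simp
  have v1 : Y1 O.τ = (-S.Q : ℤ) := by rw [c.Y1t]; simp
  have v2 : Y2 O.τ = (-1 : ℤ) := by rw [c.Y2t]; simp
  have vZ : Z O.τ = (S.Q + 1 : ℤ) := by rw [c.Zt]; simp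
  have SX := orthZ c.iS c.iX vS vX (by omega) (by omega)
  have S2 := orthZ c.iS c.i2 vS v2 (by omega) (by omega)
  have SZ := orthZ c.iS c.iZ vS vZ (by omega) (by omega)
  have X1 := orthZ c.iX c.i1 vX v1 (by omega) (by omega)
  have X2 := orthZ c.iX c.i2 vX v2 (by omega) (by omega)
  have XZ := orthZ c.iX c.iZ vX vZ (by omega) (by omega)
  have Y12 := orthZ c.i1 c.i2 v1 v2 (by omega) (by omega)
  have Y1Z := orthZ c.i1 c.iZ v1 vZ (by omega) (by omega)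
  have Y2Z := orthZ c.i2 c.iZ v2 vZ (by omega) (by omega)
  have S1 : ⟪χS, Y1⟫ = 0 := by
    have := c.Sθ _ (c.hα.comp _) (S.rW_ne (al1 c.hu))
    rw [c.e2, ip_sub_right, ip_sub_right, ip_add_right, c.So, S2, c.iS.ip_self] at this
    linear_combination -this
  obtain ⟨a, ha⟩ := v.ip_int c.iS.isVC
  obtain ⟨x, hx⟩ := v.ip_int c.iX.isVC
  obtain ⟨m, hm⟩ := v.ip_int c.i1.isVC
  obtain ⟨n, hn⟩ := v.ip_int c.i2.isVC
  obtain ⟨z, hz⟩ := v.ip_int c.iZ.isVC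
  rw [c.e1, ip_sub_right, ip_add_right, h1, ha, hx] at hφ
  rw [c.e2, ip_sub_right, ip_sub_right, ip_add_right, h1, ha, hm, hn] at hα
  rw [c.e3, ip_sub_right, ip_sub_right, h1, hm, hz] at hη
  have r1 : x - a = 1 := by exact_mod_cast (show ((x : ℂ) - a) = 1 by linear_combination hφ)
  have r2 : n - m - a = 0 := by exact_mod_cast (show ((n : ℂ) - m - a) = 0 by linear_combination hα)
  have r3 : m - z = 1 := by exact_mod_cast (show ((m : ℂ) - z) = 1 by linear_combination hη)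
  obtain ⟨Γ, hΓ⟩ : ∃ Γ, Γ = Θ - (a : ℂ) • χS - (x : ℂ) • X - (m : ℂ) • Y1 - (n : ℂ) • Y2 - (z : ℂ) • Z := ⟨_, rfl⟩
  have vΓ : IsVC Γ := hΓ ▸ ((((v.sub (c.iS.isVC.intCast_smul _)).sub (c.iX.isVC.intCast_smul _)).sub
    (c.i1.isVC.intCast_smul _)).sub (c.i2.isVC.intCast_smul _)).sub (c.iZ.isVC.intCast_smul _)
  have nΓ : nrm Γ = ((3 - a ^ 2 - x ^ 2 - m ^ 2 - n ^ 2 - z ^ 2 : ℤ) : ℝ) := by
    rw [hΓ, nrm_sub_smul_sirr c.iZ (by simp [ip_sub_left, ip_smul_left, SZ, XZ, Y1Z, Y2Z, hz]),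
      nrm_sub_smul_sirr c.i2 (by simp [ip_sub_left, ip_smul_left, S2, X2, Y12, hn]),
      nrm_sub_smul_sirr c.i1 (by simp [ip_sub_left, ip_smul_left, S1, X1, hm]),
      nrm_sub_smul_sirr c.iX (by simp [ip_sub_left, ip_smul_left, SX, hx]), nrm_sub_smul_sirr c.iS ha,
      nrm_eq_of_ip (r := 3) (by simpa using n3)]
    push_cast; rfl
  have le : 0 ≤ 3 - a ^ 2 - x ^ 2 - m ^ 2 - n ^ 2 - z ^ 2 := by exact_mod_cast nΓ ▸ nrm_nonneg Γ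
  have G1 := congrFun hΓ 1
  have Gt := congrFun hΓ O.τ
  have GA := congrArg O.A hΓ
  simp only [Pi.sub_apply, Pi.smul_apply, smul_eq_mul, d, t, c.X1, c.Y21, c.Z1, c.St, c.Xt, c.Y1t, c.Y2t, c.Zt,
    Pi.one_apply, map_sub, map_smul, A, O.A_sirr c.iS, O.A_sirr c.iX, O.A_sirr c.i1, O.A_sirr c.i2,
    O.A_sirr c.iZ] at G1 Gt GA
  have s0 := c.iS.ne_zero_one
  have y0 := c.i1.ne_zero_one
  have s1 : χS 1 - 1 ≠ 0 := c.X1 ▸ c.iX.ne_zero_one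
  have y1 : Y1 1 - 1 ≠ 0 := c.Z1 ▸ c.iZ.ne_zero_one
  have c0 : Y1 1 + χS 1 - 1 ≠ 0 := c.Y21 ▸ c.i2.ne_zero_one
  have c1 : Y1 1 + χS 1 ≠ 0 := fun e => by
    have := eq_one_of_perf hp c.i2.neg (by rw [Pi.neg_apply, c.Y21, e]; simp)
    have h := c.Y2o
    rw [← neg_neg Y2, this, ip_neg_left, ip_one_one] at h
    norm_num at h
  have I0 : (O.N : ℂ) ≠ 0 := by exact_mod_cast index_ne_zero_of_finite
  have k0 : (O.k : ℂ) ≠ 0 := by exact_mod_cast O.k_pos.ne'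
  obtain ⟨Q0, Q1, Q2⟩ := Qne (S := S)
  have E1 := c.E1
  have E2 := c.E2
  simp only [Pi.one_apply, mul_one] at E1 E2
  have z0 : nrm Γ = 0 → Γ 1 = 0 := fun h => by rw [nrm_eq_zero.1 h]; rfl
  have z1 : nrm Γ = 1 → Γ 1 ≠ 0 ∧ O.A Γ = O.N * (Γ O.τ ^ 2 / Γ 1) := fun h =>
    ⟨(vΓ.isSIrr_of_nrm h).ne_zero_one, O.A_sirr (vΓ.isSIrr_of_nrm h)⟩
  rw [G1, Gt, GA, nΓ] at z1
  rw [G1, nΓ] at z0
  generalize χS 1 = s, Y1 1 = y, (S.Q : ℂ) = Q, (O.N : ℂ) = N, (O.k : ℂ) = k at *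
  have sQ : s - Q ≠ 0 := fun e => by
    rw [e] at E1; simp [k0, Q0, Q1, Q2, s0, s1] at E1
  have b0 : s - Q ^ 2 ≠ 0 := fun e => mul_ne_zero (pow_ne_zero 2 Q0) s1 (by linear_combination -E2 + y * e)
  have e0 : (y + s) * (s - Q ^ 2) = (s - Q) * (s + Q) := by linear_combination E2
  have e2 : (y - s) * (s - Q ^ 2) = -(s ^ 2 - 2 * Q ^ 2 * s + Q ^ 2) := by linear_combination E2
  have : (a = -1 ∧ x = 0 ∧ m = 1 ∧ n = 0 ∧ z = 0) ∨ (a = -1 ∧ x = 0 ∧ m = 0 ∧ n = -1 ∧ z = -1) ∨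
      (a = 0 ∧ x = 1 ∧ m = 1 ∧ n = 1 ∧ z = 0) ∨ (a = 0 ∧ x = 1 ∧ m = 0 ∧ n = 0 ∧ z = -1) := by
    have : -1 ≤ a ∧ a ≤ 0 ∧ 0 ≤ m ∧ m ≤ 1 := by
      obtain rfl : x = a + 1 := by omega
      obtain rfl : z = m - 1 := by omega
      refine ⟨?_, ?_, ?_, ?_⟩ <;> nlinarith [sq_nonneg n, sq_nonneg a, sq_nonneg m, sq_nonneg (a + 1), sq_nonneg (m - 1)]
    omega
  rcases this with ⟨rfl, rfl, rfl, rfl, rfl⟩ | ⟨rfl, rfl, rfl, rfl, rfl⟩ | ⟨rfl, rfl, rfl, rfl, rfl⟩ |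
    ⟨rfl, rfl, rfl, rfl, rfl⟩
  · obtain ⟨g0, g⟩ := z1 (by norm_num)
    push_cast at g0 g
    have g1 : s - y ≠ 0 := fun e => g0 (by linear_combination e)
    have g2 : N * Q ^ 2 * (y + s) ^ 2 = -2 * (k ^ 2 * Q * (Q + 1) ^ 2) * s * y * (s - y) := by
      rw [show (0 : ℂ) - -1 * s - 0 * (s - 1) - 1 * y - 0 * (y + s - 1) - 0 * (y - 1) = s - y by ring] at g
      simp only [zero_mul, sub_zero] at g
      field_simp at g
      linear_combination -g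
    have g3 : (y + s) ^ 2 * (Q - 1) * (s - Q ^ 2) = -2 * (s - y) * (s - Q) ^ 2 :=
      mul_left_cancel₀ (mul_ne_zero I0 y0) (by
        linear_combination (Q - 1) * (s - 1) * g2 + N * (y + s) ^ 2 * (Q - 1) * E2 + 2 * y * (s - y) * E1)
    have : (s - Q) ^ 4 * (Q + 1) = 0 := by
      linear_combination (s - Q ^ 2) * g3 - (Q - 1) * ((y + s) * (s - Q ^ 2) + (s - Q) * (s + Q)) * e0 +
        2 * (s - Q) ^ 2 * e2
    simp [sQ, Q2] at this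
  · exact c0 (by have := z0 (by norm_num); push_cast at this; linear_combination (1 / 2) * this)
  · exact c0 (by have := z0 (by norm_num); push_cast at this; linear_combination (-1 / 2) * this)
  · obtain ⟨g0, g⟩ := z1 (by norm_num)
    push_cast at g0 g
    have g1 : y - s ≠ 0 := fun e => g0 (by linear_combination e)
    have g2 : N * ((1 - Q) ^ 2 * (y - 1) * (y - s) - (Q + 1) ^ 2 * (s - 1) * (y - s) + 4 * Q ^ 2 * (s - 1) * (y - 1)) =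
        -2 * (k ^ 2 * Q * (Q + 1) ^ 2) * (s - 1) * (y - 1) * (y - s) := by
      rw [show (0 : ℂ) - 0 * s - 1 * (s - 1) - 0 * y - 0 * (y + s - 1) - -1 * (y - 1) = y - s by ring] at g
      simp only [zero_mul, sub_zero] at g
      field_simp at g
      linear_combination -g
    have e1 : (y - 1) * (s - Q ^ 2) = s * (Q ^ 2 - 1) := by linear_combination E2
    have : N * (Q + 1) * (Q - 1) * ((s - Q) * (s + Q)) ^ 2 = 0 := by
      linear_combination (s - Q ^ 2) ^ 2 * g2 -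
        ((N * (1 - Q) ^ 2 + 2 * (k ^ 2 * Q * (Q + 1) ^ 2) * (s - 1)) * (y - s) * (s - Q ^ 2) +
          4 * N * Q ^ 2 * (s - 1) * (s - Q ^ 2)) * e1 -
        ((N * (1 - Q) ^ 2 + 2 * (k ^ 2 * Q * (Q + 1) ^ 2) * (s - 1)) * (s * (Q ^ 2 - 1)) -
          N * (Q + 1) ^ 2 * (s - 1) * (s - Q ^ 2)) * e2 - 2 * (Q + 1) * (s ^ 2 - 2 * Q ^ 2 * s + Q ^ 2) * E1
    rw [← e0] at this
    simp [I0, Q1, Q2, c1, b0] at this

end POm.Cons

end CA.ABG
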