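/-
Alperin–Brauer–Gorenstein, semidihedral case: class functions on the torus and induction without blocks.
-/
import Cfsg.Agent.Lib.ABG.SD1
import Cfsg.Agent.Lib.ABG.PW

set_option autoImplicit false
set_option linter.unusedSectionVars false
set_option maxHeartbeats 400000

namespace CA.ABG

open Cfsg Subgroup CA CA.Ch CA.Br CA.ABG.HO Finset ComplexConjugate
open CA.Blk (pi0)
open CA.Br.OmB (inv_unique exists_inv not_odd_of_inv zp_conj zp_conj_iff zp_mul_odd zp_mul_odd_iff comm_of_zp conj_sq)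

variable {G E : Type*} [Group G] [Group E] [Finite G] [Finite E]

theorem ip_zero_shift {a b : G → ℂ} (y : G) {c c' : ℂ} (ha : ∀ x, a (x * y) = c * a x) (hb : ∀ x, b (x * y) = c' * b x)
    (h : c * conj c' ≠ 1) : ⟪a, b⟫ = 0 := by
  have := ip_comp_equiv (Equiv.mulRight y) a b
  rw [show a ∘ Equiv.mulRight y = c • a from funext ha, show b ∘ Equiv.mulRight y = c' • b from funext hb,
    ip_smul_left, ip_smul_right, ← mul_assoc] at this
  exact by_contra fun e => h ((mul_eq_right₀ e).1 this)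

theorem defl {π : G →* E} (hs : Function.Surjective π) (l : Du G) (h : ∀ x, π x = 1 → l.ch x = 1) :
    ∃ β : Du E, ∀ x, β.ch (π x) = l.ch x :=
  let φ : {φ : G →* ℂˣ // π.ker ≤ φ.ker} := ⟨l.hom, fun x hx => Units.ext (h x hx)⟩
  ⟨π.liftOfSurjective hs φ, fun x =>
    congrArg Units.val (π.liftOfRightInverse_comp_apply _ (Function.rightInverse_surjInv hs) φ x)⟩

/-- linear characters of odd order -/
def Od (l : Du G) : Prop := ∀ x, PiElt {2} x → l.ch x = 1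

theorem ch_split (l : Du G) (x : G) : l.ch x = l.ch (constt {2} x) * l.ch (constt {2}ᶜ x) := by
  rw [← Du.ch_apply_mul, constt_mul_compl]
theorem odd_constt (x : G) : Odd (orderOf (constt {2}ᶜ x)) := Blk.piElt_two_compl.1 (constt_piElt _ x)
theorem Od.ex {l : Du G} (h : Od l) (l1 : l ≠ 1) : ∃ y, Odd (orderOf y) ∧ l.ch y ≠ 1 := by
  by_contra! e
  exact l1 (Du.ext' fun x => by rw [ch_split, h _ (constt_piElt _ x), e _ (odd_constt x)]; simp)
theorem sq_ne {l : Du G} {y : G} (ho : Odd (orderOf y)) (h : l.ch y ≠ 1) : l.ch y * l.ch y ≠ 1 := fun e => h (by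
  obtain ⟨k, hk⟩ := ho
  have : l.ch y ^ orderOf y = 1 := by rw [← Du.ch_apply_pow, pow_orderOf_eq_one, Du.ch_apply_one]
  rwa [hk, pow_succ, pow_mul, sq, e, one_pow, one_mul] at this)
theorem conj_ch' (l : Du G) (y : G) : conj (l.ch y⁻¹) = l.ch y := by
  have : l⁻¹.ch y⁻¹ = l.ch y := congrArg Units.val (show (l.hom y⁻¹)⁻¹ = _ by rw [map_inv, inv_inv])
  rwa [Du.ch_inv] at this
theorem mul_conj_ch (l : Du G) (y : G) : l.ch y * conj (l.ch y) = 1 := by
  rw [← inv_inv y, conj_ch', ← Du.ch_apply_mul, inv_mul_cancel, Du.ch_apply_one]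

theorem sq_of_pi {x : G} (h : PiElt {2} x) {m : ℕ} (hm : Odd m) (e : x ^ (2 * m) = 1) : x * x = 1 :=
  (h.mul h rfl).eq_one (Blk.piElt_two_compl.2 (hm.of_dvd_nat (orderOf_dvd_of_pow_eq_one (by rw [← sq, ← pow_mul, e]))))

theorem HO.Tor.D_σ {S : HA E} (P : Tor S) (a : P.A → ℂ) : P.D (a ∘ P.σ) = P.D a := by
  rw [← sub_eq_zero, ← map_sub, ← ip_self_eq_zero, Tor.ip_DD, ← ip_add_right]
  rw [show a ∘ P.σ - a + (a ∘ P.σ - a) ∘ P.σ = 0 by ext x; simp [P.σσ], ip_zero_right]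

theorem HO.Tor.eta_mul {S : HA E} (P : Tor S) (f : S.H → ℂ) (β : Du S.H) :
    P.eta (f * β.ch) = P.eta f * (Du.comp P.i β).ch := P.fext
  (fun z => by
    simp only [Pi.mul_apply, Tor.eta_Z, j, Du.ch_apply_mul, S.lin_U β _ (y0_U S)]
    rw [show (Du.comp P.i β).ch (P.z z) = β.ch (zH S z) from rfl]; ring)
  fun x hx => by rw [Pi.mul_apply, P.eta_A _ hx, P.eta_A _ hx]; rfl

theorem HO.Tor.odd_M {S : RA E} (P : Tor S.toHA) {y : P.A} (h : Odd (orderOf y)) : P.σ y = y⁻¹ := by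
  have h1 : ((y * P.σ y : P.A) : E) ∈ S.Z := P.memZ.2 ⟨(y * P.σ y).2, congrArg Subtype.val
    (show P.σ (y * P.σ y) = y * P.σ y by rw [map_mul, P.σσ, mul_comm'])⟩
  exact eq_inv_of_mul_eq_one_right ((piElt_coe.1 (S.Z2 _ h1)).eq_one (Blk.piElt_two_compl.2
    ((oddK P.A).mul_mem h (h.of_dvd_nat (orderOf_map_dvd P.σ y)))))

namespace RA

variable {S : RA E} (h3 : S.Q % 4 = 3)
include h3

theorem Z_cases {z : E} (hz : z ∈ S.Z) : z = 1 ∨ z = S.t := by
  obtain ⟨k, hk, e⟩ := S.d_mul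
  obtain ⟨c, hc⟩ := S.d_even
  have h1 : c % 2 = 1 := by
    rcases Int.emod_two_eq_zero_or_one c with h | h
    · obtain ⟨b, rfl⟩ := Int.dvd_of_emod_eq_zero h
      have : S.Q - 1 = 4 * (b * k) := by rw [e, hc]; ring
      omega
    · exact h
  refine S.inv_W (S.Z_le_W hz) (sq_of_pi (S.Z2 z hz) (m := S.d / 2) (Nat.odd_iff.2 (by omega)) ?_)
  rw [show 2 * (S.d / 2) = S.d by omega]
  exact congrArg S.Z.subtype (pow_card_eq_one' (x := (⟨z, hz⟩ : S.Z)))

theorem sq2 {x : S.T} (h : PiElt {2} x) : x * x = 1 := by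
  have k : ∀ {x : S.T}, PiElt {2} x → x * x = 1 ∨ x * x = S.tT := fun {x} h => by
    have h1 : ((x * S.s x : S.T) : E) ∈ S.Z := S.mem_Z_T.2 ⟨(x * S.s x).2, congrArg Subtype.val
      (show S.s (x * S.s x) = x * S.s x by rw [map_mul, S.ss, mul_comm'])⟩
    have h2 : ((x * (S.s x)⁻¹ : S.T) : E) ∈ S.Tm := S.mem_Tm.2 ⟨(x * (S.s x)⁻¹).2, congrArg Subtype.val
      (show S.s (x * (S.s x)⁻¹) = (x * (S.s x)⁻¹)⁻¹ by rw [map_mul, map_inv, S.ss]; simp)⟩
    obtain ⟨c, hc⟩ := S.card_Tm2 h3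
    have h4 := sq_of_pi (piElt_coe.2 (h.mul (h.map S.s).inv (mul_comm' _ _))) (m := 2 * c + 1) ⟨c, rfl⟩
      (hc ▸ congrArg S.Tm.subtype (pow_card_eq_one' (x := (⟨_, h2⟩ : S.Tm))))
    have e : x * x = x * S.s x * (x * (S.s x)⁻¹) := by rw [mul_comm' x (S.s x)⁻¹]; group
    have a : x * S.s x = 1 ∨ x * S.s x = S.tT := (Z_cases h3 h1).imp Subtype.ext Subtype.ext
    have b : x * (S.s x)⁻¹ = 1 ∨ x * (S.s x)⁻¹ = S.tT := by
      rcases S.inv_T (x * (S.s x)⁻¹).2 h4 with e | e | e | e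
      · exact Or.inl (Subtype.ext e)
      · exact Or.inr (Subtype.ext e)
      · exact absurd (e ▸ h2) S.u_not_Tm
      · exact absurd ((mul_mem_cancel_left S.t_Tm).1 (e ▸ h2)) S.u_not_Tm
    rcases a with a | a <;> rcases b with b | b <;> simp [e, a, b, S.tT2]
  refine (k h).resolve_right fun e => ?_
  have := k (h.map S.r)
  rw [← map_mul, e, S.r_t] at this
  exact this.elim (fun e => S.u_ne (congrArg Subtype.val e)) fun e => S.t_ne_u (congrArg Subtype.val e).symm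

theorem cases2 (x : S.T) : constt {2} x = 1 ∨ constt {2} x = S.tT ∨ constt {2} x = S.uT ∨ constt {2} x = S.tT * S.uT :=
  (S.inv_T (constt {2} x).2 (congrArg Subtype.val (sq2 h3 (constt_piElt _ x)))).imp Subtype.ext
    (Or.imp Subtype.ext (Or.imp Subtype.ext Subtype.ext))

omit h3 in
theorem tw_val {a : Du S.T} (ha : Tw a) (x : S.T) : a.ch x = a.ch (constt {2} x) := by
  rw [ch_split, ha _ (odd_constt x), mul_one]

theorem tw_ext {a b : Du S.T} (ha : Tw a) (hb : Tw b) (ht : a.ch S.tT = b.ch S.tT) (hu : a.ch S.uT = b.ch S.uT) :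
    a = b := Du.ext' fun x => by
  rw [tw_val ha, tw_val hb]
  rcases cases2 h3 x with e | e | e | e <;> simp [e, ht, hu, Du.ch_apply_mul]

omit h3 in
theorem od_eq {β : Du S.H} (h : Od β) : β = 1 := S.inj_T S.T_le_H ((Du.ext' fun x => by
  rw [ch_split]
  exact (congrArg₂ _ (h _ ((constt_piElt _ x).map (inclusion S.T_le_H)))
    (S.lin_Tm β _ (S.odd_Tm (odd_constt x)))).trans (mul_one _)).trans (map_one _).symm)

end RA

/-- the characters of the four-group -/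
structure AN (S : RA E) (α : Du S.H) (ν : Du S.T) : Prop where
  h3 : S.Q % 4 = 3
  hα : Tw α
  hν : Tw ν
  αu : (S.rT α).ch S.uT = -1
  νt : ν.ch S.tT = -1
  νu : ν.ch S.uT = 1

theorem exists_AN {S : RA E} (h3 : S.Q % 4 = 3) {α : Du S.H} (hα : Tw α) (hu : (S.rT α).ch S.uT = -1) :
    ∃ ν, AN S α ν := by
  have ht := S.fix_t (S.fix_rT α)
  refine ⟨S.R (S.R (S.rT α)), h3, hα, ((hα.comp _).comp _).comp _, hu, ?_, ?_⟩
  · change (S.rT α).ch (S.r (S.r _)) = _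
    rw [S.r_t, S.r_u, Du.ch_apply_mul, ht, hu, one_mul]
  · change (S.rT α).ch (S.r (S.r _)) = _
    rw [← S.r_t, S.rrr, ht]

namespace AN

variable {S : RA E} {α : Du S.H} {ν : Du S.T} (h : AN S α ν)
include h

/-- four times the indicator of the section of `t` -/
noncomputable def a (_ : AN S α ν) : S.T → ℂ := (1 + (S.rT α).ch) * (1 - ν.ch)
/-- four times the indicator of the section of `u` -/
noncomputable def b (_ : AN S α ν) : S.T → ℂ := (1 - (S.rT α).ch) * (1 + ν.ch)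

theorem αt : (S.rT α).ch S.tT = 1 := S.fix_t (S.fix_rT α)
theorem αT : Tw (S.rT α) := h.hα.comp _

open Classical in
theorem a_eq (x : S.T) : h.a x = if constt {2} x = S.tT then 4 else 0 := by
  have h1 : S.uT ≠ S.tT := fun e => S.t_ne_u (congrArg Subtype.val e).symm
  have h2 : S.uT ≠ 1 := fun e => S.u_ne (congrArg Subtype.val e)
  simp only [a, Pi.mul_apply, Pi.add_apply, Pi.sub_apply, Pi.one_apply]
  rw [RA.tw_val h.αT, RA.tw_val h.hν]
  rcases RA.cases2 h.h3 x with e | e | e | e <;>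
    simp [-Du.ch_comp, e, h.αt, h.αu, h.νt, h.νu, Du.ch_apply_mul, S.tT_ne.symm, h1, h2]
  norm_num

open Classical in
theorem b_eq (x : S.T) : h.b x = if constt {2} x = S.uT then 4 else 0 := by
  have h1 : S.tT ≠ S.uT := fun e => S.t_ne_u (congrArg Subtype.val e)
  have h2 : 1 ≠ S.uT := fun e => S.u_ne (congrArg Subtype.val e).symm
  simp only [b, Pi.mul_apply, Pi.add_apply, Pi.sub_apply, Pi.one_apply]
  rw [RA.tw_val h.αT, RA.tw_val h.hν]
  rcases RA.cases2 h.h3 x with e | e | e | e <;>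
    simp [-Du.ch_comp, e, h.αt, h.αu, h.νt, h.νu, Du.ch_apply_mul, S.tT_ne, h1, h2]
  norm_num

theorem sup_a (l : S.T → ℂ) : (torT S.toHA).SupA (l * h.a) := fun x hx => by
  rw [Pi.mul_apply, a_eq, if_neg fun e => hx ?_, mul_zero]
  rw [← show ((constt {2} x : S.T) : E) = S.t from congrArg Subtype.val e,
    show ((constt {2} x : S.T) : E) = _ from map_constt S.T.subtype {2} x]
  exact constt_mem_zpowers _ _

theorem a_t : h.a S.tT = 4 := by rw [a_eq, if_pos (constt_eq_self (Blk.piElt_two_of_sq S.tT2))]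
theorem a_odd (x : S.T) {y : S.T} (hy : Odd (orderOf y)) : h.a (x * y) = h.a x := by
  simp only [a, Pi.mul_apply, Pi.add_apply, Pi.sub_apply, Pi.one_apply, Du.ch_apply_mul, h.αT y hy, h.hν y hy, mul_one]

theorem α_Z (z : S.Z) : α.ch (zH S.toHA z) = 1 := by
  rcases RA.Z_cases h.h3 z.2 with e | e
  · rw [show z = 1 from Subtype.ext e, map_one, Du.ch_apply_one]
  · exact S.lin_Tm α _ (e ▸ S.t_Tm)

theorem αα : α * α = 1 := S.inj_T S.T_le_H (RA.tw_ext h.h3 ((h.hα.mul h.hα).comp _) (tw_one.comp _)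
  (by rw [map_mul, Du.ch_mul, Pi.mul_apply, h.αt]; simp) (by rw [map_mul, Du.ch_mul, Pi.mul_apply, h.αu]; simp))

theorem ν_s : S.Sg ν = S.rT α * ν := RA.tw_ext h.h3 (h.hν.comp _) (h.αT.mul h.hν)
  (by
    rw [Du.ch_mul, Pi.mul_apply, h.αt, one_mul]
    exact congrArg ν.ch (Subtype.ext (HO.conj_t S.w_H)))
  (by
    rw [Du.ch_mul, Pi.mul_apply, h.αu, h.νu, ← h.νt, ← h.νu, ← Du.ch_apply_mul]
    exact congrArg ν.ch (Subtype.ext S.wu))

theorem ip_a : ⟪h.a, h.a⟫ = 4 := by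
  have e : h.a = (1 : Du S.T).ch + (S.rT α).ch - ν.ch - (S.rT α * ν).ch := by rw [a, Du.ch_mul, Du.ch_one]; ring
  have k : ∀ {a b : Du S.T} (x : S.T), a.ch x ≠ b.ch x → a ≠ b ∧ b ≠ a := fun x h =>
    ⟨fun e => h (by rw [e]), fun e => h (by rw [e])⟩
  have h1 := k (a := 1) (b := S.rT α) S.uT (by rw [h.αu]; norm_num)
  have h2 := k (a := 1) (b := ν) S.tT (by rw [h.νt]; norm_num)
  have h3 := k (a := 1) (b := S.rT α * ν) S.tT (by rw [Du.ch_mul, Pi.mul_apply, h.νt, h.αt]; norm_num)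
  have h4 := k (a := S.rT α) (b := ν) S.tT (by rw [h.νt, h.αt]; norm_num)
  have h5 := k (a := S.rT α) (b := S.rT α * ν) S.tT (by rw [Du.ch_mul, Pi.mul_apply, h.νt, h.αt]; norm_num)
  have h6 := k (a := ν) (b := S.rT α * ν) S.uT (by rw [Du.ch_mul, Pi.mul_apply, h.νu, h.αu]; norm_num)
  rw [e]
  simp only [ip_sub_left, ip_sub_right, ip_add_left, ip_add_right, Du.ip_ch, if_true, if_neg h1.1, if_neg h1.2,
    if_neg h2.1, if_neg h2.2, if_neg h3.1, if_neg h3.2, if_neg h4.1, if_neg h4.2, if_neg h5.1, if_neg h5.2,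
    if_neg h6.1, if_neg h6.2]
  norm_num

theorem even1 : ∃ f, IsVC f ∧ (torW S.toHA).D (1 - (S.rW α).ch) + (torT S.toHA).D h.a = (2 : ℂ) • f := by
  have k : ∀ β : Du S.H, (torT S.toHA).D (S.rT β).ch + (torW S.toHA).D (S.rW β).ch = (2 : ℂ) • β.ch := fun β => by
    conv_rhs => rw [decomp _ β.isCF, Tor.eta_lin, Tor.eta_lin, smul_smul, mul_inv_cancel₀ two_ne_zero, one_smul]
  have k1 := k 1
  have e : h.a = 1 + (S.rT α).ch - ν.ch - ν.ch ∘ (torT S.toHA).σ := by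
    rw [show ν.ch ∘ (torT S.toHA).σ = (S.Sg ν).ch from rfl, h.ν_s, a, Du.ch_mul]; ring
  refine ⟨1 + α.ch - (torW S.toHA).D (S.rW α).ch - (torT S.toHA).D ν.ch, ((isVC_one.add α.isVC).sub
    (Tor.isVC_D _ (Du.isVC _))).sub (Tor.isVC_D _ ν.isVC), ?_⟩
  rw [map_one, map_one, Du.ch_one, Du.ch_one, Du.ch_one] at k1
  rw [e, map_sub, map_sub, map_sub, map_add, Tor.D_σ, smul_sub, smul_sub, smul_add, ← k1, ← k α, two_smul, two_smul]
  abel

theorem even2 (l : Du S.T) :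
    ∃ f, IsVC f ∧ (torT S.toHA).D (l.ch * h.a) = ind (torT S.toHA).i (l.ch * h.b) + (2 : ℂ) • f := by
  refine ⟨ind (torT S.toHA).i (l.ch * ((S.rT α).ch - ν.ch)) - Gam S.toHA ((l.ch * (1 - ν.ch)) ∘ (torT S.toHA).z),
    ((l.isVC.mul ((Du.isVC _).sub ν.isVC)).induce _).sub
      (isVC_Gam _ ((l.isVC.mul (isVC_one.sub ν.isVC)).comp _)), ?_⟩
  rw [Tor.D_def, smul_sub, ← map_smul, ← map_smul, ← add_sub_assoc, ← map_add]
  congr 2
  · rw [a, b, two_smul]; ring
  · ext z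
    have : (S.rT α).ch ((torT S.toHA).z z) = 1 := h.α_Z z
    simp only [a, Function.comp_apply, Pi.mul_apply, Pi.add_apply, Pi.smul_apply, smul_eq_mul, Pi.one_apply, this]
    ring

end AN

end CA.ABG
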