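/-
Alperin–Brauer–Gorenstein, semidihedral case: a linear character of odd order of the centralizer.
-/
import Cfsg.Agent.Lib.ABG.SD2

set_option autoImplicit false
set_option linter.unusedSectionVars false
set_option maxHeartbeats 400000

namespace CA.ABG.PS

open Cfsg Subgroup CA CA.Ch CA.Br CA.ABG.HO ComplexConjugate
open CA.Blk (pi0)
open CA.Br.OmB (inv_unique exists_inv not_odd_of_inv zp_conj zp_conj_iff zp_mul_odd zp_mul_odd_iff comm_of_zp conj_sq)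

variable {G E : Type*} [Group G] [Group E] [Finite G] [Finite E] (P : PS G E)

/-- elements which determine `τ` -/
def R1 : Set P.H1 := {x | P.τ ∈ zpowers (x : G) ∨ ∀ i : G, i * i = 1 → i ≠ 1 → i * x = x * i → i = P.τ}

/-- induction of twisted inflations -/
noncomputable def I (μ : Du P.H1) : (P.S.H → ℂ) →ₗ[ℂ] (G → ℂ) where
  toFun f := ind P.H1.subtype (μ.ch * f ∘ P.π)
  map_add' a b := by rw [Pi.add_comp, mul_add, map_add]
  map_smul' c a := by rw [Pi.smul_comp, mul_smul_comm, map_smul]; rfl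

variable {P} {μ μ' : Du P.H1} {f f' : P.S.H → ℂ} {s : P.H1}

theorem R1_τ {a b : P.H1} (ha : a ∈ P.R1) (hb : b ∈ P.R1) {g : G} (e : (b : G) = g * a * g⁻¹) : g ∈ P.H := by
  have ne : ∀ g : G, g * P.τ * g⁻¹ ≠ 1 := fun g h => P.τ_ne (by simpa using h)
  have c : ∀ (a : P.H1) (g : G), g * P.τ * g⁻¹ * (g * a * g⁻¹) = g * a * g⁻¹ * (g * P.τ * g⁻¹) := fun a g => by
    rw [conj_mul, conj_mul, P.mem_H.1 (P.H1_le a.2)]
  rcases hb with hb | hb
  · rcases ha with ha | ha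
    · exact P.mem_H.2 (mul_inv_eq_iff_eq_mul.1 (inv_unique (zp_conj ha g) (e ▸ hb) (conj_sq P.ττ g) P.ττ (ne g) P.τ_ne))
    · have := ha _ (conj_sq P.ττ g⁻¹) (ne _) (by have := c b g⁻¹; rwa [e, show g⁻¹ * (g * a * g⁻¹) * g⁻¹⁻¹ = a by group] at this)
      exact (inv_mem_iff.1 (P.mem_H.2 (mul_inv_eq_iff_eq_mul.1 this)) :)
  · exact P.mem_H.2 (mul_inv_eq_iff_eq_mul.1 (hb _ (conj_sq P.ττ g) (ne g) (e ▸ c a g)))

theorem R1_inv {a : P.H1} (ha : a ∈ P.R1) : a⁻¹ ∈ P.R1 :=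
  ha.imp (fun h => by rwa [coe_inv, zpowers_inv]) fun h i a b c => h i a b (Commute.inv_right_iff.1 c)

theorem ti1 (hH : P.H ≤ P.H1) : TIEmb P.H1.subtype P.R1 where
  cnj a ha x := ha.imp (fun h => (P.rt_conj (P.H1_le x.2)).2 h) fun h i h1 h2 h3 => by
    have := h _ (conj_sq h1 (x : G)⁻¹) (fun e => h2 (conj_eq_one_iff.1 e)) (by
      have h4 : i * (x * a * (x : G)⁻¹) = x * a * (x : G)⁻¹ * i := h3
      calc _ = (x : G)⁻¹ * (i * (x * a * (x : G)⁻¹)) * x := by group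
        _ = _ := by rw [h4]; group)
    rw [← P.conj_τ (P.H1_le x.2), ← this]; group
  ti a ha b hb g e := ⟨⟨g, hH (R1_τ ha hb e)⟩, rfl⟩

theorem cnt1 (hH : P.H ≤ P.H1) {x : P.H1} (hx : x ∈ P.R1) : cnt P.τ (x : G) = c2 x := by
  rw [c2_map]
  unfold cnt
  congr 2
  ext i
  simp only [isConj_τ, Set.mem_ofPred_eq]
  refine ⟨fun ⟨⟨h1, h2⟩, h3, h4⟩ => ?_, fun ⟨_, h1, h2, h3, h4⟩ => ⟨⟨h1, h2⟩, ?_, fun h => h3 (inv_mul_eq_one.1 h)⟩⟩
  · have hi : i⁻¹ = i := inv_eq_of_mul_eq_one_right h1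
    have h5 : i * x * i⁻¹ = (x : G)⁻¹ := by
      rw [hi] at h3 ⊢; exact eq_inv_of_mul_eq_one_left (by rw [← h3]; group)
    exact ⟨hH (R1_τ hx (R1_inv hx) h5.symm), h1, h2, fun h => h4 (by rw [h, inv_mul_cancel]), h5⟩
  · have hi : i⁻¹ = i := inv_eq_of_mul_eq_one_right h1
    rw [hi] at h4 ⊢
    rw [← mul_assoc, h4, inv_mul_cancel]

theorem card_H1 (hH : P.H ≤ P.H1) : Nat.card P.H = Nat.card P.H1 := by rw [le_antisymm hH P.H1_le]

theorem I_def (f : P.S.H → ℂ) : P.I μ f = ind P.H1.subtype (μ.ch * f ∘ P.π) := rfl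
theorem isVC_I (h : IsVC f) : IsVC (P.I μ f) := (μ.isVC.mul (h.comp _)).induce _
theorem sup1 (hf : Sup f) : ∀ x, x ∉ P.R1 → (μ.ch * f ∘ P.π) x = 0 := fun x hx => by
  rw [Pi.mul_apply, Function.comp_apply, hf _ fun e => hx (Or.inl (P.zp_π.1 e)), mul_zero]

theorem ip_I (hH : P.H ≤ P.H1) (hf : Sup f) (hf' : Sup f') (c : IsCF f') :
    ⟪P.I μ f, P.I μ' f'⟫ = ⟪μ.ch * f ∘ P.π, μ'.ch * f' ∘ P.π⟫ :=
  (ti1 hH).ip_ind (sup1 hf) (μ'.isCF.mul (c.comp _)) (sup1 hf')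

theorem ip_II (hH : P.H ≤ P.H1) (hf : Sup f) (hf' : Sup f') (c : IsCF f') : ⟪P.I μ f, P.I μ f'⟫ = ⟪f, f'⟫ := by
  rw [ip_I hH hf hf' c, mul_comm, ip_mul_left, ← mul_assoc, ← Du.ch_inv, ← Du.ch_mul, inv_mul_cancel, Du.ch_one,
    one_mul, ip_comp_surj _ P.surj]

theorem ip_I0 (hH : P.H ≤ P.H1) (hμ : Od μ) (hμ' : Od μ') (hf : Sup f) (hf' : Sup f') (c : IsCF f') (h : ⟪f, f'⟫ = 0) :
    ⟪P.I μ f, P.I μ' f'⟫ = 0 := by
  by_cases e : ∀ x, P.π x = 1 → μ.ch x = μ'.ch x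
  · obtain ⟨β, hβ⟩ := defl P.surj (μ * μ'⁻¹) fun x hx => by
      rw [Du.ch_mul, Du.ch_inv, Pi.mul_apply, e x hx]; exact mul_conj_ch _ _
    have : β = 1 := RA.od_eq fun y hy => by
      obtain ⟨x, hx, rfl⟩ := P.oddK.lift hy
      rw [hβ, Du.ch_mul, Du.ch_inv, Pi.mul_apply, Pi.star_apply, hμ x hx, hμ' x hx]; simp
    obtain rfl : μ = μ' := mul_inv_eq_one.1 (Du.ext' fun x => by rw [← hβ, this]; rfl)
    rw [ip_II hH hf hf' c, h]
  · push Not at e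
    obtain ⟨x, h1, h2⟩ := e
    rw [ip_I hH hf hf' c]
    refine ip_zero_shift x (c := μ.ch x) (c' := μ'.ch x) (fun y => ?_) (fun y => ?_) fun e => h2 ?_
    · simp only [Pi.mul_apply, Function.comp_apply, map_mul, h1, mul_one, Du.ch_apply_mul]; ring
    · simp only [Pi.mul_apply, Function.comp_apply, map_mul, h1, mul_one, Du.ch_apply_mul]; ring
    · linear_combination μ'.ch x * e - μ.ch x * mul_conj_ch μ' x

theorem I_one (hf : Sup f) : P.I μ f 1 = 0 := by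
  rw [I_def, ind_one, Pi.mul_apply, Function.comp_apply, map_one, hf 1 one_not_R, mul_zero, mul_zero]

theorem I_τ (hH : P.H ≤ P.H1) (hμ : Od μ) (hf : Sup f) (c : IsCF f) :
    P.I μ f P.τ = f (zH P.S.toHA ⟨P.S.t, P.S.t_Z⟩) :=
  ((ti1 hH).ind_apply (μ.isCF.mul (c.comp _)) (sup1 hf) (a := ⟨P.τ, P.τH⟩) (Or.inl (mem_zpowers _))).trans (by
    rw [Pi.mul_apply, hμ _ (Blk.piElt_two_of_sq (Subtype.ext P.ττ)), one_mul, Function.comp_apply, π_τ])

theorem A_I (hH : P.H ≤ P.H1) (hμ : Od μ) (hf : Sup f) :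
    P.AA (P.I μ f) = P.k ^ 2 * (Nat.card P.S.H * ⟪f, cn P.S.toHA ∘ P.S.H.subtype⟫) := by
  classical
  have := Fintype.ofFinite P.H1
  have := Fintype.ofFinite P.S.H
  have e1 : ∀ y : P.S.H, conj ((cn P.S.toHA ∘ P.S.H.subtype) y) = c2 y := fun y => by
    rw [c2_map]; exact map_natCast _ _
  change Nat.card P.H * ⟪P.I μ f, cnt P.τ⟫ = _
  rw [I_def, ip_ind_left _ _ (isCF_cnt _), card_H1 hH, ip_congr_support (b := cnt P.τ ∘ P.H1.subtype) (c := c2) fun x hx =>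
    cnt1 hH (by by_contra e; exact hx (sup1 hf x e)), ip_def, ip_def, mul_inv_cancel_left₀ (Ch.card_ne_zero' _),
    mul_inv_cancel_left₀ (Ch.card_ne_zero' _)]
  simp only [e1, show ∀ x : P.H1, conj (c2 x) = c2 x from fun x => map_natCast _ _]
  rw [← sum_cnt hf, sum_c2, sum_c2 fun x => f (P.π x)]
  refine Finset.sum_congr rfl fun i hi => Finset.sum_congr rfl fun j hj => ?_
  rw [Pi.mul_apply, Du.ch_apply_mul, hμ i (Blk.piElt_two_of_sq (mem_invs.1 hi).1),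
    hμ j (Blk.piElt_two_of_sq (mem_invs.1 hj).1), one_mul, one_mul]
  rfl

/-- the centralizer of `s` maps into the torus -/
noncomputable def πC (hs : (P.π s : E) = P.S.u) : (𝐂[s] : Subgroup P.H1) →* P.S.T :=
  (P.S.H.subtype.comp (P.π.comp (𝐂[s]).subtype)).codRestrict _ fun x => P.S.mem_T.2 ⟨P.S.mem_H.1 (P.π x).2, by
    have := congrArg (fun y => ((P.π y : P.S.H) : E)) (mem_centralizer_singleton_iff.1 x.2)
    simp only [map_mul, coe_mul, hs] at this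
    exact this⟩

theorem i_πC (hs : (P.π s : E) = P.S.u) (x : (𝐂[s] : Subgroup P.H1)) : (torT P.S.toHA).i (πC hs x) = P.π x := rfl

theorem surj_πC (s2 : s * s = 1) (hs : (P.π s : E) = P.S.u) : Function.Surjective (πC hs) := fun a => by
  obtain ⟨x, hx⟩ := P.surj ((torT P.S.toHA).i a)
  obtain ⟨k, hk, e⟩ := P.oddK.conj0 (Blk.piElt_two_of_sq s2) (Blk.piElt_two_of_sq (conj_sq s2 x)) (Subtype.ext (by
    rw [map_mul, map_mul, map_inv, hx, coe_mul, coe_mul, hs, coe_inv]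
    exact (mul_inv_eq_iff_eq_mul.2 (P.S.mem_T.1 a.2).2).symm))
  obtain ⟨n, hn⟩ := mem_zpowers_iff.1 hk
  have h1 : k * x ∈ 𝐂[s] := mem_centralizer_singleton_iff.2 (mul_inv_eq_iff_eq_mul.1 (by
    conv_rhs => rw [← e]
    group))
  refine ⟨⟨(s ^ n)⁻¹ * (k * x), mul_mem (inv_mem (zpow_mem (mem_centralizer_singleton_iff.2 rfl) n)) h1⟩,
    inclusion_injective _ ((i_πC hs _).trans ?_)⟩
  rw [map_mul, map_mul, map_inv, map_zpow, hn, inv_mul_cancel_left, hx]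

theorem πC_two (s2 : s * s = 1) (hs : (P.π s : E) = P.S.u) (x : (𝐂[s] : Subgroup P.H1)) :
    constt {2} (πC hs x) = P.S.uT ↔ constt {2} (x : P.H1) = s := by
  rw [← map_constt, ← show ((constt {2} x : (𝐂[s] : Subgroup P.H1)) : P.H1) = constt {2} (x : P.H1) from
    map_constt (𝐂[s]).subtype {2} x]
  have h2 := piElt_coe.2 (constt_piElt {2} x)
  generalize constt {2} x = y at h2
  refine ⟨fun e => mul_inv_eq_one.1 (P.oddK.eq_one (h2.mul (Blk.piElt_two_of_sq s2).inv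
    (Commute.inv_right (mem_centralizer_singleton_iff.1 y.2))) ?_), fun e => Subtype.ext ?_⟩
  · rw [map_mul, map_inv, mul_inv_eq_one]; exact Subtype.ext ((congrArg Subtype.val e).trans hs.symm)
  · change (P.π y : E) = _; rw [e, hs]; rfl

theorem ind_u (s2 : s * s = 1) (hs : (P.π s : E) = P.S.u) {b : P.S.T → ℂ} (hb : ∀ x, constt {2} x ≠ P.S.uT → b x = 0) :
    ind (torT P.S.toHA).i b ∘ P.π = ind (𝐂[s]).subtype (b ∘ πC hs) := by
  have ti : TIEmb (𝐂[s]).subtype {x | constt {2} (x : P.H1) = s} := ⟨fun a ha x => by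
    change constt {2} ((x : P.H1) * a * (x : P.H1)⁻¹) = s
    rw [constt_conj, ha, mem_centralizer_singleton_iff.1 x.2, mul_inv_cancel_right], fun a ha c hc g e => by
      have : constt {2} (c : P.H1) = g * constt {2} (a : P.H1) * g⁻¹ := by rw [← constt_conj]; exact congrArg _ e
      rw [ha, hc] at this
      exact ⟨⟨g, mem_centralizer_singleton_iff.2 (mul_inv_eq_iff_eq_mul.1 this.symm)⟩, rfl⟩⟩
  have sp : ∀ x, x ∉ {x : (𝐂[s] : Subgroup P.H1) | constt {2} (x : P.H1) = s} → (b ∘ πC hs) x = 0 :=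
    fun x hx => hb _ fun e => hx ((πC_two s2 hs x).1 e)
  ext x
  by_cases h : ∃ k, k * constt {2} x * k⁻¹ = s
  · obtain ⟨k, hk⟩ := h
    rw [← constt_conj] at hk
    have hc : k * x * k⁻¹ ∈ 𝐂[s] := mem_centralizer_singleton_iff.2 (hk ▸ comm_of_zp (constt_mem_zpowers _ _) rfl)
    have h2 := (πC_two s2 hs ⟨_, hc⟩).2 hk
    have hz : ((πC hs ⟨_, hc⟩ : P.S.T) : E) ∉ P.S.Z := fun e => P.S.u_not_Z (by
      rw [← show ((constt {2} (πC hs ⟨_, hc⟩) : P.S.T) : E) = P.S.u from congrArg Subtype.val h2,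
        show ((constt {2} (πC hs ⟨_, hc⟩) : P.S.T) : E) = _ from map_constt P.S.T.subtype {2} _]
      exact constt_mem _ e)
    have h3 := (torT P.S.toHA).D_A b hz
    rw [Tor.D_def, Pi.sub_apply, Tor.Gam_A _ _ hz, sub_zero, hb ((torT P.S.toHA).σ _) (by
      rw [← map_constt, h2]
      exact fun e => P.S.t_ne (mul_eq_right.1 (P.S.wu.symm.trans (congrArg Subtype.val e)))), add_zero] at h3
    rw [← ((isCF_ind _ b).comp P.π).conj x k, ← (isCF_ind _ _).conj x k]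
    exact h3.trans (ti.ind_apply ((isCF_of_comm b).comp _) sp (a := ⟨_, hc⟩) hk).symm
  · rw [ind_eq_zero (𝐂[s]).subtype fun c y e => sp c fun hc => h ⟨y, by
      rw [← constt_conj, ← e]; exact hc⟩]
    refine ind_eq_zero _ fun a y e => hb a fun ha => h ?_
    obtain ⟨y, rfl⟩ := P.surj y
    obtain ⟨k, -, hk⟩ := P.oddK.conj0 (Blk.piElt_two_of_sq s2) (constt_piElt {2} (y * x * y⁻¹)) (by
      rw [map_constt, map_mul, map_mul, map_inv, ← e, ← map_constt, ha]; exact Subtype.ext hs)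
    exact ⟨k * y, by rw [← hk, constt_conj]; group⟩

theorem I_u (s2 : s * s = 1) (hs : (P.π s : E) = P.S.u) {b : P.S.T → ℂ} (hb : ∀ x, constt {2} x ≠ P.S.uT → b x = 0)
    {χ : G → ℂ} (hχ : IsCF χ) : ⟪P.I μ (ind (torT P.S.toHA).i b), χ⟫ =
      ⟪μ.ch ∘ (𝐂[s]).subtype * b ∘ πC hs, (χ ∘ P.H1.subtype) ∘ (𝐂[s]).subtype⟫ := by
  rw [I_def, ip_ind_left _ _ hχ, ind_u s2 hs hb, ← ind_res_mul _ _ μ.isCF, ip_ind_left _ _ (hχ.comp _)]

variable (P) in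
theorem p2c (hH : P.H ≤ P.H1) (h3 : P.S.Q % 4 = 3) (hμ : Od μ) (hμ' : Od μ') (s2 : s * s = 1)
    (hs : (P.π s : E) = P.S.u) {g : G} (gs : g * s * g⁻¹ = s) (hg : ∀ d : P.H1, d * s = s * d → g * d * g⁻¹ ∈ P.H1)
    (h : ∀ d d' : P.H1, d * s = s * d → (d : G) ∈ P.O → (d' : G) = g * d * g⁻¹ → μ.ch d' = μ'.ch d) :
    (∀ d d' : P.H1, d * s = s * d → (d' : G) = g * d * g⁻¹ → μ.ch d' = μ'.ch d) ∨ P.k ∣ P.H.index := by
  classical
  let κ : (𝐂[s] : Subgroup P.H1) →* (𝐂[s] : Subgroup P.H1) := MonoidHom.mk' (fun d =>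
    ⟨⟨g * d * g⁻¹, hg d (mem_centralizer_singleton_iff.1 d.2)⟩, mem_centralizer_singleton_iff.2 (Subtype.ext (by
      change g * d * g⁻¹ * s = s * (g * d * g⁻¹)
      rw [← gs, conj_mul, conj_mul, ← coe_mul, mem_centralizer_singleton_iff.1 d.2, coe_mul]))⟩)
    fun a b => Subtype.ext (Subtype.ext (conj_mul.symm))
  have κs : Function.Surjective κ := Finite.surjective_of_injective fun a b e => Subtype.ext (Subtype.ext (by
    simpa using (show g * a * g⁻¹ = g * b * g⁻¹ from congrArg (fun x : (𝐂[s] : Subgroup P.H1) => ((x : P.H1) : G)) e)))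
  obtain ⟨l, hl⟩ := defl (surj_πC s2 hs) (Du.comp ((𝐂[s]).subtype.comp κ) μ * (Du.comp (𝐂[s]).subtype μ')⁻¹)
    fun x hx => by
      rw [Du.ch_mul, Du.ch_inv, Pi.mul_apply]
      exact (congrArg (· * _) (h x _ (mem_centralizer_singleton_iff.1 x.2) ((P.ker _).1
        (by rw [← i_πC hs, hx, map_one])) rfl)).trans (mul_conj_ch _ _)
  have hl' : ∀ x, μ.ch (κ x) = μ'.ch x * l.ch (πC hs x) := fun x => by
    rw [hl, Du.ch_mul, Du.ch_inv]
    change _ = _ * (μ.ch (κ x) * conj (μ'.ch x))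
    rw [mul_left_comm, mul_conj_ch, mul_one]
  by_cases l1 : l = 1
  · refine Or.inl fun d d' h1 h2 => ?_
    have := hl' ⟨d, mem_centralizer_singleton_iff.2 h1⟩
    rw [l1, Du.ch_one, Pi.one_apply, mul_one] at this
    rwa [show d' = κ ⟨d, mem_centralizer_singleton_iff.2 h1⟩ from Subtype.ext h2]
  right
  have ol : Od l := fun y hy => by
    obtain ⟨x, rfl⟩ := surj_πC s2 hs y
    have := hl' (constt {2} x)
    rwa [hμ _ (piElt_coe.2 ((constt_piElt _ _).map κ)), hμ' _ (piElt_coe.2 (constt_piElt _ _)), map_constt,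
      constt_eq_self hy, one_mul, eq_comm] at this
  obtain ⟨α, hα, hu⟩ := P.S.exists_α
  obtain ⟨ν, a⟩ := exists_AN h3 hα hu
  obtain ⟨φ, -, t0, -, v0, -, -, -, h4⟩ := P.S.exists_φ
  obtain ⟨ψ, t1, g1, v1⟩ := h4 h3
  obtain ⟨y, yo, y1⟩ := ol.ex l1
  have hb : ∀ (l : P.S.T → ℂ) x, constt {2} x ≠ P.S.uT → (l * a.b) x = 0 := fun l x hx => by
    rw [Pi.mul_apply, a.b_eq, if_neg hx, mul_zero]
  have key : P.I μ' (ind (torT P.S.toHA).i (l.ch * a.b)) = P.I μ (ind (torT P.S.toHA).i ((1 : Du P.S.T).ch * a.b)) :=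
    IsCF.ext (φ := P.I _ _) (ψ := P.I _ _) (isCF_ind _ _) (isCF_ind _ _) fun χ hχ => by
      rw [I_u s2 hs (hb _) hχ.isCF, I_u s2 hs (hb _) hχ.isCF, ← ip_comp_surj κ κs (μ.ch ∘ _ * _)]
      congr 1
      · ext x
        have : constt {2} (x : P.H1) = s ↔ constt {2} (κ x : P.H1) = s := by
          rw [Subtype.ext_iff, Subtype.ext_iff,
            show ((constt {2} (x : P.H1) : P.H1) : G) = _ from map_constt P.H1.subtype _ _,
            show ((constt {2} (κ x : P.H1) : P.H1) : G) = _ from map_constt P.H1.subtype _ _]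
          change _ ↔ constt {2} (g * x * g⁻¹) = _
          rw [constt_conj]
          conv_rhs => rw [← gs]
          simp
        simp only [Pi.mul_apply, Function.comp_apply, coe_subtype, hl', Du.ch_one, one_mul, a.b_eq,
          πC_two s2 hs, mul_assoc, this]
      · ext x; exact (hχ.isCF.conj _ g).symm
  have sW : ∀ {c : Du P.S.W}, Tw c → Sup ((torW P.S.toHA).D (1 - c.ch)) := fun hc => Tor.sup_D (supW (tw_one.van hc))
  have pW : ∀ {c : Du P.S.W}, Tw c → pi0 2 ((torW P.S.toHA).D (1 - c.ch)) = _ := fun hc => p0W (tw_one.two hc)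
  have sT := Tor.sup_D (a.sup_a l.ch)
  obtain ⟨θ, hθ⟩ : ∃ θ : Du P.S.W → G → ℂ, ∀ c, θ c = P.I μ ((torW P.S.toHA).D (1 - c.ch)) := ⟨_, fun _ => rfl⟩
  obtain ⟨ζ, hζ⟩ : ∃ ζ, ζ = P.I μ' ((torT P.S.toHA).D (l.ch * a.a)) := ⟨_, rfl⟩
  have vθ : ∀ c, IsVC (θ c) := fun c => hθ c ▸ isVC_I (Tor.isVC_D _ (isVC_one.sub c.isVC))
  have θθ : ∀ {c c'}, Tw c → Tw c' → c ≠ 1 → c' ≠ 1 →
      ⟪θ c, θ c'⟫ = 2 + (if c = c' then 1 else 0) + if c = P.S.Sw c' then 1 else 0 := fun hc hc' c1 c1' => by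
    rw [hθ, hθ, ip_II hH (sW hc) (sW hc') (Tor.isCF_D _ _), ← P.pom1.θθ hc hc' c1 c1']
    exact (ip_JJ (sW hc) (sW hc') (pW hc) (pW hc')).symm
  have θζ : ∀ {c}, Tw c → ⟪θ c, ζ⟫ = 0 := fun hc => by
    rw [hθ, hζ]; exact ip_I0 hH hμ hμ' (sW hc) sT (Tor.isCF_D _ _) (Tor.ip_DD' _ (disTW _) _ _)
  have θ1 : ∀ {c}, Tw c → θ c 1 = 0 := fun hc => hθ _ ▸ I_one (sW hc)
  have θt : ∀ {c}, Tw c → θ c P.τ = (1 - P.S.Q) * (1 - c.ch P.S.tW) := fun hc => by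
    rw [hθ, I_τ hH hμ (sW hc) (Tor.isCF_D _ _), ← P.pom1.θ_t _ hc]
    exact (J_τ P.lin_one (sW hc) (pW hc)).symm
  have θA : ∀ {c}, Tw c → P.AA (θ c) = P.k ^ 2 * (P.S.Q * (P.S.Q - 1) * (P.S.Q + 1) ^ 2 *
      (1 - if P.S.Sw c = c then 1 else 0)) := fun hc => by
    rw [hθ, A_I hH hμ (sW hc), ← ip_cnt_J P.lin_one (sW hc) (pW hc)]
    exact P.pom1.A_θ _ hc
  have sh : ∀ x, (l.ch * a.a) (x * y) = l.ch y * (l.ch * a.a) x := fun x => by
    simp only [Pi.mul_apply, Du.ch_apply_mul, a.a_odd x yo]; ring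
  have ζζ : ⟪ζ, ζ⟫ = 4 := by
    rw [hζ, ip_II hH sT sT (Tor.isCF_D _ _), Tor.ip_DD, ip_zero_shift y (b := _ ∘ _) (c' := l.ch y⁻¹) sh (fun x => by
      simp only [Function.comp_apply, Pi.mul_apply, map_mul, Tor.odd_M (torT P.S.toHA) yo, Du.ch_apply_mul,
        a.a_odd _ (orderOf_inv y ▸ yo)]; ring) (by rw [conj_ch']; exact sq_ne yo y1), add_zero, mul_comm, ip_mul_left,
      ← Du.ch_inv, mul_left_comm, ← Du.ch_mul, inv_mul_cancel, Du.ch_one, mul_one, a.ip_a]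
  have lt : (l.ch * a.a) P.S.tT = 4 := by rw [Pi.mul_apply, ol _ (Blk.piElt_two_of_sq P.S.tT2), a.a_t, one_mul]
  have ζt : ζ P.τ = 4 * (P.S.Q + 1) := by
    rw [hζ, I_τ hH hμ' sT (Tor.isCF_D _ _), Tor.D_Z, cTm, cWm, Q_cast]
    change _ * (l.ch * a.a) P.S.tT = _
    rw [lt]; linear_combination 4 * e_sq P.S.toHA
  have ζA : P.AA ζ = 8 * P.k ^ 2 * P.S.Q ^ 2 * (P.S.Q + 1) := by
    rw [hζ, A_I hH hμ' sT, Tor.ip_cnt_D _ (a.sup_a _), ip_zero_shift (⟨y, P.S.odd_Tm yo⟩ : P.S.Tm) (c' := 1)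
      (fun x => sh (inclusion P.S.Tm_le_T x)) (fun _ => by simp) (by simpa using y1), cTm, cWm, Q_cast]
    change _ * (_ * (_ * (l.ch * a.a) P.S.tT + _)) = _
    rw [lt]; rcases P.S.he with e | e <;> rw [e] <;> push_cast <;> ring
  have vζ : IsVC ζ := hζ ▸ isVC_I (Tor.isVC_D _ (l.isVC.mul ((isVC_one.add (Du.isVC _)).mul (isVC_one.sub ν.isVC))))
  obtain ⟨p, vp, hp⟩ : ∃ p, IsVC p ∧ θ (P.S.rW α) + ζ = (2 : ℂ) • p := by
    obtain ⟨f0, v0, e0⟩ := a.even1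
    obtain ⟨f1, v1, e1⟩ := a.even2 1
    obtain ⟨f2, v2, e2⟩ := a.even2 l
    refine ⟨P.I μ f0 - P.I μ f1 + P.I μ' f2, ((isVC_I v0).sub (isVC_I v1)).add (isVC_I v2), ?_⟩
    rw [Du.ch_one, one_mul] at e1
    rw [hθ, hζ, e2, map_add, key, smul_add, smul_sub, ← map_smul, ← map_smul, ← map_smul, ← e0, e1, map_add, map_add,
      Du.ch_one]
    abel
  obtain rfl : p = (2 : ℂ)⁻¹ • (θ (P.S.rW α) + ζ) := by rw [hp, smul_smul, inv_mul_cancel₀ two_ne_zero, one_smul]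
  have aW : Tw (P.S.rW α) := hα.comp _
  have a1 := P.S.rW_ne (POm.al1 hu)
  have g0 : P.S.Sw φ ≠ φ := fun e => by rw [P.S.fix_tW e] at v0; norm_num at v0
  have f1 : ∀ {φ : Du P.S.W}, P.S.Sw φ ≠ φ → φ ≠ 1 := fun h e => h (by rw [e, map_one])
  have fa : ∀ {φ : Du P.S.W}, Tw φ → P.S.Sw φ ≠ φ → ⟪θ φ, θ (P.S.rW α)⟫ = 2 := fun {φ} h h' => by
    rw [θθ h aW (f1 h') a1, P.S.fix_rW, if_neg fun e : φ = _ => h' (e ▸ P.S.fix_rW α)]; norm_num
  have aa : ⟪θ (P.S.rW α), θ (P.S.rW α)⟫ = 4 := by rw [θθ aW aW a1 a1, P.S.fix_rW, if_pos rfl]; norm_num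
  have c2 : conj (2 : ℂ)⁻¹ = 2⁻¹ := by rw [map_inv₀, map_ofNat]
  have ζa := ip_eq_zero_symm (θζ aW)
  have ζ1 : ζ 1 = 0 := hζ ▸ I_one sT
  obtain ⟨Q0, Q1, Q2⟩ := POm.Cons.Qne (S := P.S)
  obtain ⟨n, hn⟩ := lat_p2c (τ := P.τ) (N := P.H.index) (k := P.k) P.AA (fun χ h => P.pom1.A_sirr h)
    (by exact_mod_cast index_ne_zero_of_finite) (by exact_mod_cast k_pos.ne') Q0 Q1 Q2 vp ((vθ (P.S.rW α)).sub vp)
    (vθ φ) (vθ ψ)
    (by simp only [ip_smul_left, ip_smul_right, ip_add_left, ip_add_right, aa, ζζ, ζa, θζ aW, c2]; norm_num)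
    (by simp only [ip_sub_left, ip_sub_right, ip_smul_left, ip_smul_right, ip_add_left, ip_add_right, aa, ζζ, ζa,
      θζ aW, c2]; norm_num)
    (by simp only [ip_sub_right, ip_smul_left, ip_smul_right, ip_add_left, ip_add_right, aa, ζζ, ζa, θζ aW, c2]; norm_num)
    (by rw [θθ t0 t0 (f1 g0) (f1 g0), if_pos rfl, if_neg g0.symm]; norm_num)
    (by
      rw [θθ t0 t1 (f1 g0) (f1 g1), if_neg fun e => by rw [e, v1] at v0; norm_num at v0,
        if_neg fun e => by rw [e, P.S.Sw_t, v1] at v0; norm_num at v0]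
      norm_num)
    (by rw [θθ t1 t1 (f1 g1) (f1 g1), if_pos rfl, if_neg g1.symm]; norm_num)
    (by simp only [ip_smul_right, ip_add_right, fa t0 g0, θζ t0, c2]; norm_num)
    (by simp only [ip_sub_right, ip_smul_right, ip_add_right, fa t0 g0, θζ t0, c2]; norm_num)
    (by simp only [ip_smul_right, ip_add_right, fa t1 g1, θζ t1, c2]; norm_num)
    (by simp only [ip_sub_right, ip_smul_right, ip_add_right, fa t1 g1, θζ t1, c2]; norm_num)
    (by simp [θ1 aW, ζ1]) (by simp [θ1 aW, ζ1]) (θ1 t0) (θ1 t1)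
    (by simp only [Pi.smul_apply, Pi.add_apply, θt aW, ζt, P.S.fix_tW (P.S.fix_rW α), smul_eq_mul]; ring)
    (by simp only [Pi.sub_apply, Pi.smul_apply, Pi.add_apply, θt aW, ζt, P.S.fix_tW (P.S.fix_rW α), smul_eq_mul]; ring)
    (by rw [θt t0, v0]; ring) (by rw [θt t1, v1]; ring)
    (by simp only [map_smul, map_add, θA aW, ζA, if_pos (P.S.fix_rW α), smul_eq_mul]; ring)
    (by simp only [map_sub, map_smul, map_add, θA aW, ζA, if_pos (P.S.fix_rW α), smul_eq_mul]; ring)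
    (by rw [θA t0, if_neg g0]; ring) (by rw [θA t0, θA t1, if_neg g0, if_neg g1])
  have : (P.H.index : ℤ) = P.k ^ 2 * P.S.Q ^ 2 * n := by exact_mod_cast hn
  exact Int.natCast_dvd_natCast.1 ⟨P.k * P.S.Q ^ 2 * n, by rw [this]; ring⟩

end CA.ABG.PS
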