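/-
Alperin–Brauer–Gorenstein, semidihedral case: a linear character inverted by the non-central involutions.
-/
import Cfsg.Agent.Lib.ABG.SD3

set_option autoImplicit false
set_option linter.unusedSectionVars false
set_option maxHeartbeats 400000

namespace CA.ABG

open Cfsg Subgroup CA CA.Ch CA.Br CA.ABG.HO ComplexConjugate
open CA.Blk (pi0)
open CA.Br.OmB (inv_unique exists_inv not_odd_of_inv zp_conj zp_conj_iff zp_mul_odd zp_mul_odd_iff comm_of_zp conj_sq)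

variable {G E : Type*} [Group G] [Group E] [Finite G] [Finite E]

theorem ind2 {N : Subgroup G} (i2 : N.index = 2) {s : G} (hs : s ∉ N) {θ : N → ℂ} (h : IsCF θ) (x y : N)
    (e : (y : G) = s * x * s⁻¹) : ind N.subtype θ x = θ x + θ y := by
  classical
  have := Fintype.ofFinite G
  have k : ∀ g ∈ N, ext0 N.subtype θ (g * x * g⁻¹) = θ x ∧ ext0 N.subtype θ (g * s * x * (g * s)⁻¹) = θ y := fun g hg =>
    ⟨(ext0_of_eq _ θ (h := ⟨g, hg⟩ * x * ⟨g, hg⟩⁻¹) rfl).trans (h.conj _ _),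
      (ext0_of_eq _ θ (h := ⟨g, hg⟩ * y * ⟨g, hg⟩⁻¹) (by simp [e, mul_assoc])).trans (h.conj _ _)⟩
  have h1 : ∀ g, ext0 N.subtype θ (g * x * g⁻¹) + ext0 N.subtype θ (g * s⁻¹ * x * (g * s⁻¹)⁻¹) = θ x + θ y := fun g => by
    by_cases hg : g ∈ N
    · have h2 : g * s⁻¹ * s⁻¹ ∈ N := by simp [mul_mem_iff_of_index_two i2, hg, hs]
      have := (k _ h2).2
      rw [inv_mul_cancel_right] at this
      rw [(k g hg).1, this]
    · have h2 : g * s⁻¹ ∈ N := by simp [mul_mem_iff_of_index_two i2, hg, hs]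
      have := (k _ h2).2
      rw [inv_mul_cancel_right] at this
      rw [(k _ h2).1, this, add_comm]
  have h2 := Finset.sum_congr rfl fun g (_ : g ∈ Finset.univ) => h1 g
  rw [Finset.sum_add_distrib, Fintype.sum_equiv (Equiv.mulRight s⁻¹)
    (fun g => ext0 N.subtype θ (g * s⁻¹ * x * (g * s⁻¹)⁻¹)) (fun g => ext0 N.subtype θ (g * x * g⁻¹)) fun _ => rfl,
    Finset.sum_const, Finset.card_univ, ← Nat.card_eq_fintype_card, ← N.index_mul_card, i2] at h2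
  rw [ind_def', inv_mul_eq_iff_eq_mul₀ (Ch.card_ne_zero' _)]
  simp only [nsmul_eq_mul, Nat.cast_mul, Nat.cast_ofNat] at h2
  linear_combination h2 / 2

open Classical in
/-- the sign character of a subgroup of index two -/
noncomputable def sgn2 {N : Subgroup G} (i2 : N.index = 2) : Du G := Du.mk (MonoidHom.mk'
  (fun x => if x ∈ N then 1 else -1) fun a b => by
    by_cases ha : a ∈ N <;> by_cases hb : b ∈ N <;> simp [mul_mem_iff_of_index_two i2, ha, hb])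
theorem sgn2_of {N : Subgroup G} (i2 : N.index = 2) {x : G} (h : x ∈ N) : (sgn2 i2).ch x = 1 :=
  congrArg Units.val (if_pos h)
theorem sgn2_not {N : Subgroup G} (i2 : N.index = 2) {x : G} (h : x ∉ N) : (sgn2 i2).ch x = -1 :=
  congrArg Units.val (if_neg h)
theorem mem_of_odd {N : Subgroup G} (i2 : N.index = 2) {x : G} (h : Odd (orderOf x)) : x ∈ N := by_contra fun e =>
  sq_ne (l := sgn2 i2) h (by rw [sgn2_not i2 e]; norm_num) (by rw [sgn2_not i2 e]; norm_num)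

namespace HO

variable (S : HA E)

/-- the Steinberg character up to sign -/
noncomputable def St : S.H → ℂ := (torW S).D 1 - 1

theorem vc_St : IsVC (St S) := (Tor.isVC_D _ isVC_one).sub isVC_one
theorem eta_one (P : Tor S) : P.eta 1 = 1 := P.eta_lin 1
theorem eta_sub (P : Tor S) (a b : S.H → ℂ) : P.eta (a - b) = P.eta a - P.eta b := P.fext
  (fun z => by simp only [Pi.sub_apply, Tor.eta_Z, j]; ring) fun x hx => by simp only [Pi.sub_apply, P.eta_A _ hx]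
theorem etaW_St : (torW S).eta (St S) = 1 := by
  rw [St, eta_sub, Tor.eta_D, eta_one]; ext; simp
theorem etaT_St : (torT S).eta (St S) = -1 := by rw [St, eta_sub, Tor.eta_D' _ (disWT S), eta_one, zero_sub]
theorem St_Z (z : S.Z) : St S (zH S z) = -S.Q := by
  rw [St, Pi.sub_apply, Tor.D_Z, cTm, cWm, Q_cast]; simp only [Pi.one_apply]; linear_combination e_sq S
theorem St_u : St S ((torT S).i S.uT) = -1 := by
  rw [St, Pi.sub_apply, Tor.D_B _ (disWT S) _ S.u_not_Z, zero_sub]; rfl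

variable {S}
theorem ipW_St (c : S.W → ℂ) (β : Du S.H) : ⟪(torW S).D c, St S * β.ch⟫ = ⟪c, (Du.comp (torW S).i β).ch⟫ := by
  rw [Tor.ip_D _ _ ((vc_St S).isCF.mul β.isCF), Tor.eta_mul, etaW_St, one_mul]
theorem ipT_St (c : S.T → ℂ) (β : Du S.H) : ⟪(torT S).D c, St S * β.ch⟫ = -⟪c, (Du.comp (torT S).i β).ch⟫ := by
  rw [Tor.ip_D _ _ ((vc_St S).isCF.mul β.isCF), Tor.eta_mul, etaT_St, neg_one_mul, ip_neg_right]
theorem ip1_St (β : Du S.H) : ⟪1, St S * β.ch⟫ = 0 := by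
  conv_lhs => rw [decomp S isCF_one, eta_one, eta_one]
  rw [ip_smul_left, ip_add_left, ipW_St, ipT_St, ← Du.ch_one, ← Du.ch_one, Du.ip_ch, Du.ip_ch]
  by_cases h : β = 1
  · simp [h]
  · rw [if_neg fun e => h (S.inj_T S.T_le_H (e.symm.trans (map_one _).symm)),
      if_neg fun e => h (S.inj_W (e.symm.trans (map_one _).symm))]; simp
theorem ip_StSt (β : Du S.H) : ⟪St S, St S * β.ch⟫ = if β = 1 then 1 else 0 := by
  conv_lhs => rw [St, ip_sub_left, ← St]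
  rw [ip1_St, ipW_St, ← Du.ch_one, Du.ip_ch, sub_zero]
  exact if_congr ⟨fun e => S.inj_W (e.symm.trans (map_one _).symm), fun e => by rw [e, map_one]⟩ rfl rfl

theorem St_ne {S : RA E} {x : S.H} (h : St S.toHA x ≠ 0) (ho : Odd (orderOf x)) :
    ∃ y : S.H, y * y = 1 ∧ y ≠ 1 ∧ (y : E) ≠ S.t ∧ y * x * y⁻¹ = x⁻¹ := by
  obtain ⟨k, hk, e⟩ := S.classes x.2
  have key : ∀ P : Tor S.toHA, k * x * k⁻¹ ∈ P.A → ∃ y : S.H, y * y = 1 ∧ y ≠ 1 ∧ (y : E) ≠ S.t ∧ y * x * y⁻¹ = x⁻¹ :=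
    fun P h => by
      have := congrArg Subtype.val (P.odd_M (y := ⟨_, h⟩) (by
        rw [← Subgroup.orderOf_coe]
        exact (by rwa [Subgroup.orderOf_coe] : Odd (orderOf (x : E))).of_dvd_nat
          (orderOf_map_dvd (MulAut.conj k).toMonoidHom _)))
      refine ⟨⟨k⁻¹ * P.v * k⁻¹⁻¹, mul_mem (mul_mem (inv_mem hk) P.vH) (inv_mem (inv_mem hk))⟩,
        Subtype.ext (conj_sq P.vv _), fun e => P.v_not ?_, fun e => P.v_not ?_, Subtype.ext ?_⟩
      · rw [conj_eq_one_iff.1 (congrArg Subtype.val e)]; exact one_mem _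
      · rw [S.eq_t_of_conj (inv_mem hk) e]; exact P.hZ S.t_Z
      · change P.v * (k * x * k⁻¹) * P.v⁻¹ = (k * x * k⁻¹)⁻¹ at this
        calc _ = k⁻¹ * (P.v * (k * x * k⁻¹) * P.v⁻¹) * k := by simp [mul_assoc]
          _ = _ := by rw [this]; simp [mul_assoc]
  rcases e with e | e | ⟨z, hz, y, hy, y1, e⟩
  · exact key (torT _) e
  · exact key (torW _) e
  · refine absurd ?_ h
    rw [← (vc_St _).isCF.conj x ⟨k, hk⟩, show (⟨k, hk⟩ * x * ⟨k, hk⟩⁻¹ : S.H) = zH _ ⟨z, hz⟩ * ⟨y, S.U_le_H hy⟩ from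
      Subtype.ext e, ← (vc_St _).isCF.of_isConj (conj_y0 _ ⟨z, hz⟩ hy y1), St, Pi.sub_apply, Tor.D_U]
    exact sub_self _

end HO

namespace PS

variable {P : PS G E} {s : P.H1}

theorem nc (s2 : s * s = 1) (hs : (P.π s : E) = P.S.u) {i : P.H1} :
    IsConj s i ↔ i * i = 1 ∧ i ≠ 1 ∧ (P.π i : E) ≠ P.S.t := by
  refine ⟨fun h => ?_, fun ⟨h1, h2, h3⟩ => ?_⟩
  · obtain ⟨g, rfl⟩ := isConj_iff.1 h
    refine ⟨conj_sq s2 g, fun e => P.S.u_ne (by rw [← hs, conj_eq_one_iff.1 e, map_one]; rfl), fun e => P.S.t_ne_u ?_⟩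
    rw [map_mul, map_mul, map_inv, coe_mul, coe_mul, hs] at e
    exact (P.S.eq_t_of_conj (P.π g).2 e).symm
  · obtain ⟨c, hc, e⟩ := (P.S.inv_H (P.π i).2 (by rw [← coe_mul, ← map_mul, h1, map_one]; rfl)
      fun e => h2 (P.oddK.eq_one (Blk.piElt_two_of_sq h1) (Subtype.ext e))).resolve_left h3
    exact P.oddK.isConj (Blk.piElt_two_of_sq s2) (Blk.piElt_two_of_sq h1)
      (isConj_iff.2 ⟨⟨c, hc⟩, Subtype.ext (by rw [e, ← hs]; rfl)⟩)

theorem eq_τ {i : P.H1} (h1 : i * i = 1) (h : (P.π i : E) = P.S.t) : (i : G) = P.τ :=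
  congrArg Subtype.val (mul_inv_eq_one.1 (P.oddK.eq_one (x := i * ⟨P.τ, P.τH⟩⁻¹) ((Blk.piElt_two_of_sq h1).mul
    (Blk.piElt_two_of_sq (Subtype.ext P.ττ)).inv (Commute.inv_right (Subtype.ext (P.mem_H.1 (P.H1_le i.2)))))
    (by rw [map_mul, map_inv, mul_inv_eq_one]; exact Subtype.ext (h.trans P.πτ.symm))))

theorem idx_s (s2 : s * s = 1) (hs : (P.π s : E) = P.S.u) : ((𝐂[s]).index : ℂ) = P.k * (P.S.Q * (P.S.Q + 1)) := by
  classical
  have := Fintype.ofFinite P.H1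
  have := Fintype.ofFinite P.S.H
  have h := P.oddK.sum_inv (u := ⟨P.S.u, P.S.T_le_H P.S.u_T⟩) (fun y => if (y : E) ≠ P.S.t then 1 else 0) fun y a b c => by
    obtain ⟨c, hc, e⟩ := (P.S.inv_H y.2 (congrArg Subtype.val a) fun e => b (Subtype.ext e)).resolve_left
      fun e => c (if_neg (not_not.2 e))
    exact isConj_iff.2 ⟨⟨c, hc⟩, Subtype.ext e.symm⟩
  have h2 := (c2_map (zH P.S.toHA ⟨P.S.t, P.S.t_Z⟩)).trans (cnt_t (S := P.S.toHA))
  rw [c2, Set.ncard_eq_toFinset_card'] at h2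
  rw [Finset.sum_boole, Finset.sum_boole, show Nat.card {x : P.H1 // _} = P.k by simp only [k, Subtype.ext_iff]] at h
  rw [← card_class, Nat.card_eq_fintype_card, Fintype.card_subtype, Q_cast,
    show (P.S.e : ℂ) * P.S.q * (P.S.e * P.S.q + 1) = P.S.q * (P.S.q + P.S.e) by
      linear_combination P.S.q ^ 2 * e_sq P.S.toHA, ← h2]
  refine (congrArg _ (congrArg _ (Finset.ext fun i => ?_))).trans (h.trans (congrArg _ (congrArg _ (congrArg _
    (Finset.ext fun y => ?_)))))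
  · simp only [Finset.mem_filter, Finset.mem_univ, true_and, mem_invs, nc s2 hs, and_assoc]
  · symm
    simp only [Set.mem_toFinset, Set.mem_ofPred_eq, Finset.mem_filter, mem_invs, and_assoc, ne_eq, Subtype.ext_iff]
    exact and_congr_right' (and_congr_right' ⟨fun h => h.1, fun h => ⟨h, (HO.conj_t y.2).trans P.S.t_inv.symm⟩⟩)

theorem J_odd {l : Du P.H} {f : P.S.H → ℂ} (hf : Sup f) {x : G} (h : Odd (orderOf x)) : P.J l f x = 0 :=
  ind_eq_zero _ fun a y e => sup_hat hf a fun ha => not_odd_of_inv ha P.ττ P.τ_ne (by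
    rw [show (a : G) = y * x * y⁻¹ from e]; exact h.of_dvd_nat (orderOf_map_dvd (MulAut.conj y).toMonoidHom _))

theorem p2d' (hH : P.H ≤ P.H1) (h3 : P.S.Q % 4 = 3) (hp : _root_.commutator G = ⊤) {N : Subgroup P.H1} (i2 : N.index = 2)
    (s2 : s * s = 1) (hs : (P.π s : E) = P.S.u) (s0 : s ∉ N) (lam : Du N) (od : Od lam)
    (inv : ∀ x y : N, (y : P.H1) = s * x * s⁻¹ → lam.ch y = lam.ch x⁻¹) {o : N} (ho : P.π o = 1) (o1 : lam.ch o ≠ 1)
    (ti : ∀ x : N, Odd (orderOf x) → lam.ch x ≠ 1 → St P.S.toHA (P.π x) ≠ 0 → (x : P.H1) ∈ P.R1) : False := by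
  classical
  have := normal_of_index_eq_two i2
  obtain ⟨α, hα⟩ := defl P.surj (sgn2 i2) fun x hx => sgn2_of i2 (mem_of_odd i2 (P.oddK.odd x hx))
  have tα : Tw α := fun y hy => by_contra fun e => sq_ne hy e (by
    obtain ⟨x, rfl⟩ := P.surj y
    rw [hα]; by_cases h : x ∈ N
    · rw [sgn2_of i2 h, one_mul]
    · rw [sgn2_not i2 h]; norm_num)
  have us : (torT P.S.toHA).i P.S.uT = P.π s := Subtype.ext hs.symm
  have hu : (P.S.rT α).ch P.S.uT = -1 := by change α.ch ((torT P.S.toHA).i _) = _; rw [us, hα, sgn2_not i2 s0]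
  have α1 := POm.al1 hu
  obtain ⟨ν, a⟩ := exists_AN h3 tα hu
  obtain ⟨φ, χS, X, Y1, Y2, Z, c⟩ := P.pom1.decomp P.prin1.base tα hu
  have τN : (⟨P.τ, P.τH⟩ : P.H1) ∈ N := by_contra fun e => by
    have := sgn2_not i2 e
    rw [← hα, π_τ, a.α_Z] at this; norm_num at this
  have iN : ∀ i ∈ N, i * i = 1 → i ≠ 1 → (i : G) = P.τ := fun i hi h1 h2 => eq_τ h1 (by_contra fun e => by
    obtain ⟨g, rfl⟩ := isConj_iff.1 ((nc s2 hs).2 ⟨h1, h2, e⟩)
    exact s0 (by simpa [mul_assoc] using this.conj_mem _ hi g⁻¹))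
  obtain ⟨S, hS⟩ : ∃ S, S = St P.S.toHA ∘ P.π := ⟨_, rfl⟩
  have vS : IsVC S := hS ▸ (vc_St _).comp _
  have hΛ : ∀ x : N, ind N.subtype lam.ch x = lam.ch x + lam.ch x⁻¹ := fun x => by
    rw [ind2 i2 s0 lam.isCF x ⟨_, this.conj_mem _ x.2 s⟩ rfl, inv x ⟨_, this.conj_mem _ x.2 s⟩ rfl]
  obtain ⟨B, hB⟩ : ∃ B, B = S * ind N.subtype lam.ch := ⟨_, rfl⟩
  have vB : IsVC B := hB ▸ vS.mul (lam.isVC.induce _)
  have oo : Odd (orderOf o) := by rw [← Subgroup.orderOf_coe]; exact P.oddK.odd _ ho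
  have sh : ∀ (f : P.S.H → ℂ) (x : N), f (P.π (x * o : N)) = f (P.π x) := fun f x => by
    rw [coe_mul, map_mul, ho, mul_one]
  have Bf : ∀ f : P.S.H → ℂ, IsCF f → ⟪B, f ∘ P.π⟫ = 0 := fun f hf => by
    rw [hB, ← ind_res_mul _ _ vS.isCF, ip_ind_left _ _ (hf.comp _)]
    exact ip_zero_shift o (c := lam.ch o) (c' := 1) (fun x => by
      simp only [hS, Pi.mul_apply, Function.comp_apply, coe_subtype, sh, Du.ch_apply_mul]; ring)
      (fun x => by simp only [Function.comp_apply, coe_subtype, sh, one_mul]) (by simpa using o1)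
  have SS : ⟪St P.S.toHA, St P.S.toHA⟫ = 1 := by simpa using ip_StSt (S := P.S.toHA) 1
  have SA : ⟪St P.S.toHA, St P.S.toHA * α.ch⟫ = 0 := by rw [ip_StSt, if_neg α1]
  have AA : ⟪St P.S.toHA * α.ch, St P.S.toHA * α.ch⟫ = 1 := by
    rw [ip_mul_left, ← Du.ch_inv, mul_left_comm, ← Du.ch_mul, inv_mul_cancel, Du.ch_one, mul_one, SS]
  have vA := (vc_St P.S.toHA).mul α.isVC
  have BB : ⟪B, B⟫ = 1 := by
    have e1 : B ∘ N.subtype = S ∘ N.subtype * lam.ch + S ∘ N.subtype * fun x => lam.ch x⁻¹ := funext fun x => by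
      simp only [hB, Pi.mul_apply, Pi.add_apply, Function.comp_apply, coe_subtype, hΛ, mul_add]
    have e2 : ind N.subtype (S ∘ N.subtype) = (St P.S.toHA + St P.S.toHA * α.ch) ∘ P.π := by
      rw [← mul_one (S ∘ N.subtype), ind_res_mul _ _ vS.isCF]
      ext x
      simp only [hS, Pi.mul_apply, Pi.add_apply, Function.comp_apply, hα]
      by_cases h : x ∈ N
      · rw [ind2 i2 s0 isCF_one ⟨x, h⟩ ⟨_, this.conj_mem _ h s⟩ rfl, sgn2_of i2 h]; simp [mul_add]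
      · rw [ind_subtype_not_mem _ _ h, sgn2_not i2 h]; ring
    have eB : B = ind N.subtype (S ∘ N.subtype * lam.ch) := by rw [hB, ind_res_mul _ _ vS.isCF]
    nth_rw 1 [eB]
    rw [ip_ind_left _ _ vB.isCF, e1, ip_add_right, ip_zero_shift o (b := _ * fun x => lam.ch x⁻¹) (c := lam.ch o)
      (c' := lam.ch o⁻¹) (fun x => by
        simp only [hS, Pi.mul_apply, Function.comp_apply, coe_subtype, sh, Du.ch_apply_mul]; ring) (fun x => by
        simp only [hS, Pi.mul_apply, Function.comp_apply, coe_subtype, sh, mul_inv_rev, Du.ch_apply_mul]; ring)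
      (by rw [conj_ch']; exact sq_ne oo o1), add_zero, ip_mul_left, ← Du.ch_inv, mul_left_comm, ← Du.ch_mul,
      inv_mul_cancel, Du.ch_one, mul_one, ← ip_ind_left _ _ vS.isCF, e2, hS, ip_comp_surj _ P.surj, ip_add_left, SS,
      ip_eq_zero_symm SA, add_zero]
  obtain ⟨θ, hθ⟩ : ∃ θ, θ = S + (St P.S.toHA * α.ch) ∘ P.π - B := ⟨_, rfl⟩
  have vθ : IsVC θ := hθ ▸ (vS.add (vA.comp _)).sub vB
  have θN : ∀ x : N, θ x = S x * (2 - lam.ch x - lam.ch x⁻¹) := fun x => by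
    simp only [hθ, hB, hS, Pi.mul_apply, Pi.add_apply, Pi.sub_apply, Function.comp_apply, hα, hΛ, sgn2_of i2 x.2]; ring
  have θ1 : ∀ x : N, lam.ch x = 1 → θ x = 0 := fun x hx => by
    rw [θN, show lam.ch x⁻¹ = 1 by rw [← one_mul (lam.ch x⁻¹), ← hx, ← Du.ch_apply_mul]; simp [hx], hx]; ring
  have sup : ∀ x, θ x ≠ 0 → x ∈ N ∧ x ≠ 1 ∧ x ∈ P.R1 ∧ (P.τ ∈ zpowers (x : G) ∨ Odd (orderOf (x : G))) := fun x hx => by
    have h1 : x ∈ N := by_contra fun e => hx (by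
      simp only [hθ, hB, hS, Pi.mul_apply, Pi.add_apply, Pi.sub_apply, Function.comp_apply, hα, sgn2_not i2 e,
        ind_subtype_not_mem _ _ e]; ring)
    refine ⟨h1, fun e => hx (θ1 ⟨x, h1⟩ (by subst e; exact Du.ch_apply_one _)), ?_⟩
    by_cases h : Odd (orderOf x)
    · exact ⟨ti ⟨x, h1⟩ (by rwa [← Subgroup.orderOf_coe]) (mt (θ1 _) hx) fun e => hx (by
        rw [show θ x = _ from θN ⟨x, h1⟩, hS, Function.comp_apply, e, zero_mul]), Or.inr (by rwa [Subgroup.orderOf_coe])⟩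
    · obtain ⟨i, hi, i2, i1⟩ := exists_inv h
      have : P.τ ∈ zpowers (x : G) := iN i (zpowers_le.2 h1 hi) i2 i1 ▸ mem_map_of_mem P.H1.subtype hi |>
        (MonoidHom.map_zpowers P.H1.subtype x).le
      exact ⟨Or.inl this, Or.inl this⟩
  have sR : ∀ x, x ∉ P.R1 → θ x = 0 := fun x hx => by_contra fun e => hx (sup x e).2.2.1
  have θf : ∀ f, IsCF f → ⟪θ, f ∘ P.π⟫ = ⟪St P.S.toHA, f⟫ + ⟪St P.S.toHA * α.ch, f⟫ := fun f hf => by
    rw [hθ, ip_sub_left, Bf f hf, ip_add_left, hS, ip_comp_surj _ P.surj, ip_comp_surj _ P.surj, sub_zero]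
  have ΘJ : ∀ f, IsVC f → Sup f → pi0 2 f = f → ⟪ind P.H1.subtype θ, P.J 1 f⟫ =
      ⟪f, St P.S.toHA * (1 : Du P.S.H).ch⟫ + ⟪f, St P.S.toHA * α.ch⟫ := fun f v hf h0 => by
    rw [ip_ind_left _ _ isCF_J, ip_congr_support (c := f ∘ P.π) fun x hx => ?_, θf f v.isCF, Du.ch_one, mul_one,
      v.ip_comm vA, v.ip_comm (vc_St _)]
    by_cases h : P.τ ∈ zpowers (x : G)
    · exact J_val P.lin_one hf h0 h
    · exact (J_odd hf ((sup x hx).2.2.2.resolve_left h)).trans (hf _ fun e => h (P.zp_π.1 e)).symm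
  have ΘW : ∀ {b : Du P.S.W}, Tw b → b ≠ 1 → ⟪ind P.H1.subtype θ, P.pom1.θ b⟫ = 1 - if b = P.S.rW α then 1 else 0 :=
    fun {b} hb b1 => by
      refine (ΘJ _ (Tor.isVC_D _ (isVC_one.sub b.isVC)) (Tor.sup_D (supW (tw_one.van hb))) (p0W (tw_one.two hb))).trans ?_
      rw [ipW_St, ipW_St, map_one, ← Du.ch_one, ip_sub_left, ip_sub_left, Du.ip_ch, Du.ip_ch, Du.ip_ch, Du.ip_ch,
        if_pos rfl, if_neg b1, if_neg (P.S.rW_ne α1).symm]
      ring
  have ΘT : ⟪ind P.H1.subtype θ, P.pom1.Θ (P.S.rT α)⟫ = 2 := by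
    have e : cut ((P.S.rT α).ch - 1) = (-1 : P.S.T → ℂ) * a.a := funext fun x => by
      by_cases h : P.S.t ∈ zpowers (x : E)
      · have hc : constt {2} x = P.S.tT := Subtype.ext (inv_unique (by
          rw [show ((constt {2} x : P.S.T) : E) = _ from map_constt P.S.T.subtype {2} x]; exact constt_mem_zpowers _ _) h
          (congrArg Subtype.val (RA.sq2 h3 (constt_piElt _ x))) P.S.tt (fun e => not_odd_of_inv h P.S.tt P.S.t_ne (by
            rw [Subgroup.orderOf_coe, ← constt_mul_compl {2} x, show constt {2} x = 1 from Subtype.ext e, one_mul]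
            exact odd_constt x)) P.S.t_ne)
        rw [cut_of _ h, ← Two.tw (two_av (a := (P.S.rT α).ch - 1) (a.αT.two tw_one)), tw_apply, Pi.mul_apply, a.a_eq, hc,
          if_pos rfl, P.S.av_t]
        simp only [Pi.sub_apply, Pi.one_apply, Pi.neg_apply, Du.ch_apply_mul, a.αt, hu]; norm_num
      · rw [sup_cut _ x h, a.sup_a _ x h]
    have va : Van ((P.S.rT α).ch - 1) := a.αT.van tw_one
    refine (ΘJ _ (Tor.isVC_D _ (e ▸ isVC_one.neg.mul ((isVC_one.add (Du.isVC _)).mul (isVC_one.sub ν.isVC))))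
      (Tor.sup_D (sup_cut _)) (p0T (a.αT.two tw_one))).trans ?_
    rw [ipT_St, ipT_St, ip_congr_support (b := (Du.comp _ α).ch) (c := 1) fun x hx => ?_, map_one, Du.ch_one,
      ip_cut va (g := 1) rfl, ip_sub_left, Du.ip_ch_one, if_neg (P.S.rT_ne α1), ip_one_one]
    · norm_num
    · have : constt {2} x = P.S.tT := by_contra fun h => hx (by
        change cut ((P.S.rT α).ch - 1) x = 0
        rw [e, Pi.mul_apply, a.a_eq, if_neg h, mul_zero])
      exact (RA.tw_val a.αT x).trans (this ▸ a.αt)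
  refine c.p2d hp (vθ.induce P.H1.subtype) ?_ ?_ ?_ ?_ ?_ ?_ ?_ ?_
  · rw [(ti1 hH).ip_ind sR vθ.isCF sR]
    conv_lhs => rw [hθ, ip_sub_right, ip_add_right, ← hθ, hS, θf _ (vc_St _).isCF, θf _ vA.isCF, hθ, ip_sub_left,
      ip_add_left, hS, ip_eq_zero_symm (Bf _ (vc_St _).isCF), ip_eq_zero_symm (Bf _ vA.isCF), BB, SS, SA, AA,
      ip_eq_zero_symm SA]
    norm_num
  · rw [ip_ind_left _ _ isCF_one, show (1 : G → ℂ) ∘ P.H1.subtype = (1 : P.S.H → ℂ) ∘ P.π from rfl, θf _ isCF_one,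
      ip_eq_zero_symm (ip1_St α), ip_eq_zero_symm (by simpa using ip1_St (S := P.S.toHA) 1), add_zero]
  · rw [ΘW c.hφ c.φ1, if_neg fun e : φ = _ => c.φ_ne (e ▸ P.S.fix_rW α), sub_zero]
  · rw [ΘW (tα.comp _) (P.S.rW_ne α1), if_pos rfl, sub_self]
  · rw [POm.η, ip_smul_right, ip_sub_right, ΘT, ΘW (tα.comp _) (P.S.rW_ne α1), if_pos rfl, map_inv₀, map_ofNat]
    norm_num
  · rw [ind_one, show θ 1 = 0 from θ1 1 (Du.ch_apply_one _), mul_zero]
  · exact ((ti1 hH).ind_apply vθ.isCF sR (a := ⟨P.τ, P.τH⟩) (Or.inl (mem_zpowers _))).trans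
      (θ1 ⟨_, τN⟩ (od _ (Blk.piElt_two_of_sq (Subtype.ext (Subtype.ext P.ττ)))))
  · have k : ∀ {χ : P.H1 → ℂ}, IsSIrr χ → ⟪χ, cnt s⟫ = ((𝐂[s]).index : ℂ) / Nat.card 𝐂[s] * (χ s ^ 2 / χ 1) :=
      fun h => h.elim (ip_cnt s) fun h => by
        have := ip_cnt s h
        rwa [ip_neg_left, Pi.neg_apply, Pi.neg_apply, neg_sq, div_neg, mul_neg, neg_inj] at this
    have S1 : St P.S.toHA 1 = -P.S.Q := by simpa using St_Z P.S.toHA 1
    change Nat.card P.H * ⟪_, cnt P.τ⟫ = -2 * (P.k ^ 2 * _ * _)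
    rw [ip_ind_left _ _ (isCF_cnt _), ip_congr_support (c := cnt s) fun x hx => ?_, hθ, ip_sub_left, ip_add_left,
      k (vB.isSIrr BB), k ((vA.isSIrr AA).comp_surj _ P.surj), hS, k (((vc_St _).isSIrr SS).comp_surj _ P.surj),
      card_H1 hH, ← (𝐂[s]).index_mul_card, hB, Pi.mul_apply, ind_subtype_not_mem _ _ s0]
    · simp only [Function.comp_apply, Pi.mul_apply, map_one, S1, ← us, St_u P.S.toHA, Du.ch_apply_one, Nat.cast_mul, idx_s s2 hs,
        show α.ch ((torT P.S.toHA).i P.S.uT) = -1 from hu]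
      have := (POm.Cons.Qne (S := P.S)).1
      have := Ch.card_ne_zero' (𝐂[s])
      field_simp; ring
    · obtain ⟨h1, h2, h4, -⟩ := sup x hx
      refine (cnt1 hH h4).trans (congrArg _ (congrArg _ (Set.ext fun i => ?_)))
      have iv : ∀ {i : P.H1}, i * i = 1 → i⁻¹ = i := fun h => inv_eq_of_mul_eq_one_right h
      have nt : ∀ {i : P.H1}, (i : G) = P.τ → i ∈ N := fun h => (Subtype.ext h : _ = (⟨P.τ, P.τH⟩ : P.H1)) ▸ τN
      have nN : ∀ {i : P.H1}, i * i = 1 → i ∉ N → IsConj s i := fun a b =>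
        (nc s2 hs).2 ⟨a, fun e => b (e ▸ one_mem _), fun e => b (nt (eq_τ a e))⟩
      simp only [Set.mem_ofPred_eq]
      refine ⟨fun ⟨a, b, c, d⟩ => ?_, fun ⟨a, b⟩ => ?_⟩
      · have e : i ∉ N := fun e => by
          have e1 := iN i e a b
          have : x * x = 1 := by
            nth_rw 1 [← inv_inv x, ← d]
            rw [show i * x = x * i from Subtype.ext (by
              rw [coe_mul, coe_mul, e1]; exact (P.mem_H.1 (P.H1_le x.2)).symm), mul_inv_cancel_right, inv_mul_cancel]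
          exact c (Subtype.ext (e1.trans (iN x h1 this h2).symm))
        refine ⟨nN a e, nN ?_ fun f => e (by simpa using mul_mem h1 (inv_mem f))⟩
        rw [iv a] at d ⊢; rw [← mul_assoc, d, inv_mul_cancel]
      · obtain ⟨a1, a2, -⟩ := (nc s2 hs).1 a
        obtain ⟨b1, b2, -⟩ := (nc s2 hs).1 b
        refine ⟨a1, a2, fun e => b2 (by rw [e, inv_mul_cancel]), ?_⟩
        rw [iv a1] at b1 ⊢; exact eq_inv_of_mul_eq_one_left (by rw [← b1]; group)

theorem p2d (P : PS G E) (hH : P.H ≤ P.H1) (h3 : P.S.Q % 4 = 3) (hp : _root_.commutator G = ⊤) {H0 : Subgroup G}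
    (le : H0 ≤ P.H1) (i2 : H0.relIndex P.H1 = 2) {s : P.H1} (s2 : s * s = 1) (hs : (P.π s : E) = P.S.u)
    (s0 : (s : G) ∉ H0) (lam : Du H0) (od : Od lam)
    (inv : ∀ x y : H0, (y : G) = s * x * (s : G)⁻¹ → lam.ch y = lam.ch x⁻¹) {o : H0} (ho : (o : G) ∈ P.O)
    (o1 : lam.ch o ≠ 1) (ti : ∀ (x : P.H1) (hx : (x : G) ∈ H0), Odd (orderOf x) → lam.ch ⟨x, hx⟩ ≠ 1 →
      ∀ y : P.S.H, y * y = 1 → y ≠ 1 → (y : E) ≠ P.S.t → y * P.π x * y⁻¹ = (P.π x)⁻¹ →
      ∀ i : G, i * i = 1 → i ≠ 1 → i * x = x * i → i = P.τ) : False := by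
  let e := subgroupOfEquivOfLe le
  refine p2d' hH h3 hp (N := H0.subgroupOf P.H1) i2 s2 hs s0 (Du.comp e.toMonoidHom lam)
    (fun x hx => od _ (hx.map e.toMonoidHom)) (fun x y h => inv (e x) (e y) (congrArg Subtype.val h))
    (o := ⟨⟨o, le o.2⟩, o.2⟩) ((P.ker _).2 ho) o1 fun x hx h1 h2 => ?_
  rw [← Subgroup.orderOf_coe] at hx
  obtain ⟨y, a, b, c, d⟩ := St_ne h2 (hx.of_dvd_nat (orderOf_map_dvd _ _))
  exact Or.inr (ti x x.2 hx h1 y a b c d)

end PS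

end CA.ABG
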