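/-
The odd part of the Schur multiplier of `SL₂(q)`.
-/
import Cfsg.Agent.Lib.ABG.QuadB
import Cfsg.Agent.Lib.ABG.LA

set_option autoImplicit false
set_option linter.unusedSectionVars false

namespace CA.ABG
open Cfsg CA CA.GW Matrix.SpecialLinearGroup CA.SL2 CA.Br Subgroup
open scoped MatrixGroups

variable {F : Type} [Field F] [Fintype F]

open Polynomial in
theorem exists_pyth (hF : Odd (Fintype.card F)) (h : 13 < Fintype.card F) : ∃ m₁ m₂ m₃ : Fˣ,
    (m₁ : F) ^ 2 + m₂ ^ 2 = m₃ ^ 2 ∧ ((m₁ : F) ^ 2)⁻¹ + ((m₂ : F) ^ 2)⁻¹ - ((m₃ : F) ^ 2)⁻¹ ≠ 0 := by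
  have h2 := two_ne_zero_of_odd hF
  obtain ⟨m, hm⟩ := exists_eval_ne_zero_of_natDegree_lt_card
    (X * (X ^ 2 - 1) * (X ^ 2 + 1) * (X ^ 8 + 14 * X ^ 4 + 1) : F[X]) (Monic.ne_zero (by monicity!)) (by
      rw [Cardinal.mk_fintype, Nat.cast_lt]; exact lt_of_le_of_lt (by compute_degree) h)
  simp only [eval_mul, eval_add, eval_sub, eval_pow, eval_X, eval_one, eval_ofNat, ne_eq, mul_eq_zero, not_or] at hm
  obtain ⟨⟨⟨m0, n1⟩, n3⟩, n4⟩ := hm
  have n2 : 2 * m ≠ 0 := mul_ne_zero h2 m0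
  refine ⟨Units.mk0 _ n1, Units.mk0 _ n2, Units.mk0 _ n3, by simp only [Units.val_mk0]; ring, fun e => n4 ?_⟩
  simp only [Units.val_mk0] at e
  field_simp at e
  linear_combination e

theorem sylow_up {p : ℕ} (hp : p.Prime) [CharP F p] : SylowIn p (upHom F).range ⊤ ∧
    Nat.card (upHom F).range = Fintype.card F := by
  haveI := Fact.mk hp
  have c : Nat.card (upHom F).range = Fintype.card F := by
    rw [← Nat.card_congr (MonoidHom.ofInjective (f := upHom F) fun _ _ e => up_injective (F := F) e).toEquiv,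
      Nat.card_eq_fintype_card, Fintype.card_multiplicative]
  obtain ⟨f, -, hf⟩ := FiniteField.card F p
  refine ⟨sylowIn_mk hp le_top ((piGrp_of_card_pow hp (c.trans hf)).isPGroup hp) fun e => ?_, c⟩
  have c1 := card_mul_relIndex (le_top (a := (upHom F).range))
  rw [c, card_top, CA.Lin.card_SL_two, Nat.mul_right_inj Fintype.card_ne_zero] at c1
  have : p ∣ Fintype.card F ^ 2 := hf ▸ (dvd_pow_self p f.ne_zero).pow two_ne_zero
  exact hp.one_lt.ne' (Nat.dvd_one.1 ((Nat.dvd_sub_iff_right (Nat.one_le_pow _ _ Fintype.card_pos) this).1 (c1 ▸ e)))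

variable {N : Type*} [Group N] [Finite N] {π : N →* SL(2, F)} {r : ℕ}

theorem ab_of_cyc (cen : ∀ c, π c = 1 → ∀ n, c * n = n * c) {R : Subgroup N} (h : IsCyclic (R.map π)) :
    IsMulCommutative R :=
  ⟨⟨commutative_of_cyclic_center_quotient (π.subgroupMap R) fun c hc => mem_center_iff.2 fun n =>
    Subtype.ext (cen c (congrArg Subtype.val hc) n).symm⟩⟩

theorem ab_of_cext (hF : Odd (Fintype.card F)) (sur : Function.Surjective π) (cen : ∀ c, π c = 1 → ∀ n, c * n = n * c)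
    (hr : r.Prime) (r2 : r ≠ 2) (h9 : Fintype.card F = 9 → r ≠ 3) {R : Subgroup N} (hR : PiGrp {r} R) :
    IsMulCommutative R := by
  haveI := Fact.mk hr
  obtain ⟨p, _, f, hp, hq⟩ := FiniteField.card' F
  haveI := Fact.mk hp
  by_cases rp : r = p
  · subst rp
    obtain ⟨g, -, hg⟩ := (sylow_up (F := F) hr).1.exists_cj_le (hR.map π) le_top
    by_cases f1 : (f : ℕ) = 1
    · exact ab_of_cyc cen ((cjEquiv g _).isCyclic.2 (cyclic_of_le (isCyclic_of_prime_card
        ((sylow_up hr).2.trans (by rw [hq, f1, pow_one]))) hg))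
    obtain ⟨m₁, m₂, m₃, e, ne⟩ := exists_pyth hF (by
      have f2 : 2 ≤ (f : ℕ) := by have := f.pos; omega
      have := hr.two_le
      rw [hq] at h9 ⊢
      by_cases r3 : r = 3
      · subst r3
        have : (f : ℕ) ≠ 2 := fun e => h9 (by rw [e]; norm_num) rfl
        exact lt_of_lt_of_le (by norm_num) (Nat.pow_le_pow_right (by norm_num) (show 3 ≤ (f : ℕ) by omega))
      · exact lt_of_lt_of_le (by norm_num) ((Nat.pow_le_pow_left (show 4 ≤ r by omega) 2).trans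
          (Nat.pow_le_pow_right hr.pos f2)))
    obtain ⟨g, rfl⟩ := sur g
    refine abelian_iff.2 (cents_iff.2 fun a ha b hb => ?_)
    obtain ⟨s, hs⟩ := hg (conj_mem_cj.2 ⟨a, ha, rfl⟩)
    obtain ⟨t, ht⟩ := hg (conj_mem_cj.2 ⟨b, hb, rfl⟩)
    have := up_comm (ρ := MonoidHom.id N) cen sur e ne (a := g * a * g⁻¹) (b := g * b * g⁻¹) (s := s.toAdd) (t := t.toAdd)
      (by rw [map_mul, map_mul, map_inv]; exact hs.symm) (by rw [map_mul, map_mul, map_inv]; exact ht.symm)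
    simpa [← mul_assoc] using (by simpa [mul_assoc] using this : a * (b * g⁻¹) = b * (a * g⁻¹))
  · obtain ⟨S, hS, h1⟩ := exists_sylowIn_ge (hR.map π) le_top
    obtain ⟨S, rfl⟩ := hS.exists_sylow_top
    exact ab_of_cyc cen (cyclic_of_le (sylow_isCyclic p r r2 rp S) h1)

/-- the Schur multiplier of `SL₂(q)`, `q` odd, has no odd part except for `q = 9` -/
theorem mult (hF : Odd (Fintype.card F)) (sur : Function.Surjective π) (cen : ∀ c, π c = 1 → ∀ n, c * n = n * c)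
    (hr : r.Prime) (r2 : r ≠ 2) (h9 : Fintype.card F = 9 → r ≠ 3) {c : N} (h1 : π c = 1) (cr : PiElt {r} c)
    (hc : c ∈ ⁅(⊤ : Subgroup N), (⊤ : Subgroup N)⁆) : c = 1 := by
  obtain ⟨R, hR, cR⟩ := exists_sylowIn_ge (piGrp_zpowers.2 cr) le_top
  exact mem_bot.1 (hR.inf_der_inf_cent_of_abelian (ab_of_cext hF sur cen hr r2 h9 hR.piGrp) ▸
    ⟨⟨cR (mem_zpowers c), hc⟩, mem_cent_iff'.2 fun n _ => cen c h1 n⟩)

end CA.ABG
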