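/-
Alperin–Brauer–Gorenstein theorem, `C(t)` maximal, semidihedral case: the structure of `C(t)`.
-/
import Cfsg.Agent.Lib.ABG.T1e
import Cfsg.Agent.Lib.ABG.P2S
import Cfsg.Agent.Lib.ABG.Mult

set_option autoImplicit false
set_option linter.unusedSectionVars false

namespace CA.ABG

open Cfsg Subgroup CA CA.FStar CA.GW CA.Ch
open scoped MatrixGroups commutatorElement

section
variable {G : Type*} [Group G] {H N B : Subgroup G}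

/-- the projection of a semidirect product onto the complement -/
theorem exists_retr (hN : H ≤ 𝐍(N)) (hB : B ≤ H) (sup : H ≤ N ⊔ B) (inf : N ⊓ B = ⊥) :
    ∃ ρ : H →* B, (∀ x : H, (x : G) * (ρ x : G)⁻¹ ∈ N) ∧ ∀ (x : H) (b : B), (x : G) * (b : G)⁻¹ ∈ N → ρ x = b := by
  have ex : ∀ x : H, ∃ b : B, (x : G) * (b : G)⁻¹ ∈ N := fun x => by
    obtain ⟨n, hn, b, hb, e⟩ := (mem_sup_of_norm_right (hB.trans hN)).1 (sup x.2)
    exact ⟨⟨b, hb⟩, by rw [← e, mul_inv_cancel_right]; exact hn⟩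
  choose r hr using ex
  have un : ∀ (x : H) (b : B), (x : G) * (b : G)⁻¹ ∈ N → r x = b := fun x b h => Subtype.ext (mul_inv_eq_one.1
    (mem_bot.1 (inf ▸ mem_inf.2 ⟨by simpa using mul_mem (inv_mem (hr x)) h, mul_mem (r x).2 (inv_mem b.2)⟩)))
  refine ⟨MonoidHom.mk' r fun x y => un _ _ ?_, hr, un⟩
  have := mul_mem (conj_mem_of_mem_normalizer (hN x.2) (hr y)) (hr x)
  rwa [show (x : G) * (y * (r y : G)⁻¹) * (x : G)⁻¹ * (x * (r x : G)⁻¹) = x * y * ((r x : G) * r y)⁻¹ by group] at this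

end

/-- the setting for a smaller subgroup `H1` -/
noncomputable def PS.res {G E : Type*} [Group G] [Group E] [Finite G] (P : PS G E) {N : Subgroup G} (le : N ≤ P.H1)
    (sj : ∀ x ∈ P.H1, ∃ y ∈ N, x * y⁻¹ ∈ P.O) (comm : ∀ a ∈ 𝐂[P.τ], ∀ b ∈ 𝐂[P.τ], a * b * a⁻¹ * b⁻¹ ∈ N)
    (idx : Odd (N.relIndex 𝐂[P.τ]))
    (cover : ∀ h ∈ 𝐂[P.τ], ∃ c ∈ 𝐂[P.τ], h * c⁻¹ ∈ N ∧ Odd ((𝐂[c]).relIndex 𝐂[P.τ])) (τN : P.τ ∈ N) : PS G E where
  S := P.S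
  τ := P.τ
  H1 := N
  O := P.O ⊓ N
  π := P.π.comp (inclusion le)
  surj y := by
    obtain ⟨x, rfl⟩ := P.surj y
    obtain ⟨z, hz, e⟩ := sj x x.2
    have := (P.ker (x * (⟨z, le hz⟩ : P.H1)⁻¹)).2 e
    rw [map_mul, map_inv, mul_inv_eq_one] at this
    exact ⟨⟨z, hz⟩, this.symm⟩
  ker x := (P.ker (inclusion le x)).trans ⟨fun h => ⟨h, x.2⟩, And.left⟩
  O_le := inf_le_right
  O_odd := P.O_odd.of_dvd_nat (card_dvd_of_le inf_le_left)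
  O_norm h hh x hx := ⟨P.O_norm h hh x hx.1, by
    simpa using mul_mem (comm h hh x (P.H1_le (le hx.2))) hx.2⟩
  H1_le := le.trans P.H1_le
  comm := comm
  idx := idx
  cover := cover
  τH := τN
  πτ := P.πτ
  ττ := P.ττ
  inv_conj := P.inv_conj
  fus x y a x2 y2 := P.fus (inclusion le x) (inclusion le y) a (x2.map _) (y2.map _)

namespace T1
variable {G : Type*} [Group G] [Finite G] (m : T1 G) {u : G}

theorem K_fpf' (uH : u ∈ 𝐂[m.t]) (u2 : Inv2 u) (ut : u ≠ m.t) : m.K ⊓ 𝐂[u] = ⊥ := eq_bot_iff.2 fun x hx =>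
  eq_one_of_cent_inv (odd_of_mem m.K_odd hx.1) (mem_cent1_iff.1 hx.2).symm (m.inv_K uH u2 ut hx.1)

theorem U_eq' (uH : u ∈ 𝐂[m.t]) (u2 : Inv2 u) (ut : u ≠ m.t) : m.K ⊔ (m.U ⊓ 𝐂[u]) = m.U := by
  have := (copAct_inv u2.sq (odd_core 𝐂[m.t]) (m.UH.2 uH)).comm_sup_cent
  rwa [cent_zpowers, m.K_eq uH u2 ut] at this

variable {Z : Subgroup (Quo 𝐎(𝐂[m.t]))} {F : Type} [Field F] [Fintype F] (e : QE F (𝐂[m.t] /ₛ 𝐎(𝐂[m.t])) Z)
  (et : e.t = qel _ m.t)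
include et

theorem no_field (h : QDT (⊤ : Subgroup G)) : 𝐂[m.t] /ₛ 𝐎(𝐂[m.t]) ≤ e.P := by
  haveI := m.simple
  have c := mem_cent1_iff.1 m.sH
  obtain ⟨g, -, r1, r2⟩ := h.conj_pair (mem_top m.t) (mem_top m.s) (mem_top m.s) (mem_top m.t) m.t2 m.s2 m.s2 m.t2
    c.symm c m.st.symm m.st
  have e1 : cj g 𝐂[m.t] = 𝐂[m.s] := by rw [cj_centralizer_singleton, r1]
  refine e.no_field' h m.t2 et m.sH m.s2 m.st (K := cj g m.K) (e1 ▸ m.KH.cj g) (le_of_eq ?_) ?_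
  · rw [cj_commutator, cj_piCoreOf, cj_zpowers, e1, r2]
  · have := congrArg (cj g) m.K_fpf
    rw [cj_inf, cj_centralizer_singleton, r2, cj_bot] at this
    exact this ▸ bot_le

/-- `C(t) = (U × E) ⟨u⟩` -/
theorem split (hP : 𝐂[m.t] /ₛ 𝐎(𝐂[m.t]) ≤ e.P) (Z2 : Nat.card Z = 2) (h4 : 4 ≤ Fintype.card F) (h9 : Fintype.card F ≠ 9) :
    ∃ E, E ⊴ 𝐂[m.t] ∧ E ≤ 𝐂(m.U) ∧ E ⊓ m.U = ⊥ ∧ ∀ u ∈ 𝐂[m.t], Inv2 u → u ≠ m.t →
      u ∉ m.U ⊔ E ∧ ∀ x ∈ 𝐂[m.t], x ∈ m.U ⊔ E ∨ x * u ∈ m.U ⊔ E := by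
  have n := m.UH.2
  have eZ : zpowers e.t = Z := eq_of_le_of_card_eq (zpowers_le.2 e.neg) (e.neg2.card.trans Z2.symm)
  have LZ : e.L ⊔ Z = e.L := sup_eq_left.2 (eZ.ge.trans (zpowers_le.2 ⟨_, rfl⟩))
  have N0 := m.UH.cent
  have N1 := N0.inf (coq_normalIn m.UH e.LN)
  have L0 : e.L ≤ (𝐂[m.t] ⊓ 𝐂(m.U)) /ₛ m.U := by
    obtain ⟨g, hg, e1⟩ := m.c1
    obtain ⟨k, hk, e2⟩ := m.c2
    refine e.L_le_of h4 (N0.quo _) (a := qel _ m.e) (LZ.le (e.der ?_))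
      (qel_mem_quo _ (e1 ▸ conj_mem_of_mem_normalizer (N0.2 hg) ⟨m.σH, m.σU⟩)) fun hZ => e.neg2.ne ?_
    · rw [← quo_der n, show m.e = ⁅m.σ⁻¹, k⁆ by
        rw [commutatorElement_def, inv_inv, mul_assoc, mul_assoc, ← mul_assoc k, e2]; group]
      exact qel_mem_quo _ (commutator_mem_commutator (inv_mem m.σH) hk)
    · show e.t = 1
      have k := pel_mul (qmk m.U) (n m.eH) (n m.eH)
      rw [m.ee, ← sq, ← Z2] at k
      exact et.trans (k.trans (congrArg Subtype.val (pow_card_eq_one' (x := (⟨_, hZ⟩ : Z)))))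
  set C := 𝐂[m.t] ⊓ 𝐂(m.U) ⊓ coq m.U e.L with hC
  have Cn : C ≤ 𝐍(m.U) := N1.1.trans n
  have CL : C /ₛ m.U = e.L := by rw [hC, quo_inf_of_le_right _ (le_coq _), quo_coq, inf_eq_right.2 L0]
  have ex : ∀ x : C, ∃ g, e.ι g = qel m.U (x : G) := fun x => CL.le (qel_mem_quo _ x.2)
  choose π0 hπ using ex
  let π : C →* SL(2, F) := MonoidHom.mk' π0 fun x y => e.inj (by
    rw [map_mul, hπ, hπ, hπ, coe_mul, pel_mul _ (Cn x.2) (Cn y.2)])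
  have sur : Function.Surjective π := fun g => by
    obtain ⟨x, hx, e1⟩ := (mem_quo Cn).1 (CL.ge ⟨g, rfl⟩)
    exact ⟨⟨x, hx⟩, e.inj ((hπ _).trans e1)⟩
  have cen : ∀ c, π c = 1 → ∀ x, c * x = x * c := fun c h1 x => Subtype.ext (mem_cent_iff.1 x.2.1.2 _
    ((qel_eq_one_iff (Cn c.2)).1 (by rw [← hπ]; exact (congrArg e.ι h1).trans (map_one _))))
  obtain ⟨a, a0, a1⟩ := Sp.exists_sq_ne_one_of_four_le (F := F) (by rwa [Nat.card_eq_fintype_card])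
  have eL : coq m.U e.L = m.U ⊔ ⁅C, C⁆ := by
    rw [← coq_quo ((der_le C).trans Cn), quo_der Cn, CL, QT.L, MonoidHom.range_eq_map, ← map_commutator,
      ← _root_.commutator, Matrix.SL2.commutator_eq_top a0 a1]
  refine ⟨⁅C, C⁆, N1.commutator N1, (der_le C).trans fun x hx => hx.1.2, eq_bot_iff.2 fun c hc =>
    mem_of_forall_constt_mem fun r hr hd => ?_, fun u uH u2 ut => ?_⟩
  · obtain ⟨h1, h2⟩ := constt_mem {r} hc
    have h3 : ⁅C, C⁆ = map C.subtype ⁅(⊤ : Subgroup C), ⊤⁆ := by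
      rw [map_commutator, ← MonoidHom.range_eq_map, range_subtype]
    obtain ⟨x, hx, e1⟩ := h3 ▸ h1
    have r2 : r ≠ 2 := fun r2 =>
      (Nat.not_even_iff_odd.2 (odd_of_mem (odd_core _) hc.2)) (even_iff_two_dvd.2 (r2 ▸ hd))
    rw [← e1, mult (π := π) e.odd sur cen hr r2 (fun k => absurd k h9) (e.inj (by
      rw [map_one]; exact (hπ x).trans (qel_eq_one (by rw [← coe_subtype, e1]; exact h2))))
      (piElt_coe.1 (by rw [← coe_subtype, e1]; exact constt_piElt _ _)) hx, map_one]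
    exact one_mem _
  · obtain ⟨d, τ, σ, n', m', tor⟩ := e.tor' et m.t2 uH u2 ut
    have uL : qel m.U u ∉ e.L ⊔ Z := fun k => tor.sZ (e.inv_L (LZ.le k) tor.s2 ▸ e.neg)
    rw [← eL]
    refine ⟨fun k => uL (LZ.ge (mem_coq.1 k).2), fun x hx => or_iff_not_imp_left.2 fun k =>
      mem_coq.2 ⟨n (mul_mem hx uH), ?_⟩⟩
    rw [pel_mul _ (n hx) (n uH)]
    exact LZ.le (e.mul_mem_LZ (hP (qel_mem_quo _ hx)) (hP tor.sX) (fun k' => k (mem_coq.2 ⟨n hx, LZ.le k'⟩)) uL)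

end T1

end CA.ABG
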