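/-
Alperin–Brauer–Gorenstein theorem, `C(t)` maximal, semidihedral case: the contradiction.
-/
import Cfsg.Agent.Lib.ABG.T1f
import Cfsg.Agent.Lib.ABG.SD3

set_option autoImplicit false
set_option linter.unusedSectionVars false

namespace CA.ABG

open Cfsg Subgroup CA CA.FStar CA.GW CA.Ch
open scoped MatrixGroups commutatorElement

theorem exists_lin_odd {G : Type*} [Group G] [Finite G] {B : Subgroup G} (ho : Odd (Nat.card B)) (h : B ≠ ⊥) :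
    ∃ ν : B →* ℂˣ, ∃ b, ν b ≠ 1 := by
  haveI := (nontrivial_iff_ne_bot B).2 h
  haveI := solv_odd ho
  obtain ⟨b, -, hb⟩ := SetLike.exists_of_lt (Group.IsSolvable.commutator_lt_top_of_nontrivial B)
  obtain ⟨l, -, h1⟩ := exists_lin_ker_not_mem (_root_.commutator B) le_rfl hb
  exact ⟨l, b, h1⟩

theorem od_comp {G A : Type*} [Group G] [Finite G] [Group A] [Finite A] {B : Subgroup G} (ho : Odd (Nat.card B))
    (ρ : A →* B) (ν : B →* ℂˣ) : Od (Du.mk (ν.comp ρ)) := fun x hx => by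
  have : ρ x = 1 := (hx.map ρ).eq_one (piElt_coe.1 ((odd_iff.1 ho).piElt (ρ x).2))
  change ((ν (ρ x) : ℂˣ) : ℂ) = 1
  rw [this, map_one, Units.val_one]

namespace T1
variable {G : Type*} [Group G] [Finite G] (m : T1 G) {u : G}

/-- `C(t) = (U × E) ⟨u⟩` -/
structure Sp (E : Subgroup G) : Prop where
  EH : E ⊴ 𝐂[m.t]
  EU : E ≤ 𝐂(m.U)
  inf : E ⊓ m.U = ⊥
  out : ∀ u ∈ 𝐂[m.t], Inv2 u → u ≠ m.t → u ∉ m.U ⊔ E ∧ ∀ x ∈ 𝐂[m.t], x ∈ m.U ⊔ E ∨ x * u ∈ m.U ⊔ E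

namespace Sp
variable {m} {E Y : Subgroup G} (sp : m.Sp E) (uH : u ∈ 𝐂[m.t]) (u2 : Inv2 u) (ut : u ≠ m.t)
include sp uH u2 ut

theorem le_of (h1 : m.U ≤ Y) (h2 : E ≤ Y) (h3 : u ∈ Y) : 𝐂[m.t] ≤ Y := fun x hx =>
  ((sp.out u uH u2 ut).2 x hx).elim (fun h => sup_le h1 h2 h) fun h => by
    simpa using mul_mem (sup_le h1 h2 h) (inv_mem h3)

theorem norm : 𝐂[m.t] ≤ 𝐍(E ⊔ m.K ⊔ zpowers u) := by
  refine sp.le_of uH u2 ut (fun x hx => mem_normalizer_of_cj_le ?_) ((le_sup_left.trans le_sup_left).trans le_normalizer)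
    (le_normalizer (mem_sup_right (mem_zpowers u)))
  rw [cj_sup, cj_zpowers, mem_normalizer_iff_cj.1 ((sp.EH.sup m.KH).2 (m.UH.1 hx))]
  refine sup_le le_sup_left (zpowers_le.2 ?_)
  have := commutator_mem_commutator hx (mem_zpowers u)
  rw [m.K_eq uH u2 ut] at this
  simpa [commutatorElement_def] using mul_mem (mem_sup_left (mem_sup_right this))
    (mem_sup_right (mem_zpowers u) : u ∈ E ⊔ m.K ⊔ zpowers u)

theorem sup : 𝐂[m.t] ≤ (E ⊔ m.K ⊔ zpowers u) ⊔ (m.U ⊓ 𝐂[u]) :=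
  sp.le_of uH u2 ut ((m.U_eq' uH u2 ut).ge.trans (sup_le_sup_right (le_sup_right.trans le_sup_left) _))
    ((le_sup_left.trans le_sup_left).trans le_sup_left) (mem_sup_left (mem_sup_right (mem_zpowers u)))

theorem disj : (E ⊔ m.K ⊔ zpowers u) ⊓ (m.U ⊓ 𝐂[u]) = ⊥ := eq_bot_iff.2 fun b hb => by
  obtain ⟨h1, h0⟩ := mem_inf.1 hb
  obtain ⟨h2, h3⟩ := mem_inf.1 h0
  clear hb h0
  obtain ⟨n, hn, y, hy, rfl⟩ := (mem_sup_of_norm_right (zpowers_le.2 ((sp.EH.sup m.KH).2 uH))).1 h1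
  have le : E ⊔ m.K ≤ m.U ⊔ E := sup_le le_sup_right (m.KU.trans le_sup_left)
  rcases HA.mem_zp u2.sq hy with rfl | rfl
  · obtain ⟨a, ha, k, hk, rfl⟩ := (mem_sup_of_norm_right (m.KH.1.trans sp.EH.2)).1 hn
    rw [mul_one] at h2 h3 ⊢
    obtain rfl : a = 1 := mem_bot.1 (sp.inf ▸ mem_inf.2 ⟨ha, by simpa using mul_mem h2 (inv_mem (m.KU hk))⟩)
    rw [one_mul] at h3 ⊢
    exact (m.K_fpf' uH u2 ut).le ⟨hk, h3⟩
  · exact absurd (by simpa using mul_mem (inv_mem (le hn)) (mem_sup_left h2)) (sp.out y uH u2 ut).1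

theorem odd_idx {b : G} (hb : b ∈ m.U ⊓ 𝐂[u]) : Odd ((𝐂[b]).relIndex 𝐂[m.t]) := by
  have e1 : (𝐂[m.t] ⊓ 𝐂[b]) ⊔ m.U = 𝐂[m.t] := le_antisymm (sup_le inf_le_left m.UH.1) (sp.le_of uH u2 ut le_sup_right
    (fun x hx => mem_sup_left ⟨sp.EH.1 hx, mem_cent1_iff.2 (mem_cent_iff'.1 (sp.EU hx) b hb.1)⟩)
    (mem_sup_left ⟨uH, mem_cent1_comm.1 hb.2⟩))
  rw [← inf_relIndex_left]
  nth_rw 2 [← e1]
  rw [relIndex_sup_of_norm' (inf_le_left.trans m.UH.2)]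
  exact (odd_core _).of_dvd_nat (relIndex_dvd_card _ _)

end Sp

variable {E : Subgroup G} {E' : Type*} [Group E'] [Finite E'] (P : PS G E') (h : QDT (⊤ : Subgroup G))
  (e1 : P.τ = m.t) (e2 : P.O = m.U) (e3 : P.H1 = 𝐂[m.t]) (h3 : P.S.Q % 4 = 3) (sp : m.Sp E)
include e1

theorem lift_inv {y : P.S.H} (y2 : y * y = 1) (y1 : y ≠ 1) (yt : (y : E') ≠ P.S.t) :
    ∃ x : P.H1, x * x = 1 ∧ P.π x = y ∧ Inv2 (x : G) ∧ (x : G) ≠ m.t := by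
  obtain ⟨x, x2, rfl⟩ := P.oddK.lift (two_of_sq y2)
  have := P.oddK.eq_one (sq x ▸ x2.pow 2) (by rw [map_mul, y2])
  exact ⟨x, this, rfl, ⟨congrArg Subtype.val this, fun k => y1 (by rw [show x = 1 from Subtype.ext k, map_one])⟩,
    fun k => yt (by rw [← P.πτ]; congr 2; exact Subtype.ext (k.trans e1.symm))⟩

include h e2 e3 h3 sp

/-- `u` inverts `U` -/
theorem B_bot (hk : P.k = Nat.card m.K) (K1 : m.K ≠ ⊥) {s : P.H1} (ss : s * s = 1) (hs : (P.π s : E') = P.S.u)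
    (s2 : Inv2 (s : G)) (st : (s : G) ≠ m.t) : m.U ⊓ 𝐂[(s : G)] = ⊥ := by_contra fun B1 => by
  haveI := m.simple
  have sH : (s : G) ∈ 𝐂[m.t] := e3 ▸ s.2
  have Bo : Odd (Nat.card ↥(m.U ⊓ 𝐂[(s : G)])) := (odd_core _).of_dvd_nat (card_dvd_of_le inf_le_left)
  have BH : m.U ⊓ 𝐂[(s : G)] ≤ P.H1 := inf_le_left.trans (m.UH.1.trans e3.ge)
  obtain ⟨ρ, r1, r2⟩ := exists_retr (e3.le.trans (sp.norm sH s2 st)) BH (e3.le.trans (sp.sup sH s2 st)) (sp.disj sH s2 st)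
  obtain ⟨ν, b, hb⟩ := exists_lin_odd Bo B1
  have c := mem_cent1_iff.1 sH
  obtain ⟨g, hg, g2, -, eg⟩ := h.swap2 (mem_top _) (mem_top _) s2 m.t2 c st
  obtain ⟨σ, hσ, -, -, eσ⟩ := h.swap2 (mem_top _) (mem_top _) m.t2 s2 c.symm st.symm
  rw [top_inf_eq] at hg hσ
  have gs : g * s * g⁻¹ = s := by rw [mem_cent1_iff.1 hg, mul_inv_cancel_right]
  have cc : ∀ x a a' d : G, x * a * x⁻¹ = a' → d ∈ 𝐂[a] → x * d * x⁻¹ ∈ 𝐂[a'] := fun x a a' d k hd => by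
    rw [← k, ← cj_centralizer_singleton]; exact conj_mem_cj.2 hd
  have gC : ∀ d ∈ 𝐂[m.t] ⊓ 𝐂[(s : G)], g * d * g⁻¹ ∈ 𝐂[m.t] ⊓ 𝐂[(s : G)] := fun d hd =>
    ⟨cent_right (cc _ _ _ _ eg hd.1) (cc _ _ _ _ gs hd.2), cc _ _ _ _ gs hd.2⟩
  have σC : ∀ d ∈ 𝐂[m.t] ⊓ 𝐂[(s : G)], σ * d * σ⁻¹ ∈ 𝐂[m.t] ⊓ 𝐂[(s : G)] := fun d hd =>
    have k := mul_mem (mul_mem hσ hd.1) (inv_mem hσ)
    ⟨k, cent_right (cc _ _ _ _ eσ hd.2) k⟩
  have mC : ∀ d : P.H1, d * s = s * d → (d : G) ∈ 𝐂[m.t] ⊓ 𝐂[(s : G)] := fun d k =>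
    ⟨e3 ▸ d.2, mem_cent1_iff.2 (congrArg Subtype.val k)⟩
  let κ : ↥(m.U ⊓ 𝐂[(s : G)]) →* P.H1 := MonoidHom.mk' (fun d => ⟨g * d * g⁻¹, e3.ge (gC d ⟨m.UH.1 d.2.1, d.2.2⟩).1⟩)
    fun x y => Subtype.ext (by simp [mul_assoc])
  let μ := ν.comp ρ
  let μ' := (μ.comp κ).comp ρ
  have hH : P.H ≤ P.H1 := by rw [PS.H, e1, e3]
  rcases P.p2c hH h3 (od_comp Bo ρ ν) (od_comp Bo ρ (μ.comp κ)) ss hs gs (fun d k => e3.ge (gC d (mC d k)).1)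
    (fun d d' k dO e => by
      have := r2 d ⟨d, e2 ▸ dO, (mC d k).2⟩ (by rw [mul_inv_cancel]; exact one_mem _)
      change ((μ d' : ℂˣ) : ℂ) = μ (κ (ρ d))
      rw [this]; congr 2; exact Subtype.ext e) with k | k
  · have k1 : ∀ d ∈ 𝐂[m.t] ⊓ 𝐂[(s : G)], pel μ (g * d * g⁻¹) = pel μ' d := fun d hd => by
      rw [pel_of_mem _ (e3.ge (gC d hd).1), pel_of_mem _ (e3.ge hd.1)]
      exact Units.ext (k ⟨d, e3.ge hd.1⟩ _ (Subtype.ext (mem_cent1_iff.1 hd.2)) rfl)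
    have cf : ∀ l : P.H1 →* ℂˣ, ∀ x ∈ 𝐂[m.t], ∀ y ∈ 𝐂[m.t], pel l (x * y * x⁻¹) = pel l y := fun l x hx y hy => by
      rw [pel_conj _ (e3.ge hx) (e3.ge hy), mul_inv_cancel_comm]
    have stb : ∀ {a x : G}, a ∈ 𝐂[m.t] → x * a * x⁻¹ ∈ 𝐂[m.t] → pel μ (x * a * x⁻¹) = pel μ a := fun ha hx =>
      h.stable m.t2 sH s2 st (g := g * σ * g⁻¹) (by
        calc _ = g * (σ * (g⁻¹ * (g * s * g⁻¹) * g) * σ⁻¹) * g⁻¹ := by rw [gs]; group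
          _ = (g * m.t * g⁻¹) * (g * s * g⁻¹) := by rw [show g⁻¹ * (g * s * g⁻¹) * g = s by group, eσ]; group
          _ = _ := by rw [eg, gs, c, mul_assoc, s2.sq, mul_one]) (pel μ) (cf μ) (fun d hd => by
        have d0 := gC d hd
        calc _ = pel μ (g * (σ * (g * d * g⁻¹) * σ⁻¹) * g⁻¹) := by congr 1; rw [g2.inv]; simp [mul_assoc, g2.inv]
          _ = pel μ (g * (g * d * g⁻¹) * g⁻¹) := by rw [k1 _ (σC _ d0), cf μ' σ hσ _ d0.1, k1 _ d0]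
          _ = _ := by congr 1; rw [g2.inv, ← mul_assoc, ← mul_assoc, g2.sq, one_mul, mul_assoc, g2.sq, mul_one]) ha hx
    have Nk : E ⊔ m.K ⊔ zpowers (s : G) ≤ pker μ := fun x hx =>
      have x1 := e3.ge (sup_le (sp.EH.sup m.KH).1 (zpowers_le.2 sH) hx)
      mem_pker.2 ⟨x1, by
        rw [pel_of_mem _ x1]
        exact (congrArg ν (r2 _ 1 (by simpa using hx))).trans (map_one _)⟩
    have tH : P.τ ∈ P.H1 := P.τH
    have key := (P.res (pker_le_dom μ) (fun x hx => ⟨_, Nk (r1 ⟨x, hx⟩), by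
        rw [e2]; simpa [mul_assoc] using conj_mem_of_mem_normalizer (m.UH.2 (e3.le hx)) (ρ ⟨x, hx⟩).2.1⟩)
      (fun a ha b hb => mem_pker.2 ⟨P.comm a ha b hb, by
        rw [pel_comm _ (hH ha) (hH hb), mul_inv_cancel_comm, mul_inv_cancel]⟩)
      (by
        have : pker μ ⊔ (m.U ⊓ 𝐂[(s : G)]) = 𝐂[P.τ] := le_antisymm (sup_le ((pker_le_dom μ).trans P.H1_le) (BH.trans P.H1_le))
          (e1 ▸ (sp.sup sH s2 st).trans (sup_le_sup_right Nk _))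
        rw [← this, relIndex_sup_of_norm (BH.trans (pker_normalIn μ).2)]
        exact Bo.of_dvd_nat (relIndex_dvd_card _ _))
      (fun x hx => ⟨_, P.H1_le (BH (ρ ⟨x, hH hx⟩).2), Nk (r1 ⟨x, hH hx⟩), e1 ▸ sp.odd_idx sH s2 st (ρ _).2⟩)
      (mem_pker.2 ⟨tH, by
        rw [pel_of_mem _ tH]
        exact Units.ext (od_comp Bo ρ ν _ (two_of_sq (Subtype.ext P.ττ)))⟩)).stb e1 rfl
      (fun l a b => PS.stable_SD _ h.perfect (by exact h3) a b) (μ.comp (inclusion e3.ge))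
      (fun x hx => by
        exact (pel_of_mem μ (e3.ge x.2)).symm.trans (mem_pker.1 hx).2)
      fun x y k => by
        obtain ⟨z, hz⟩ := isConj_iff.1 k
        have := stb x.2 (hz ▸ y.2)
        rw [hz, pel_of_mem _ (e3.ge x.2), pel_of_mem _ (e3.ge y.2)] at this
        exact this.symm
    refine hb ((congrArg ν (r2 ⟨b, BH b.2⟩ b (by rw [mul_inv_cancel]; exact one_mem _))).symm.trans ?_)
    exact DFunLike.congr_fun key ⟨b, e3.le (BH b.2)⟩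
  · rw [hk, PS.H, e1] at k
    exact K1 (card_eq_one.1 (m.coprime.eq_one_of_dvd k))

end T1

end CA.ABG
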