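/-
Alperin–Brauer–Gorenstein theorem, `C(t)` maximal, semidihedral case: the contradiction.
-/
import Cfsg.Agent.Lib.ABG.T1g
import Cfsg.Agent.Lib.ABG.T1m
import Cfsg.Agent.Lib.ABG.SD4

set_option autoImplicit false
set_option linter.unusedSectionVars false

namespace CA.ABG

open Cfsg Subgroup CA CA.FStar CA.GW CA.Ch
open scoped MatrixGroups commutatorElement

namespace T1
variable {G : Type*} [Group G] [Finite G] (m : T1 G) {E : Subgroup G} {E' : Type*} [Group E'] [Finite E'] (P : PS G E')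
  (h : QDT (⊤ : Subgroup G)) (e1 : P.τ = m.t) (e2 : P.O = m.U) (e3 : P.H1 = 𝐂[m.t]) (h3 : P.S.Q % 4 = 3) (sp : m.Sp E)
include h e1 e2 e3 h3 sp

theorem false_of_inv (UK : m.U ≤ m.K) (K1 : m.K ≠ ⊥) {s : P.H1} (ss : s * s = 1) (hs : (P.π s : E') = P.S.u)
    (s2 : Inv2 (s : G)) (st : (s : G) ≠ m.t) : False := by
  haveI := m.simple
  have sH : (s : G) ∈ 𝐂[m.t] := e3 ▸ s.2
  have Uo : Odd (Nat.card m.U) := odd_core _
  have N0 := m.UH.sup sp.EH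
  obtain ⟨ρ, r1, r2⟩ := exists_retr (H := m.U ⊔ E) (N0.1.trans sp.EH.2) le_sup_left (sup_comm _ _).le sp.inf
  obtain ⟨ν, b, hb⟩ := exists_lin_odd Uo fun k => K1 (eq_bot_iff.2 (k ▸ m.KU))
  have rU : ∀ (x : ↥(m.U ⊔ E)) (hx : (x : G) ∈ m.U), ρ x = ⟨x, hx⟩ := fun x hx =>
    r2 x _ (by rw [mul_inv_cancel]; exact one_mem _)
  have ri : ∀ v ∈ 𝐂[m.t], Inv2 v → v ≠ m.t → ∀ x y : ↥(m.U ⊔ E), (y : G) = v * x * v⁻¹ → ρ y = (ρ x)⁻¹ :=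
    fun v hv v2 vt x y k => r2 _ _ (by
      have := conj_mem_of_mem_normalizer (sp.EH.2 hv) (r1 x)
      rwa [← conj_mul, m.inv_K hv v2 vt (inv_mem (UK (ρ x).2)), ← k] at this)
  have hH : P.H ≤ P.H1 := by rw [PS.H, e1, e3]
  refine P.p2d hH h3 h.perfect (N0.1.trans e3.ge) (e3 ▸ idx_two N0.1 sH (sp.out _ sH s2 st).1 (sp.out _ sH s2 st).2)
    ss hs (sp.out _ sH s2 st).1 _ (od_comp Uo ρ ν) (fun x y k => ?_) (o := ⟨b, mem_sup_left b.2⟩) (e2.ge b.2)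
    (fun k => hb (Units.ext ?_)) fun x hx xo x1 y y2 y1 yt yx i ii i1 ix => ?_
  · change ((ν (ρ y) : ℂˣ) : ℂ) = ν (ρ x⁻¹)
    rw [ri _ sH s2 st x y k, map_inv ρ]
  · change ((ν (ρ _) : ℂˣ) : ℂ) = _ at k
    rwa [rU _ b.2] at k
  obtain ⟨u, -, rfl, u2, ut⟩ := m.lift_inv P e1 y2 y1 yt
  have uH : (u : G) ∈ 𝐂[m.t] := e3 ▸ u.2
  have cx := conj_mem_of_mem_normalizer (N0.2 uH) hx
  have ux : u * x * (u : G)⁻¹ = (x : G)⁻¹ := by
    have k1 : u * x * (u : G)⁻¹ * x ∈ m.U := e2 ▸ (P.ker (u * x * u⁻¹ * x)).1 (by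
      rw [map_mul, map_mul, map_mul, map_inv, yx, inv_mul_cancel])
    have k2 := rU (⟨_, cx⟩ * ⟨x, hx⟩) k1
    rw [map_mul, ri _ uH u2 ut ⟨x, hx⟩ _ rfl, inv_mul_cancel] at k2
    exact eq_inv_of_mul_eq_one_left (congrArg Subtype.val k2).symm
  obtain ⟨p, hp, hd, z1⟩ : ∃ p, p.Prime ∧ p ∣ orderOf (ρ ⟨x, hx⟩) ∧ constt {p} (ρ ⟨x, hx⟩) ≠ 1 := by
    by_contra! k
    refine x1 ?_
    change ((ν (ρ _) : ℂˣ) : ℂ) = 1
    rw [mem_bot.1 (mem_of_forall_constt_mem (A := ⊥) k), map_one, Units.val_one]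
  rw [← map_constt] at z1
  have zx : ((constt {p} (⟨x, hx⟩ : ↥(m.U ⊔ E)) : ↥(m.U ⊔ E)) : G) ∈ zpowers (x : G) := by
    have := map_constt (m.U ⊔ E).subtype {p} ⟨x, hx⟩
    rw [coe_subtype] at this
    rw [this]; exact constt_mem _ (mem_zpowers _)
  have zp := piElt_coe.2 (constt_piElt {p} (⟨x, hx⟩ : ↥(m.U ⊔ E)))
  generalize constt {p} (⟨x, hx⟩ : ↥(m.U ⊔ E)) = z at z1 zx zp
  have uq : ∀ v ∈ 𝐂[(z : G)] ⊓ 𝐂[m.t], Inv2 v → v = m.t := fun v hv v2 => by_contra fun vt => z1 (Subtype.ext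
    (eq_one_of_odd (odd_of_mem Uo (ρ z).2) (congrArg Subtype.val (mul_eq_one_iff_eq_inv.2
      (ri v hv.2 v2 vt z z (by rw [mem_cent1_iff.1 hv.1, mul_inv_cancel_right]))))))
  have iz : i ∈ 𝐂[(z : G)] := by
    obtain ⟨n, k⟩ := zx
    exact mem_cent1_iff.2 (k ▸ (Commute.zpow_right ix n).eq)
  refine e1 ▸ uq i ⟨iz, m.lemW hp (hd.trans ((_root_.orderOf_dvd_natCard _).trans (card_dvd_of_le UK))) (N0.1 z.2) zp uH u2 ut
    (mem_normalizer_of_cj_le ?_) uq iz⟩ ⟨ii, i1⟩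
  rw [cj_zpowers, inv_of_mem_zpowers ux zx]
  exact zpowers_le.2 (inv_mem (mem_zpowers _))

omit e1 e2 e3 h3 sp P in
/-- `C(t)` is not maximal -/
theorem false {Z : Subgroup (Quo 𝐎(𝐂[m.t]))} {F : Type} [Field F] [Fintype F] (e : QE F (𝐂[m.t] /ₛ 𝐎(𝐂[m.t])) Z)
    (et : e.t = qel _ m.t) (Z2 : Nat.card Z = 2) (h4 : 4 ≤ Fintype.card F) (h9 : Fintype.card F ≠ 9) (K1 : m.K ≠ ⊥) :
    False := by
  have hP := m.no_field e et h
  obtain ⟨E, a1, a2, a3, a4⟩ := m.split e et hP Z2 h4 h9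
  have sp : m.Sp E := ⟨a1, a2, a3, a4⟩
  obtain ⟨P, -, e1, e2, e3, e4, -, -, -, e6, -⟩ := exists_ps e h m.t2 le_top et (h.isConj m.t2)
  replace e3 : P.H1 = 𝐂[m.t] := le_antisymm (P.H1_le.trans (by rw [e1])) (((le_coq_iff m.UH.2).2 hP).trans e3.ge)
  have h3 := P.S.Q_three (e4.trans Z2)
  obtain ⟨s, ss, hs, s2, st⟩ := m.lift_inv P e1 (y := ⟨P.S.u, P.S.T_le_H P.S.u_T⟩) (Subtype.ext P.S.uu)
    (fun k => P.S.u_ne (congrArg Subtype.val k)) P.S.t_ne_u.symm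
  replace hs : (P.π s : e.P) = P.S.u := congrArg Subtype.val hs
  have B1 := m.B_bot P h e1 e2 e3 h3 sp ((e6 _ m.sH m.s2 m.st).trans m.card_K.symm) K1 ss hs s2 st
  have := m.U_eq' (e3.le s.2) s2 st
  rw [B1, sup_bot_eq] at this
  exact m.false_of_inv P h e1 e2 e3 h3 sp this.ge K1 ss hs s2 st

end T1

/-- semidihedral case: `C(t)` is not maximal in a minimal counterexample -/
theorem Min.not_coatom_SD {G : Type*} [Group G] [Finite G] (m : Min G) (w : SW m.S m.t) (hA : w.A = zpowers w.x)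
    (hz : w.z = m.t) : ¬ IsCoatom 𝐂[m.t] := fun hH =>
  m.coatom_SD hH w hA hz fun T _ _ _ _ e => T.false m.qdt e

end CA.ABG
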