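/-
Alperin–Brauer–Gorenstein theorem: the unbalanced case, the setting.
-/
import Cfsg.Agent.Lib.ABG.A4a
import Cfsg.Agent.Lib.ABG.WP1
import Cfsg.Agent.Lib.ABG.T1a

set_option autoImplicit false
set_option linter.unusedSectionVars false

namespace CA.ABG

open Cfsg CA CA.FStar CA.Loc CA.GW Subgroup

/-- two different commuting involutions -/
structure Pr {G : Type*} [Group G] (a b : G) : Prop where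
  a2 : Inv2 a
  b2 : Inv2 b
  ne : a ≠ b
  c : a * b = b * a

/-- The unbalanced case: `A x` is a minimal `C(x)`-invariant `p`-group with `A x = [A x, x] ≠ 1`. -/
structure UB (G : Type*) [Group G] (p : ℕ) where
  A : G → Subgroup G
  hp : p.Prime
  p2 : p ≠ 2
  qdt : QDT (⊤ : Subgroup G)
  proper : ∀ X : Subgroup G, X ≠ ⊥ → Odd (Nat.card X) → 𝐍(X) ≠ ⊤
  unbal : ¬ Bal G
  eqv : ∀ x g, Inv2 x → cj g (A x) = A (g * x * g⁻¹)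
  pi : ∀ x, Inv2 x → PiGrp {p} (A x)
  HN : ∀ x, Inv2 x → 𝐂[x] ≤ 𝐍(A x)
  eq : ∀ x, Inv2 x → ⁅A x, zpowers x⁆ = A x
  ne : ∀ x, Inv2 x → A x ≠ ⊥
  min : ∀ x B, Inv2 x → 𝐂[x] ≤ 𝐍(B) → ⁅B, zpowers x⁆ = B → B ≠ ⊥ → B ≤ A x → B = A x
  unb : ∀ a b, Pr a b → ¬ ⁅A b ⊓ 𝐂[a], zpowers b⁆ ≤ 𝐎(𝐂[a])
  gen : ∀ a b σ (Y : Subgroup G), Pr a b → Y ≤ 𝐂[a] → Odd (Nat.card Y) → 𝐂[a] ⊓ 𝐂[b] ≤ 𝐍(Y) →
    ¬ ⁅Y, zpowers b⁆ ≤ 𝐎(𝐂[a]) → σ ∈ 𝐂[a] → σ * b * σ⁻¹ = a * b →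
    a ∈ Y ⊔ cj σ Y ∧ 𝐂[a] ≤ Y ⊔ cj σ Y ⊔ 𝐂[a] ⊓ 𝐂[b] ⊔ 𝐎(𝐂[a])
  od : ∀ a b : G, Pr a b → piCoreOf {p} (𝐂[a] ⊓ 𝐂[b]) ≤ 𝐎(𝐂[a])
  zz : ∀ (X : Subgroup G) a, X ≠ ⊤ → Inv2 a → Cov X a → Iso X a ∨ 𝐎(X) = ⊥
  iso : ∀ (X : Subgroup G) a, X ≠ ⊤ → Inv2 a → 𝐂[a] ≤ X → Iso X a

namespace Pr
variable {G : Type*} [Group G] {a b : G} (h : Pr a b)
include h

theorem symm : Pr b a := ⟨h.b2, h.a2, h.ne.symm, h.c.symm⟩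

theorem ab2 : Inv2 (a * b) := h.a2.mul h.b2 h.ne h.c

theorem third : Pr a (a * b) :=
  ⟨h.a2, h.ab2, fun e => h.b2.ne (by simpa using e), by rw [mul_assoc a b a, ← h.c]⟩

theorem mul3 : a * (a * b) = b := by rw [← mul_assoc, h.a2.sq, one_mul]

theorem cj (g : G) : Pr (g * a * g⁻¹) (g * b * g⁻¹) :=
  ⟨h.a2.conj g, h.b2.conj g, fun e => h.ne (by simpa using e), by rw [conj_mul, conj_mul, h.c]⟩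

theorem bH : b ∈ 𝐂[a] := mem_cent1_iff.2 h.c.symm

theorem aC : a ∈ 𝐂[a] ⊓ 𝐂[b] := ⟨self_mem_cent1 a, h.symm.bH⟩

theorem bC : b ∈ 𝐂[a] ⊓ 𝐂[b] := ⟨h.bH, self_mem_cent1 b⟩

theorem C3 : 𝐂[a] ⊓ 𝐂[a * b] = 𝐂[a] ⊓ 𝐂[b] := by
  ext x
  simp only [mem_inf, mem_cent1_iff]
  refine and_congr_right fun e => ?_
  rw [← mul_assoc, e, mul_assoc, mul_assoc, mul_right_inj]

theorem C3' : 𝐂[a] ⊓ 𝐂[b] ≤ 𝐂[a * b] := h.C3.ge.trans inf_le_right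

end Pr

end CA.ABG
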