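/-
Alperin-Brauer-Gorenstein, linear case: the Steinberg character restricts irreducibly to a subgroup with the same local
data.
-/
import Cfsg.Agent.Lib.ABG.PSD

set_option autoImplicit false
set_option linter.unusedSectionVars false

open scoped ComplexConjugate

namespace CA.ABG

open Cfsg Subgroup CA CA.Ch CA.Br CA.ABG.HO

theorem Ar.three' {N k s y : ℤ} (hN : Odd N) (hk : Odd k) (E1 : N * (s - 3) ^ 2 = k ^ 2 * 3 * 16 * 2 * s * (s - 1))
    (E2 : s * y = 9 * (y + s - 1)) : 9 < s := by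
  have h1 : (s - 9) * (y - 9) = 72 := by linarith
  have h2 : s - 9 ∣ 72 := Dvd.intro _ h1
  have h3 : |s - 9| ≤ 72 := Int.le_of_dvd (by norm_num) ((abs_dvd _ _).2 h2)
  obtain ⟨a, rfl⟩ := hN
  obtain ⟨K, hK⟩ : Odd (k ^ 2) := hk.pow
  rw [hK] at E1
  obtain ⟨h4, h5⟩ := abs_le.1 h3
  by_contra h7
  have h6 : -63 ≤ s := by omega
  have h7 : s ≤ 9 := by omega
  clear h1 E2 h3 h4 h5
  interval_cases s <;> first | (revert h2; decide) | (clear h2; omega)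

theorem Ar.reg {k Q s : ℤ} (k0 : k ≠ 0) (hQ : 3 ≤ Q)
    (E1 : k ^ 2 * Q ^ 2 * (Q ^ 2 + Q + 1) * (s - Q * 1) ^ 2 = k ^ 2 * Q * (Q + 1) ^ 2 * (Q - 1) * 1 * s * (s - 1)) :
    Q ^ 2 < s := by
  have h : k ^ 2 * Q * ((s - Q ^ 3) * ((2 * Q + 1) * s - (Q ^ 2 + Q + 1))) = 0 := by linear_combination E1
  rcases mul_eq_zero.1 ((mul_eq_zero.1 h).resolve_left (mul_ne_zero (pow_ne_zero 2 k0) (by omega))) with e | e
  · nlinarith
  · have := Int.le_of_dvd (by norm_num) (show 2 * Q + 1 ∣ 3 from ⟨4 * s - (2 * Q + 1), by linear_combination -4 * e⟩)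
    omega

variable {E : Type*} [Group E] [Finite E] {G : Type*} [Group G] [Finite G]

namespace POm

variable {S : RA E} {O : POm S G}

namespace Cons

variable {α : Du S.H} {φ : Du S.W} {o χS X Y1 Y2 Z : G → ℂ} (c : O.Cons α φ o χS X Y1 Y2 Z)
include c

theorem Y1η : ⟪Y1, O.η α⟫ = 1 := by
  have q3 : (3 : ℤ) ≤ S.q := by exact_mod_cast S.three_le
  have k : ∀ {χ : G → ℂ} {n : ℤ}, IsSIrr χ → χ O.τ = n → -S.Q ≠ n → S.Q ≠ n → ⟪Y1, χ⟫ = 0 := fun {χ n} h e a b =>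
    c.i1.ip_eq_zero_of_ne h (fun e' => a (by have := c.Y1t; rw [e', e] at this; exact_mod_cast this.symm))
      fun e' => b (by have := c.Y1t; rw [e', Pi.neg_apply, e, neg_inj] at this; exact_mod_cast this.symm)
  have hQ : S.Q ≤ -3 ∨ 3 ≤ S.Q := by rcases S.Q_cases with ⟨-, h⟩ | ⟨-, h⟩ <;> omega
  rw [c.e3, ip_sub_right, ip_sub_right, c.i1.ip_self, k c.iZ (n := S.Q + 1) (by rw [c.Zt]; push_cast; rfl) (by omega)
    (by omega), k c.base.irr (n := 1) (by rw [c.base.t]; simp) (by omega) (by omega), sub_zero, sub_zero]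

theorem B1 : O.InB Y1 := by
  by_cases e : ⟪Y1, O.θ (S.rW α)⟫ = 0
  · exact O.inB_Θ c.i1 (c.hα.comp (inclusion S.T_le_H)) (by
      rw [O.Θ_eq, ip_add_right, e, ip_smul_right, c.Y1η, map_ofNat]; norm_num)
  · exact O.inB_θ c.i1 (c.hα.comp _) e

end Cons

open ComplexOrder in
theorem zs {X : Type*} [Group X] [Finite X] {O' : POm S X} (h : O.Prin) (h' : O'.Prin) (f : X →* G)
    (hT : ∀ χ ∈ O.B, ∀ α, Van α → Two α → ⟪χ ∘ f, O'.OT α⟫ = ⟪χ, O.OT α⟫)
    (hW : ∀ χ ∈ O.B, ∀ α, Van α → Two α → ⟪χ ∘ f, O'.OW α⟫ = ⟪χ, O.OW α⟫)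
    (pos : ∀ s y : ℤ, O'.N * (s - S.Q * 1) ^ 2 = O'.k ^ 2 * S.Q * (S.Q + 1) ^ 2 * (S.Q - 1) * 1 * s * (s - 1) →
      s * y = S.Q ^ 2 * 1 * (y + s - 1) → S.Q ^ 2 < s) :
    (∃ χ, IsIrr χ ∧ χ ≠ 1 ∧ χ ∘ f ∈ O'.B) ∧ O.N * O'.k ^ 2 = O'.N * O.k ^ 2 := by
  obtain ⟨α, φ, χS, X1, Y1, Y2, Z, c⟩ := O.exists_cons h.base
  obtain ⟨φ', χS', X1', Y1', Y2', Z', c'⟩ := O'.decomp h'.base c.hα c.hu
  obtain ⟨a, s, y, e0, es, ey, -, -, E1, E2⟩ := c.ints
  obtain rfl : 1 = a := by rw [Pi.one_apply] at e0; exact_mod_cast e0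
  obtain ⟨a, s', y', e0, es', ey', -, -, E1', E2'⟩ := c'.ints
  obtain rfl : 1 = a := by rw [Pi.one_apply] at e0; exact_mod_cast e0
  have q3 : (3 : ℤ) ≤ S.q := by exact_mod_cast S.three_le
  have Q9 : 9 ≤ S.Q ^ 2 := by rw [S.Q_sq]; nlinarith
  have p1 := pos s' y' E1' E2'
  have p2 : S.Q ^ 2 < y' := by by_contra e; nlinarith
  have irr : ∀ {χ : X → ℂ} {n : ℤ}, IsSIrr χ → χ 1 = n → 0 ≤ n → IsIrr χ := fun h e p =>
    h.isIrr_of_pos (by rw [e]; exact_mod_cast p)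
  have iS := irr c'.iS es' (by omega)
  have i1 := irr c'.i1 ey' (by omega)
  have iX := irr c'.iX (n := s' - 1) (by rw [c'.X1, es']; simp) (by omega)
  have iZ := irr c'.iZ (n := y' - 1) (by rw [c'.Z1, ey']; simp) (by omega)
  have hα := c.hα.comp (inclusion S.W_le_H)
  have hα' := c.hα.comp (inclusion S.T_le_H)
  have A : 0 ≤ s → ⟪χS ∘ f, χS'⟫ ≠ 0 := fun p e => by
    have B := c.BS.mem es p
    have hψ := (O.irrB _ B).isChar.comp f
    have e1 : ⟪χS ∘ f, O'.θ φ'⟫ = -1 :=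
      (hW _ B _ (tw_one.van c'.hφ) (tw_one.two c'.hφ)).trans (c.Sθ _ c'.hφ c'.φ1)
    obtain ⟨m, hm⟩ := hψ.ip_nat isIrr_one.isChar
    obtain ⟨n, hn⟩ := hψ.ip_nat iX.isChar
    rw [c'.e1, ip_sub_right, ip_add_right, e, hm, hn, sub_zero] at e1
    have : (m + n : ℤ) = -1 := by exact_mod_cast e1
    omega
  have A' : 0 ≤ s → s' ≤ s := fun p => by
    have := ((O.irrB _ (c.BS.mem es p)).isChar.comp f).irr_one_le iS (A p)
    rw [es', Function.comp_apply, map_one, es] at this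
    exact_mod_cast this
  have B' : 0 ≤ y → y' ≤ y := fun p => by
    have B := c.B1.mem ey p
    have hψ := (O.irrB _ B).isChar.comp f
    have := hψ.irr_one_le i1 fun e => by
      have e1 : ⟪Y1 ∘ f, O'.η α⟫ = ⟪Y1, O.η α⟫ := by
        simp only [η, ip_smul_right, ip_sub_right, Θ, θ]
        exact congrArg₂ (fun a b => conj (2 : ℂ)⁻¹ * (a - b)) (hT _ B _ (hα'.van tw_one) (hα'.two tw_one))
          (hW _ B _ (tw_one.van hα) (tw_one.two hα))
      obtain ⟨m, hm⟩ := hψ.ip_nat isIrr_one.isChar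
      obtain ⟨n, hn⟩ := hψ.ip_nat iZ.isChar
      rw [c.Y1η, c'.e3, ip_sub_right, ip_sub_right, e, hm, hn] at e1
      have : (0 - n - m : ℤ) = 1 := by exact_mod_cast e1
      omega
    rw [ey', Function.comp_apply, map_one, ey] at this
    exact_mod_cast this
  have s0 : S.Q ^ 2 < s := by
    by_contra e
    have y0 : y < S.Q ^ 2 := by by_contra e'; nlinarith
    have := mt A' (by omega)
    have := mt B' (by omega)
    nlinarith
  have y0 : S.Q ^ 2 < y := by by_contra e; nlinarith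
  have a1 := A' (by omega)
  have a2 := B' (by omega)
  obtain rfl : s = s' := le_antisymm (by by_contra e; nlinarith) a1
  have B := c.BS.mem es (by omega)
  refine ⟨⟨χS, O.irrB _ B, fun e => ?_, ?_⟩, ?_⟩
  · have := c.So
    rw [e, ip_one_one] at this
    exact one_ne_zero this
  · rw [((O.irrB _ B).isChar.comp f).eq_irr_of_one iS (A (by omega)) (by rw [Function.comp_apply, map_one, es, es'])]
    exact c'.BS.mem es' (by omega)
  · have : s - S.Q * 1 ≠ 0 := by intro e; nlinarith [sq_nonneg (S.Q - 1)]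
    have : (O.N * O'.k ^ 2 : ℤ) = O'.N * O.k ^ 2 := mul_right_cancel₀ (pow_ne_zero 2 this) (by
      linear_combination O'.k ^ 2 * E1 - O.k ^ 2 * E1')
    exact_mod_cast this

end POm

namespace PS.Cov

variable {P : PS G E} {X : Subgroup G} (h : P.Cov X)

theorem index : h.ps.H.index = (𝐂[P.τ]).relIndex X := by rw [H, cent_sub']; rfl

/-- (ZZ) in the linear case, at the level of the setting -/
theorem zs [IsSimpleGroup G] (pos : (P.S.Q = 3 ∧ Odd h.ps.H.index ∧ Odd h.ps.k) ∨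
    (0 < P.S.Q ∧ (h.ps.H.index : ℤ) = h.ps.k ^ 2 * P.S.Q ^ 2 * (P.S.Q ^ 2 + P.S.Q + 1))) {N : Subgroup G} (hN : N ⊴ X)
    (ho : Odd (Nat.card N)) : N = ⊥ ∧ P.H.index * h.ps.k ^ 2 = h.ps.H.index * P.k ^ 2 := by
  classical
  obtain ⟨⟨χ, h1, h2, h3⟩, h4⟩ := POm.zs P.prin1 (prin (P := h.ps) P.par) X.subtype
    (fun χ hχ α _ _ => h.ip_J (Finset.mem_filter.1 hχ).1 (Tor.sup_D (sup_cut α)))
    (fun χ hχ α a _ => h.ip_J (Finset.mem_filter.1 hχ).1 (Tor.sup_D (supW a))) fun s y E1 E2 => by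
      change (h.ps.H.index : ℤ) * _ = (h.ps.k : ℤ) ^ 2 * _ * _ * _ * _ * _ * _ at E1
      rcases pos with ⟨a, b, c⟩ | ⟨a, b⟩
      · rw [a] at E1 E2 ⊢
        exact Ar.three' (N := h.ps.H.index) (k := h.ps.k) (y := y) (by exact_mod_cast b) (by exact_mod_cast c)
          (by linear_combination E1) (by linarith)
      · have q3 : (3 : ℤ) ≤ P.S.q := by exact_mod_cast P.S.three_le
        exact Ar.reg (k := h.ps.k) (by exact_mod_cast k_pos.ne') (by rcases P.S.Q_cases with ⟨-, h⟩ | ⟨-, h⟩ <;> omega)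
          (b ▸ E1)
  refine ⟨?_, h4⟩
  have : (N.subgroupOf X).Normal := ⟨fun a ha b =>
    show (b : G) * a * (b : G)⁻¹ ∈ N from conj_mem_of_mem_normalizer (hN.norm b.2) ha⟩
  have := Blk.le_cfker_of_B0 (Finset.mem_filter.1 h3).1 (N.subgroupOf X) fun e => (Nat.not_even_iff_odd.2 ho)
    (even_iff_two_dvd.2 (by rwa [Nat.card_congr (subgroupOfEquivOfLe hN.le).toEquiv] at e))
  rw [h1.isChar.cfker_comp, (IsSimpleGroup.eq_bot_or_eq_top_of_normal (cfker χ) h1.isCF.cfker_normal).resolve_right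
    (h1.cfker_ne_top h2)] at this
  exact eq_bot_iff.2 fun x hx => this (show (⟨x, hN.le hx⟩ : X) ∈ N.subgroupOf X from hx)

end PS.Cov

end CA.ABG
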