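/-
Alperin-Brauer-Gorenstein: the index of the centralizer of an involution in a subgroup of type `QDT` all of whose
simple sections are balanced.
-/
import Cfsg.Agent.Lib.ABG.P2S
import Cfsg.Agent.Lib.ABG.KG
import Cfsg.Agent.Lib.ABG.Wie
import Cfsg.Agent.Lib.Br.Main
import Cfsg.Agent.Lib.Br.UIdx
import Cfsg.Agent.Lib.Br.U2

set_option autoImplicit false
set_option linter.unusedSectionVars false

namespace CA.ABG

open Cfsg Subgroup CA CA.FStar CA.GW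

/-- `j = q(q+e)`, and `N = q²(q²+eq+1)` unless `q` is small -/
def IdxN (N j : ℕ) : Prop := ∃ (q : ℕ) (e : ℤ), Odd q ∧ (e = 1 ∨ e = -1) ∧ (j : ℤ) = q * (q + e) ∧
  ((N : ℤ) = q ^ 2 * (q ^ 2 + e * q + 1) ∨ (q ≤ 9 ∧ q ≠ 7))

section
variable {G : Type*} [Group G] [Finite G] {S X Y K M V : Subgroup G} {t s : G}

theorem abs0_j (S : Br.Abs0 G) : ((𝐂[S.u]).relIndex 𝐂[S.t] : ℤ) = S.q * (S.q + S.e) := by
  have e : 𝐂[S.u] ⊓ 𝐂[S.t] = S.T := by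
    ext x; rw [mem_inf, mem_cent1_iff, mem_cent1_iff, S.mem_T, and_comm]
  have h1 : (Nat.card ↥(𝐂[S.u] ⊓ 𝐂[S.t]) * (𝐂[S.u]).relIndex 𝐂[S.t] : ℤ) = Nat.card 𝐂[S.t] := by
    exact_mod_cast card_inf_mul_relIndex _ _
  rw [e, S.card_T, ← S.H_eq, S.card_H] at h1
  have h2 : (Nat.card S.Z : ℤ) ≠ 0 := by exact_mod_cast Nat.card_pos.ne'
  have h3 : (3 : ℤ) ≤ S.q := by exact_mod_cast S.three_le
  have h4 : (S.q : ℤ) - S.e ≠ 0 := by rcases S.he with h | h <;> omega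
  refine mul_left_cancel₀ (mul_ne_zero h4 h2) ?_
  rw [← S.H_eq, h1]
  linear_combination (S.q * Nat.card S.Z : ℤ) * S.e_sq

theorem ident_idx [IsSimpleGroup G] (h : QDT (⊤ : Subgroup G)) (hi : Ident G) (t2 : Inv2 t) (s2 : Inv2 s)
    (hs : s ∈ 𝐂[t]) (ts : t ≠ s) : IdxN (𝐂[t]).index ((𝐂[s]).relIndex 𝐂[t]) := by
  suffices k : ∃ S : Br.Abs0 G, (S.H.index : ℤ) = S.q ^ 2 * (S.q ^ 2 + S.e * S.q + 1) ∨ Nat.card G = 7920 by
    obtain ⟨S, k⟩ := k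
    obtain ⟨g, -, rfl, rfl⟩ := h.conj_pair (mem_top S.t) (mem_top S.u) (mem_top t) (mem_top s) ⟨S.tt, S.t_ne⟩
      ⟨S.uu, S.u_ne⟩ t2 s2 S.ut.symm (mem_cent1_iff.1 hs).symm S.t_ne_u ts
    rw [← cj_centralizer_singleton, ← cj_centralizer_singleton, relIndex_cj, index_cj]
    refine ⟨S.q, S.e, S.odd, S.he, abs0_j S, k.imp (fun k => by rwa [← S.H_eq]) fun k => ?_⟩
    have ne : S.H ≠ ⊤ := fun e => by
      have := S.mem_H.1 (e ▸ mem_top S.ρ)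
      exact S.t_ne_u (by rw [← S.ρ_t, this, mul_inv_cancel_right])
    have h1 := card_dvd_fac ne
    have h2 : 11 ≤ S.H.index := (Nat.Prime.dvd_factorial (by norm_num)).1 (Dvd.dvd.trans (by rw [k]; norm_num) h1)
    have h3 : (Nat.card S.H * S.H.index : ℤ) = 7920 := by exact_mod_cast S.H.card_mul_index.trans k
    have h4 : (1 : ℤ) ≤ Nat.card S.Z := by exact_mod_cast Nat.card_pos
    have h5 : (11 : ℤ) ≤ S.H.index := by exact_mod_cast h2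
    rw [S.card_H] at h3
    generalize (Nat.card S.Z : ℤ) = z at h3 h4
    generalize (S.H.index : ℤ) = n at h3 h5
    have h6 : 11 ≤ z * n := by nlinarith
    rw [mul_assoc] at h3
    generalize z * n = r at h3 h6
    refine ⟨by_contra fun e => ?_, fun e => by rw [e] at h3; omega⟩
    have : (10 : ℤ) ≤ S.q := by exact_mod_cast not_le.1 e
    have : (990 : ℤ) ≤ S.q * (S.q ^ 2 - 1) := by nlinarith
    nlinarith
  obtain ⟨u, u2, ⟨F, _, _, Z, _, h1, h2, h3, h4⟩ | ⟨F, _, _, q, Z, _, h1, h0, h2, h3, h4⟩⟩ := hi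
  · obtain ⟨S⟩ := Br.exists_hyp h1 Z h2 h3 u u2.ord h4
    refine ⟨S.toAbs0, S.index_cases.imp_left fun e => ?_⟩
    show (S.H.index : ℤ) = (Fintype.card F : ℤ) ^ 2 * ((Fintype.card F : ℤ) ^ 2 + 1 * Fintype.card F + 1)
    rw [e]; push_cast; ring
  · let := CA.Cl.starRingOfCard h0
    obtain ⟨S⟩ := Br.exists_hypU h1 (CA.Cl.isFq2_starRingOfCard h0) Z h2 h3 u u2.ord h4
    refine ⟨S.toAbs0, .inl ?_⟩
    rw [S.toAbs0.index_U rfl, show S.toAbs0.e = -1 from rfl]; ring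

/-- the conjugates of an involution under `Y`, modulo the odd group `M` -/
theorem rel_quo (hY : Y ≤ 𝐍(M)) (hs : s ∈ 𝐍(M)) (sY : s ∈ 𝐍(Y)) (s2 : Inv2 s) (ho : PiGrp {2}ᶜ M) :
    (𝐂[s]).relIndex Y = (𝐂[s]).relIndex (M ⊓ Y) * (𝐂[qel M s]).relIndex (Y /ₛ M) := by
  have hk : PiGrp {2}ᶜ (pker (qmk M)) := by rw [pker_qmk]; exact ho
  have h1 := card_pmap_mul (qmk M) hY
  have h2 := card_pmap_mul (qmk M) (inf_le_left.trans hY : Y ⊓ 𝐂[s] ≤ _)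
  rw [pm_cent hk hs s2 sY] at h2
  rw [pker_qmk] at h1 h2
  have h3 := card_inf_mul_relIndex 𝐂[s] Y
  have h4 := card_inf_mul_relIndex 𝐂[s] (M ⊓ Y)
  have h5 := card_inf_mul_relIndex 𝐂[qel M s] (Y /ₛ M)
  rw [inf_comm] at h3 h4 h5
  rw [inf_assoc] at h4
  refine Nat.eq_of_mul_eq_mul_left (Nat.card_pos (α := ↥(Y ⊓ 𝐂[s]))) ?_
  rw [h3, ← h1, ← h2, ← h4, ← h5]
  ring

theorem rel_eq (hK : K ≤ X) (h : ∀ g ∈ X, ∃ k ∈ K, k * s * k⁻¹ = g * s * g⁻¹) :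
    (𝐂[s]).relIndex X = (𝐂[s]).relIndex K := by
  rw [← card_cls, ← card_cls]
  exact Nat.card_congr (Equiv.subtypeEquivRight fun y =>
    ⟨fun ⟨g, hg, e⟩ => e ▸ h g hg, fun ⟨g, hg, e⟩ => ⟨g, hK hg, e⟩⟩)

end

universe u

/-- the case `O(X) = 1` -/
theorem QSyl.idx0 {G : Type u} [Group G] [Finite G] {X : Subgroup G} {t s : G} {n : ℕ} (h : QSyl X) (hO : 𝐎(X) = ⊥)
    (ind : ∀ (K : Type u) [Group K] [Finite K] [IsSimpleGroup K], Nat.card K < n → QSyl (⊤ : Subgroup K) → Bal K)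
    (hn : Nat.card X < n) (ht : t ∈ X) (t2 : Inv2 t) (hs : s ∈ X ⊓ 𝐂[t]) (s2 : Inv2 s) (ts : t ≠ s)
    (one : ∀ a ∈ X, Inv2 a → ∃ g ∈ X, g * t * g⁻¹ = a) (ns : ¬ Group.IsSolvable ↥(X ⊓ 𝐂[t])) :
    IdxN ((𝐂[t]).relIndex X) ((𝐂[s]).relIndex (X ⊓ 𝐂[t])) ∧ 𝐎(X ⊓ 𝐂[t]) ≤ 𝐂[s] := by
  obtain ⟨S, t', hS, -, ⟨w⟩⟩ := h.ex
  have all : ∀ N, N ⊴ X → ∀ U ≤ N, Four U → ∀ a ∈ X, Inv2 a → a ∈ N := fun N hN U hU U4 a ha a2 => by
    obtain ⟨b, hb, b1, -⟩ := U4.exists (one_mem U)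
    obtain ⟨g, hg, e⟩ := one b (hN.le (hU hb)) (U4.inv2 hb b1)
    obtain ⟨g', hg', rfl⟩ := one a ha a2
    have := conj_mem_of_mem_normalizer (hN.norm (mul_mem hg' (inv_mem hg))) (hU hb)
    rwa [← e, show g' * g⁻¹ * (g * t * g⁻¹) * (g' * g⁻¹)⁻¹ = g' * t * g'⁻¹ by group] at this
  rcases h.qg.str hO (ne_bot_of_mem ht t2.ne) with ⟨z, hz, z2, e⟩ | ⟨U, U4, hU⟩ | ⟨K, KX, hq, hC, ⟨U, hU, U4⟩, -⟩
  · obtain ⟨g, hg, rfl⟩ := one z hz z2
    obtain ⟨g', hg', rfl⟩ := one s hs.1 s2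
    have e1 : g * t * g⁻¹ = t := by
      have := mem_cent1_iff.1 (e hg)
      rw [inv_mul_cancel_right] at this
      exact mul_left_cancel this
    rw [e1] at e
    exact absurd (mul_inv_eq_iff_eq_mul.2 (mem_cent1_iff.1 (e hg'))).symm ts
  · have yd := w.yd
    rw [w.yinv] at yd
    have := U4.comm (all U hU U le_rfl U4 _ (hS.le w.yS) w.y_inv2) (all U hU U le_rfl U4 (w.d * w.y)
      (hS.le (mul_mem (w.le w.dA) w.yS)) ⟨by rw [mul_assoc, ← mul_assoc w.y, yd, mul_inv_cancel],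
        fun e => w.out_not w.dA (e ▸ one_mem _)⟩)
    rw [← mul_assoc, yd, mul_assoc, w.y2, mul_one, inv_eq_iff_mul_eq_one] at this
    exact absurd this w.dd_ne
  have iK := all K KX U hU U4
  have tK := iK t ht t2
  have sK := iK s hs.1 s2
  have := qs_simple hq (le_bot_iff.1 ((inf_le_inf_right _ KX.le).trans hC.le))
  rcases (h.qg.of_le KX.le).syl hq with k | k
  · have SK := hS.le.trans KX.norm
    have xK := zpowers_le.2 (SK (w.le w.xA))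
    have yK := iK _ (hS.le w.yS) w.y_inv2
    refine absurd (solvable_of_ker_of_pmap (f := qmk K) (inf_le_left.trans KX.norm) (by
      rw [pker_qmk]; exact (dg_of k).solv tK t2 inf_le_left (inf_le_right.trans inf_le_right))
      (solvable_of_le (solv_of_npc (npc_cyc (hS.quo SK) (cyclic_of_le (cyclic_quo (inferInstance : IsCyclic (zpowers w.x)) K)
        ((quo_le_quo_iff SK xK).2 ?_)))) (quo_mono K inf_le_left))) ns
    have dK : w.d ∈ K := by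
      have := mul_mem (conj_mem_of_mem_normalizer (inv_mem (SK (w.le w.xA))) yK) (inv_mem yK)
      rwa [inv_inv, mul_assoc, mul_assoc, ← mul_assoc w.y, w.hd] at this
    have AK : w.A ≤ K ⊔ zpowers w.x := fun a ha => by
      obtain ⟨i, j, rfl⟩ := w.gen a ha
      have x := mem_sup_right (S := K) (mem_zpowers w.x)
      exact mul_mem (zpow_mem x i) (zpow_mem (by rw [← w.hz, w.yx]; exact mul_mem x (mul_mem x (mem_sup_left dK))) j)
    intro a ha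
    by_cases e : a ∈ w.A
    · exact AK e
    · exact (mul_mem_cancel_right (mem_sup_left yK)).1 (AK (w.out_mul ha w.yS e w.yA))
  have bal := ind K ((card_le_of_le' KX.le).trans_lt hn) k
  have hK := qdt_top k
  have i2 : ∀ {a} (ha : a ∈ K), Inv2 a → Inv2 (⟨a, ha⟩ : K) := fun _ a2 =>
    ⟨Subtype.ext a2.sq, fun e => a2.ne (congrArg Subtype.val e)⟩
  have c : (⟨s, sK⟩ : K) ∈ 𝐂[(⟨t, tK⟩ : K)] := by rw [← subgroupOf_cent1]; exact hs.2
  constructor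
  · have := ident_idx hK (ident_bal k bal) (i2 tK t2) (i2 sK s2) c fun e => ts (congrArg Subtype.val e)
    rw [← subgroupOf_cent1, ← subgroupOf_cent1, ← inf_subgroupOf_left 𝐂[t], relIndex_subgroupOf inf_le_left,
      inf_subgroupOf_left] at this
    rw [rel_eq KX.le, rel_eq (inf_le_inf_right _ KX.le)]
    · exact this
    · intro g hg
      have m := conj_mem_of_mem_normalizer (KX.norm hg.1) sK
      obtain ⟨k, hk, e⟩ := hK.conj_cent (mem_top _) (i2 tK t2) ⟨trivial, c⟩ (b := ⟨_, m⟩) ⟨trivial, by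
        rw [← subgroupOf_cent1]; exact (𝐂[t]).mul_mem ((𝐂[t]).mul_mem hg.2 hs.2) ((𝐂[t]).inv_mem hg.2)⟩ (i2 sK s2) (i2 m (s2.conj g))
        (fun e => ts (congrArg Subtype.val e).symm) fun e => ts (by
          have e : g * s * g⁻¹ = t := congrArg Subtype.val e
          rw [← mul_inv_eq_iff_eq_mul.2 (mem_cent1_iff.1 hg.2)] at e
          exact (mul_left_cancel (mul_right_cancel e)).symm)
      exact ⟨k, ⟨k.2, by have := hk.2; rwa [← subgroupOf_cent1] at this⟩, congrArg Subtype.val e⟩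
    · intro g hg
      have m := conj_mem_of_mem_normalizer (KX.norm hg) tK
      obtain ⟨k, -, e⟩ := hK.one _ (mem_top _) ⟨_, m⟩ (mem_top _) (i2 tK t2) (i2 m (t2.conj g))
      exact ⟨k, k.2, congrArg Subtype.val e⟩
  · have hF := piCoreOf_normalIn {2}ᶜ (X ⊓ 𝐂[t])
    have sF := hF.norm hs
    rw [← cent_zpowers s, ← comm_eq_bot_iff, ← (copAct_inv s2.sq (odd_core _) sF).comm_comm, comm_eq_bot_iff, cent_zpowers]
    refine le_trans ?_ (bal.sub sK tK s2 t2 hs.2)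
    have := comm_le_left (zpowers_le.2 sF)
    refine le_trans (le_inf this (le_inf ?_ (this.trans (hF.le.trans inf_le_right))))
      (piCoreOf_inf_le _ (inf_le_inf_right _ KX.le))
    exact (commutator_mono le_rfl (zpowers_le.2 sK)).trans (comm_le_right ((hF.le.trans inf_le_left).trans KX.norm))

/-- the index of `C_X(t)` in `X` -/
theorem QDT.idx {G : Type u} [Group G] [Finite G] {X : Subgroup G} {t s : G} {n : ℕ} (h : QDT X)
    (ind : ∀ (K : Type u) [Group K] [Finite K] [IsSimpleGroup K], Nat.card K < n → QSyl (⊤ : Subgroup K) → Bal K)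
    (hn : Nat.card X < n) (ht : t ∈ X) (t2 : Inv2 t) (hs : s ∈ X ⊓ 𝐂[t]) (s2 : Inv2 s) (ts : t ≠ s)
    (ns : ¬ Group.IsSolvable ↥(X ⊓ 𝐂[t])) : ∃ N j, IdxN N j ∧
      (𝐂[t]).relIndex X = (𝐂[s]).relIndex 𝐎(X ⊓ 𝐂[t]) ^ 2 * N ∧
      (𝐂[s]).relIndex (X ⊓ 𝐂[t]) = (𝐂[s]).relIndex 𝐎(X ⊓ 𝐂[t]) * j := by
  have hO := piCoreOf_normalIn {2}ᶜ X
  have ho := core_pi X
  have hk : PiGrp {2}ᶜ (pker (qmk 𝐎(X))) := by rw [pker_qmk]; exact ho
  have tn := hO.norm ht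
  have sn := hO.norm hs.1
  have cen := pm_cent hk tn t2 (le_normalizer ht)
  have c := mem_cent1_iff.1 hs.2
  obtain ⟨h1, h2⟩ := (h.syl.quo hO.norm (odd_core X)).idx0 (piCoreOf_quo_self _ X) ind ((card_quo_le X _).trans_lt hn)
    (qel_mem_quo _ ht) (t2.pm tn hk) (cen ▸ qel_mem_quo _ hs) (s2.pm sn hk) (fun e => ts (by
      have := (qel_eq_iff' tn sn).1 e
      rw [s2.inv] at this
      have := one_of_odd2 ho this (by rw [mul_assoc, ← mul_assoc s, c, mul_assoc, s2.sq, mul_one, t2.sq])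
      rw [← mul_one t, ← s2.sq, ← mul_assoc, this, one_mul])) (fun a ha a2 => by
      obtain ⟨a, ha', a2', rfl⟩ := lift_inv hO.norm hk ha a2
      obtain ⟨g, hg, rfl⟩ := h.one t ht a ha' t2 a2'
      exact ⟨_, qel_mem_quo _ hg, (pel_conj _ (hO.norm hg) tn).symm⟩)
    fun e => ns (solvable_of_quo (inf_le_left.trans hO.norm) (solv_core X) (cen ▸ e))
  have hF := piCoreOf_normalIn {2}ᶜ (X ⊓ 𝐂[t])
  have k : (𝐂[s]).relIndex 𝐎(X ⊓ 𝐂[t]) = (𝐂[s]).relIndex (𝐎(X) ⊓ 𝐂[t]) := by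
    rw [rel_quo ((hF.le.trans inf_le_left).trans hO.norm) sn (hF.norm hs) s2 ho,
      relIndex_eq_one.2 ((quo_piCoreOf_le _ _ _).trans (cen ▸ h2)), mul_one]
    congr 1
    refine le_antisymm (inf_le_inf_left _ (hF.le.trans inf_le_right)) (le_inf inf_le_left (le_piCoreOf
      ⟨inf_le_inf_right _ hO.le, norms_inf (inf_le_left.trans hO.norm) (inf_le_right.trans le_normalizer)⟩ (ho.inf_left _)))
  refine ⟨_, _, h1, ?_, ?_⟩
  · rw [rel_quo hO.norm tn (le_normalizer ht) t2 ho, inf_eq_left.2 hO.le, k]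
    congr 1
    obtain ⟨V, V4, hV⟩ := four_of t2 s2 ts c.symm
    have tV := (hV t).2 (.inr (.inl rfl))
    have sV := (hV s).2 (.inr (.inr (.inl rfl)))
    have W := wielandt_four V4 tV sV t2.ne s2.ne ts (V4.le_of tV sV t2.ne s2.ne ts tn sn) (odd_core X)
    have cc : ∀ a ∈ X, Inv2 a → Nat.card ↥(𝐎(X) ⊓ 𝐂[a]) = Nat.card ↥(𝐎(X) ⊓ 𝐂[t]) := fun a ha a2 => by
      obtain ⟨g, hg, rfl⟩ := h.one t ht a ha t2 a2
      rw [← cj_centralizer_singleton, ← card_cj g (𝐎(X) ⊓ 𝐂[t]), cj_inf, cj_eq_of_mem_normalizer (hO.norm hg)]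
    have e : 𝐎(X) ⊓ 𝐂(V) = 𝐂[s] ⊓ (𝐎(X) ⊓ 𝐂[t]) := by
      refine le_antisymm (fun x hx => ⟨mem_cent1_iff.2 (mem_cent_iff.1 hx.2 s sV).symm, hx.1,
        mem_cent1_iff.2 (mem_cent_iff.1 hx.2 t tV).symm⟩) fun x hx => ⟨hx.2.1, mem_cent_iff_le_cent1.2 (V4.le_of tV sV
          t2.ne s2.ne ts (mem_cent1_iff.2 (mem_cent1_iff.1 hx.2.2).symm) (mem_cent1_iff.2 (mem_cent1_iff.1 hx.1).symm))⟩
    rw [cc s hs.1 s2, cc _ (mul_mem ht hs.1) (V4.inv2 (mul_mem tV sV) fun e => ts (by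
      rw [← mul_one t, ← s2.sq, ← mul_assoc, e, one_mul])), e, ← card_inf_mul_relIndex 𝐂[t] 𝐎(X), inf_comm 𝐂[t]] at W
    have W2 := card_inf_mul_relIndex 𝐂[s] (𝐎(X) ⊓ 𝐂[t])
    have p1 := Nat.card_pos (α := ↥(𝐎(X) ⊓ 𝐂[t]))
    have p2 := Nat.card_pos (α := ↥(𝐂[s] ⊓ (𝐎(X) ⊓ 𝐂[t])))
    generalize Nat.card ↥(𝐎(X) ⊓ 𝐂[t]) = a at *
    subst W2
    refine Nat.eq_of_mul_eq_mul_left (Nat.mul_pos p1 (Nat.pow_pos (n := 2) p2)) ?_
    linear_combination W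
  · rw [rel_quo (inf_le_left.trans hO.norm) sn (le_normalizer hs) s2 ho, k, ← inf_assoc, inf_eq_left.2 hO.le, cen]

end CA.ABG
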