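/-
Alperin-Brauer-Gorenstein, semidihedral case with `q ≡ 3 (4)`: a proper subgroup of type `QDT` which covers
`C(t)/O(C(t))` has no odd core, and determines the index of `C(t)`.
-/
import Cfsg.Agent.Lib.ABG.ZS1
import Cfsg.Agent.Lib.ABG.ZS2
import Cfsg.Agent.Lib.ABG.ZZ
import Cfsg.Agent.Lib.ABG.LA
import Cfsg.Agent.Lib.ABG.T1m
import Cfsg.Agent.Lib.ABG.WI

set_option autoImplicit false
set_option linter.unusedSectionVars false

namespace CA.ABG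

open Cfsg Subgroup CA CA.FStar CA.GW CA.Ch

namespace PB
variable {G E : Type*} [Group G] [Group E] [Finite G] [Finite E] (B : PB G E) {X : Subgroup G}

/-- the setting for `G`, with the fusion inside `X` -/
theorem exists_cov' (h : QDT X) (hV : B.V ≤ X) (cov : 𝐂[B.τ] ≤ (X ⊓ 𝐂[B.τ]) ⊔ B.O) (one : ∀ i, Inv2 i → IsConj B.τ i) :
    ∃ P : PS G E, P.S.toHA = B.S ∧ P.Cov X ∧ P.τ = B.τ ∧ P.O = B.O ∧
      ∃ s : P.H1, (s : G) = B.s ∧ (P.π s : E) = P.S.u := by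
  obtain ⟨ρ, hρ, h1, h2, -⟩ := h.rot3 B.four hV B.τV B.sV B.τ1 B.s1 B.τs
  obtain ⟨R, e, r⟩ := B.exists_ra hρ.2 h1 h2
  have m : ∀ a, a ∈ R.H := fun a => by rw [e, B.top]; exact mem_top a
  have fus : ∀ M : Subgroup G, X ≤ M → ∀ (x y : B.H1) (a : R.T), (x : G) ∈ M → (y : G) ∈ M → PiElt {2} x →
      PiElt {2} y → B.f x = a → B.f y = R.r a → ∃ g ∈ M, g * x * g⁻¹ = y := fun M hM x y a xM yM x2 y2 e1 e2 => by
    have ha : (a : E) ∈ B.S.T := e ▸ a.2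
    have sH := B.V_le B.sV
    have sM := hM (hV B.sV)
    obtain ⟨o, ho, e3⟩ := B.conjX (mul_mem (mul_mem x.2 sH) (inv_mem x.2)) sH (mul_mem (mul_mem xM sM) (inv_mem xM)) sM
      (piElt_conj.2 B.s2.piElt) B.s2.piElt (by
        rw [pel_conj _ x.2 sH, B.fs, pel_coe, e1, (B.S.mem_T.1 ha).2, mul_inv_cancel_right])
    have h3 : o * x ∈ B.H1 := mul_mem (B.O_le ho.1) x.2
    have h4 : o * x ∈ 𝐂(B.V) := B.mem_C (B.H1_le h3) (mul_inv_eq_iff_eq_mul.1 (by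
      rw [show o * x * B.s * (o * x)⁻¹ = o * (x * B.s * (x : G)⁻¹) * o⁻¹ by group, e3]))
    have z1 := constt_mem {2} h4
    have z2 := constt_piElt {2} (o * x)
    have zM := constt_mem {2} (mul_mem ho.2 xM)
    have e4 : pel B.f (constt {2} (o * x)) = a := by
      rw [pel_constt _ _ h3, pel_mul _ (B.O_le ho.1) x.2, B.f_O ho.1, one_mul, pel_coe, e1,
        constt_eq_self (e1 ▸ x2.map B.f)]
    generalize constt {2} (o * x) = z at z1 z2 zM e4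
    obtain ⟨o1, ho1, e5⟩ := B.conjX x.2 (B.C_two z1 z2) xM zM (piElt_coe.2 x2) z2 (by rw [pel_coe, e1, e4])
    obtain ⟨o2, ho2, e6⟩ := B.conjX (B.C_two (B.cj_C hρ.2 z1) (piElt_conj.2 z2)) y.2
      (mul_mem (mul_mem (hM hρ.1) zM) (inv_mem (hM hρ.1))) yM (piElt_conj.2 z2) (piElt_coe.2 y2)
      (by rw [pel_coe, e2, r z z1 z2 a e4])
    exact ⟨o2 * ρ * o1, mul_mem (mul_mem ho2.2 (hM hρ.1)) ho1.2, by rw [← e6, ← e5]; group⟩
  have tX := hV B.τV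
  refine ⟨⟨R, B.τ, B.H1, B.O, B.f.codRestrict _ fun _ => m _, fun a => ?_, fun x => ?_, B.O_le, B.O_odd,
    fun h hh x hx => conj_mem_of_mem_normalizer (B.O_norm hh) hx, B.H1_le, B.comm, B.idx, B.cover, B.V_le B.τV, ?_,
    B.τ2.sq, fun i a b => one i ⟨a, b⟩, fun x y a x2 y2 e1 e2 => ?_⟩, e, ⟨tX, fun g hg => ?_, fun g hg => ?_,
    fun i hi a b => h.one _ tX i hi B.τ2 ⟨a, b⟩, fus X le_rfl⟩, rfl, rfl, ⟨B.s, B.V_le B.sV⟩, rfl, ?_⟩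
  · obtain ⟨x, hx⟩ := B.surj a
    exact ⟨x, Subtype.ext hx⟩
  · rw [← B.ker, mem_pker, pel_coe, Subtype.ext_iff]
    exact ⟨fun e => ⟨x.2, e⟩, fun e => e.2⟩
  · show B.f _ = R.toHA.t
    rw [e, ← B.fτ, pel_of_mem _ (B.V_le B.τV)]
  · obtain ⟨g, -, e⟩ := fus ⊤ le_top x y a trivial trivial x2 y2 e1 e2
    exact isConj_iff.2 ⟨g, e⟩
  · have := cov hg
    rw [sup_comm] at this
    obtain ⟨a, ha, b, hb, rfl⟩ := (mem_sup_of_norm_right (inf_le_right.trans B.O_norm)).1 this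
    exact ⟨b, hb.1, hb.2, by rw [mul_inv_cancel_right]; exact ha⟩
  · obtain ⟨T, -, hT, -, ⟨w⟩⟩ := h.sw0 tX B.τ2
    have n : 𝐂[B.τ] ≤ 𝐍(B.H1) := fun a ha => mem_normalizer_of_cj_le (by
      rintro _ ⟨b, hb, rfl⟩
      simpa using mul_mem (B.comm a ha b (B.H1_le hb)) hb)
    obtain ⟨c, hc, h1, h2⟩ := w.cover hT inf_le_right (N := X ⊓ B.H1)
      ⟨inf_le_inf_left _ B.H1_le, norms_inf (inf_le_left.trans le_normalizer) (inf_le_right.trans n)⟩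
      (fun x hx x2 => ⟨hx.1, B.two x hx.2 x2⟩) hg
    exact ⟨c, hc, h1.2, Nat.not_even_iff_odd.1 fun e => hT.not_dvd Nat.prime_two (e.two_dvd.trans
      (relIndex_dvd_of_le_left _ (mem_cent_iff_le_cent1.1 h2)))⟩
  · exact ((pel_of_mem _ (B.V_le B.sV)).symm.trans B.fs).trans (congrArg HA.u e).symm

end PB

theorem IdxN.eq {N q : ℕ} (h : IdxN N (q * (q + 1))) (h3 : q % 4 = 3) (q3 : q ≠ 3) : N = q ^ 2 * (q ^ 2 + q + 1) := by
  obtain ⟨r, e, ⟨a, ha⟩, rfl | rfl, h1, h2⟩ := h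
  · have : (r : ℤ) = q := by push_cast at h1; nlinarith [Int.natCast_nonneg r, Int.natCast_nonneg q]
    obtain rfl : r = q := by exact_mod_cast this
    rcases h2 with h2 | h2
    · rw [one_mul] at h2; exact_mod_cast h2
    · omega
  · have : (r : ℤ) = q + 1 := by
      have : (1 : ℤ) ≤ r := by omega
      push_cast at h1; nlinarith [Int.natCast_nonneg q]
    omega

section
variable {G : Type*} [Group G] [Finite G] {X : Subgroup G} {t s : G}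

theorem Cov.quo (h : Cov X t) : (X ⊓ 𝐂[t]) /ₛ 𝐎(𝐂[t]) = 𝐂[t] /ₛ 𝐎(𝐂[t]) := by
  rw [← quo_sup_right (inf_le_right.trans (piCoreOf_norm _ _)), ← le_antisymm h (sup_le inf_le_right (piCoreOf_le _ _))]

theorem Cov.core_eq (h : Cov X t) : 𝐎(X ⊓ 𝐂[t]) = 𝐎(𝐂[t]) ⊓ X := by
  have n := piCoreOf_norm {2}ᶜ 𝐂[t]
  have l := piCoreOf_le {2}ᶜ (X ⊓ 𝐂[t])
  refine le_antisymm (le_inf ((quo_eq_bot_iff ((l.trans inf_le_right).trans n)).1 (eq_bot_iff.2 ?_)) (l.trans inf_le_left))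
    (le_trans (le_inf inf_le_left (le_inf inf_le_right (inf_le_left.trans (piCoreOf_le _ _))))
      (piCoreOf_inf_le _ inf_le_right))
  exact (quo_piCoreOf_le _ _ _).trans (by rw [h.quo, piCoreOf_quo_self])

variable {Z : Subgroup (Quo 𝐎(𝐂[t]))} {F : Type} [Field F] [Fintype F] (e : QE F (𝐂[t] /ₛ 𝐎(𝐂[t])) Z)
  (et : e.t = qel _ t) (hZ : Nat.card Z = 2) (h3 : Fintype.card F % 4 = 3)
include e et hZ h3

theorem QE.j_lin (t2 : Inv2 t) (hs : s ∈ 𝐂[t]) (s2 : Inv2 s) (ts : t ≠ s) :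
    (𝐂[qel 𝐎(𝐂[t]) s]).relIndex (𝐂[t] /ₛ 𝐎(𝐂[t])) = Fintype.card F * (Fintype.card F + 1) := by
  have n := piCoreOf_norm {2}ᶜ 𝐂[t]
  have ho := core_pi 𝐂[t]
  have hk : PiGrp {2}ᶜ (pker (qmk 𝐎(𝐂[t]))) := by rw [pker_qmk]; exact ho
  have i := s2.pm (n hs) hk
  obtain ⟨d, τ, σ, a, m, T⟩ := e.tor e.gen (qel_mem_quo _ hs) i fun k => ts (by
    have := (qel_eq_iff' (n (mem_cent1_iff.2 rfl)) (n hs)).1 (et.symm.trans (e.inv_Z e.gen k i).symm)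
    rw [s2.inv] at this
    have := one_of_odd2 ho this (by
      rw [mul_assoc, ← mul_assoc s, mem_cent1_iff.1 hs, mul_assoc, s2.sq, mul_one, t2.sq])
    rw [← mul_one t, ← s2.sq, ← mul_assoc, this, one_mul])
  have h1 := T.idx
  have h2 := T.nm
  rw [hZ] at h2
  obtain ⟨b, hb⟩ := T.mo
  have h4 : Fintype.card F = a + 1 := by have := T.hn; omega
  rw [h4] at h1 ⊢
  refine Nat.eq_of_mul_eq_mul_right (m := a) (by omega) (h1.trans ?_)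
  rw [show (a + 1) ^ 2 - 1 = (a + 1 + 1) * a from Nat.sub_eq_of_eq_add (by ring), mul_assoc]

end

universe u

section
variable {G : Type u} [Group G] [Finite G] [IsSimpleGroup G] {X : Subgroup G} {t s : G} (hG : QDT (⊤ : Subgroup G))
  (ind : ∀ (K : Type u) [Group K] [Finite K] [IsSimpleGroup K], Nat.card K < Nat.card G → QSyl (⊤ : Subgroup K) → Bal K)
  (t2 : Inv2 t) {Z : Subgroup (Quo 𝐎(𝐂[t]))} {F : Type} [Field F] [Fintype F] (e : QE F (𝐂[t] /ₛ 𝐎(𝐂[t])) Z)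
  (et : e.t = qel _ t) (hZ : Nat.card Z = 2) (h3 : Fintype.card F % 4 = 3) (hX : X ≠ ⊤) (cov : Cov X t)
include hG ind t2 e et hZ h3 hX cov

/-- (ZZ) and the index, for `X` of type `QDT` -/
theorem zs (hq : QDT X) (tX : t ∈ X) : 𝐎(X) = ⊥ ∧ (Fintype.card F ≠ 3 → ∀ s ∈ 𝐂[t], Inv2 s → s ≠ t → (𝐂[t]).index =
    (𝐂[s]).relIndex 𝐎(𝐂[t]) ^ 2 * Fintype.card F ^ 2 * (Fintype.card F ^ 2 + Fintype.card F + 1)) := by
  obtain ⟨B, e0, e1, -, e3, e4, -⟩ := exists_pb e hG t2 le_top et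
  have cov' : 𝐂[B.τ] ≤ (X ⊓ 𝐂[B.τ]) ⊔ B.O := by rw [e0, e1]; exact cov
  obtain ⟨o, ho, hV⟩ := B.exists_move (show B.τ ∈ X by rw [e0]; exact tX) cov'
  obtain ⟨P, a1, a2, a3, a4, s, a5, a6⟩ := (B.move ho).exists_cov' hq hV cov' fun i i2 =>
    let ⟨g, _, k⟩ := hG.one _ trivial i trivial B.τ2 i2; isConj_iff.2 ⟨g, k⟩
  replace a3 : P.τ = t := a3.trans e0
  replace a4 : P.O = 𝐎(𝐂[t]) := a4.trans e1
  have s2 : Inv2 (s : G) := a5 ▸ (B.move ho).s2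
  have sX : (s : G) ∈ X := a5 ▸ hV (B.move ho).sV
  have k0 : 𝐂[P.τ] = 𝐂[t] := by rw [a3]
  have st : (s : G) ∈ 𝐂[t] := k0.le (P.H1_le s.2)
  have ts : t ≠ s := fun k => (B.move ho).τs (e0.trans (k.trans a5))
  have k1 : P.k = (𝐂[(s : G)]).relIndex 𝐎(𝐂[t]) := by rw [P.k_eq' (Subtype.ext s2.sq) a6, a4]
  have k2 : a2.ps.k = (𝐂[(s : G)]).relIndex 𝐎(X ⊓ 𝐂[t]) := by
    rw [a2.ps.k_eq' (s := ⟨⟨s, sX⟩, s.2⟩) (Subtype.ext (Subtype.ext s2.sq)) a6, PS.cent_sub', cov.core_eq,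
      ← relIndex_subgroupOf inf_le_right, inf_subgroupOf_right]
    exact congrArg (fun O : Subgroup G => ((𝐂[(s : G)]).subgroupOf X).relIndex (O.subgroupOf X)) a4
  have k3 : a2.ps.H.index = (𝐂[t]).relIndex X := by rw [a2.index, k0]
  have hQ : P.S.Q = Fintype.card F := by
    rw [show P.S.Q = B.S.Q from congrArg HA.Q a1, ← e4]
    have := B.S.Q_three (e3.trans hZ)
    rcases B.S.Q_cases with ⟨-, k⟩ | ⟨-, k⟩ <;> omega
  have n := piCoreOf_norm {2}ᶜ 𝐂[t]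
  have idx : Fintype.card F ≠ 3 → a2.ps.H.index =
      a2.ps.k ^ 2 * Fintype.card F ^ 2 * (Fintype.card F ^ 2 + Fintype.card F + 1) := fun q3 => by
    obtain ⟨N, j, h1, h2, h4⟩ := hq.idx ind ((card_lt_of_lt' hX.lt_top).trans_eq card_top) tX t2 ⟨sX, st⟩ s2 ts fun k =>
      e.L_not_solv (by omega) (solvable_of_le (cov.quo ▸ solvable_quo k _) e.LX)
    rw [rel_quo (inf_le_right.trans n) (n st) (le_normalizer (H := X ⊓ 𝐂[t]) ⟨sX, st⟩) s2 (core_pi _), cov.quo,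
      e.j_lin et hZ h3 t2 st s2 ts, inf_comm X, ← inf_assoc, inf_eq_left.2 (piCoreOf_le _ _), ← cov.core_eq, inf_comm 𝐂[t]]
      at h4
    rw [← Nat.eq_of_mul_eq_mul_left (Nat.pos_of_ne_zero (relIndex_ne_zero' _ _)) h4] at h1
    rw [k2, k3, h2, h1.eq h3 q3, mul_assoc]
  obtain ⟨r1, r2⟩ := a2.zs (N := 𝐎(X)) (by
    by_cases q3 : Fintype.card F = 3
    · refine .inl ⟨by rw [hQ, q3]; rfl, ?_, ?_⟩
      · obtain ⟨S, h1, h2, -⟩ := hq.sw0 tX t2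
        rw [k3]
        exact Nat.not_even_iff_odd.1 fun k => h1.not_dvd Nat.prime_two (k.two_dvd.trans
          (relIndex_dvd_of_le_left _ (h2.le.trans inf_le_right)))
      · rw [k2]
        exact (odd_core _).of_dvd_nat (relIndex_dvd_card _ _)
    · exact .inr ⟨by omega, by rw [idx q3, hQ]; push_cast; rfl⟩) (piCoreOf_normalIn _ _) (odd_core X)
  refine ⟨r1, fun q3 s' hs s2' ts' => ?_⟩
  obtain ⟨g, hg, rfl⟩ := hG.conj_cent trivial t2 ⟨trivial, st⟩ ⟨trivial, hs⟩ s2 s2' ts.symm ts'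
  have := relIndex_cj g 𝐂[(s : G)] 𝐎(𝐂[t])
  rw [cj_centralizer_singleton, cj_eq_of_mem_normalizer (n hg.2), ← k1] at this
  rw [PS.H, k0, idx q3] at r2
  rw [this]
  refine Nat.eq_of_mul_eq_mul_right (Nat.pow_pos (n := 2) PS.k_pos) (r2.trans ?_)
  ring

/-- (ZZ) and the index, with the case distinction for `X` -/
theorem zs' : Iso X t ∨ (QDT X ∧ 𝐎(X) = ⊥ ∧ (Fintype.card F ≠ 3 → ∀ s ∈ 𝐂[t], Inv2 s → s ≠ t → (𝐂[t]).index =
    (𝐂[s]).relIndex 𝐎(𝐂[t]) ^ 2 * Fintype.card F ^ 2 * (Fintype.card F ^ 2 + Fintype.card F + 1))) := by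
  have nO : X ⊓ 𝐂[t] ≤ 𝐍(𝐎(𝐂[t])) := inf_le_right.trans (piCoreOf_norm _ _)
  obtain ⟨S, hS, -⟩ := exists_sylowIn_ge (p := 2) (M := X ⊓ 𝐂[t]) (piGrp_bot _) bot_le
  have h0 : SylowIn 2 S 𝐂[t] := by
    refine hS.of_not_dvd_relIndex inf_le_right Nat.prime_two ?_
    rw [show (X ⊓ 𝐂[t]).relIndex 𝐂[t] = (X ⊓ 𝐂[t]).relIndex 𝐎(𝐂[t]) from by
      rw [← relIndex_sup_of_norm' nO, ← le_antisymm cov (sup_le inf_le_right (piCoreOf_le _ _))]]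
    exact fun e => (core_pi _).relIndex _ 2 Nat.prime_two e rfl
  obtain ⟨h2, hq, ⟨w⟩⟩ := hG.syl_cent trivial t2 (by rwa [top_inf_eq])
  have hS' : SylowIn 2 S X := h2.of_le (hS.le.trans inf_le_left) le_top
  have tX := hS'.le w.tS
  rcases w.types hS' hq with k | k | ⟨-, N, -, -, ⟨-, -, -, k, -⟩ | ⟨k, -⟩⟩
  · refine .inl fun g hg => ?_
    have h1 := Blk.zstar_in hS' w.tS t2.sq k hg
    obtain ⟨k, hk⟩ := Inv.conj_of_odd t2.sq (t2.conj g).sq (odd_elt_iff.2 ((core_pi X).piElt h1))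
    have h3 := zpow_mem h1 k
    generalize (t * (g * t * g⁻¹)) ^ k = o at *
    exact (mul_mem_cancel_left (mem_sup_left (inv_mem h3))).1 (mem_sup_right (mem_inf.2
      ⟨mul_mem (inv_mem (piCoreOf_le _ _ h3)) hg, mem_cent1_iff.2 (by
        calc o⁻¹ * g * t = o⁻¹ * (g * t * g⁻¹) * g := by group
          _ = _ := by rw [← hk]; group)⟩))
  · exact .inr ⟨k, zs hG ind t2 e et hZ h3 hX cov k tX⟩
  · refine absurd ?_ (hG.nq t trivial t2)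
    rw [top_inf_eq]
    exact normalPCompl_of_quo (piCoreOf_normalIn _ _) (core_pi _) (cov.quo ▸ k.quo _)
  · exact absurd (hZ ▸ e.four_dvd h0 hq w k) (by norm_num)

end

/-- (ZZ) and the index in a minimal counterexample -/
theorem Min.zzSD {G : Type u} [Group G] [Finite G] (m : Min G) {X : Subgroup G} {t : G} (t2 : Inv2 t)
    {Z : Subgroup (Quo 𝐎(𝐂[t]))} {F : Type} [Field F] [Fintype F] (e : QE F (𝐂[t] /ₛ 𝐎(𝐂[t])) Z)
    (et : e.t = qel _ t) (hZ : Nat.card Z = 2) (h3 : Fintype.card F % 4 = 3) (hX : X ≠ ⊤) (cov : Cov X t) :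
    Iso X t ∨ (QDT X ∧ 𝐎(X) = ⊥ ∧ (Fintype.card F ≠ 3 → ∀ s ∈ 𝐂[t], Inv2 s → s ≠ t → (𝐂[t]).index =
      (𝐂[s]).relIndex 𝐎(𝐂[t]) ^ 2 * Fintype.card F ^ 2 * (Fintype.card F ^ 2 + Fintype.card F + 1))) :=
  have := m.simple
  zs' (qdt_top ⟨_, m.syl, m.qd⟩) m.ind t2 e et hZ h3 hX cov

end CA.ABG
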