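/-
Alperin–Brauer–Gorenstein theorem: the unbalanced case, construction of the setting.
-/
import Cfsg.Agent.Lib.ABG.UB0
import Cfsg.Agent.Lib.ABG.ZS
import Cfsg.Agent.Lib.ABG.P2S
import Cfsg.Agent.Lib.ABG.WBX
import Cfsg.Agent.Lib.ABG.LA

set_option autoImplicit false
set_option linter.unusedSectionVars false

namespace CA.ABG

open Cfsg CA CA.FStar CA.Loc CA.GW Subgroup
open scoped MatrixGroups

universe u

theorem QE.gen_root {G : Type*} [Group G] [Finite G] {Y : Subgroup G} {a b σ : G} {Z : Subgroup (Quo 𝐎(𝐂[a]))} {F : Type}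
    [Field F] [Fintype F] (e : QE F (𝐂[a] /ₛ 𝐎(𝐂[a])) Z) (et : e.t = qel _ a) (h : Pr a b) (hY : Y ≤ 𝐂[a])
    (Yo : Odd (Nat.card Y)) (nY : 𝐂[a] ⊓ 𝐂[b] ≤ 𝐍(Y)) (nb : ¬ ⁅Y, zpowers b⁆ ≤ 𝐎(𝐂[a])) (hσ : σ ∈ 𝐂[a])
    (sw : σ * b * σ⁻¹ = a * b) : a ∈ Y ⊔ cj σ Y ∧ 𝐂[a] ≤ Y ⊔ cj σ Y ⊔ 𝐂[a] ⊓ 𝐂[b] ⊔ 𝐎(𝐂[a]) := by
  obtain ⟨d, τ, ρ, n, k, t⟩ := e.tor' et h.a2 h.bH h.b2 h.ne.symm
  have hO := piCoreOf_normalIn {2}ᶜ 𝐂[a]
  obtain ⟨-, r⟩ := (t.ll0' hO (odd_core _) h.bH h.b2.sq hY Yo nY).resolve_left nb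
  have hX : Y ⊔ cj σ Y ≤ 𝐂[a] := sup_le hY (cj_le_of_le hY hσ)
  have Q := quo_mono 𝐎(𝐂[a]) (comm_le_left (zpowers_le.2 (nY h.bC)))
  have hL : e.L ≤ (Y ⊔ cj σ Y) /ₛ 𝐎(𝐂[a]) := by
    rw [← r.gen (qel_mem_quo _ hσ) (r.swap' t (qel_mem_quo _ hσ) (by
      rw [← pel_conj _ (hO.norm hσ) (hO.norm h.bH), sw, h.c, pel_mul _ (hO.norm h.bH) (hO.norm h.aC.1), et])),
      quo_sup (hY.trans hO.norm) ((le_sup_right.trans hX).trans hO.norm), quo_cj (hO.norm hσ)]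
    exact sup_le_sup Q (cj_mono _ Q)
  constructor
  · obtain ⟨s, hs, s2, e1⟩ := lift_inv (hX.trans hO.norm) (by rw [pker_qmk]; exact core_pi _) (hL ⟨-1, rfl⟩) e.neg2
    have c := mem_cent1_iff.1 (hX hs)
    rwa [← eq_of_mul_inv_eq_one (one_of_odd2 (core_pi _) ((qel_eq_iff' (hO.norm (hX hs)) (hO.norm h.aC.1)).1 (e1.trans et))
      (by rw [h.a2.inv, mul_assoc, ← mul_assoc a, ← c, mul_assoc, h.a2.sq, mul_one, s2.sq]))]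
  · have l := (sup_le hX inf_le_left : _ ⊔ 𝐂[a] ⊓ 𝐂[b] ≤ _).trans hO.norm
    rw [sup_comm, ← quo_le_quo_iff hO.norm l, quo_sup (hX.trans hO.norm) (inf_le_left.trans hO.norm), quo_cent2 h.bH h.b2]
    exact (e.fratt t.gen t.sX t.s2 t.sZ).le.trans (sup_le_sup_right hL _)

namespace Min
variable {G : Type u} [Group G] [Finite G] (m : Min G) {A : Subgroup G} {a b : G} {r : ℕ}
include m

theorem sd_sw (h : IsQuasiDihedral m.S) (a2 : Inv2 a) :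
    ∃ (S : Subgroup G) (w : SW S a), SylowIn 2 S 𝐂[a] ∧ QD S ∧ w.A = zpowers w.x ∧ w.z = a := by
  obtain ⟨S, h1, h2, h3, ⟨w⟩⟩ := m.qdt.sw0 trivial a2
  obtain ⟨g, -, e⟩ := h1.exists_cj m.syl
  refine ⟨S, w, top_inf_eq 𝐂[a] ▸ h2, h3, w.typ.resolve_right fun k => a2.ne ?_⟩
  have e1 : g * w.z * g⁻¹ * (g * w.z * g⁻¹) = 1 := congrArg Subtype.val (sd_central h
    (v := ⟨g * w.z * g⁻¹, e ▸ conj_mem_cj.2 (w.le w.zA)⟩) fun ⟨x, hx⟩ => Subtype.ext (by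
      obtain ⟨y, hy, rfl⟩ := mem_cj'.1 (e ▸ hx)
      show _ * _ = _ * _
      rw [conj_mul, conj_mul, mem_cent_iff.1 (w.Z_cent (mem_zpowers _)) y hy]))
  rw [conj_mul, conj_eq_one_iff] at e1
  simpa [e1] using k.2

theorem sd_qe (h : IsQuasiDihedral m.S) (a2 : Inv2 a) : ∃ (Z : Subgroup (Quo 𝐎(𝐂[a]))) (F : Type) (_ : Field F)
    (_ : Fintype F) (e : QE F (𝐂[a] /ₛ 𝐎(𝐂[a])) Z), e.t = qel _ a ∧ Nat.card Z = 2 := by
  obtain ⟨S, w, hS, hq, -, hz⟩ := m.sd_sw h a2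
  obtain ⟨Z, F, _, _, e, et⟩ := m.qdt.qe' a2 le_top
  exact ⟨Z, F, _, _, e, et, e.card_two hS hq w hz⟩

theorem ub (h : IsQuasiDihedral m.S) (hr : r.Prime) (r2 : r ≠ 2) (a2 : Inv2 a) (b2 : Inv2 b) (hb : a ∈ 𝐂[b])
    (Ar : PiGrp {r} A) (mA : Minimal (fun B => 𝐂[a] ≤ 𝐍(B) ∧ ⁅B, zpowers a⁆ = B ∧ B ≠ ⊥) A)
    (nb : ¬ ⁅A ⊓ 𝐂[b], zpowers a⁆ ≤ 𝐎(𝐂[b])) : Nonempty (UB G r) := by
  haveI := m.simple
  choose! f hf using fun x => m.one a x a2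
  have eqv : ∀ x g, Inv2 x → cj g (cj (f x) A) = cj (f (g * x * g⁻¹)) A := fun x g x2 => by
    have k : (f (g * x * g⁻¹))⁻¹ * (g * f x) ∈ 𝐂[a] := mem_cent1_iff.2 (by
      have e := hf _ (x2.conj g)
      generalize f (g * x * g⁻¹) = y at e ⊢
      calc _ = y⁻¹ * (g * (f x * a * (f x)⁻¹) * g⁻¹) * (g * f x) := by group
        _ = _ := by rw [hf x x2, ← e]; group)
    rw [← cj_mul, ← mul_inv_cancel_left (f (g * x * g⁻¹)) (g * f x), cj_mul, cj_eq_of_mem_normalizer (mA.1.1 k)]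
  have cC : ∀ x, Inv2 x → cj (f x) 𝐂[a] = 𝐂[x] := fun x x2 => by rw [cj_centralizer_singleton, hf x x2]
  have cZ : ∀ x, Inv2 x → cj (f x) (zpowers a) = zpowers x := fun x x2 => by rw [cj_zpowers, hf x x2]
  have HN : ∀ x, Inv2 x → 𝐂[x] ≤ 𝐍(cj (f x) A) := fun x x2 => by
    rw [← cC x x2, ← cj_normalizer]; exact cj_mono _ mA.1.1
  have unb : ∀ x y, Pr x y → ¬ ⁅cj (f y) A ⊓ 𝐂[x], zpowers y⁆ ≤ 𝐎(𝐂[x]) := fun x y p k => nb (by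
    obtain ⟨g, -, rfl, rfl⟩ := m.qdt.conj_pair trivial trivial trivial trivial b2 a2 p.a2 p.b2 (mem_cent1_iff.1 hb).symm p.c
      (fun e => nb (by rw [e, comm_eq_bot_iff.2 (cent_zpowers a ▸ inf_le_right)]; exact bot_le)) p.ne
    rwa [← eqv a g a2, cj_eq_of_mem_normalizer (mA.1.1 (mem_cent1_iff.2 (mul_inv_eq_iff_eq_mul.1 (hf a a2)))),
      ← cj_centralizer_singleton, ← cj_zpowers, ← cj_inf, ← cj_commutator, ← cj_piCoreOf, cj_le_cj] at k)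
  have dat : ∀ x y, Pr x y → ∃ (Z : Subgroup (Quo 𝐎(𝐂[x]))) (F : Type) (_ : Field F) (_ : Fintype F)
      (e : QE F (𝐂[x] /ₛ 𝐎(𝐂[x])) Z) (d : _) (τ σ : SL(2, F)) (n k : ℕ), e.t = qel _ x ∧ Nat.card Z = 2 ∧
        e.Tor (qel _ y) d τ σ n k ∧ n + 1 = Fintype.card F ∧ r ∣ Fintype.card F := fun x y p => by
    obtain ⟨Z, F, _, _, e, et, hZ⟩ := m.sd_qe h p.a2
    obtain ⟨d, τ, σ, n, k, t⟩ := e.tor' et p.a2 p.bH p.b2 p.ne.symm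
    refine ⟨Z, F, _, _, e, d, τ, σ, n, k, et, hZ, t, by_contra fun c => unb x y p (t.ll0r (piCoreOf_normalIn _ _) (odd_core _)
      p.bH p.b2.sq inf_le_right r2 ((Ar.cj _).inf_left _) (norms_inf (inf_le_right.trans (HN y p.b2))
        (inf_le_left.trans le_normalizer)) fun e1 e2 => c ⟨e1, e2⟩)⟩
  have zz : ∀ (X : Subgroup G) x, X ≠ ⊤ → Inv2 x → Cov X x → Iso X x ∨ QDT X ∧ 𝐎(X) = ⊥ := fun X x hX x2 cov => by
    obtain ⟨y, hy, y2, yx⟩ := m.qdt.exists_four trivial x2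
    obtain ⟨Z, F, _, _, e, d, τ, σ, n, k, et, hZ, t, e1, -⟩ := dat x y ⟨x2, y2, yx.symm, (mem_cent1_iff.1 hy.2).symm⟩
    refine (m.zzSD x2 e et hZ ?_ hX cov).imp_right fun k => ⟨k.1, k.2.1⟩
    obtain ⟨j, hj⟩ := t.mo
    have := t.nm
    rw [hZ] at this
    omega
  refine ⟨⟨fun x => cj (f x) A, hr, r2, m.qdt, fun X h1 h2 => m.norm_ne h1 (m.ne_top (solv_odd h2)), m.unbal, eqv,
    fun x _ => Ar.cj _, HN, fun x x2 => by rw [← cZ x x2, ← cj_commutator, mA.1.2.1], fun x _ => by simpa using mA.1.2.2,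
    fun x B x2 h1 h2 h3 h4 => ?_, unb, fun x y σ Y p => ?_, fun x y p => ?_,
    fun X x hX x2 cov => (zz X x hX x2 cov).imp_right And.right, fun X x hX x2 k => (zz X x hX x2
      ((le_inf k le_rfl).trans le_sup_left)).resolve_right fun e => hX (m.qdt.a1 x2 k e.1)⟩⟩
  · obtain ⟨B, rfl⟩ : ∃ B', B = cj (f x) B' := ⟨cj (f x)⁻¹ B, by simp⟩
    rw [← cC x x2, ← cj_normalizer, cj_le_cj] at h1
    rw [← cZ x x2, ← cj_commutator, cj_inj] at h2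
    rw [mA.eq_of_le ⟨h1, h2, fun e => h3 (by rw [e, cj_bot])⟩ (cj_le_cj.1 h4)]
  · obtain ⟨Z, F, _, _, e, -, -, -, -, -, et, -⟩ := dat x y p
    exact fun h1 h2 h3 h4 => e.gen_root et p h1 h2 h3 h4
  · obtain ⟨Z, F, _, _, e, d, τ, σ, n, k, et, hZ, t, e1, e2⟩ := dat x y p
    exact (quo_eq_bot_iff (((piCoreOf_le _ _).trans inf_le_left).trans (piCoreOf_norm _ _))).1 (t.od hr r2
      (fun e3 => hr.one_lt.ne' (Nat.dvd_one.1 ((Nat.dvd_add_right e3).1 (e1 ▸ e2))))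
      (quo_cent2 p.bH p.b2 ▸ (piCoreOf_normalIn _ _).quo _) ((piCoreOf_piGrp _ _).quo _))

end Min

end CA.ABG
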