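/-
Alperin-Brauer-Gorenstein, semidihedral case: the overgroups of `N(V) ∩ C(t)` in `C(t)` are 2-nilpotent or cover
`C(t)/O(C(t))`.
-/
import Cfsg.Agent.Lib.ABG.ZS
import Cfsg.Agent.Lib.ABG.P3
import Cfsg.Agent.Lib.ABG.A4f

set_option autoImplicit false
set_option linter.unusedSectionVars false

namespace CA.ABG

open Cfsg Subgroup CA CA.FStar CA.GW
open scoped MatrixGroups

universe u

theorem ov_arith {q r n x y : ℕ} (n0 : 0 < n) (n4 : n % 4 = 2) (r3 : 3 ≤ r) (q3 : 3 ≤ q) (h : n + 1 = q ∨ n = q + 1)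
    (h' : n + 1 = r ∨ n = r + 1) (e : x * n = q * (q ^ 2 - 1)) (e' : y * n = r * (r ^ 2 - 1)) (d : y ∣ x) : y = x := by
  have k : ∀ a : ℕ, (a + 1) ^ 2 - 1 = a * (a + 1 + 1) := fun a => Nat.sub_eq_of_eq_add (by ring)
  obtain ⟨r, rfl⟩ : ∃ a, r = a + 1 := ⟨r - 1, by omega⟩
  obtain ⟨q, rfl⟩ : ∃ a, q = a + 1 := ⟨q - 1, by omega⟩
  rw [k] at e e'
  refine Nat.eq_of_mul_eq_mul_right n0 ?_
  rcases h with h | h <;> rcases h' with h' | h'
  · rw [e, e', show q = r by omega]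
  · obtain rfl : n = q := by omega
    obtain rfl : n = r + 2 := by omega
    have e1 : x = (r + 3) * (r + 4) := Nat.eq_of_mul_eq_mul_right n0 (e.trans (by ring))
    have e2 : y = (r + 1) * r := Nat.eq_of_mul_eq_mul_right n0 (e'.trans (by ring))
    subst e1 e2
    have : (r + 1) * r ∣ 6 * r + 12 := (Nat.dvd_add_right dvd_rfl).1 (by rwa [show (r + 1) * r + (6 * r + 12) =
      (r + 3) * (r + 4) by ring])
    have l := Nat.le_of_dvd (by omega) this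
    have : r < 8 := by nlinarith
    obtain rfl : r = 4 := by omega
    omega
  · obtain rfl : n = r := by omega
    obtain rfl : n = q + 2 := by omega
    have e1 : y = (q + 3) * (q + 4) := Nat.eq_of_mul_eq_mul_right n0 (e'.trans (by ring))
    have e2 : x = (q + 1) * q := Nat.eq_of_mul_eq_mul_right n0 (e.trans (by ring))
    subst e1 e2
    have q0 : 0 < q := by omega
    have := Nat.le_of_dvd (by positivity) d
    nlinarith
  · rw [e, e', show q = r by omega]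

section
variable {G : Type*} [Group G] [Finite G] {X Z Y S : Subgroup G} {F : Type} [Field F] [Fintype F] {h : QT F X Z}
  {s d x : G} {τ σ : SL(2, F)} {n m : ℕ}

namespace QT.Tor
variable (T : h.Tor s d τ σ n m) (hZ : Nat.card Z = 2)
include T

theorem swap_norm (D : D8 h.t s x) (hx : x ∈ X) : s * x ∈ 𝐍(𝐎(X ⊓ 𝐂[s])) :=
  norm_le_norm_piCoreOf _ _ (mem_normalizer_of_cj_le (cj_le_iff'.2 fun y hy => by
    have m := mul_mem (mul_mem (mul_mem T.sX hx) hy.1) (inv_mem (mul_mem T.sX hx))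
    refine ⟨m, mem_cent1_iff.2 (mul_right_cancel (b := h.t) ?_)⟩
    have e : s * x * s * (s * x)⁻¹ = s * h.t := by
      rw [show s * x * s * (s * x)⁻¹ = s * (x * s * x⁻¹) * s⁻¹ by group, D.σs, mul_assoc s, D.st,
        mul_inv_cancel_right, D.st]
    rw [mul_assoc s (s * x * y * _), h.cen h.neg _ m, ← mul_assoc s, mul_assoc _ s, ← e, conj_mul, conj_mul,
      mem_cent1_iff.1 hy.2]))

include hZ

/-- the number of elements of `O(C(s))` inverted by a swapping element -/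
theorem inv_idx (D : D8 h.t s x) (hx : x ∈ X) : (𝐂[s * x]).relIndex 𝐎(X ⊓ 𝐂[s]) = m := by
  have xL := h.four_L T.gen hZ hx D.σσ
  have σL : h.ι σ ∈ h.L := ⟨σ, rfl⟩
  have c : (h.ι σ)⁻¹ * x ∈ zpowers (h.ι τ) := T.cent ▸ mem_inf.2 ⟨mul_mem (inv_mem σL) xL, mem_cent1_iff.2 (by
    rw [mul_assoc, mul_inv_eq_iff_eq_mul.1 D.σs, ← T.swap]; group)⟩
  have zs : zpowers (h.ι τ) ≤ 𝐂[s] := T.cent ▸ inf_le_right
  have iv : ∀ a ∈ zpowers (h.ι τ), s * x * a * (s * x)⁻¹ = a⁻¹ := fun a ha => by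
    have : x * a * x⁻¹ = a⁻¹ := by
      rw [← T.inv' ha, ← mul_inv_cancel_left (h.ι σ) x, mul_assoc (h.ι σ), abelian_iff'.1 inferInstance _ c _ ha]; group
    rw [show s * x * a * (s * x)⁻¹ = s * (x * a * x⁻¹) * s⁻¹ by group, this, ← mem_cent1_iff.1 (zs (inv_mem ha))]; group
  have l := piCoreOf_le {2}ᶜ (zpowers (h.ι τ))
  rw [rel_eq (K := 𝐎(zpowers (h.ι τ))) (T.core_P ▸ inf_le_left), ← T.card_core, ← card_inf_mul_relIndex 𝐂[s * x],
    show 𝐂[s * x] ⊓ 𝐎(zpowers (h.ι τ)) = ⊥ from eq_bot_iff.2 fun a ha => one_of_odd2 (core_pi _) ha.2 (by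
      have := iv a (l ha.2)
      rw [← mem_cent1_iff.1 ha.1, mul_inv_cancel_right] at this
      exact mul_eq_one_iff_eq_inv.2 this), card_bot, one_mul]
  intro g hg
  have g1 := piCoreOf_le _ _ hg
  have n := T.swap_norm D hx
  have e : g * (s * x * g⁻¹ * (s * x)⁻¹) ∈ 𝐎(zpowers (h.ι τ)) := T.core_P ▸ mem_inf.2
    ⟨mul_mem hg (conj_mem_of_mem_normalizer n (inv_mem hg)), h.LP (by
      have := mul_mem (conj_mem_of_mem_normalizer (h.LN.norm (mul_mem g1.1 T.sX)) xL)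
        (conj_mem_of_mem_normalizer (h.LN.norm T.sX) (inv_mem xL))
      rwa [show g * s * x * (g * s)⁻¹ * (s * x⁻¹ * s⁻¹) = g * (s * x * (s⁻¹ * (g⁻¹ * s)) * (s * x)⁻¹) by group,
        mem_cent1_iff.1 (inv_mem g1.2), inv_mul_cancel_left] at this)⟩
  obtain ⟨k, hk, e1⟩ := exists_sqrt (odd_elt_iff.2 ((core_pi _).piElt e))
  have kO := zpowers_le.2 e hk
  refine ⟨k, kO, ?_⟩
  have := iv _ (inv_mem (l kO))
  rw [inv_inv] at this
  calc k * (s * x) * k⁻¹ = k * (s * x * k⁻¹ * (s * x)⁻¹) * (s * x) := by group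
    _ = _ := by rw [this, e1]; group

/-- overgroups of the normalizer of the four-group -/
theorem ov (hq : QSyl X) (hO : 𝐎(X) = ⊥) (D : D8 h.t s x) (hY : Y ≤ X) (h1 : X ⊓ 𝐂[s] ≤ Y) (hx : x ∈ Y) :
    NormalPCompl 2 Y ∨ X ≤ Y := by
  have Xt : X ≤ 𝐂[h.t] := mem_cent_iff_le_cent1.1 (h.cen h.neg)
  have sY : s ∈ Y := h1 ⟨T.sX, self_mem_cent1 s⟩
  have tY : h.t ∈ Y := D.σσ ▸ mul_mem hx hx
  have e0 : Y ⊓ 𝐂[s] = X ⊓ 𝐂[s] := le_antisymm (inf_le_inf_right _ hY) (le_inf h1 inf_le_right)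
  obtain ⟨R, hR, DR⟩ := exists_sylowIn_ge D.piGrp (sup_le (zpowers_le.2 hx) (zpowers_le.2 sY))
  have sR : s ∈ R := DR (mem_sup_right (mem_zpowers s))
  have xR : x ∈ R := DR (mem_sup_left (mem_zpowers x))
  obtain ⟨S, hS, RS⟩ := exists_sylowIn_ge hR.piGrp (hR.le.trans hY)
  have tS : h.t ∈ S := RS (D.σσ ▸ mul_mem xR xR)
  obtain ⟨w⟩ := (hq.qd hS).sw tS D.t2 (hS.le.trans Xt)
  obtain ⟨hA, hz⟩ := w.typ.resolve_right fun ⟨_, e⟩ => by
    rw [h.sq_Z hZ (h.cent_L.le ⟨hS.le (w.le w.zA), cent_mono h.LX (w.Z_cen hS Xt hO (mem_zpowers _))⟩),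
      zpowers_one_eq_bot, mem_bot] at e
    exact D.t2.ne e
  rcases w.dih_or hA hz RS sR D.s2 D.ne with rfl | k
  swap
  · exact .inl (((dg_of ⟨R, _, hR, k, ne_bot_of_mem (mem_inf.2 ⟨D.σσ ▸ mul_mem xR xR, w.tA⟩) D.t2.ne⟩).npc _ tY
      D.t2).of_le (le_inf le_rfl (hY.trans Xt)))
  by_cases h2 : PiGrp {2} (Y /ₛ 𝐎(Y))
  · exact .inl (normalPCompl_iff_quo.2 h2)
  refine .inr ?_
  have hN := piCoreOf_normalIn {2}ᶜ Y
  have ho := core_pi Y
  have hk : PiGrp {2}ᶜ (pker (qmk 𝐎(Y))) := by rw [pker_qmk]; exact ho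
  rcases T.ll0 (hN.le.trans hY) (odd_core Y) (h1.trans hN.norm) with c | ⟨-, r⟩
  swap
  · rcases r.le_or ((comm_le_left (zpowers_le.2 (hN.norm sY))).trans hN.le) hY with k | k
    · exact (h.fratt T.gen T.sX T.s2 T.sZ).le.trans (sup_le k h1)
    · exact absurd (k hx) (r.swap' T (hY hx) D.σs)
  have out : ∀ u ∈ R, Inv2 u → u ≠ h.t → ∃ b ∈ Y, b * w.y * b⁻¹ = u := fun u hu u2 ut =>
    let ⟨b, hb, e⟩ := w.out_conj hu (fun k => ut (w.eq_t_of_cyc hA k u2)) u2.sq; ⟨b, hR.le (w.le hb), e⟩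
  have c' : 𝐎(Y) ≤ 𝐂[s * x] := by
    obtain ⟨a, ha, e1⟩ := out s sR D.s2 D.ne
    obtain ⟨b, hb, e2⟩ := out _ (mul_mem sR xR) D.sσ2 fun e => D.nc (by
      rw [← mul_right_cancel (e.trans D.σσ.symm)])
    rw [← e2, show b * w.y * b⁻¹ = b * a⁻¹ * s * (b * a⁻¹)⁻¹ by rw [← e1]; group, ← cj_centralizer_singleton,
      ← cj_eq_of_mem_normalizer (hN.norm (mul_mem hb (inv_mem ha)))]
    exact cj_mono _ c
  have D' := D.quo ho (hN.norm sY) (hN.norm hx)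
  have hS' := hR.quo (K := 𝐎(Y)) (hR.le.trans hN.norm)
  have Yt : Y /ₛ 𝐎(Y) ≤ 𝐂[qel 𝐎(Y) h.t] := by
    have := pm_cent hk (hN.norm tY) D.t2 (le_normalizer tY)
    rw [inf_eq_left.2 (hY.trans Xt)] at this
    exact this.le.trans inf_le_right
  obtain ⟨w'⟩ := ((hq.qd hS).quo (hR.le.trans hN.norm) (odd_core Y)).sw (qel_mem_quo _ tS) D'.t2 (hS'.le.trans Yt)
  obtain ⟨F', _, _, ⟨e⟩⟩ := w'.qe hS' Yt (piCoreOf_quo_self _ Y) h2
  have et : e.t = qel 𝐎(Y) h.t := (w'.uz e.neg e.neg2.sq).resolve_left e.neg2.ne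
  obtain ⟨d', τ', σ', n', m', T'⟩ := e.tor e.gen (qel_mem_quo _ sY) D'.s2 fun k =>
    D'.ne ((w'.uz k D'.s2.sq).resolve_left D'.s2.ne)
  have cs := pm_cent hk (hN.norm sY) D.s2 (le_normalizer sY)
  have hZ' : Nat.card (zpowers w'.z) = 2 := by
    obtain ⟨A, hA⟩ := exists_sylowIn 2 (X ⊓ 𝐂[s])
    have n := hA.le.trans (h1.trans hN.norm)
    have := T'.card_syl (A := A /ₛ 𝐎(Y)) (by rw [← cs, e0]; exact hA.quo n)
    rw [card_quo_of_disjoint n (ho.inf_eq_bot' hA.piGrp), T.card_syl hA, hZ] at this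
    exact (Nat.pow_left_injective two_ne_zero this).symm
  have mm : m' = m := by
    have n := (piCoreOf_le {2}ᶜ (X ⊓ 𝐂[s])).trans (h1.trans hN.norm)
    rw [← T'.inv_idx hZ' (by rw [et]; exact D') (qel_mem_quo _ hx), ← T.inv_idx hZ D (hY hx), rel_quo n (hN.norm (mul_mem sY hx))
      (T.swap_norm D (hY hx)) D.sσ2 ho, relIndex_eq_one.2 (inf_le_left.trans c'), one_mul, pel_mul _ (hN.norm sY) (hN.norm hx),
      quo_piCoreOf (h1.trans hN.norm) (ho.inf_left _), ← cs, e0]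
  have nn : n' = n := by rw [T'.nm, T.nm, hZ, hZ', mm]
  have j : (𝐂[s]).relIndex Y = (𝐂[qel 𝐎(Y) s]).relIndex (Y /ₛ 𝐎(Y)) := by
    rw [rel_quo hN.norm (hN.norm sY) (le_normalizer sY) D.s2 ho, relIndex_eq_one.2 (inf_le_left.trans c), one_mul]
  have mul : (𝐂[s]).relIndex Y * Y.relIndex X = (𝐂[s]).relIndex X := by
    rw [← inf_relIndex_right 𝐂[s] Y, ← inf_relIndex_right 𝐂[s] X, inf_comm, e0, inf_comm 𝐂[s],
      relIndex_mul_relIndex _ _ _ h1 hY]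
  obtain ⟨b, hb⟩ := T.mo
  have three : ∀ {K : Type} [Field K] [Fintype K], Odd (Fintype.card K) → 3 ≤ Fintype.card K := fun ⟨_, k⟩ => by
    have := Fintype.one_lt_card (α := ‹Type›); omega
  have := ov_arith (n := n) (by rw [T.nm, hZ]; omega) (by rw [T.nm, hZ]; omega) (three e.odd) (three h.odd) T.hn (by rw [← nn]; exact T'.hn)
    T.idx (by rw [j, ← nn]; exact T'.idx) (Dvd.intro _ mul)
  rw [← this] at mul
  exact relIndex_eq_one.1 (Nat.eq_of_mul_eq_mul_left (Nat.pos_of_ne_zero (relIndex_ne_zero' _ _)) (mul.trans (mul_one _).symm))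

end QT.Tor

section
variable {L V : Subgroup G} {a : G} (hG : QDT (⊤ : Subgroup G)) {Z : Subgroup (Quo 𝐎(𝐂[a]))}
  (e : QE F (𝐂[a] /ₛ 𝐎(𝐂[a])) Z) (et : e.t = qel _ a) (hZ : Nat.card Z = 2)
include hG e et hZ

/-- overgroups of `C(a) ∩ N(V)` -/
theorem QE.ov (V4 : Four V) (ha : a ∈ V) (a1 : a ≠ 1) (hL : 𝐂[a] ⊓ 𝐍(V) ≤ L) :
    NormalPCompl 2 (L ⊓ 𝐂[a]) ∨ Cov L a := by
  have a2 := V4.inv2 ha a1
  obtain ⟨b, hb, b1, ba⟩ := V4.exists ha
  have b2 := V4.inv2 hb b1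
  have c := V4.comm ha hb
  have bH : b ∈ 𝐂[a] := mem_cent1_iff.2 c.symm
  obtain ⟨u, hu, u2, -, eu⟩ := hG.swap2 trivial trivial a2 b2 c ba.symm
  have cu := mem_cent1_iff.1 hu.2
  have D : D8 a b (b * u) := ⟨a2, b2, by
    rw [mul_assoc, ← mul_assoc u, mul_inv_eq_iff_eq_mul.1 eu, mul_assoc, u2.sq, mul_one, c, ← mul_assoc, b2.sq, one_mul], by
    rw [show b * u * b * (b * u)⁻¹ = b * (u * b * u⁻¹) * b⁻¹ by group, eu]; group⟩
  have n := piCoreOf_norm {2}ᶜ 𝐂[a]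
  have ho := core_pi 𝐂[a]
  have xH := mul_mem bH hu.2
  have xL : b * u ∈ L := hL ⟨xH, mul_mem (le_normalizer hb) (mem_normalizer_of_cj_le (by
    refine cj_le_iff'.2 fun y hy => ?_
    rcases (V4.mem ha hb a1 b1 ba.symm y).1 hy with rfl | rfl | rfl | rfl
    · simp
    · rwa [cu, mul_inv_cancel_right]
    · exact eu ▸ mul_mem ha hb
    · rw [← conj_mul, eu, cu, mul_inv_cancel_right]; exact mul_mem ha (mul_mem ha hb)))⟩
  obtain ⟨d, τ, σ, n', m, T⟩ := e.tor' et a2 bH b2 ba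
  obtain ⟨S, -, hS, hq, -⟩ := hG.sw0 trivial a2
  rw [top_inf_eq] at hS
  rcases T.ov hZ (QSyl.quo ⟨S, hS, hq⟩ n (odd_core _)) (piCoreOf_quo_self _ _) (et ▸ D.quo ho (n bH) (n xH))
    (quo_mono _ (inf_le_right : L ⊓ 𝐂[a] ≤ _)) (by
      rw [← quo_cent2 bH b2, ← four_cent V4 ha hb a1 b1 ba.symm]
      exact quo_mono _ (le_inf ((le_inf (cent_le_cent1 ha) (centralizer_le_normalizer _)).trans hL) (cent_le_cent1 ha)))
    (qel_mem_quo _ ⟨xL, xH⟩) with k | k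
  · have n' := (inf_le_right : L ⊓ 𝐂[a] ≤ _).trans n
    rw [← quo_sup_left n'] at k
    exact .inl ((normalPCompl_of_quo (normalIn_sup_left n') ho k).of_le le_sup_right)
  · exact .inr ((quo_le_quo_iff n (inf_le_right.trans n)).1 k |>.trans (sup_comm _ _).le)

end

theorem Cov.cj {a : G} (h : Cov X a) (g : G) : Cov (cj g X) (g * a * g⁻¹) := by
  have := cj_mono g h
  rwa [cj_sup, cj_inf, cj_piCoreOf, cj_centralizer_singleton] at this

theorem Iso.cj {a : G} (h : Iso X a) (g : G) : Iso (cj g X) (g * a * g⁻¹) := by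
  have := cj_mono g h
  rwa [cj_sup, cj_inf, cj_piCoreOf, cj_centralizer_singleton] at this

end

namespace Min
variable {G : Type u} [Group G] [Finite G] (m : Min G) {t : G} (t2 : Inv2 t) {Z : Subgroup (Quo 𝐎(𝐂[t]))}
  {F : Type} [Field F] [Fintype F] (e : QE F (𝐂[t] /ₛ 𝐎(𝐂[t])) Z) (et : e.t = qel _ t) (hZ : Nat.card Z = 2)
include m t2 e et hZ

/-- overgroups of `C(a) ∩ N(V)`, for every involution `a` -/
theorem ov {L V : Subgroup G} {a : G} (V4 : Four V) (ha : a ∈ V) (a1 : a ≠ 1) (hL : 𝐂[a] ⊓ 𝐍(V) ≤ L) :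
    NormalPCompl 2 (L ⊓ 𝐂[a]) ∨ Cov L a := by
  obtain ⟨g, -, rfl⟩ := m.qdt.one t trivial a trivial t2 (V4.inv2 ha a1)
  have := e.ov m.qdt et hZ (L := cj g⁻¹ L) (V4.cj g⁻¹) (mem_cj'.2 ⟨_, ha, by group⟩) t2.ne (by
    have := cj_mono g⁻¹ hL
    rwa [cj_inf, cj_normalizer, ← cj_centralizer_singleton, cj_inv_cj] at this)
  refine this.imp (fun k => ?_) fun k => ?_
  · have := k.cj g
    rwa [cj_inf, cj_cj_inv, cj_centralizer_singleton] at this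
  · have := k.cj g
    rwa [cj_cj_inv] at this

variable (h3 : Fintype.card F % 4 = 3)
include h3

/-- (ZZ) for every involution -/
theorem zz {X : Subgroup G} {a : G} (hX : X ≠ ⊤) (a2 : Inv2 a) (cov : Cov X a) : Iso X a ∨ 𝐎(X) = ⊥ := by
  obtain ⟨g, -, rfl⟩ := m.qdt.one t trivial a trivial t2 a2
  have := m.zzSD t2 e et hZ h3 (X := cj g⁻¹ X) (fun k => hX (by rw [← cj_cj_inv g X, k, cj_top])) (by
    have := cov.cj g⁻¹
    rwa [show g⁻¹ * (g * t * g⁻¹) * g⁻¹⁻¹ = t by group] at this)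
  refine this.imp (fun k => ?_) fun k => ?_
  · have := k.cj g
    rwa [cj_cj_inv] at this
  · rw [← cj_cj_inv g X, ← cj_piCoreOf, k.2.1, cj_bot]

theorem zq : ZQ G := fun _ _ _ V4 ha a1 hL h =>
  (m.ov t2 e et hZ V4 ha a1 h).imp_right (m.zz t2 e et hZ h3 hL (V4.inv2 ha a1))

end Min

end CA.ABG
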