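/-
Alperin–Brauer–Gorenstein theorem: the case division.
-/
import Cfsg.Agent.Lib.ABG.MainA
import Cfsg.Agent.Lib.ABG.MainW
import Cfsg.Agent.Lib.ABG.T1h
import Cfsg.Agent.Lib.ABG.P2S
import Cfsg.Agent.Lib.ABG.UBM
import Cfsg.Agent.Lib.ABG.ZQ

set_option autoImplicit false
set_option linter.unusedSectionVars false

namespace CA.ABG

open Cfsg CA CA.FStar CA.Loc CA.GW Subgroup

universe u

theorem QDT.balA {G : Type u} [Group G] [Finite G] (h : QDT (⊤ : Subgroup G)) {t s : G} {Z : Subgroup (Quo 𝐎(𝐂[t]))} {F : Type}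
    [Field F] [Fintype F] {e : QT F (𝐂[t] /ₛ 𝐎(𝐂[t])) Z} {d τ σ n m} (T : e.Tor (qel _ s) d τ σ n m) (t2 : Inv2 t)
    (s2 : Inv2 s) (ts : t ≠ s) (hs : s ∈ 𝐂[t]) (H : n + 1 ≠ Fintype.card F) : BAL G := fun a b Y a2 b2 ab ho hn => by
  by_cases c : b = a
  · subst c
    exact (commutator_eq_bot_iff_le_centralizer.2 (inf_le_right.trans (cent_zpowers b).ge)).le.trans bot_le
  obtain ⟨Z', F', _, _, e', -, d', τ', σ', n', m', T'⟩ := h.tors b2 a2 c ab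
  obtain ⟨k1, k2⟩ := h.tor_uniq t2 s2 ts hs b2 a2 c ab T T'
  exact (T'.ll0' (piCoreOf_normalIn _ _) (odd_core _) ab a2.sq inf_le_right (odd_card_of_le ho inf_le_left)
    (norms_inf (inf_le_right.trans hn) (inf_le_left.trans le_normalizer))).resolve_right fun k => H (by omega)

theorem Min.false_of {G : Type u} [Group G] [Finite G] (m : Min G) (U : ∀ r, UB G r → False)
    (β : ∀ (S : Subgroup G) (t : G) (w : SW S t) (Z : Subgroup (Quo 𝐎(𝐂[t]))) (F : Type) [Field F] [Fintype F]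
      (e : QE F (𝐂[t] /ₛ 𝐎(𝐂[t])) Z), SylowIn 2 S 𝐂[t] → QD S → w.z = t → e.t = qel _ t → Fintype.card F = 5 →
      BAL G → ∀ M, ¬ A4 t M 3) : False := by
  haveI := m.simple
  have h := m.qdt
  have hw : ¬ WSyl (⊤ : Subgroup G) := fun k => m.unbal (balW k)
  have A1 : ∀ (a : G) M, Inv2 a → 𝐂[a] ≤ M → QDT M → M = ⊤ := fun a M a2 => h.a1 a2
  rcases m.top with k | ⟨M, k1, k2, k3⟩ | ⟨M, r, k⟩
  · obtain ⟨w⟩ := m.sw
    obtain ⟨h1, h2⟩ := w.sd (m.qd.resolve_right fun k => hw ⟨_, m.syl, k⟩)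
    exact m.not_coatom_SD w h1 h2 k
  · exact k1.1 (A1 _ _ m.inv k2 k3)
  have t2 := m.inv
  generalize m.t = t at k t2
  obtain ⟨s, ⟨-, hs⟩, s2, st⟩ := h.exists_four (mem_top t) t2
  obtain ⟨Z, F, _, _, e, et, d, τ, σ, n, j, T⟩ := h.tors t2 s2 st.symm hs
  obtain ⟨S, w, hS, hq, sd⟩ := h.sdA hw t2
  have hn := T.nm
  rw [e.card_two hS hq w sd] at hn
  obtain ⟨i, rfl⟩ := T.mo
  rcases T.hn with c | c
  · exact m.a4_split A1 h.nrA (h.rzmA T t2 s2 st.symm hs fun _ => by omega)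
      (m.zq t2 e et (e.card_two hS hq w sd) (by omega)) (fun a b A a2 b2 hb Ar mA => by_contra fun nb =>
        (m.ub (m.qd.resolve_right fun k => hw ⟨_, m.syl, k⟩) k.prime k.ne a2 b2 hb Ar mA nb).elim (U r)) t2 k
  by_cases h5 : r = 3 ∧ Fintype.card F = 5
  · exact β S t w Z F e hS hq sd et h5.2 (h.balA T t2 s2 st.symm hs (by omega)) M (h5.1 ▸ k)
  exact m.not_a4 (h.ll0A T t2 s2 st.symm hs fun _ => by omega) A1
    (h.rzmA T t2 s2 st.symm hs fun h3 h4 => h5 ⟨h3, h4⟩) t2 k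

end CA.ABG
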