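/-
Alperin–Brauer–Gorenstein theorem: action of `O(C(t))` on a minimal unbalanced `C(t)`-invariant `p`-group.
-/
import Cfsg.Agent.Lib.ABG.A4a
import Cfsg.Agent.Lib.SF.Gen

set_option autoImplicit false
set_option linter.unusedSectionVars false

namespace CA.ABG

open Cfsg CA CA.FStar CA.GW CA.SF Subgroup

variable {G : Type*} [Group G] [Finite G] {V A B N S S' U X Y J P R : Subgroup G} {t s u : G} {p : ℕ}

theorem cents_comm_of_le (hX : X ≤ 𝐂[t]) (h : ⁅B, X⁆ ≤ 𝐂[t]) : X ≤ 𝐂(⁅B, zpowers t⁆) := by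
  have e : ⁅X, zpowers t⁆ = ⊥ := comm_eq_bot_iff.2 (by rwa [cent_zpowers])
  have := three_subgroup (A := B) (B := X) (C := zpowers t) (comm_eq_bot_iff.2 (by rwa [cent_zpowers]))
    (by rw [e, commutator_bot_left])
  rw [commutator_comm (zpowers t)] at this
  exact comm_eq_bot_iff'.1 this

theorem le_cm (nA : A ≤ 𝐍(N)) (nS : S ≤ 𝐍(N)) (hB : B ≤ A) : B ≤ A ⊓ cmod S N ↔ ⁅B, S⁆ ≤ N := by
  rw [le_inf_iff, le_cmod (hB.trans nA) nS]; exact and_iff_right hB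

theorem cm_norm (NA : N ≤ A) (nA : A ≤ 𝐍(N)) (nS : S ≤ 𝐍(N)) (nX : X ≤ 𝐍(N)) (XA : X ≤ 𝐍(A))
    (h : ⁅X, S⁆ ≤ S ⊔ 𝐂(A)) : X ≤ 𝐍(A ⊓ cmod S N) := by
  have k : ⁅S, A ⊓ cmod S N⁆ ≤ N := by rw [commutator_comm]; exact (le_cm nA nS inf_le_left).1 le_rfl
  refine le_normalizer_iff_commutator_le_left.2 ((le_cm nA nS ((commutator_mono inf_le_left le_rfl).trans
    (comm_le_left XA))).2 (three_subgroup_mod nX nS (inf_le_left.trans nA) ((commutator_mono h le_rfl).trans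
      (comm_sup_le k ?_ nS (norms_of_cents (cent_mono NA)))) ((commutator_mono k le_rfl).trans (comm_le_left nX))))
  rw [comm_eq_bot_iff.2 (cent_mono inf_le_left)]; exact bot_le

theorem norms_sup_cent (h : ⁅R, S⁆ ≤ N) (h1 : R ≤ 𝐍(N)) (h2 : S ≤ 𝐍(N)) : S ≤ 𝐍(R ⊔ N) :=
  le_normalizer_iff_commutator_le_left.2 ((comm_sup_le h (comm_le_left h2) h1 le_normalizer).trans le_sup_right)

/-- a minimal `C(t)`-invariant `p`-group -/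
structure MinA (p : ℕ) (t : G) (A : Subgroup G) : Prop where
  t2 : Inv2 t
  p2 : p ≠ 2
  pi : PiGrp {p} A
  ne : A ≠ ⊥
  eq : ⁅A, zpowers t⁆ = A
  HN : 𝐂[t] ≤ 𝐍(A)
  min : ∀ B < A, 𝐂[t] ≤ 𝐍(B) → B ≤ 𝐂[t]

namespace MinA
variable (h : MinA p t A)
include h

theorem odd : Odd (Nat.card A) := odd_of_pi h.pi h.p2

theorem der : ⁅A, A⁆ ≤ A ⊓ 𝐂[t] := le_inf (der_le _) (h.min _ (der_lt_nil h.pi.nilpotent h.ne) (norms_der h.HN))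

theorem nrm (h1 : A ⊓ 𝐂[t] ≤ N) (h2 : N ≤ A) : A ≤ 𝐍(N) := norms_of_der_le (h.der.trans h1) h2

theorem nZ : 𝐂[t] ≤ 𝐍(A ⊓ 𝐂[t]) := norms_inf h.HN le_normalizer

theorem leZ (hB : B ≤ A) (e : ⁅B, zpowers t⁆ ≤ A ⊓ 𝐂[t]) : B ≤ A ⊓ 𝐂[t] := by
  have n := zpowers_le.2 (h.nZ (self_mem_cent1 t))
  have := (copAct_inv h.t2.sq (odd_card_of_le h.odd inf_le_left) (h.nZ (self_mem_cent1 t))).sup_cent_of_comm_le
    (H := B ⊔ A ⊓ 𝐂[t]) (comm_sup_le e (comm_le_left n) (hB.trans (h.nrm le_rfl inf_le_left)) le_normalizer) le_sup_right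
  rw [cent_zpowers] at this
  exact le_sup_left.trans (this.ge.trans (sup_le le_rfl (inf_le_inf_right _ (sup_le hB inf_le_left))))

theorem le_sup (hB : B ≤ A) (n : t ∈ 𝐍(B)) : B ≤ ⁅B, zpowers t⁆ ⊔ A ⊓ 𝐂[t] :=
  ((copAct_inv h.t2.sq (odd_card_of_le h.odd hB) n).le_sup_cent le_rfl).trans
    (sup_le_sup_left (by rw [cent_zpowers]; exact inf_le_inf_right _ hB) _)

/-- a normal subgroup of `C(t)` acting as a `p`-group acts trivially -/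
theorem cents (hP : PiGrp {p} P) (PH : P ≤ 𝐂[t]) (XH : X ≤ 𝐂[t]) (nX : 𝐂[t] ≤ 𝐍(X)) (e : X ≤ P ⊔ 𝐂(A)) : X ≤ 𝐂(A) := by
  have n := PH.trans h.HN
  have lt := nil_comm_lt_left (h.pi.sup hP (.inl n)).nilpotent le_sup_left h.ne le_sup_right n
  have k : ⁅A, X⁆ ≤ ⁅A, P⁆ := (commutator_mono le_rfl e).trans (comm_sup_le' le_rfl
    (by rw [comm_eq_bot_iff'.2 le_rfl]; exact bot_le) (comm_norm_right _ _) (norms_of_cents (cent_mono lt.le)))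
  exact h.eq ▸ cents_comm_of_le XH (h.min _ (k.trans_lt lt) (norms_commutator h.HN nX))

/-- the main step: `Y = ⁅A, R⁆` is centralized by `S` modulo `C_A(t)` -/
theorem half (V4 : Four V) (ht : t ∈ V) (hs : s ∈ V) (s1 : s ≠ 1) (ts : t ≠ s) (UH : U ≤ 𝐂[t])
    (Sp : PiGrp {p} S) (SH : S ≤ 𝐂[t]) (S'H : S' ≤ 𝐂[t]) (VS : V ≤ 𝐍(S)) (Se : ⁅S, zpowers s⁆ = S) (tS : t ∈ S ⊔ S')
    (US : ⁅U, S⁆ ≤ 𝐂(A)) (J1 : ⁅⁅A ⊓ 𝐂[s], zpowers t⁆, S⁆ ≤ J) (JA : J ≤ A) (VJ : V ≤ 𝐍(J))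
    (J2 : ⁅J ⊓ 𝐂[t * s], zpowers t⁆ ≤ 𝐂(S')) (hR : R ≤ ⁅U, zpowers (t * s)⁆) (RU : R ≤ U) (Rp : PiGrp {p}ᶜ R) :
    ⁅⁅A, R⁆, S⁆ ≤ A ⊓ 𝐂[t] := by
  have t1 := h.t2.ne
  have VH := V4.le_cent1 ht
  have nZ := h.nZ
  have AZ := h.nrm le_rfl inf_le_left
  set Z := A ⊓ 𝐂[t] with hZ
  have ZA : Z ≤ A := inf_le_left
  set N := A ⊓ cmod S Z with hN
  have NA : N ≤ A := inf_le_left
  have lN : ∀ B ≤ A, B ≤ N ↔ ⁅B, S⁆ ≤ Z := fun B => le_cm AZ (SH.trans nZ)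
  have ZN : Z ≤ N := (lN _ ZA).2 (comm_le_left (SH.trans nZ))
  have AN := h.nrm ZN NA
  have nN : ∀ X ≤ 𝐂[t], ⁅X, S⁆ ≤ S ⊔ 𝐂(A) → X ≤ 𝐍(N) := fun X h1 h2 =>
    cm_norm ZA AZ (SH.trans nZ) (h1.trans nZ) (h1.trans h.HN) h2
  have c1 := US.trans (le_sup_right (a := S))
  have c2 := (comm_le_right VS).trans (le_sup_left (b := 𝐂(A)))
  have SN := nN S SH ((der_le S).trans le_sup_left)
  have UN := nN U UH c1
  have VN := nN V VH c2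
  set Q := A ⊓ cmod S N with hQ
  have QA : Q ≤ A := inf_le_left
  have lQ : ∀ B ≤ A, B ≤ Q ↔ ⁅B, S⁆ ≤ N := fun B => le_cm AN SN
  have UQ : U ≤ 𝐍(Q) := cm_norm NA AN SN UN (UH.trans h.HN) c1
  have VQ : V ≤ 𝐍(Q) := cm_norm NA AN SN VN (VH.trans h.HN) c2
  have cs : ∀ v ∈ V, ∀ B, V ≤ 𝐍(B) → t ∈ 𝐍(B ⊓ 𝐂[v]) := fun v hv B hB => norms_inf hB (norms_cent1 (V4.le_cent1 hv)) ht
  have gen : ∀ B ≤ A, V ≤ 𝐍(B) → ∀ M, Z ≤ M → B ⊓ 𝐂[s] ≤ M → B ⊓ 𝐂[t * s] ≤ M → B ≤ M := fun B h1 h2 M h3 h4 h5 =>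
    V4.gen h2 (odd_card_of_le h.odd h1) fun v hv v1 => by
      rcases (V4.mem ht hs t1 s1 ts v).1 hv with rfl | rfl | rfl | rfl
      exacts [absurd rfl v1, (inf_le_inf_right _ h1).trans h3, h4, h5]
  have cz : ∀ v ∈ V, ∀ B ≤ A, ∀ M, M ≤ A → Z ≤ M → V ≤ 𝐍(M) → ⁅M ⊔ B ⊓ 𝐂[v], zpowers v⁆ ≤ M := fun v hv B h1 M h2 h3 h4 =>
    comm_sup_le (comm_le_left (zpowers_le.2 (h4 hv))) (by
      rw [comm_eq_bot_iff.2 (inf_le_right.trans (cent_zpowers v).ge)]; exact bot_le) le_normalizer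
      (inf_le_left.trans (h1.trans (h.nrm h3 h2)))
  have k1 : J ⊓ N ≤ Z ⊔ A ⊓ 𝐂[s] := by
    have n := norms_inf VJ VN
    have l : J ⊓ N ≤ A := inf_le_left.trans JA
    refine gen _ l n _ le_sup_left ((inf_le_inf_right _ l).trans le_sup_right)
      ((h.le_sup (inf_le_left.trans l) (cs _ (mul_mem ht hs) _ n)).trans (sup_le (le_trans ?_ le_sup_left) le_sup_left))
    have l' := comm_le_left (zpowers_le.2 (cs _ (mul_mem ht hs) _ n))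
    have l'' := l'.trans (inf_le_left.trans l)
    refine h.leZ l'' ((commutator_mono le_rfl (zpowers_le.2 tS)).trans (comm_sup_le' ((lN _ l'').1
      (l'.trans (inf_le_left.trans inf_le_right))) ?_ (SH.trans nZ) (S'H.trans nZ)))
    rw [comm_eq_bot_iff.2 ((commutator_mono (inf_le_inf_right _ inf_le_left) le_rfl).trans J2)]; exact bot_le
  have k2 : Q ⊓ 𝐂[s] ≤ N := by
    have l := comm_le_left (zpowers_le.2 (cs s hs _ VQ))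
    have l' := l.trans (inf_le_left.trans QA)
    refine (h.le_sup (inf_le_left.trans QA) (cs s hs _ VQ)).trans (sup_le ((lN _ l').2 ?_) ZN)
    rw [commutator_comm, ← Se]
    refine three_subgroup_mod (zpowers_le.2 (nZ (VH hs))) (l'.trans AZ) (SH.trans nZ) ?_ ((commutator_mono
      ((le_inf ((commutator_mono (commutator_mono (inf_le_inf_right _ QA) le_rfl) le_rfl).trans J1)
        ((lQ _ l').1 (l.trans inf_le_left))).trans k1) le_rfl).trans (cz s hs A le_rfl Z ZA le_rfl (VH.trans nZ)))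
    rw [comm_eq_bot_iff'.2 ((l.trans inf_le_right).trans (cent_zpowers s).ge), commutator_bot_left]; exact bot_le
  have k3 : ⁅Q, zpowers (t * s)⁆ ≤ N := (commutator_mono (gen Q QA VQ _ (ZN.trans le_sup_left) (k2.trans le_sup_left)
    le_sup_right) le_rfl).trans (cz _ (mul_mem ht hs) Q QA N NA ZN VN)
  have k4 : ⁅⁅U, zpowers (t * s)⁆, Q⁆ ≤ N := three_subgroup_mod (zpowers_le.2 (VN (mul_mem ht hs))) (QA.trans AN) UN
    ((commutator_mono ((commutator_comm _ _).le.trans k3) le_rfl).trans (comm_le_left UN))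
    ((commutator_mono (comm_le_left UQ) le_rfl).trans k3)
  have RA := RU.trans (UH.trans h.HN)
  have cp := copAct_p_left RA h.pi Rp
  have YA : ⁅A, R⁆ ≤ A := comm_le_left RA
  have k5 : Q ⊓ ⁅A, R⁆ ≤ N := by
    refine ((cp.left (inf_le_left.trans QA) (norms_inf (RU.trans UQ) (comm_norm_right _ _))).le_sup_cent
      ((commutator_comm _ _).le.trans ((commutator_mono hR inf_le_left).trans k4))).trans (sup_le le_rfl ?_)
    exact (inf_le_inf_right _ inf_le_right).trans (cp.comm_inf_cent_le_der.trans ((der_mono YA).trans (h.der.trans ZN)))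
  have SY : S ≤ 𝐍(⁅A, R⁆) := comm_sup_cent_right' (.inr (norms_cent RA)) (le_refl 𝐂(A)) ▸ norms_commutator
    (SH.trans h.HN) (norms_sup_cent ((commutator_mono RU le_rfl).trans US) (norms_cent RA) (norms_cent (SH.trans h.HN)))
  refine (lN _ YA).1 (by_contra fun e => ?_)
  obtain ⟨Y, YY, ⟨y1, y2⟩, mY⟩ := exists_minimal_le (fun Y => S ≤ 𝐍(Y) ∧ ¬ Y ≤ N) ⟨SY, e⟩
  have lt := nil_comm_lt_left (h.pi.sup Sp (.inl (SH.trans h.HN))).nilpotent (YY.trans (YA.trans le_sup_left))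
    (fun e => y2 (e ▸ bot_le)) le_sup_right y1
  exact y2 ((le_inf ((lQ _ (YY.trans YA)).2 (by_contra fun e => lt.ne (mY _ ⟨comm_norm_right _ _, e⟩ lt.le))) YY).trans k5)

/-- F2: `⁅U, V⁆` and every `C(V)`-invariant `p`-subgroup of `U` centralize `A` -/
theorem f2 (V4 : Four V) (ht : t ∈ V) (hs : s ∈ V) (s1 : s ≠ 1) (ts : t ≠ s) (hU : U ⊴ 𝐂[t]) (Uo : Odd (Nat.card U))
    (Sp : PiGrp {p} S) (Sp' : PiGrp {p} S') (SH : S ≤ 𝐂[t]) (S'H : S' ≤ 𝐂[t]) (VS : V ≤ 𝐍(S)) (VS' : V ≤ 𝐍(S'))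
    (Se : ⁅S, zpowers s⁆ = S) (Se' : ⁅S', zpowers (t * s)⁆ = S') (tS : t ∈ S ⊔ S')
    (US : ⁅U, S⁆ ≤ 𝐂(A)) (US' : ⁅U, S'⁆ ≤ 𝐂(A)) (cov : 𝐂[t] ≤ U ⊔ (S ⊔ S') ⊔ 𝐂(V))
    (J1 : ⁅⁅A ⊓ 𝐂[s], zpowers t⁆, S⁆ ≤ J) (JA : J ≤ A) (VJ : V ≤ 𝐍(J)) (J2 : ⁅J ⊓ 𝐂[t * s], zpowers t⁆ ≤ 𝐂(S'))
    {J' : Subgroup G} (J1' : ⁅⁅A ⊓ 𝐂[t * s], zpowers t⁆, S'⁆ ≤ J') (JA' : J' ≤ A) (VJ' : V ≤ 𝐍(J'))
    (J2' : ⁅J' ⊓ 𝐂[s], zpowers t⁆ ≤ 𝐂(S)) :
    ⁅U, zpowers s⁆ ≤ 𝐂(A) ∧ ∀ P ≤ U, PiGrp {p} P → 𝐂(V) ≤ 𝐍(P) → P ≤ 𝐂(A) := by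
  have t1 := h.t2.ne
  have u2 := h.t2.mul (V4.inv2 hs s1) ts (V4.comm ht hs)
  have e : t * (t * s) = s := by rw [← mul_assoc, h.t2.sq, one_mul]
  have hu := mul_mem ht hs
  have tu : t ≠ t * s := fun e => s1 (left_eq_mul.1 e)
  have CH := cent_le_cent1 ht
  have k : ∀ v ∈ V, ⁅U, zpowers (t * v)⁆ ≤ ⁅U, zpowers v⁆ := fun v hv =>
    (commutator_mono le_rfl (zpowers_le.2 (mul_mem (mem_sup_right (mem_zpowers t)) (mem_sup_left (mem_zpowers v))))).trans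
      (comm_sup_cent_right' (.inl (norms_zpowers_of_cent1 (zpowers_le.2 (V4.le_cent1 hv ht))))
        (cents_symm (hU.le.trans (cent_zpowers t).ge))).le
  have KU : ⁅U, zpowers s⁆ ≤ U := comm_le_left (zpowers_le.2 (hU.norm (V4.le_cent1 ht hs)))
  have nC : 𝐂[t] ≤ 𝐍(𝐂[t] ⊓ 𝐂(A)) := norms_inf le_normalizer (norms_cent h.HN)
  have key : ∀ X ≤ U, U ≤ 𝐍(X ⊔ 𝐂[t] ⊓ 𝐂(A)) → 𝐂(V) ≤ 𝐍(X) → ∀ P ≤ U, PiGrp {p} P → X ≤ P ⊔ 𝐂(A) → X ≤ 𝐂(A) :=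
    fun X h1 h2 h3 P h4 h5 h6 => by
    have l := h1.trans hU.le
    have n : ∀ S ≤ 𝐂[t], ⁅U, S⁆ ≤ 𝐂(A) → S ≤ 𝐍(X ⊔ 𝐂[t] ⊓ 𝐂(A)) := fun S SH US => norms_sup_cent
      (le_inf (comm_le_of_le l SH) ((commutator_mono h1 le_rfl).trans US)) (l.trans nC) (SH.trans nC)
    exact le_sup_left.trans (h.cents h5 (h4.trans hU.le) (sup_le l inf_le_left) (cov.trans (sup_le (sup_le h2
      (sup_le (n S SH US) (n S' S'H US'))) (norms_sup h3 (CH.trans nC)))) (sup_le h6 (inf_le_right.trans le_sup_right)))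
  obtain ⟨P, hP⟩ := exists_sylowIn p ⁅U, zpowers s⁆
  have K : ⁅U, zpowers s⁆ ≤ 𝐂(A) := by
    refine key _ KU (norms_sup (comm_norm_left _ _) (hU.le.trans nC)) (norms_commutator (CH.trans hU.norm)
      (norms_zpowers_of_cent1 (cent_le_cent1 hs))) P (hP.le.trans KU) hP.piGrp (le_of_forall_sylowIn_le fun q _ _ => ?_)
    by_cases qp : q = p
    · exact ⟨P, qp ▸ hP, le_sup_left⟩
    obtain ⟨R, hR⟩ := exists_sylowIn q ⁅U, zpowers s⁆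
    have RU := hR.le.trans KU
    have Rp : PiGrp {p}ᶜ R := hR.piGrp.compl_singleton (by simpa using Ne.symm qp)
    have RH := RU.trans hU.le
    have YA : ⁅A, R⁆ ≤ A := comm_le_left (RH.trans h.HN)
    refine ⟨R, hR, le_trans ?_ le_sup_right⟩
    exact h.eq ▸ cents_comm_of_le RH ((h.leZ YA ((commutator_mono le_rfl (zpowers_le.2 tS)).trans (comm_sup_le'
      (h.half V4 ht hs s1 ts hU.le Sp SH S'H VS Se tS US J1 JA VJ J2 (hR.le.trans (by simpa only [e] using k _ hu)) RU Rp)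
      (h.half V4 ht hu u2.ne tu hU.le Sp' S'H SH VS' Se' (sup_comm S S' ▸ tS) US' J1' JA' VJ' (e.symm ▸ J2')
        (e.symm ▸ hR.le) RU Rp) (SH.trans h.nZ) (S'H.trans h.nZ)))).trans inf_le_right)
  refine ⟨K, fun P h1 h2 h3 => key P h1 ?_ h3 P h1 h2 le_sup_left⟩
  refine ((copAct_inv (V4.sq s hs) Uo (hU.norm (V4.le_cent1 ht hs))).le_sup_cent (le_inf (KU.trans hU.le) K)).trans
    (sup_le (le_sup_right.trans le_normalizer) (le_trans ?_ (norms_sup h3 (CH.trans nC))))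
  rw [cent_zpowers]
  exact (inf_le_inf_right _ hU.le).trans (four_cent' V4 ht hs t1 s1 ts)

end MinA

end CA.ABG
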