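/-
Alperin–Brauer–Gorenstein theorem: the unbalanced case, first reductions.
-/
import Cfsg.Agent.Lib.ABG.UB0
import Cfsg.Agent.Lib.ABG.UF2
import Cfsg.Agent.Lib.ABG.LocW
import Cfsg.Agent.Lib.ABG.P3

set_option autoImplicit false
set_option linter.unusedSectionVars false

namespace CA.ABG

open Cfsg CA CA.FStar CA.Loc CA.GW Subgroup

section
variable {G : Type*} [Group G] [Finite G] {W Y O : Subgroup G} {s : G} {p : ℕ}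

theorem mt0 (ho : Odd (Nat.card O)) (h0 : piCoreOf {p} O = ⊥) (hs : s ∈ 𝐍(O)) (s2 : s * s = 1) (hY : Y ≤ O)
    (Yp : PiGrp {p} Y) (sY : s ∈ 𝐍(Y)) (hc : ⁅Y, zpowers s⁆ = Y) (hn : O ⊓ 𝐂[s] ≤ 𝐍(Y)) : Y = ⊥ := by
  have hF := fittingOf_normalIn O
  have F' : PiGrp {p}ᶜ (fittingOf O) := piGrp_fittingOf_of_core_eq_bot (by rwa [compl_compl])
  have YF : Y ≤ 𝐍(fittingOf O) := hY.trans hF.norm
  have h1 : Y ≤ 𝐂(fittingOf O) := by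
    refine trick s2 (odd_card_of_le ho hF.le) (odd_card_of_le ho hY) (F'.coprime' Yp)
      ((NormalIn.fittingOf (⟨le_normalizer, le_rfl⟩ : O ⊴ 𝐍(O))).norm hs) YF sY hc (comm_eq_bot_iff.1 (le_bot_iff.1 ?_))
    rw [← Yp.inf_eq_bot F']
    exact le_inf (comm_le_left ((inf_le_inf_right _ hF.le).trans hn))
      ((commutator_mono le_rfl inf_le_left).trans (comm_le_right YF))
  exact Yp.eq_bot (F'.of_le (le_fittingOf_of_cents (solv_odd ho) hY h1))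

/-- local balance in a group of odd order -/
theorem mt1 (ho : Odd (Nat.card O)) (hs : s ∈ 𝐍(O)) (s2 : Inv2 s) (hY : Y ≤ O)
    (Yp : PiGrp {p} Y) (sY : s ∈ 𝐍(Y)) (hn : O ⊓ 𝐂[s] ≤ 𝐍(Y)) : ⁅Y, zpowers s⁆ ≤ piCoreOf {p} O := by
  have hle := comm_le_left (zpowers_le.2 sY)
  have hc := (copAct_inv s2.sq (odd_card_of_le ho hY) sY).comm_comm
  replace hn := norms_commutator hn (norms_zpowers_of_cent1 inf_le_right)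
  replace sY : s ∈ 𝐍(⁅Y, zpowers s⁆) := comm_norm_right _ _ (mem_zpowers s)
  replace Yp := Yp.of_le hle
  replace hY := hle.trans hY
  generalize ⁅Y, zpowers s⁆ = Y at *
  have hQ := piCoreOf_normalIn {p} O
  have sQ : s ∈ 𝐍(piCoreOf {p} O) := norm_le_norm_piCoreOf _ _ hs
  have hk : PiGrp {2}ᶜ (pker (qmk (piCoreOf {p} O))) := by rw [pker_qmk]; exact odd_iff.1 (odd_card_of_le ho hQ.le)
  have q : ∀ X, s ∈ 𝐍(X) → qel (piCoreOf {p} O) s ∈ 𝐍(X /ₛ piCoreOf {p} O) := fun X h =>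
    quo_norms _ (zpowers_le.2 h) (qel_mem_quo _ (mem_zpowers s))
  rw [← quo_eq_bot_iff (hY.trans hQ.norm)]
  refine mt0 (odd_card_quo ho _) (piCoreOf_quo_self _ O) (q _ hs) (s2.pm sQ hk).sq (quo_mono _ hY) (Yp.quo _) (q _ sY) ?_ ?_
  · rw [← quo_zpowers sQ, ← quo_commutator (hY.trans hQ.norm) (zpowers_le.2 sQ), hc]
  · rw [← pm_cent hk sQ s2 hs]; exact quo_norms _ hn

theorem mt (hp : p ≠ 2) (ho : Odd (Nat.card W)) (hs : s ∈ 𝐍(W)) (s2 : Inv2 s) (hY : Y ≤ 𝐍(W)) (Yp : PiGrp {p} Y)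
    (sY : s ∈ 𝐍(Y)) (hn : W ⊓ 𝐂[s] ≤ 𝐍(Y)) :
    ⁅W, ⁅Y, zpowers s⁆⁆ ≤ piCoreOf {p} W ∧ ⁅Y, zpowers s⁆ ⊓ W ≤ piCoreOf {p} W := by
  have k := mt1 (odd_card_sup (.inl hY) ho (odd_of_pi Yp hp)) (norms_sup (zpowers_le.2 hs) (zpowers_le.2 sY) (mem_zpowers s))
    s2 le_sup_right Yp sY (by
      rw [← cent_zpowers, (copAct_inv s2.sq ho hs).sup_inf_cent_left (zpowers_le.2 sY) (.inl hY), cent_zpowers]
      exact sup_le hn (inf_le_left.trans le_normalizer))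
  have k2 := piCoreOf_inf_le {p} (le_sup_left : W ≤ W ⊔ Y)
  exact ⟨(le_inf ((commutator_mono le_sup_left k).trans (comm_le_right (piCoreOf_norm _ _)))
    (comm_le_left ((comm_le_left (zpowers_le.2 sY)).trans hY))).trans k2, (inf_le_inf_right _ k).trans k2⟩

end

namespace UB
variable {G : Type*} [Group G] [Finite G] {p : ℕ} (u : UB G p) {a b c σ : G} {X Y R T : Subgroup G}

/-- `[C_{A(b)}(a), b]` -/
abbrev al (b a : G) : Subgroup G := ⁅u.A b ⊓ 𝐂[a], zpowers b⁆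

include u in
theorem oddp (h : PiGrp {p} Y) : Odd (Nat.card Y) := odd_of_pi h u.p2

theorem minA (a2 : Inv2 a) : MinA p a (u.A a) := by
  refine ⟨a2, u.p2, u.pi a a2, u.ne a a2, u.eq a a2, u.HN a a2, fun B lt n => by_contra fun e => ?_⟩
  have an := n (self_mem_cent1 a)
  have le := comm_le_left (zpowers_le.2 an)
  exact (le.trans_lt lt).ne (u.min a _ a2 (norms_commutator n (norms_zpowers_of_cent1 le_rfl))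
    (copAct_inv a2.sq (u.oddp ((u.pi a a2).of_le lt.le)) an).comm_comm
    (fun k => e (cent_zpowers a ▸ comm_eq_bot_iff.1 k)) (le.trans lt.le))

theorem cO (a2 : Inv2 a) : piCoreOf {p} 𝐂[a] ≤ 𝐂(u.A a) :=
  (u.minA a2).cents (piCoreOf_piGrp _ _) (piCoreOf_le _ _) (piCoreOf_le _ _) (piCoreOf_norm _ _) le_sup_left

include u in
theorem swap (h : Pr a b) : ∃ σ ∈ 𝐂[a], σ * b * σ⁻¹ = a * b :=
  let ⟨σ, h1, _, h2⟩ := u.qdt.swap trivial trivial h.a2 h.b2 h.c h.ne; ⟨σ, h1.2, h2⟩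

include u in
theorem four (h : Pr a b) : ∃ V, Four V ∧ a ∈ V ∧ b ∈ V ∧ 𝐂(V) = 𝐂[a] ⊓ 𝐂[b] := by
  obtain ⟨V, V4, k⟩ := four_of h.a2 h.b2 h.ne h.c
  have ha := (k a).2 (by simp)
  have hb := (k b).2 (by simp)
  exact ⟨V, V4, ha, hb, four_cent V4 ha hb h.a2.ne h.b2.ne h.ne⟩

theorem Opp (a : G) : piCoreOf {p} 𝐎(𝐂[a]) ≤ piCoreOf {p} 𝐂[a] := piCoreOf_le_of_normalIn _ (piCoreOf_normalIn _ _)

include u in
theorem OpU (X : Subgroup G) : piCoreOf {p} X ≤ 𝐎(X) :=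
  le_piCoreOf (piCoreOf_normalIn _ _) (odd_iff.1 (u.oddp (piCoreOf_piGrp _ _)))

include u in
/-- F1 -/
theorem f1 (h : Pr a b) (hY : Y ≤ 𝐂[a]) (Yp : PiGrp {p} Y) (hn : 𝐂[a] ⊓ 𝐂[b] ≤ 𝐍(Y)) :
    ⁅𝐎(𝐂[a]), ⁅Y, zpowers b⁆⁆ ≤ piCoreOf {p} 𝐂[a] ∧ ⁅Y, zpowers b⁆ ⊓ 𝐎(𝐂[a]) ≤ piCoreOf {p} 𝐂[a] :=
  (mt u.p2 (odd_core _) (nU le_rfl h.bH) h.b2 (nU hY) Yp (hn h.bC) ((inf_le_inf_right _ (piCoreOf_le _ _)).trans hn)).imp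
    (·.trans (Opp a)) (·.trans (Opp a))

include u in
/-- NR -/
theorem nr (h : Pr a b) (hY : Y ≤ 𝐂[a]) (ho : Odd (Nat.card Y)) (hn : 𝐂[a] ⊓ 𝐂[b] ≤ 𝐍(Y)) (hσ : σ ∈ 𝐂[a])
    (e : σ * b * σ⁻¹ = a * b) (sn : σ ∈ 𝐍(Y)) : ⁅Y, zpowers b⁆ ≤ 𝐎(𝐂[a]) := by_contra fun k => by
  have := (u.gen a b σ Y h hY ho hn k hσ e).1
  rw [cj_eq_of_mem_normalizer sn, sup_idem] at this
  exact h.a2.not_mem ho this

include u in
theorem nrp (h : Pr a b) (hY : Y ≤ 𝐂[a]) (Yp : PiGrp {p} Y) (hn : 𝐂[a] ⊓ 𝐂[b] ≤ 𝐍(Y)) (hσ : σ ∈ 𝐂[a])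
    (e : σ * b * σ⁻¹ = a * b) (sn : σ ∈ 𝐍(Y)) : ⁅Y, zpowers b⁆ ≤ piCoreOf {p} 𝐂[a] :=
  (le_inf le_rfl (u.nr h hY (u.oddp Yp) hn hσ e sn)).trans (u.f1 h hY Yp hn).2

theorem nA (h : Pr a b) : 𝐂[a] ⊓ 𝐂[b] ≤ 𝐍(u.A b ⊓ 𝐂[a]) :=
  norms_inf (inf_le_right.trans (u.HN b h.b2)) (inf_le_left.trans le_normalizer)

theorem al_le (h : Pr a b) : u.al b a ≤ u.A b ⊓ 𝐂[a] := comm_le_left (zpowers_le.2 (u.nA h h.bC))

theorem al_pi (h : Pr a b) : PiGrp {p} (u.al b a) := (u.pi b h.b2).of_le ((u.al_le h).trans inf_le_left)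

theorem al_H (h : Pr a b) : u.al b a ≤ 𝐂[a] := (u.al_le h).trans inf_le_right

theorem al_A (h : Pr a b) : u.al b a ≤ u.A b := (u.al_le h).trans inf_le_left

theorem al_n (h : Pr a b) : 𝐂[a] ⊓ 𝐂[b] ≤ 𝐍(u.al b a) :=
  norms_commutator (u.nA h) (norms_zpowers_of_cent1 inf_le_right)

theorem al_eq (h : Pr a b) : ⁅u.al b a, zpowers b⁆ = u.al b a :=
  (copAct_inv h.b2.sq (u.oddp ((u.pi b h.b2).inf_left _)) (u.nA h h.bC)).comm_comm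

theorem al_cj (b2 : Inv2 b) (g : G) : cj g (u.al b a) = u.al (g * b * g⁻¹) (g * a * g⁻¹) := by
  rw [cj_commutator, cj_inf, cj_zpowers, cj_centralizer_singleton, u.eqv b g b2]

theorem al_U (h : Pr a b) : ⁅𝐎(𝐂[a]), u.al b a⁆ ≤ piCoreOf {p} 𝐂[a] :=
  (u.f1 h inf_le_right ((u.pi b h.b2).inf_left _) (u.nA h)).1

/-- G1 -/
theorem g1 (h : Pr a b) : a ∈ u.al b a ⊔ u.al (a * b) a ∧
    𝐂[a] ≤ u.al b a ⊔ u.al (a * b) a ⊔ 𝐂[a] ⊓ 𝐂[b] ⊔ 𝐎(𝐂[a]) := by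
  obtain ⟨σ, hσ, e⟩ := u.swap h
  have := u.gen a b σ _ h (u.al_H h) (u.oddp (u.al_pi h)) (u.al_n h) (by rw [u.al_eq h]; exact u.unb a b h) hσ e
  rwa [u.al_cj h.b2, e, mul_inv_eq_iff_eq_mul.2 (mem_cent1_iff.1 hσ)] at this

theorem swap3 (h : Pr a b) (hσ : σ ∈ 𝐂[a * b]) (e : σ * a * σ⁻¹ = a * b * a) : σ * a * σ⁻¹ = b ∧ σ * b * σ⁻¹ = a := by
  have e1 : σ * a * σ⁻¹ = b := by rw [e, mul_assoc a b a, ← h.c, h.mul3]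
  refine ⟨e1, ?_⟩
  have e2 : σ * (a * b) * σ⁻¹ = a * b := mul_inv_eq_iff_eq_mul.2 (mem_cent1_iff.1 hσ)
  rw [← conj_mul, e1, h.c] at e2
  exact mul_left_cancel e2

include u in
theorem sw3 (h : Pr a b) : Pr (a * b) a ∧ ∃ σ ∈ 𝐂[a * b], σ * a * σ⁻¹ = a * b * a ∧ σ * a * σ⁻¹ = b ∧ σ * b * σ⁻¹ = a :=
  let ⟨σ, h1, h2⟩ := u.swap h.third.symm; ⟨h.third.symm, σ, h1, h2, swap3 h h1 h2⟩

theorem J2 (h : Pr a b) : ⁅u.A a ⊓ u.A b ⊓ 𝐂[a * b], zpowers a⁆ ≤ 𝐂(u.A (a * b)) := by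
  obtain ⟨h3, σ, hσ, e, e1, e2⟩ := u.sw3 h
  have C : 𝐂[a * b] ⊓ 𝐂[a] = 𝐂[a] ⊓ 𝐂[b] := by rw [inf_comm, h.C3]
  refine (u.nrp h3 inf_le_right (((u.pi a h.a2).inf_left _).inf_left _) (norms_inf (C ▸ norms_inf
    (inf_le_left.trans (u.HN a h.a2)) (inf_le_right.trans (u.HN b h.b2))) (inf_le_left.trans le_normalizer)) hσ e
    (mem_normalizer_iff_cj.2 ?_)).trans (u.cO h.ab2)
  rw [cj_inf, cj_inf, u.eqv a σ h.a2, u.eqv b σ h.b2, e1, e2, cj_eq_of_mem hσ, inf_comm (u.A b)]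

theorem J1 (h : Pr a b) : ⁅⁅u.A a ⊓ 𝐂[b], zpowers a⁆, u.al b a⁆ ≤ u.A a ⊓ u.A b :=
  le_inf ((commutator_mono (u.al_A h.symm) le_rfl).trans (comm_le_left ((u.al_H h).trans (u.HN a h.a2))))
    ((commutator_mono le_rfl (u.al_A h)).trans (comm_le_right ((u.al_H h.symm).trans (u.HN b h.b2))))

/-- F2 -/
theorem f2 (h : Pr a b) : ⁅𝐎(𝐂[a]), zpowers b⁆ ≤ 𝐂(u.A a) ∧
    ∀ P ≤ 𝐎(𝐂[a]), PiGrp {p} P → 𝐂[a] ⊓ 𝐂[b] ≤ 𝐍(P) → P ≤ 𝐂(u.A a) := by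
  obtain ⟨V, V4, ha, hb, C⟩ := u.four h
  have h3 := h.third
  have VC : V ≤ 𝐂[a] ⊓ 𝐂[b] := C ▸ V4.le_cent
  have VC' : V ≤ 𝐂[a] ⊓ 𝐂[a * b] := h.C3 ▸ VC
  have nJ : ∀ c, Pr a c → 𝐂[a] ⊓ 𝐂[c] ≤ 𝐍(u.A a ⊓ u.A c) := fun c k =>
    norms_inf (inf_le_left.trans (u.HN a k.a2)) (inf_le_right.trans (u.HN c k.b2))
  obtain ⟨g1, g2⟩ := u.g1 h
  rw [← C]
  refine (u.minA h.a2).f2 V4 ha hb h.b2.ne h.ne (piCoreOf_normalIn _ _) (odd_core _) (u.al_pi h) (u.al_pi h3) (u.al_H h)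
    (u.al_H h3) (VC.trans (u.al_n h)) (VC'.trans (u.al_n h3)) (u.al_eq h) (u.al_eq h3) g1 ((u.al_U h).trans (u.cO h.a2))
    ((u.al_U h3).trans (u.cO h.a2)) (g2.trans (sup_le (sup_le (le_sup_right.trans le_sup_left) (C ▸ le_sup_right))
      (le_sup_left.trans le_sup_left))) (u.J1 h) inf_le_left (VC.trans (nJ b h)) ((u.J2 h).trans (cent_mono (u.al_A h3)))
    (u.J1 h3) inf_le_left (VC'.trans (nJ _ h3)) ?_
  have := u.J2 h3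
  rw [h.mul3] at this
  exact this.trans (cent_mono (u.al_A h))

theorem kA (h : Pr a b) : ⁅𝐎(𝐂[a]), zpowers b⁆ ≤ 𝐂(u.A a) := (u.f2 h).1

/-- FIN -/
theorem fin (h : Pr a b) (ho : Odd (Nat.card T)) (hC : 𝐂[a] ⊓ 𝐂[b] ≤ 𝐍(T)) (h1 : u.al b a ≤ 𝐍(T))
    (h2 : u.al (a * b) a ≤ 𝐍(T)) (hσ : σ ∈ 𝐍(T)) (e : σ * a * σ⁻¹ = b) : T = ⊥ := by_contra fun k => by
  obtain ⟨V, V4, ha, hb, -⟩ := u.four h
  rcases u.zz _ a (u.proper T k ho) h.a2 ((u.g1 h).2.trans (sup_le_sup_right (sup_le (sup_le (le_inf h1 (u.al_H h))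
    (le_inf h2 (u.al_H h.third))) (le_inf hC inf_le_left)) _)) with i | i
  · exact h.ne ((i.not_rot V4 ha h.a2.ne (hC h.aC) hσ (e ▸ hb)).symm.trans e)
  · exact k (le_bot_iff.1 (i ▸ le_piCoreOf ⟨le_normalizer, le_rfl⟩ (odd_iff.1 ho)))

include u in
theorem d1 (h : Pr a b) : piCoreOf {p} (𝐂[a] ⊓ 𝐂[b]) = ⊥ := by
  have k : ∀ a b : G, Pr a b → u.A a ≤ 𝐍(piCoreOf {p} (𝐂[a] ⊓ 𝐂[b])) := fun a b h => norms_of_cents (cents_symm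
    ((u.f2 h).2 _ (u.od a b h) (piCoreOf_piGrp _ _) (piCoreOf_norm _ _)))
  obtain ⟨h3, σ, hσ, -, e1, e2⟩ := u.sw3 h
  refine u.fin h (u.oddp (piCoreOf_piGrp _ _)) (piCoreOf_norm _ _) ((u.al_A h).trans (inf_comm 𝐂[b] 𝐂[a] ▸ k b a h.symm))
    ((u.al_A h.third).trans ?_) (norm_le_norm_piCoreOf _ _ (mem_normalizer_iff_cj.2 ?_)) e1
  · have := k _ _ h3
    rwa [inf_comm, h.C3] at this
  · rw [cj_inf, cj_centralizer_singleton, cj_centralizer_singleton, e1, e2, inf_comm]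

end UB

end CA.ABG
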