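/-
Alperin–Brauer–Gorenstein theorem: the unbalanced case is impossible.
-/
import Cfsg.Agent.Lib.ABG.UB1

set_option autoImplicit false
set_option linter.unusedSectionVars false

namespace CA.ABG

open Cfsg CA CA.FStar CA.Loc CA.GW Subgroup

theorem bil {G : Type*} [Group G] {k x y : G} (hx : k * x * k⁻¹ = x⁻¹) (hy : k * y * k⁻¹ = y⁻¹)
    (cx : x * (y * x * y⁻¹ * x⁻¹) = y * x * y⁻¹ * x⁻¹ * x) (cy : y * (y * x * y⁻¹ * x⁻¹) = y * x * y⁻¹ * x⁻¹ * y) :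
    y * x * y⁻¹ * x⁻¹ ∈ 𝐂[k] := by
  have e : k * (y * x * y⁻¹ * x⁻¹) * k⁻¹ = y⁻¹ * x⁻¹ * (y * x * y⁻¹ * x⁻¹ * x) * y := by
    rw [show k * (y * x * y⁻¹ * x⁻¹) * k⁻¹ = k * y * k⁻¹ * (k * x * k⁻¹) * (k * y * k⁻¹)⁻¹ * (k * x * k⁻¹)⁻¹ by group, hx, hy]
    group
  rw [← cx, mul_assoc y⁻¹, inv_mul_cancel_left, mul_assoc y⁻¹, ← cy, inv_mul_cancel_left] at e
  exact mem_cent1_iff.2 (eq_mul_of_mul_inv_eq e).symm

namespace UB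
variable {G : Type*} [Group G] [Finite G] {p r : ℕ} (u : UB G p) {a b c σ : G} {X Y R T E : Subgroup G}

/-- `O_p(C(a))` -/
abbrev Op (p : ℕ) (a : G) : Subgroup G := piCoreOf {p} 𝐂[a]

/-- `O_p(N(O_p(C(a))))` -/
abbrev Pp (p : ℕ) (a : G) : Subgroup G := piCoreOf {p} 𝐍(Op p a)

include u

/-- F4 -/
theorem f4 (a2 : Inv2 a) (hX : X ≠ ⊤) (hH : 𝐂[a] ≤ X) : ⁅X, zpowers a⁆ ≤ piCoreOf {p} X := by
  obtain ⟨b, hb, b2, ba⟩ := u.qdt.exists_four trivial a2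
  have h : Pr a b := ⟨a2, b2, ba.symm, (mem_cent1_iff.1 hb.2).symm⟩
  have n := piCoreOf_norm {2}ᶜ X
  have nP := piCoreOf_norm {p} X
  have k : ∀ c, Pr a c → ⁅𝐎(X), u.al c a⁆ ≤ piCoreOf {p} X := fun c h =>
    (commutator_mono le_rfl (commutator_mono (inf_le_inf_left _ hH) le_rfl)).trans ((mt u.p2 (odd_core X) (n (hH h.bH)) h.b2
      (inf_le_right.trans n) ((u.pi c h.b2).inf_left X) (norms_inf (zpowers_le.2 (u.HN c h.b2 (self_mem_cent1 c)))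
        (zpowers_le.2 (le_normalizer (hH h.bH))) (mem_zpowers c)) (norms_inf (inf_le_right.trans (u.HN c h.b2))
          (inf_le_left.trans ((piCoreOf_le _ _).trans le_normalizer)))).1.trans
            (piCoreOf_le_of_normalIn _ (piCoreOf_normalIn _ _)))
  refine (commutator_mono (u.iso X a hX a2 hH) le_rfl).trans (comm_sup_le ((commutator_mono le_rfl (zpowers_le.2 (u.g1 h).1)).trans
    (comm_sup_le' (k b h) (k _ h.third) ((u.al_H h).trans (hH.trans nP)) ((u.al_H h.third).trans (hH.trans nP)))) ?_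
      ((piCoreOf_le _ _).trans nP) (inf_le_left.trans nP))
  rw [comm_eq_bot_iff.2 (inf_le_right.trans (cent_zpowers a).ge)]; exact bot_le

theorem fix0 (h : Pr a b) (hY : Y ≤ 𝐂[a]) (Yp : PiGrp {p} Y) (hn : 𝐂[a] ⊓ 𝐂[b] ≤ 𝐍(Y)) : Y ⊓ 𝐂[b] = ⊥ :=
  le_bot_iff.1 (u.d1 h ▸ le_piCoreOf ⟨inf_le_inf_right _ hY, norms_inf hn (inf_le_right.trans le_normalizer)⟩ (Yp.inf_left _))

theorem eqc (h : Pr a b) (hY : Y ≤ 𝐂[a]) (Yp : PiGrp {p} Y) (hn : 𝐂[a] ⊓ 𝐂[b] ≤ 𝐍(Y)) : ⁅Y, zpowers b⁆ = Y :=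
  (copAct_inv h.b2.sq (u.oddp Yp) (hn h.bC)).comm_eq_self_of_cent_eq_bot (by rw [cent_zpowers, u.fix0 h hY Yp hn])

theorem inv (h : Pr a b) (hY : Y ≤ 𝐂[a]) (Yp : PiGrp {p} Y) (hn : 𝐂[a] ⊓ 𝐂[b] ≤ 𝐍(Y)) : ∀ y ∈ Y, b * y * b⁻¹ = y⁻¹ :=
  inv_of_fix h.b2 (hn h.bC) (u.fix0 h hY Yp hn)

theorem invO (h : Pr a b) : ∀ y ∈ Op p a, b * y * b⁻¹ = y⁻¹ :=
  u.inv h (piCoreOf_le _ _) (piCoreOf_piGrp _ _) (inf_le_left.trans (piCoreOf_norm _ _))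

theorem HO (h : Pr a b) : ⁅𝐂[a], zpowers b⁆ ≤ 𝐂(Op p a) := comm_cents_of_inv h.b2.sq (piCoreOf_norm _ _) (u.invO h)

theorem cenO (h : Pr a b) (hY : Y ≤ 𝐂[a]) (Yp : PiGrp {p} Y) (hn : 𝐂[a] ⊓ 𝐂[b] ≤ 𝐍(Y)) : Y ≤ 𝐂(Op p a) :=
  (u.eqc h hY Yp hn).ge.trans ((commutator_mono hY le_rfl).trans (u.HO h))

theorem alO (h : Pr a b) : u.al b a ≤ 𝐂(Op p a) := u.cenO h (u.al_H h) (u.al_pi h) (u.al_n h)

theorem oddE (h : Pr a b) : Odd (Nat.card ↥(𝐂(u.al a b) ⊓ 𝐂(u.al b a))) := by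
  obtain ⟨V, V4, ha, hb, C⟩ := u.four h
  have k : ∀ a b : G, Pr a b → a ∉ 𝐂(u.al a b) := fun a b h e => u.unb b a h.symm (by
    change u.al a b ≤ _
    rw [← u.al_eq h.symm, comm_eq_bot_iff'.2 (zpowers_le.2 e)]; exact bot_le)
  haveI := Fact.mk Nat.prime_two
  rw [← Nat.not_even_iff_odd, even_iff_two_dvd]
  intro e
  obtain ⟨z, hz, z2⟩ := exists_orderOf_eq_prime Nat.prime_two (dvd_card_inf_cent (V4.piGrp.isPGroup Nat.prime_two)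
    (V4.le_cent.trans (C ▸ norms_inf (norms_cent (inf_comm 𝐂[b] 𝐂[a] ▸ u.al_n h.symm)) (norms_cent (u.al_n h)))) e)
  have z2 := inv2_of_ord z2
  rcases (V4.mem ha hb h.a2.ne h.b2.ne h.ne z).1 (u.qdt.mem_four V4 le_top ⟨trivial, hz.2⟩ z2) with rfl | rfl | rfl | rfl
  exacts [z2.ne rfl, k _ _ h hz.1.1, k _ _ h.symm hz.1.2,
    k _ _ h ((mul_mem_cancel_right (mem_cent_iff_le_cent1.2 (u.al_H h.symm))).1 hz.1.1)]

theorem syl (h : Pr a b) (Rr : PiGrp {r} R) (Tr : PiGrp {r} T) (nR : 𝐂[a] ⊓ 𝐂[b] ≤ 𝐍(R)) (nT : 𝐂[a] ⊓ 𝐂[b] ≤ 𝐍(T))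
    (hR : R ≤ 𝐂(u.al a b) ⊓ 𝐂(u.al b a)) (hT : T ≤ 𝐂(u.al a b) ⊓ 𝐂(u.al b a)) : PiGrp {r} (R ⊔ T) := by
  obtain ⟨V, V4, ha, hb, C⟩ := u.four h
  have VC : V ≤ 𝐂[a] ⊓ 𝐂[b] := C ▸ V4.le_cent
  have cp := copAct_of_pi' (VC.trans (norms_inf (norms_cent (inf_comm 𝐂[b] 𝐂[a] ▸ u.al_n h.symm)) (norms_cent (u.al_n h))))
    (odd_iff.1 (u.oddE h)) V4.piGrp (.inl (solv_odd (u.oddE h)))
  obtain ⟨S, hS, nS, RS⟩ := cp.exists_sylowIn_ge hR Rr (VC.trans nR)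
  obtain ⟨g, hg, e⟩ := cp.sylowIn_le_cj hS nS hT Tr (VC.trans nT)
  rw [← cj_eq_of_mem_normalizer (nT (C ▸ hg.2)), cj_le_cj] at e
  exact hS.piGrp.of_le (sup_le RS e)

/-- U4 -/
theorem u4 (rp : r ≠ p) (Q : G → Subgroup G) (Qr : ∀ a, Inv2 a → PiGrp {r} (Q a)) (QU : ∀ a, Inv2 a → Q a ≤ 𝐎(𝐂[a]))
    (QA : ∀ a, Inv2 a → Q a ≤ 𝐂(u.A a)) (nQ : ∀ a, Inv2 a → 𝐂[a] ≤ 𝐍(Q a)) (h : Pr a b) (Q1 : Q a ≠ ⊥) : Q b ≤ 𝐂[a] := by
  have d : ∀ {R T : Subgroup G}, PiGrp {r} R → PiGrp {p} T → R ⊓ T = ⊥ := fun h1 h2 =>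
    h1.inf_eq_bot (h2.compl_singleton (by simpa using rp))
  have k : ∀ a b : G, Pr a b → Q a ≤ 𝐂(u.al a b) ⊓ 𝐂(u.al b a) := fun a b h => le_inf ((QA a h.a2).trans
    (cent_mono (u.al_A h.symm))) (comm_eq_bot_iff.1 (le_bot_iff.1 (d (Qr a h.a2) (piCoreOf_piGrp {p} 𝐂[a]) ▸ le_inf
      (comm_le_left ((u.al_H h).trans (nQ a h.a2))) ((commutator_mono (QU a h.a2) le_rfl).trans (u.al_U h)))))
  have k' := inf_comm 𝐂(u.al b a) 𝐂(u.al a b) ▸ k b a h.symm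
  have n1 := inf_le_left.trans (nQ a h.a2) (a := 𝐂[a] ⊓ 𝐂[b])
  have n2 := inf_le_right.trans (nQ b h.b2) (a := 𝐂[a] ⊓ 𝐂[b])
  have Tr := u.syl h (Qr a h.a2) (Qr b h.b2) n1 n2 (k a b h) k'
  have To := odd_card_of_le (u.oddE h) (sup_le (k a b h) k')
  have aT := norms_sup n1 n2 h.aC
  have QT : Q a ≤ (Q a ⊔ Q b) ⊓ 𝐂[a] := le_inf le_sup_left ((QU a h.a2).trans (piCoreOf_le _ _))
  refine le_sup_right.trans (b := Q a ⊔ Q b) (by_contra fun e => ?_)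
  generalize Q a ⊔ Q b = T at *
  have lt := lt_inf_norm_of_nilpotent Tr.nilpotent (inf_lt_left.2 e)
  have aN : a ∈ 𝐍(T ⊓ 𝐍(T ⊓ 𝐂[a])) := norms_inf (zpowers_le.2 aT) (norms_norm (norms_inf (zpowers_le.2 aT)
    (zpowers_le.2 (le_normalizer (self_mem_cent1 a))))) (mem_zpowers a)
  have cp := copAct_inv h.a2.sq (odd_card_of_le To inf_le_left) aN
  have c1 := (comm_cents_of_cents (inf_le_right : T ⊓ 𝐍(T ⊓ 𝐂[a]) ≤ _) (zpowers_le.2 (mem_cent_iff_le_cent1.2 inf_le_right))).trans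
    ((cent_mono QT).trans (norms_of_cents le_rfl))
  have c2 := cp.comm_comm.ge.trans ((commutator_mono c1 le_rfl).trans (u.f4 h.a2 (u.proper _ Q1
    (odd_card_of_le (odd_core _) (QU a h.a2))) (nQ a h.a2)))
  have c3 := comm_eq_bot_iff.1 (le_bot_iff.1 (d Tr (piCoreOf_piGrp {p} 𝐍(Q a)) ▸ le_inf (cp.comm_le.trans inf_le_left) c2))
  exact lt.not_ge (le_inf inf_le_left (c3.trans (cent_zpowers a).le))

theorem HC (h : Pr a b) (hY : Y ≤ Op p a) (hn : 𝐂[a] ⊓ 𝐂[b] ≤ 𝐍(Y)) : 𝐂[a] ≤ 𝐍(Y) := by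
  have c : 𝐂(Op p a) ≤ 𝐍(Y) := (cent_mono hY).trans (norms_of_cents le_rfl)
  refine (u.g1 h).2.trans (sup_le (sup_le (sup_le ((u.alO h).trans c) ((u.alO h.third).trans c)) hn)
    (((copAct_inv h.b2.sq (odd_core _) (nU le_rfl h.bH)).le_sup_cent ((commutator_mono (piCoreOf_le _ _) le_rfl).trans
      ((u.HO h).trans c))).trans (sup_le le_rfl ?_)))
  rw [cent_zpowers]
  exact (inf_le_inf_right _ (piCoreOf_le _ _)).trans hn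

omit u in
theorem nP (a : G) : 𝐂[a] ≤ 𝐍(Pp p a) := (piCoreOf_norm _ _).trans (piCoreOf_norm _ _)

omit u in
theorem OP (a : G) : Op p a ≤ Pp p a := le_piCoreOf (normalIn_normalizer _) (piCoreOf_piGrp _ _)

omit u in
theorem cjO (g a : G) : cj g (Op p a) = Op p (g * a * g⁻¹) := by rw [cj_piCoreOf, cj_centralizer_singleton]

omit u in
theorem cjP (g a : G) : cj g (Pp p a) = Pp p (g * a * g⁻¹) := by rw [cj_piCoreOf, cj_normalizer, cjO]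

theorem y1 (h : Pr a b) : Pp p a ⊓ Pp p b ⊓ 𝐂[a] ≤ Pp p (a * b) := by
  obtain ⟨σ, hσ, e⟩ := u.swap h
  have k := u.HC h (inf_le_left : Op p a ⊓ Pp p b ≤ _) (norms_inf (inf_le_left.trans (piCoreOf_norm _ _))
    (inf_le_right.trans (nP b))) hσ
  refine (le_inf ((inf_le_inf_right _ inf_le_left).trans (piCoreOf_inf_le _ (piCoreOf_norm _ _)))
    (inf_le_left.trans inf_le_right)).trans ?_
  rw [← cj_eq_of_mem_normalizer k, cj_inf, cjP, e]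
  exact inf_le_right

/-- a `p`-group normalized by `C(V)` and an element exchanging `a` and `b` -/
theorem third (h : Pr a b) (Tp : PiGrp {p} T) (hn : 𝐂[a] ⊓ 𝐂[b] ≤ 𝐍(T))
    (hs : ∀ σ, σ * a * σ⁻¹ = b → σ * b * σ⁻¹ = a → cj σ T = T) : T ⊓ 𝐂[a * b] ≤ Op p (a * b) := by
  obtain ⟨h3, σ, hσ, e, e1, e2⟩ := u.sw3 h
  have n : 𝐂[a * b] ⊓ 𝐂[a] ≤ 𝐍(T ⊓ 𝐂[a * b]) :=
    norms_inf (by rwa [inf_comm, h.C3]) (inf_le_left.trans le_normalizer)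
  exact (u.eqc h3 inf_le_right (Tp.inf_left _) n).ge.trans (u.nrp h3 inf_le_right (Tp.inf_left _) n hσ e
    (mem_normalizer_iff_cj.2 (by rw [cj_inf, hs σ e1 e2, cj_eq_of_mem hσ])))

theorem t12 (h : Pr a b) : Pp p a ⊓ Pp p b ≤ Pp p (a * b) := by
  obtain ⟨V, V4, ha, hb, C⟩ := u.four h
  have n := norms_inf (inf_le_left.trans (nP (p := p) a)) (inf_le_right.trans (nP (p := p) b)) (X := 𝐂[a] ⊓ 𝐂[b])
  have Tp := (piCoreOf_piGrp {p} 𝐍(Op p a)).inf_left (Pp p b)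
  refine V4.gen (V4.le_cent.trans (C ▸ n)) (u.oddp Tp) fun v hv v1 => ?_
  rcases (V4.mem ha hb h.a2.ne h.b2.ne h.ne v).1 hv with rfl | rfl | rfl | rfl
  · exact absurd rfl v1
  · exact u.y1 h
  · rw [inf_comm (Pp p a), h.c]; exact u.y1 h.symm
  · exact (u.third h Tp n fun σ e1 e2 => by rw [cj_inf, cjP, cjP, e1, e2, inf_comm]).trans (OP _)

variable (O1 : ∀ a : G, Inv2 a → piCoreOf {p} 𝐂[a] ≠ ⊥)
include O1

theorem MP (a2 : Inv2 a) : ⁅𝐍(Op p a), zpowers a⁆ ≤ Pp p a :=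
  u.f4 a2 (u.proper _ (O1 a a2) (u.oddp (piCoreOf_piGrp _ _))) (piCoreOf_norm _ _)

theorem AP (a2 : Inv2 a) : u.A a ≤ Pp p a := (u.eq a a2).ge.trans ((commutator_mono ((cents_symm (u.cO a2)).trans
  (norms_of_cents le_rfl)) le_rfl).trans (u.MP O1 a2))

/-- U2 -/
theorem u2 (h : Pr a b) : Pp p a ⊓ Pp p b = ⊥ := by
  have k : ∀ b, Pr a b → u.al b a ≤ 𝐍(Pp p a ⊓ Pp p b) := fun b h =>
    norms_inf ((u.al_H h).trans (nP a)) ((u.al_A h).trans ((u.AP O1 h.b2).trans le_normalizer))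
  have e : Pp p a ⊓ Pp p (a * b) = Pp p a ⊓ Pp p b := le_antisymm (le_inf inf_le_left (by
    have := u.t12 h.third
    rwa [h.mul3] at this)) (le_inf inf_le_left (u.t12 h))
  obtain ⟨-, σ, -, -, e1, e2⟩ := u.sw3 h
  exact u.fin h (u.oddp ((piCoreOf_piGrp _ _).inf_left _)) (norms_inf (inf_le_left.trans (nP a)) (inf_le_right.trans (nP b)))
    (k b h) (e ▸ k _ h.third) (mem_normalizer_iff_cj.2 (by rw [cj_inf, cjP, cjP, e1, e2, inf_comm])) e1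

theorem beta (h : Pr a b) : Op p b ⊓ 𝐍(Op p a) = ⊥ :=
  le_bot_iff.1 (u.u2 O1 h ▸ le_inf ((u.eqc h.symm (inf_le_left.trans (piCoreOf_le _ _)) ((piCoreOf_piGrp _ _).inf_left _)
    (norms_inf (inf_le_left.trans (piCoreOf_norm _ _)) (inf_le_right.trans ((piCoreOf_norm _ _).trans le_normalizer)))).ge.trans
      ((commutator_mono inf_le_right le_rfl).trans (u.MP O1 h.a2))) (inf_le_left.trans (OP b)))

omit O1

omit u in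
theorem nT (a b : G) : 𝐂[a] ⊓ 𝐂[b] ≤ 𝐍(Op p a ⊔ Op p b) :=
  norms_sup (inf_le_left.trans (piCoreOf_norm _ _)) (inf_le_right.trans (piCoreOf_norm _ _))

theorem Tp (h : Pr a b) : PiGrp {p} (Op p a ⊔ Op p b) :=
  u.syl h (piCoreOf_piGrp _ _) (piCoreOf_piGrp _ _) (inf_le_left.trans (piCoreOf_norm _ _))
    (inf_le_right.trans (piCoreOf_norm _ _)) (le_inf ((u.cO h.a2).trans (cent_mono (u.al_A h.symm))) (cents_symm (u.alO h)))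
    (le_inf (cents_symm (u.alO h.symm)) ((u.cO h.b2).trans (cent_mono (u.al_A h))))

theorem TH (h : Pr a b) : (Op p a ⊔ Op p b) ⊓ 𝐂[a * b] ≤ Op p (a * b) :=
  u.third h (u.Tp h) (nT a b) fun σ e1 e2 => by rw [cj_sup, cjO, cjO, e1, e2, sup_comm]

include O1

/-- the commutator step -/
theorem st (h : Pr a c) {y : G} (hy : y ∈ Y) (i : c * y * c⁻¹ = y⁻¹) (h1 : Op p a ≤ T) (h2 : Y ≤ T) (hc : ⁅Y, T⁆ ≤ 𝐂(T))
    (h3 : y ∈ R) (h4 : (Op p a ⊔ R) ⊓ 𝐂[c] ≤ Op p c) : y ∈ 𝐂(Op p a) := mem_cent_iff'.2 fun x hx => by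
  have k := hc (comm_mem hy (h1 hx))
  have k1 := h4 ⟨comm_le_of_le le_sup_right le_sup_left (comm_mem h3 hx),
    bil (u.invO h x hx) i (mem_cent_iff.1 k x (h1 hx)) (mem_cent_iff.1 k y (h2 hy))⟩
  have k2 : _ ∈ (⊥ : Subgroup G) := u.beta O1 h ▸ mem_inf.2 ⟨k1, norms_of_cents le_rfl (cent_mono h1 k)⟩
  rwa [mem_bot, mul_inv_eq_one, mul_inv_eq_iff_eq_mul] at k2

theorem caseA (h : Pr a b) (h2 : Y ≤ Op p a ⊔ Op p b) (hc : ⁅Y, Op p a ⊔ Op p b⁆ ≤ 𝐂(Op p a ⊔ Op p b)) :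
    Y ⊓ 𝐂[a] ≤ 𝐂(Op p a ⊔ Op p b) := by
  have n : 𝐂[a] ⊓ 𝐂[b] ≤ 𝐍((Op p a ⊔ Op p b) ⊓ 𝐂[a]) := norms_inf (nT a b) (inf_le_left.trans le_normalizer)
  have l := inf_le_inf_right 𝐂[a] h2
  rw [cent_sup]
  refine le_inf (l.trans (u.cenO h inf_le_right ((u.Tp h).inf_left _) n)) fun y hy => ?_
  refine u.st O1 (h.c ▸ h.symm.third : Pr b (a * b)) hy.1 (u.inv h.third inf_le_right ((u.Tp h).inf_left _) (h.C3 ▸ n) y (l hy))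
    le_sup_right h2 hc (h2 hy.1) ?_
  rw [sup_eq_right.2 le_sup_right]
  exact u.TH h

theorem caseC (h : Pr a b) (h2 : Y ≤ Op p a ⊔ Op p b) (hc : ⁅Y, Op p a ⊔ Op p b⁆ ≤ 𝐂(Op p a ⊔ Op p b)) :
    Y ⊓ 𝐂[a * b] ≤ 𝐂(Op p a) := fun y hy => by
  have k := u.TH h ⟨h2 hy.1, hy.2⟩
  have e := u.TH h.third
  rw [h.mul3] at e
  exact u.st O1 h hy.1 (u.invO (h.c ▸ h.symm.third : Pr b (a * b)).symm y k) le_sup_left h2 hc k e

/-- U3 -/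
theorem u3 (h : Pr a b) : False := by
  obtain ⟨V, V4, ha, hb, C⟩ := u.four h
  have VT : V ≤ 𝐍(Op p a ⊔ Op p b) := V4.le_cent.trans (C ▸ nT a b)
  obtain ⟨Y, YT, ⟨⟨y1, y2⟩, y3⟩, mY⟩ := exists_minimal_le
    (fun Y => (V ≤ 𝐍(Y) ∧ Op p a ⊔ Op p b ≤ 𝐍(Y)) ∧ ¬ Y ≤ 𝐂(Op p a ⊔ Op p b)) ⟨⟨VT, le_normalizer⟩, fun e => O1 b h.b2 (by
      rw [← u.beta O1 h, eq_comm, inf_eq_left]
      exact le_sup_right.trans (e.trans ((cent_mono le_sup_left).trans (norms_of_cents le_rfl))))⟩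
  have lt := nil_comm_lt_left (u.Tp h).nilpotent YT (fun e => y3 (e ▸ bot_le)) le_rfl y2
  have hc : ⁅Y, Op p a ⊔ Op p b⁆ ≤ 𝐂(Op p a ⊔ Op p b) := by_contra fun e =>
    lt.ne (mY _ ⟨⟨norms_commutator y1 VT, comm_norm_right _ _⟩, e⟩ lt.le)
  refine y3 (V4.gen y1 (u.oddp ((u.Tp h).of_le YT)) fun v hv v1 => ?_)
  have YT' := YT
  have hc' := hc
  rw [sup_comm] at YT' hc'
  rcases (V4.mem ha hb h.a2.ne h.b2.ne h.ne v).1 hv with rfl | rfl | rfl | rfl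
  · exact absurd rfl v1
  · exact u.caseA O1 h YT hc
  · rw [sup_comm]; exact u.caseA O1 h.symm YT' hc'
  · rw [cent_sup]; exact le_inf (u.caseC O1 h YT hc) (h.c ▸ u.caseC O1 h.symm YT' hc')

omit O1

/-- the unbalanced case is impossible -/
theorem false : False := by
  refine u.unbal fun b a b2 a2 hb => ?_
  by_cases ab : a = b
  · exact ab ▸ piCoreOf_le _ _
  have h : Pr a b := ⟨a2, b2, ab, mem_cent1_iff.1 hb⟩
  have n : ∀ a, Inv2 a → 𝐂[a] ≤ 𝐍(𝐎(𝐂[a]) ⊓ 𝐂(u.A a)) := fun a a2 => norms_inf (nU le_rfl) (norms_cent (u.HN a a2))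
  have eqv : ∀ r a g, Inv2 a → cj g (piCoreOf {r} (𝐎(𝐂[a]) ⊓ 𝐂(u.A a))) =
      piCoreOf {r} (𝐎(𝐂[g * a * g⁻¹]) ⊓ 𝐂(u.A (g * a * g⁻¹))) := fun r a g a2 => by
    rw [cj_piCoreOf, cj_inf, cj_piCoreOf, cj_centralizer_singleton, cj_centralizer, u.eqv a g a2]
  have cp := copAct_inv a2.sq (odd_core _) (nU le_rfl h.symm.bH)
  refine cent_zpowers a ▸ cents_symm (cp.cents_of_comm_cents ((le_inf cp.comm_le
    (u.kA h.symm)).trans (cent_zpowers a ▸ cent_of_fit a2.sq (odd_card_of_le (odd_core _) inf_le_left) (n b b2 h.symm.bH)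
      (fittingOf_le_of_forall_piCoreOf_le fun r _ _ => by_contra fun e => ?_))))
  have Q1 : ∀ c, Inv2 c → piCoreOf {r} (𝐎(𝐂[c]) ⊓ 𝐂(u.A c)) ≠ ⊥ := fun c c2 k => by
    obtain ⟨g, -, rfl⟩ := u.qdt.one b trivial c trivial b2 c2
    rw [← eqv r b g b2, cj_eq_bot] at k
    exact e (k ▸ bot_le)
  by_cases rp : r = p
  · subst rp
    exact u.u3 (fun c c2 k => Q1 c c2 (le_bot_iff.1 (k ▸ le_piCoreOf ⟨(piCoreOf_le _ _).trans (inf_le_left.trans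
      (piCoreOf_le _ _)), norms_piCoreOf _ (n c c2)⟩ (piCoreOf_piGrp _ _)))) h
  · exact e (u.u4 rp (fun c => piCoreOf {r} (𝐎(𝐂[c]) ⊓ 𝐂(u.A c))) (fun _ _ => piCoreOf_piGrp _ _)
      (fun _ _ => (piCoreOf_le _ _).trans inf_le_left) (fun _ _ => (piCoreOf_le _ _).trans inf_le_right)
      (fun c c2 => norms_piCoreOf _ (n c c2)) h (Q1 a a2))

end UB

end CA.ABG
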