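/-
The Alperin–Brauer–Gorenstein theorem.
-/
import Cfsg.Agent.Lib.ABG.MainB
import Cfsg.Agent.Lib.ABG.UB3
import Cfsg.Agent.Lib.ABG.Beta
import Cfsg.Agent.Lib.ABG.Fin

set_option autoImplicit false

namespace CA.ABG

open Cfsg CA CA.FStar CA.GW Subgroup

universe u

theorem Min.false {G : Type u} [Group G] [Finite G] (m : Min G) : False :=
  m.false_of (fun _ u => u.false) fun S t w Z F _ _ e hS hq sd et h5 _ M k => by
    haveI := m.simple
    have n := k.le.trans (piCoreOf_norm {3} M)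
    have Yp := piCoreOf_piGrp {3} M
    have nc := k.nc
    generalize piCoreOf {3} M = Y at n Yp nc
    have o := odd_of_pi Yp (by decide)
    have cp := copAct_inv w.t2.sq o (n (self_mem_cent1 t))
    have ab := QE.ab3 m.qdt w hS hq sd e et h5 Yp n (le_piCoreOf ⟨inf_le_right, norms_inf n le_normalizer⟩
      (odd_iff.1 (odd_card_of_le o inf_le_left)))
    have n' := norms_commutator n (norms_zpowers_of_cent1 le_rfl)
    obtain ⟨χ, ε, hχ, hd, -⟩ := e.chi5 m.qdt w hS hq sd et h5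
    obtain ⟨P, hP, σ, hσ, σP, P5, e4, hN⟩ := e.borel5 et w.t2 (e.card_two hS hq w sd) h5
    obtain ⟨j, hj, j1, j2⟩ : ∃ j : ℕ, χ 1 = j ∧ 1 < j ∧ j < 40 := by
      rcases hd with hd | hd | hd
      exacts [⟨19, by simpa using hd, by omega, by omega⟩, ⟨21, by simpa using hd, by omega, by omega⟩,
        ⟨35, by simpa using hd, by omega, by omega⟩]
    have := hN (𝐂[t] ⊓ 𝐂(⁅Y, zpowers t⁆)) ⟨inf_le_left, norms_inf le_normalizer (norms_cent n')⟩ (le_inf hP
      (beta_ab hχ hj j1 j2 (abelian_of_le ab cp.comm_le) (odd_card_of_le o cp.comm_le) w.t2 cp.comm_comm P5 (hP.trans n')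
        (n' hσ) σP e4))
    refine nc ?_
    rw [← cent_zpowers, ← comm_eq_bot_iff, ← cp.comm_comm, comm_eq_bot_iff, cent_zpowers]
    exact mem_cent_iff_le_cent1.1 this.2

theorem abg {G : Type u} [Group G] [Finite G] [IsSimpleGroup G] (h : QSyl (⊤ : Subgroup G)) : Ident G :=
  ident_bal h (bal_of (fun _ _ _ m => m.false) G h)

end CA.ABG
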