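/-
Alperin–Brauer–Gorenstein theorem: the interface for the unbalanced configuration.
-/
import Cfsg.Agent.Lib.ABG.A4a
import Cfsg.Agent.Lib.ABG.WI

set_option autoImplicit false

namespace CA.ABG

open Cfsg CA CA.FStar CA.GW CA.Loc Subgroup

section
variable {G : Type*} [Group G]

/-- `Y ≤ C(x)` is a `C(V)`-invariant subgroup of odd order covering a root group of `C(x)/O(C(x))`. -/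
structure Unb (V : Subgroup G) (x : G) (Y : Subgroup G) : Prop where
  le : Y ≤ 𝐂[x]
  odd : Odd (Nat.card Y)
  norm : 𝐂(V) ≤ 𝐍(Y)
  nb : ¬ ⁅Y, V⁆ ≤ 𝐎(𝐂[x])

/-- the facts about root groups -/
structure LocS (V : Subgroup G) (x : G) (p : ℕ) : Prop where
  od : ∀ Y ≤ 𝐂(V), 𝐂(V) ≤ 𝐍(Y) → PiGrp {p} Y → Y ≤ 𝐎(𝐂[x])
  gen : ∀ Y σ, Unb V x Y → Swp V x σ → x ∈ Y ⊔ cj σ Y ∧ (∃ τ ∈ Y ⊔ cj σ Y, Swp V x τ) ∧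
    𝐂[x] ≤ Y ⊔ cj σ Y ⊔ 𝐎(𝐂[x]) ⊔ 𝐂(V)
  sub : ∀ Y Y', Unb V x Y → Unb V x Y' → Y ≤ Y' → ⁅Y', V⁆ ≤ ⁅Y, V⁆ ⊔ 𝐎(𝐂[x])
  br : ∀ Y σ, Unb V x Y → Swp V x σ → ∀ h ∈ 𝐂[x], cj h (⁅Y, V⁆ ⊔ 𝐎(𝐂[x])) = cj σ (⁅Y, V⁆ ⊔ 𝐎(𝐂[x])) ∨
    ∃ r ∈ cj σ ⁅Y, V⁆, cj h (⁅Y, V⁆ ⊔ 𝐎(𝐂[x])) = cj r (⁅Y, V⁆ ⊔ 𝐎(𝐂[x]))
  nn : ∀ Y σ, Unb V x Y → Swp V x σ → (⁅Y, V⁆ ⊔ 𝐎(𝐂[x])) ⊓ 𝐍(cj σ (⁅Y, V⁆ ⊔ 𝐎(𝐂[x]))) ≤ 𝐎(𝐂[x])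

/-- `[C_{A_x}(y), V]` -/
abbrev al (V : Subgroup G) (A : G → Subgroup G) (x y : G) : Subgroup G := ⁅A x ⊓ 𝐂[y], V⁆

/-- the unbalanced configuration -/
structure UB (V : Subgroup G) (p : ℕ) (A M : G → Subgroup G) : Prop where
  four : Four V
  a4 : ∀ x ∈ V, x ≠ 1 → A4 x (M x) p
  AW : ∀ x ∈ V, x ≠ 1 → A x ≤ 𝐎(M x)
  pi : ∀ x ∈ V, x ≠ 1 → PiGrp {p} (A x)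
  eq : ∀ x ∈ V, x ≠ 1 → ⁅A x, zpowers x⁆ = A x
  HN : ∀ x ∈ V, x ≠ 1 → 𝐂[x] ≤ 𝐍(A x)
  min : ∀ x ∈ V, x ≠ 1 → ∀ B ≤ A x, 𝐂[x] ≤ 𝐍(B) → B = A x ∨ B ≤ 𝐂[x]
  eqv : ∀ g ∈ 𝐍(V), ∀ x ∈ V, x ≠ 1 → cj g (A x) = A (g * x * g⁻¹) ∧ cj g (M x) = M (g * x * g⁻¹)
  unb : ∀ x ∈ V, ∀ y ∈ V, x ≠ 1 → y ≠ 1 → x ≠ y → ¬ al V A x y ≤ 𝐎(𝐂[y])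
  kne : ∀ x ∈ V, x ≠ 1 → ¬ 𝐎(𝐂[x]) ≤ 𝐂(V)
  nt : ∀ Y : Subgroup G, Y ≠ ⊥ → Odd (Nat.card Y) → 𝐍(Y) ≠ ⊤
  zz : ∀ x ∈ V, x ≠ 1 → ∀ X, X ≠ ⊤ → Cov X x → Iso X x ∨ 𝐎(X) = ⊥
  swp : ∀ x ∈ V, x ≠ 1 → ∃ σ, Swp V x σ
  loc : ∀ x ∈ V, x ≠ 1 → LocS V x p

/-- the first consequences -/
structure UB2 (V : Subgroup G) (p : ℕ) (A M : G → Subgroup G) : Prop extends UB V p A M where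
  al_unb : ∀ x ∈ V, ∀ y ∈ V, x ≠ 1 → y ≠ 1 → x ≠ y → Unb V y (al V A x y) ∧ ⁅al V A x y, V⁆ = al V A x y
  ls : ∀ x ∈ V, ∀ y ∈ V, x ≠ 1 → y ≠ 1 → x ≠ y → ∀ X, al V A y x ≤ X → al V A (x * y) x ≤ X →
    x ∈ X ∧ ∃ σ ∈ X, Swp V x σ ∧ σ ∈ 𝐍(V) ∧ PiElt {2} σ
  nr : ∀ x ∈ V, x ≠ 1 → ∀ E ≤ 𝐂[x], Odd (Nat.card E) → 𝐂[x] ⊓ 𝐍(V) ≤ 𝐍(E) → ⁅E, V⁆ ≤ 𝐎(𝐂[x])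
  fin : ∀ T : Subgroup G, Odd (Nat.card T) → 𝐂(V) ≤ 𝐍(T) →
    (∀ x ∈ V, ∀ y ∈ V, x ≠ 1 → y ≠ 1 → x ≠ y → al V A x y ≤ 𝐍(T)) → T = ⊥
  ll : ∀ x ∈ V, x ≠ 1 → ∀ Y ≤ 𝐎(𝐂[x]), PiGrp {p} Y → 𝐂(V) ≤ 𝐍(Y) → Y ≤ piCoreOf {p} 𝐂[x]
  cO : ∀ x ∈ V, x ≠ 1 → piCoreOf {p} 𝐂[x] ≤ 𝐂(A x)
  uO : ∀ x ∈ V, ∀ y ∈ V, x ≠ 1 → y ≠ 1 → x ≠ y → ⁅𝐎(𝐂[x]), al V A y x⁆ ≤ piCoreOf {p} 𝐂[x]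
  col : ∀ x ∈ V, ∀ y ∈ V, x ≠ 1 → y ≠ 1 → x ≠ y → al V A x y ≤ 𝐂(al V A y x)
  kA : ∀ x ∈ V, x ≠ 1 → ⁅𝐎(𝐂[x]), V⁆ ≤ 𝐂(A x)
  d1 : ∀ Y ≤ 𝐂(V), 𝐂(V) ≤ 𝐍(Y) → PiGrp {p} Y → Y = ⊥

end

end CA.ABG
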