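/-
Alperin–Brauer–Gorenstein theorem: the unbalanced case, the final contradiction.
-/
import Cfsg.Agent.Lib.ABG.UB0
import Cfsg.Agent.Lib.ABG.WCL
import Cfsg.Agent.Lib.ABG.MinW

set_option autoImplicit false
set_option linter.unusedSectionVars false

namespace CA.ABG

open Cfsg CA CA.FStar CA.Loc CA.GW Subgroup

/-- two different involutions of the four-group `V` -/
structure Tw2 {G : Type*} [Group G] (V : Subgroup G) (x y : G) : Prop where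
  four : Four V
  hx : x ∈ V
  hy : y ∈ V
  x1 : x ≠ 1
  y1 : y ≠ 1
  ne : x ≠ y

section
variable {G : Type*} [Group G] [Finite G] {V E K Y O : Subgroup G} {x y s : G} {p : ℕ}

/-- solvable local balance -/
theorem sll_odd (hp : p ≠ 2) (ho : Odd (Nat.card O)) (s2 : Inv2 s) (sO : s ∈ 𝐍(O)) (hY : Y ≤ O) (Yp : PiGrp {p} Y)
    (hc : ⁅Y, zpowers s⁆ = Y) (hn : O ⊓ 𝐂[s] ≤ 𝐍(Y)) (sY : s ∈ 𝐍(Y)) : Y ≤ piCoreOf {p} O := by
  have hO : O ⊴ O ⊔ zpowers s := normalIn_sup_left (zpowers_le.2 sO)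
  have hs : s ∈ O ⊔ zpowers s := mem_sup_right (mem_zpowers s)
  have hn' : (O ⊔ zpowers s) ⊓ 𝐂[s] ≤ 𝐍(Y) := by
    rw [dedekind_right (.inl (zpowers_le.2 sO)) (zpowers_le.2 (self_mem_cent1 s))]
    exact sup_le hn (zpowers_le.2 sY)
  refine le_trans (le_inf ?_ hY) (piCoreOf_inf_le _ hO.le)
  generalize O ⊔ zpowers s = L at *
  have hQ := piCoreOf_normalIn {p} L
  have hk : PiGrp {2}ᶜ (pker (qmk (piCoreOf {p} L))) := by
    rw [pker_qmk]; exact (piCoreOf_piGrp _ L).compl_singleton (by simpa using hp.symm)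
  have YN := (hY.trans hO.le).trans hQ.norm
  rw [← quo_eq_bot_iff YN]
  refine ll_core hp (hO.quo _) ((odd_iff.1 ho).quo _) (piCoreOf_quo_self _ L) (qel_mem_quo _ hs)
    (s2.pm (hQ.norm hs) hk).sq (quo_mono _ hY) (Yp.quo _) ?_ ?_
  · rw [← quo_zpowers (hQ.norm hs), ← quo_commutator YN (zpowers_le.2 (hQ.norm hs)), hc]
  · rw [← pm_cent hk (hQ.norm hs) s2 (le_normalizer hs)]; exact quo_norms _ hn'

namespace Tw2
variable (h : Tw2 V x y)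
include h

theorem symm : Tw2 V y x := ⟨h.four, h.hy, h.hx, h.y1, h.x1, h.ne.symm⟩

theorem x2 : Inv2 x := h.four.inv2 h.hx h.x1

theorem y2 : Inv2 y := h.symm.x2

theorem c : x * y = y * x := h.four.comm h.hx h.hy

theorem pr : Pr x y := ⟨h.x2, h.y2, h.ne, h.c⟩

theorem third : Tw2 V x (x * y) := ⟨h.four, h.hx, mul_mem h.hx h.hy, h.x1, h.pr.ab2.ne, h.pr.third.ne⟩

/-- the pair `x y, y` -/
theorem zy : Tw2 V (x * y) y := h.c ▸ h.symm.third.symm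

theorem cent : 𝐂[x] ⊓ 𝐂[y] = 𝐂(V) :=
  le_antisymm (four_cent' h.four h.hx h.hy h.x1 h.y1 h.ne) (le_inf (cent_le_cent1 h.hx) (cent_le_cent1 h.hy))

theorem commV (hY : Y ≤ 𝐂[y]) : ⁅Y, V⁆ = ⁅Y, zpowers x⁆ := by
  refine le_antisymm (comm_le_iff.2 fun g hg v hv => ?_) (commutator_mono le_rfl (zpowers_le.2 h.hx))
  have k := mem_cent1_iff.1 (hY hg)
  rcases (h.four.mem h.hx h.hy h.x1 h.y1 h.ne v).1 hv with rfl | rfl | rfl | rfl
  · simp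
  · exact comm_mem hg (mem_zpowers _)
  · rw [k]; simp
  · have : g * (x * y) * g⁻¹ * (x * y)⁻¹ = g * x * g⁻¹ * x⁻¹ := by
      rw [h.c, ← mul_assoc g, k, ← h.c]
      have e := h.c
      calc y * g * x * g⁻¹ * (x * y)⁻¹ = g * (y * x) * g⁻¹ * y⁻¹ * x⁻¹ := by rw [← k]; group
        _ = g * x * (y * g⁻¹ * y⁻¹) * x⁻¹ := by rw [← e]; group
        _ = _ := by rw [show y * g⁻¹ * y⁻¹ = (y * g * y⁻¹)⁻¹ by group, ← k, mul_inv_cancel_right]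
    exact this ▸ comm_mem hg (mem_zpowers _)

theorem sup3 (f : G → Subgroup G) : ⨆ v ∈ V, ⨆ _ : v ≠ 1, f v = f x ⊔ f y ⊔ f (x * y) := by
  refine le_antisymm (iSup₂_le fun v hv => iSup_le fun v1 => ?_) (sup_le (sup_le (le_iSup₂_of_le x h.hx (le_iSup_of_le h.x1 le_rfl))
    (le_iSup₂_of_le y h.hy (le_iSup_of_le h.y1 le_rfl))) (le_iSup₂_of_le _ h.third.hy (le_iSup_of_le h.third.y1 le_rfl)))
  rcases (h.four.mem h.hx h.hy h.x1 h.y1 h.ne v).1 hv with rfl | rfl | rfl | rfl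
  exacts [absurd rfl v1, le_sup_of_le_left le_sup_left, le_sup_of_le_left le_sup_right, le_sup_right]

theorem wt0 (ho : Odd (Nat.card E)) (hn : V ≤ 𝐍(E)) (hc : E ⊓ 𝐂[x * y] ≤ 𝐂(V)) :
    ⁅E, zpowers x⁆ ≤ 𝐂(⁅E, zpowers y⁆) := by
  have w := wielandt_four h.four h.hx h.hy h.x1 h.y1 h.ne hn ho
  have e1 : E ⊓ 𝐂[x * y] = E ⊓ 𝐂(V) := le_antisymm (le_inf inf_le_left hc) (inf_le_inf_left _ (cent_le_cent1 h.third.hy))
  have e2 : (E ⊓ 𝐂[y]) ⊓ (E ⊓ 𝐂[x]) = E ⊓ 𝐂(V) := by rw [← h.cent, ← inf_inf_distrib_left, inf_comm 𝐂[y]]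
  have k := exists_mul_of_card (A := E ⊓ 𝐂[y]) (B := E ⊓ 𝐂[x]) inf_le_left inf_le_left (by
    rw [e1, sq, ← mul_assoc] at w
    rw [e2, mul_comm, Nat.eq_of_mul_eq_mul_right (card_pos' _) w, mul_comm])
  have k1 : ∀ g ∈ E, g * x * g⁻¹ ∈ 𝐂[y] := fun g hg => by
    obtain ⟨a, ha, b, hb, rfl⟩ := k g hg
    have : a * b * x * (a * b)⁻¹ = a * x * a⁻¹ := by rw [mul_assoc a b, mem_cent1_iff.1 hb.2]; group
    exact this ▸ mul_mem (mul_mem ha.2 h.symm.pr.bH) (inv_mem ha.2)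
  have k2 : ∀ g ∈ E, ⁅E, zpowers x⁆ ≤ 𝐂[g * y * g⁻¹] := fun g hg => comm_le_iff.2 fun a ha v hv => by
    have k3 : ∀ a ∈ E, a * x * a⁻¹ ∈ 𝐂[g * y * g⁻¹] := fun a ha => by
      rw [← cj_centralizer_singleton, mem_cj]
      simpa [mul_assoc] using k1 _ (mul_mem (inv_mem hg) ha)
    rcases (mem_zpowers_sq h.x2.sq).1 hv with rfl | rfl
    · simp
    · exact mul_mem (k3 a ha) (inv_mem (by simpa using k3 1 (one_mem _)))
  refine cents_comm.1 (comm_le_iff.2 fun a ha v hv => ?_)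
  rcases (mem_zpowers_sq h.y2.sq).1 hv with rfl | rfl
  · simp
  · exact mul_mem (mem_cent_iff_le_cent1.2 (k2 a ha)) (inv_mem (mem_cent_iff_le_cent1.2 (by simpa using k2 1 (one_mem _))))

theorem wt (ho : Odd (Nat.card E)) (hn : V ≤ 𝐍(E)) (hK : K ⊴ E) (VK : V ≤ 𝐍(K)) (hc : ⁅E ⊓ 𝐂[x * y], V⁆ ≤ K) :
    ⁅⁅E, zpowers x⁆, ⁅E, zpowers y⁆⁆ ≤ K := by
  have Ko : PiGrp {2}ᶜ K := (odd_iff.1 ho).of_le hK.le
  have hk : PiGrp {2}ᶜ (pker (qmk K)) := by rw [pker_qmk]; exact Ko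
  have nx := zpowers_le.2 (VK h.hx)
  have ny := zpowers_le.2 (VK h.hy)
  have h' : Tw2 (V /ₛ K) (qel K x) (qel K y) := ⟨Four.quo h.four VK Ko, qel_mem_quo _ h.hx, qel_mem_quo _ h.hy,
    (h.x2.pm (VK h.hx) hk).ne, (h.y2.pm (VK h.hy) hk).ne, fun e => (h.pr.ab2.pm (VK h.third.hy) hk).ne (by
      rw [pel_mul _ (VK h.hx) (VK h.hy)]; exact e ▸ (h.x2.pm (VK h.hx) hk).sq)⟩
  have n1 := comm_le_of_le hK.norm nx
  have n2 := comm_le_of_le hK.norm ny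
  rw [← quo_eq_bot_iff (comm_le_of_le n1 n2), quo_commutator n1 n2, quo_commutator hK.norm nx, quo_commutator hK.norm ny,
    quo_zpowers (VK h.hx), quo_zpowers (VK h.hy), comm_eq_bot_iff]
  refine h'.wt0 (odd_iff.2 ((odd_iff.1 ho).quo _)) (quo_norms _ hn) ?_
  rw [← pel_mul _ (VK h.hx) (VK h.hy), ← pm_cent hk (VK h.third.hy) h.pr.ab2 (hn h.third.hy), ← comm_eq_bot_iff,
    ← quo_commutator (inf_le_left.trans hK.norm) VK, quo_eq_bot_iff (comm_le_of_le (inf_le_left.trans hK.norm) VK)]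
  exact hc

theorem odd_of (hq : QDT (⊤ : Subgroup G)) (hn : V ≤ 𝐍(E)) (hE : ∀ v ∈ V, v ≠ 1 → v ∉ E) : Odd (Nat.card E) := by
  refine odd_iff.2 (by_contra fun k => ?_)
  have hN : E ⊴ E ⊔ V := normalIn_sup_left hn
  obtain ⟨S, hS, VS⟩ := exists_sylowIn_ge h.four.piGrp (le_sup_right : V ≤ E ⊔ V)
  have h1 := hS.inf_normal hN
  obtain ⟨z, hz, z2⟩ := exists_inv2' ((hS.piGrp.inf_left _).inf_left _) (meet_center_nil hS.piGrp.nilpotent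
    (normalIn_inf_of_norm (hS.le.trans hN.norm)) fun e => k (h1.eq_bot_iff.1 e))
  exact hE z (hq.mem_four h.four le_top ⟨trivial, cent_mono VS hz.2.2⟩ z2) z2.ne hz.1.2

end Tw2

end

namespace UB
variable {G : Type*} [Group G] [Finite G] {p : ℕ} (u : UB G p) {V E T : Subgroup G} {x y σ : G}

/-- the root subgroups -/
def e (V : Subgroup G) (x y : G) : Subgroup G := ⁅u.A x ⊓ 𝐂[y], V⁆

/-- `[O(C(x)), V]` -/
def K (V : Subgroup G) (x : G) : Subgroup G := ⁅𝐎(𝐂[x]), V⁆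

section
variable (h : Tw2 V x y)
include h

theorem nAC : 𝐂(V) ≤ 𝐍(u.A x ⊓ 𝐂[y]) :=
  norms_inf ((cent_le_cent1 h.hx).trans (u.HN x h.x2)) ((cent_le_cent1 h.hy).trans le_normalizer)

theorem e_le : u.e V x y ≤ u.A x ⊓ 𝐂[y] := comm_le_left (h.four.le_cent.trans (u.nAC h))

theorem e_pi : PiGrp {p} (u.e V x y) := (u.pi x h.x2).of_le ((u.e_le h).trans inf_le_left)

theorem e_odd : Odd (Nat.card (u.e V x y)) := odd_of_pi (u.e_pi h) u.p2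

theorem e_H : u.e V x y ≤ 𝐂[y] := (u.e_le h).trans inf_le_right

theorem e_norm : 𝐂(V) ≤ 𝐍(u.e V x y) := norms_commutator (u.nAC h) (centralizer_le_normalizer _)

theorem e_V : ⁅u.e V x y, V⁆ = u.e V x y :=
  (copAct_of_ne (h.four.le_cent.trans (u.nAC h)) ((u.pi x h.x2).inf_left _) h.four.piGrp u.p2).comm_comm

theorem e_x : ⁅u.e V x y, zpowers x⁆ = u.e V x y := (h.commV (u.e_H h)).symm.trans (u.e_V h)

theorem e_z : ⁅u.e V x y, zpowers (x * y)⁆ = u.e V x y := (h.zy.commV (u.e_H h)).symm.trans (u.e_V h)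

theorem e_unb : ¬ u.e V x y ≤ 𝐎(𝐂[y]) := fun k => u.unb y x h.symm.pr ((h.commV inf_le_right).ge.trans k)

theorem e_ne : u.e V x y ≠ ⊥ := fun k => u.e_unb h (k ▸ bot_le)

include u in
theorem swap : ∃ σ ∈ 𝐂[y], σ * x * σ⁻¹ = y * x ∧ σ ∈ 𝐍(V) := by
  obtain ⟨σ, hσ, -, k⟩ := u.qdt.swap trivial trivial h.y2 h.x2 h.symm.c h.ne.symm
  exact ⟨σ, hσ.2, k, h.four.norm_of h.hx h.hy h.x1 h.y1 h.ne (k ▸ mul_mem h.hy h.hx)
    (by rw [mem_cent1_iff.1 hσ.2, mul_inv_cancel_right]; exact h.hy)⟩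

theorem e_gen : y ∈ u.e V x y ⊔ u.e V (x * y) y ∧ 𝐂[y] ≤ u.e V x y ⊔ u.e V (x * y) y ⊔ 𝐂(V) ⊔ 𝐎(𝐂[y]) := by
  obtain ⟨σ, h1, h2, h3⟩ := u.swap h
  have := u.gen y x σ _ h.symm.pr (u.e_H h) (u.e_odd h) (h.symm.cent ▸ u.e_norm h) ((u.e_x h).symm ▸ u.e_unb h) h1 h2
  rwa [h.symm.cent, e, cj_commutator, cj_inf, u.eqv x σ h.x2, h2, ← h.c, cj_eq_of_mem_normalizer h3,
    cj_eq_of_mem h1] at this

include u in
theorem nr' (hE : E ≤ 𝐂[y]) (ho : Odd (Nat.card E)) (hn : 𝐂(V) ≤ 𝐍(E))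
    (hσ : ∀ σ ∈ 𝐂[y], σ * x * σ⁻¹ = y * x → σ ∈ 𝐍(V) → σ ∈ 𝐍(E)) : ⁅E, V⁆ ≤ 𝐎(𝐂[y]) := by
  obtain ⟨σ, h1, h2, h3⟩ := u.swap h
  rw [h.commV hE]
  by_contra k
  have := (u.gen y x σ _ h.symm.pr hE ho (h.symm.cent ▸ hn) k h1 h2).1
  rw [cj_eq_of_mem_normalizer (hσ σ h1 h2 h3), sup_idem] at this
  exact h.y2.not_mem ho this

theorem cov (X : Subgroup G) (h1 : u.e V x y ≤ X) (h2 : u.e V (x * y) y ≤ X) (h3 : 𝐂(V) ≤ X) : Cov X y :=
  (u.e_gen h).2.trans (sup_le_sup_right (sup_le (sup_le (le_inf h1 (u.e_H h)) (le_inf h2 (u.e_H h.zy)))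
    (le_inf h3 (cent_le_cent1 h.hy))) _)

theorem fin' (h1 : T ≠ ⊥) (ho : Odd (Nat.card T)) (hn : 𝐂(V) ≤ 𝐍(T)) (he : ∀ a b, Tw2 V a b → u.e V a b ≤ 𝐍(T)) :
    False := by
  have c : ∀ a b, Tw2 V a b → Cov 𝐍(T) b := fun a b k => u.cov k _ (he _ _ k) (he _ _ k.zy) hn
  rcases u.zz _ x (u.proper T h1 ho) h.x2 (c y x h.symm) with k | k
  · refine u.e_unb h (le_trans (le_inf ?_ (u.e_H h)) (c x y h).core_le)
    exact (u.e_x h).ge.trans (comm_le_of_sup (inf_le_left.trans (piCoreOf_norm _ _)) inf_le_right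
      (piCoreOf_norm _ _ (hn (h.four.le_cent h.hx))) ((he _ _ h).trans k))
  · exact h1 (eq_bot_of_piCoreOf_eq_bot k ⟨le_normalizer, le_rfl⟩ (odd_iff.1 ho))

omit u in
theorem nU : V ≤ 𝐍(𝐎(𝐂[x])) := (h.four.le_cent1 h.hx).trans (piCoreOf_norm _ _)

omit u in
theorem K_le : K V x ≤ 𝐎(𝐂[x]) := comm_le_left (nU h)

omit u in
theorem K_H : K V x ≤ 𝐂[x] := (K_le h).trans (piCoreOf_le _ _)

omit u in
theorem K_odd : Odd (Nat.card (K V x)) := odd_card_of_le (odd_core _) (K_le h)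

omit u in
theorem K_eq : K V x = ⁅𝐎(𝐂[x]), zpowers y⁆ := h.symm.commV (piCoreOf_le _ _)

omit u in
theorem K_y : ⁅K V x, zpowers y⁆ = K V x :=
  (h.symm.commV (K_H h)).symm.trans (copAct_p_right (nU h) (core_pi _) h.four.piGrp).comm_comm

omit u in
theorem K_norm : 𝐂(V) ≤ 𝐍(K V x) :=
  norms_commutator ((cent_le_cent1 h.hx).trans (piCoreOf_norm _ _)) (centralizer_le_normalizer _)

include u in
theorem K_ne : K V x ≠ ⊥ := fun k => u.qdt.unb u.unbal h.x2 h.y2 h.ne h.pr.bH (by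
  rw [K_eq h, comm_eq_bot_iff, cent_zpowers] at k; exact k)

end

variable (kA : ∀ a b, Pr a b → ⁅𝐎(𝐂[a]), zpowers b⁆ ≤ 𝐂(u.A a))
  (d1 : ∀ a b : G, Pr a b → piCoreOf {p} (𝐂[a] ⊓ 𝐂[b]) = ⊥) (h : Tw2 V x y)
include h

include kA in
theorem K_e1 : K V x ≤ 𝐂(u.e V x y) := ((K_eq h).le.trans (kA x y h.pr)).trans (cent_mono ((u.e_le h).trans inf_le_left))

include d1 in
theorem K_e2 : K V x ≤ 𝐂(u.e V y x) := by
  have eH := u.e_H h.symm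
  have n := eH.trans (piCoreOf_norm {2}ᶜ 𝐂[x])
  have ho : Odd (Nat.card ↥(𝐎(𝐂[x]) ⊔ u.e V y x)) := odd_iff.2 ((core_pi _).sup (odd_iff.1 (u.e_odd h.symm)) (.inl n))
  have XH : 𝐎(𝐂[x]) ⊔ u.e V y x ≤ 𝐂[x] := sup_le (piCoreOf_le _ _) eH
  have nX : 𝐂(V) ≤ 𝐍(𝐎(𝐂[x]) ⊔ u.e V y x) :=
    norms_sup ((cent_le_cent1 h.hx).trans (piCoreOf_norm _ _)) (u.e_norm h.symm)
  have yC := h.four.le_cent h.hy
  have k := sll_odd u.p2 ho h.y2 (nX yC) le_sup_right (u.e_pi h.symm) (u.e_x h.symm)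
    (((inf_le_inf_right _ XH).trans h.cent.le).trans (u.e_norm h.symm)) (u.e_norm h.symm yC)
  have hB := piCoreOf_normalIn {p} (𝐎(𝐂[x]) ⊔ u.e V y x)
  have nB := norms_piCoreOf {p} nX
  rw [K_eq h]
  refine (comm_cents_of_inv h.y2.sq (le_sup_left.trans hB.norm) fun g => inv_of_fpf h.y2.sq (nB yC)
    (odd_card_of_le ho hB.le) (le_bot_iff.1 ?_)).trans (cent_mono k)
  rw [← d1 x y h.pr, h.cent]
  exact le_piCoreOf ⟨(inf_le_inf_right _ (hB.le.trans XH)).trans h.cent.le,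
    norms_inf nB ((cent_le_cent1 h.hy).trans le_normalizer)⟩ ((piCoreOf_piGrp _ _).inf_left _)

include u d1 in
theorem K_N : 𝐂[x] ≤ 𝐍(K V x) :=
  (u.e_gen h.symm).2.trans (sup_le (sup_le (sup_le (norms_of_cents (cents_comm.1 (u.K_e2 d1 h)))
    (norms_of_cents (cents_comm.1 (h.c ▸ u.K_e2 d1 h.third)))) (K_norm h)) (comm_norm_left _ _))

include u kA d1

theorem K_K : K V y ≤ 𝐂(K V x) := by
  have nE : 𝐂(V) ≤ 𝐍(𝐂(u.e V x y) ⊓ 𝐂(u.e V y x)) := norms_inf (norms_cent (u.e_norm h)) (norms_cent (u.e_norm h.symm))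
  have VE := h.four.le_cent.trans nE
  have nc : ∀ a b v, Tw2 V a b → ⁅u.e V a b, zpowers v⁆ = u.e V a b → v ∉ 𝐂(u.e V a b) := fun a b v k e hv =>
    u.e_ne k (e.symm.trans (comm_eq_bot_iff'.2 (zpowers_le.2 hv)))
  have ho := h.odd_of u.qdt VE fun v hv v1 k => by
    rcases (h.four.mem h.hx h.hy h.x1 h.y1 h.ne v).1 hv with rfl | rfl | rfl | rfl
    exacts [v1 rfl, nc _ _ _ h (u.e_x h) k.1, nc _ _ _ h.symm (u.e_x h.symm) k.2, nc _ _ _ h (u.e_z h) k.1]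
  have hz := h.third
  have o1 : Odd (Nat.card ↥(𝐂(u.e V x y) ⊓ 𝐂(u.e V y x) ⊓ 𝐂[x * y])) := odd_card_of_le ho inf_le_left
  have n1 : 𝐂(V) ≤ 𝐍(𝐂(u.e V x y) ⊓ 𝐂(u.e V y x) ⊓ 𝐂[x * y]) :=
    norms_inf nE ((cent_le_cent1 hz.hy).trans le_normalizer)
  have cp := copAct_p_right (h.four.le_cent.trans n1) (odd_iff.1 o1) h.four.piGrp
  have h1 := u.nr' hz inf_le_right o1 n1 fun σ h1 h2 h3 => by
    have e1 : σ * x * σ⁻¹ = y := by rw [h2, h.c, mul_assoc, h.x2.sq, mul_one]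
    have e2 : σ * y * σ⁻¹ = x := by
      rw [← h.pr.mul3, ← conj_mul, e1, mem_cent1_iff.1 h1, mul_inv_cancel_right, h.c, ← mul_assoc, h.y2.sq, one_mul]
    have k : ∀ a b, Inv2 a → cj σ (u.e V a b) = u.e V (σ * a * σ⁻¹) (σ * b * σ⁻¹) := fun a b a2 => by
      rw [e, cj_commutator, cj_inf, u.eqv a σ a2, cj_eq_of_mem_normalizer h3, cj_centralizer_singleton, e]
    rw [mem_normalizer_iff_cj, cj_inf, cj_inf, cj_eq_of_mem h1, cj_centralizer, cj_centralizer, k _ _ h.x2, k _ _ h.y2,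
      e1, e2, inf_comm 𝐂(u.e V y x)]
  have h2 : ⁅𝐂(u.e V x y) ⊓ 𝐂(u.e V y x) ⊓ 𝐂[x * y], V⁆ ≤ 𝐂(V) := by
    rw [← h.zy.cent]
    refine le_inf (cp.comm_le.trans inf_le_right) (le_trans (cents_sup (cp.comm_le.trans (inf_le_left.trans inf_le_left)) ?_)
      (cent_le_cent1 (u.e_gen h).1))
    exact cp.comm_comm.ge.trans ((commutator_mono h1 le_rfl).trans (u.K_e1 kA h.zy))
  have k := h.wt0 ho VE (cents_comm.1 (cp.cents_of_comm_cents h2))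
  exact ((K_y h.symm).ge.trans (commutator_mono (le_inf (u.K_e2 d1 h.symm) (u.K_e1 kA h.symm)) le_rfl)).trans
    (k.trans (cent_mono ((K_y h).ge.trans (commutator_mono (le_inf (u.K_e1 kA h) (u.K_e2 d1 h)) le_rfl))))

theorem K_e3 : ⁅K V y, u.e V x (x * y)⁆ ≤ K V x := by
  have hH := u.K_N d1 h
  have iso := u.iso _ x (u.proper _ (u.K_ne h) (K_odd h)) h.x2 hH
  have hO := piCoreOf_normalIn {2}ᶜ 𝐍(K V x)
  have VX := (h.four.le_cent1 h.hx).trans hH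
  have inW : ∀ Y ≤ 𝐂(K V x), ⁅Y, zpowers x⁆ = Y → Y ≤ 𝐎(𝐍(K V x)) := fun Y hY e => e.ge.trans
    (comm_le_of_sup (inf_le_left.trans hO.norm) inf_le_right (hO.norm (VX h.hx)) ((norms_of_cents hY).trans iso))
  have c : Cov 𝐍(K V x) x := (le_inf hH le_rfl).trans le_sup_left
  have hz := h.third
  have h' : Tw2 V (x * y) y := h.zy
  have k := h'.wt (odd_core _) (VX.trans hO.norm) ⟨le_piCoreOf ⟨le_normalizer, le_rfl⟩ (odd_iff.1 (K_odd h)), hO.le⟩ VX (by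
    rw [mul_assoc, h.y2.sq, mul_one]; exact commutator_mono c.core_le le_rfl)
  refine le_trans (commutator_mono ((K_y h'.symm).ge.trans (commutator_mono (inW _ (u.K_K kA d1 h) (K_y h.symm)) le_rfl))
    (le_trans ?_ (commutator_mono (inW _ (cents_comm.1 (u.K_e1 kA hz)) (u.e_x hz)) le_rfl))) k
  have := u.e_z hz
  rw [h.pr.mul3] at this
  exact this.ge

omit h in
theorem false_of : False := by
  obtain ⟨S, t, -, -, ⟨w⟩⟩ := u.qdt.syl.ex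
  obtain ⟨s, hs, s2, st⟩ := u.qdt.exists_four trivial w.t2
  obtain ⟨V, V4, hV⟩ := four_of w.t2 s2 st.symm (mem_cent1_iff.1 hs.2).symm
  have h : Tw2 V t s := ⟨V4, (hV t).2 (by simp), (hV s).2 (by simp), w.t2.ne, s2.ne, st.symm⟩
  refine u.fin' h (T := ⨆ v ∈ V, ⨆ _ : v ≠ 1, K V v) ?_ ?_ ?_ fun a b k => ?_
  · rw [h.sup3]
    exact ne_bot_of_le_ne_bot (u.K_ne h) (le_sup_of_le_left le_sup_left)
  · rw [h.sup3]
    exact odd_iff.2 (((odd_iff.1 (K_odd h)).sup (odd_iff.1 (K_odd h.symm)) (.inl (norms_of_cents (u.K_K kA d1 h)))).sup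
      (odd_iff.1 (K_odd h.zy)) (.inl (norms_of_cents (cents_sup (u.K_K kA d1 h.third) (u.K_K kA d1 h.zy.symm)))))
  · rw [h.sup3]
    exact norms_sup (norms_sup (K_norm h) (K_norm h.symm)) (K_norm h.zy)
  · have k1 := u.K_e3 kA d1 k.third
    rw [k.third.sup3, k.pr.mul3] at *
    refine norms_sup (le_normalizer_iff_commutator_le_left.2 (comm_sup_le ?_ (k1.trans le_sup_left)
      (norms_self_of_le le_sup_left) (norms_self_of_le le_sup_right))) (norms_of_cents (cents_comm.1 (u.K_e2 d1 k.symm)))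
    rw [comm_eq_bot_iff.2 (u.K_e1 kA k)]
    exact bot_le

end UB

end CA.ABG
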