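/-
Simple groups of 2-rank at most 2, from the semidihedral and the wreathed case.
-/
import Cfsg.Agent.S0483
import Cfsg.Agent.S0486
import Cfsg.Agent.S0516
import Mathlib.FieldTheory.Finite.GaloisField

set_option autoImplicit false

namespace CA.ABG
open Cfsg

theorem s482_of {G : Type*} [Group G] [Finite G] [IsSimpleGroup G]
    (hG : ¬ IsMulCommutative G) (h2 : Cfsg.PRankLE 2 2 G)
    (h507 : ∀ S : Sylow 2 G, Cfsg.IsQuasiDihedral (S : Subgroup G) →
      (∃ (F : Type) (_ : Field F) (_ : Fintype F), Fintype.card F % 4 = 3 ∧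
        Nonempty (G ≃* Matrix.ProjectiveSpecialLinearGroup (Fin 3) F)) ∨
      (∃ (F : Type) (_ : Field F) (_ : Fintype F) (q : ℕ), Fintype.card F = q ^ 2 ∧ q % 4 = 1 ∧
        Nonempty (G ≃* Cfsg.PSU 3 F q)) ∨ Cfsg.IsM11 G)
    (h523 : ∀ S : Sylow 2 G, Cfsg.IsWreathed (S : Subgroup G) →
      (∃ (F : Type) (_ : Field F) (_ : Fintype F), Odd (Fintype.card F) ∧
        Nonempty (G ≃* Matrix.ProjectiveSpecialLinearGroup (Fin 3) F)) ∨
      (∃ (F : Type) (_ : Field F) (_ : Fintype F) (q : ℕ), Fintype.card F = q ^ 2 ∧ Odd q ∧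
        Nonempty (G ≃* Cfsg.PSU 3 F q)) ∨
      Cfsg.IsM11 G) :
    (∃ (F : Type) (_ : Field F) (_ : Fintype F), Odd (Fintype.card F) ∧ 5 ≤ Fintype.card F ∧
        Nonempty (G ≃* Matrix.ProjectiveSpecialLinearGroup (Fin 2) F)) ∨
      (∃ (F : Type) (_ : Field F) (_ : Fintype F), Odd (Fintype.card F) ∧
        Nonempty (G ≃* Matrix.ProjectiveSpecialLinearGroup (Fin 3) F)) ∨
      (∃ (F : Type) (_ : Field F) (_ : Fintype F) (q : ℕ), Fintype.card F = q ^ 2 ∧ Odd q ∧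
        Nonempty (G ≃* Cfsg.PSU 3 F q)) ∨
      (∃ (F : Type) (_ : Field F) (_ : Fintype F), Fintype.card F = 16 ∧ Nonempty (G ≃* Cfsg.PSU 3 F 4)) ∨
      Nonempty (G ≃* alternatingGroup (Fin 7)) ∨
      Cfsg.IsM11 G := by
  classical
  haveI : Fact (Nat.Prime 2) := ⟨Nat.prime_two⟩
  letI : Fintype (GaloisField 2 4) := Fintype.ofFinite _
  have hF : Fintype.card (GaloisField 2 4) = 16 := by
    rw [← Nat.card_eq_fintype_card, GaloisField.card 2 4 (by norm_num)]; rfl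
  obtain ⟨S⟩ : Nonempty (Sylow 2 G) := inferInstance
  obtain ⟨P⟩ : Nonempty (Sylow 2 (Cfsg.PSU 3 (GaloisField 2 4) 4)) := inferInstance
  rcases Cfsg.Agent.S0516.result hG h2 S hF P with ⟨n, hn, hS⟩ | h | h | h
  · haveI : Group.IsPerfect G := ⟨(IsSimpleGroup.eq_bot_or_eq_top_of_normal (commutator G) inferInstance).resolve_left
      fun e => hG ((commutator_eq_bot_iff G).1 e)⟩
    have hO : Cfsg.oddCore G = ⊥ := by
      refine (IsSimpleGroup.eq_bot_or_eq_top_of_normal _ inferInstance).resolve_right fun e => ?_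
      have h1 := CA.GW.odd_core (⊤ : Subgroup G)
      rw [CA.piCoreOf_compl_singleton_top Nat.prime_two, show pPrimeCore 2 G = ⊤ from e] at h1
      obtain ⟨f⟩ := hS
      have h3 := Subgroup.card_dvd_of_le (le_top (a := (S : Subgroup G)))
      rw [Nat.card_congr f.toEquiv, DihedralGroup.nat_card] at h3
      exact absurd (h1.of_dvd_nat (dvd_of_mul_right_dvd h3)) (by decide)
    have e : G ⧸ Cfsg.oddCore G ≃* G := (QuotientGroup.quotientMulEquivOfEq hO).trans QuotientGroup.quotientBot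
    rcases Cfsg.Agent.S0483.result S n hn hS with ⟨F, _, _, h1, h3, ⟨f⟩⟩ | ⟨⟨f⟩⟩
    · exact Or.inl ⟨F, _, _, h1, by obtain ⟨k, hk⟩ := h1; omega, ⟨e.symm.trans f⟩⟩
    · exact Or.inr (Or.inr (Or.inr (Or.inr (Or.inl ⟨e.symm.trans f⟩))))
  · rcases h507 S h with ⟨F, _, _, h1, h3⟩ | ⟨F, _, _, q, h1, h3, h4⟩ | h
    · exact Or.inr (Or.inl ⟨F, _, _, Nat.odd_iff.2 (by omega), h3⟩)
    · exact Or.inr (Or.inr (Or.inl ⟨F, _, _, q, h1, Nat.odd_iff.2 (by omega), h4⟩))
    · exact Or.inr (Or.inr (Or.inr (Or.inr (Or.inr h))))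
  · rcases h523 S h with h | h | h
    · exact Or.inr (Or.inl h)
    · exact Or.inr (Or.inr (Or.inl h))
    · exact Or.inr (Or.inr (Or.inr (Or.inr (Or.inr h))))
  · exact Or.inr (Or.inr (Or.inr (Or.inl ⟨_, _, _, hF, Cfsg.Agent.S0486.result hF S P h⟩)))

end CA.ABG
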