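/-
Alperin–Brauer–Gorenstein theorem, wreathed case: the `A`-invariant `r`-subgroups.
-/
import Cfsg.Agent.Lib.ABG.MinW

set_option autoImplicit false
set_option linter.unusedSectionVars false

namespace CA.ABG

open Cfsg CA CA.FStar CA.GW Subgroup

variable {G : Type*} [Group G] [Finite G]

theorem WS.AC {V A : Subgroup G} (h : WS V A) : A ≤ 𝐂(V) := h.syl.le

theorem WS.AH {V A : Subgroup G} (h : WS V A) {a : G} (ha : a ∈ V) : A ≤ 𝐂[a] := h.AC.trans (cent_le_cent1 ha)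

theorem WS.AD {V A : Subgroup G} (h : WS V A) : A ≤ 𝐍(𝐎(𝐂(V))) := h.AC.trans (piCoreOf_norm _ _)

/-- elements of odd order of `C(V)` lie in `O(C(V))` -/
theorem WS.le_core {V A Y : Subgroup G} (h : WS V A) (hY : Y ≤ 𝐂(V)) (ho : PiGrp {2}ᶜ Y) : Y ≤ 𝐎(𝐂(V)) := by
  have k := (h.qdt.syl.qg.npc V le_top h.four).hall
  rw [top_inf_eq] at k
  exact k.le_of_normal (piCoreOf_norm _ _) hY ho

theorem EX.odd (V X : Subgroup G) : PiGrp {2}ᶜ (EX V X) :=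
  (core_pi _).sup ((core_pi _).inf_right _) (.inl (inf_le_left.trans (piCoreOf_norm _ _)))

theorem EX.le (V X : Subgroup G) : EX V X ≤ X := sup_le (piCoreOf_le _ _) inf_le_left

theorem EX.norm {V X B : Subgroup G} (h1 : B ≤ X) (h2 : B ≤ 𝐍(V)) : B ≤ 𝐍(EX V X) :=
  norms_sup (h1.trans (piCoreOf_norm _ _)) (norms_inf (h1.trans le_normalizer) (norms_piCoreOf _ (norms_cent h2)))

theorem WS.normEX {V A X : Subgroup G} (h : WS V A) (hA : A ≤ X) : A ≤ 𝐍(EX V X) :=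
  EX.norm hA (h.AC.trans (centralizer_le_normalizer _))

namespace WI
variable (w : WI G) {X Y R R' : Subgroup G} {a b : G} {r : ℕ}

include w in
theorem qsyl : QSyl (⊤ : Subgroup G) := w.ws.qdt.syl

include w in
theorem ne_top (h : Group.IsSolvable X) : X ≠ ⊤ := w.qsyl.ne_top w.simple h

include w in
theorem norm_ne' (h1 : X ≠ ⊥) (h : Group.IsSolvable X) : 𝐍(X) ≠ ⊤ := w.qsyl.norm_ne w.simple h1 h

include w in
theorem cent1_ne (h : a ≠ 1) : 𝐂[a] ≠ ⊤ := w.qsyl.cent1_ne w.simple h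

theorem l1' (hr : r.Prime) (r2 : r ≠ 2) (rp : w.pos → r ≠ w.p) (hX : X ≠ ⊤) (hA : w.A ≤ X) (hY : Y ≤ X)
    (Yr : PiGrp {r} Y) (AY : w.A ≤ 𝐍(Y)) : ⁅Y, w.V⁆ ≤ 𝐎(X) := by
  have Yo := odd_of_pi Yr r2
  have V4 := w.ws.four
  have n := piCoreOf_norm {2}ᶜ X
  have Vn := (w.ws.VA.trans hA).trans n
  have hO : Y ≤ 𝐎(X) ⊔ X ⊓ 𝐂(w.V) := V4.gen (w.ws.VA.trans AY) Yo fun a ha a1 => by
    have AN : w.A ≤ 𝐍(Y ⊓ 𝐂[a]) := norms_inf AY ((w.ws.AH ha).trans le_normalizer)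
    have cp := copAct_of_ne (w.ws.VA.trans AN) (Yr.inf_left _) V4.piGrp r2
    refine (cp.le_sup_cent (V := 𝐎(X)) ?_).trans (sup_le_sup_left (inf_le_inf_right _ (inf_le_left.trans hY)) _)
    rw [← cp.comm_comm]
    exact (commutator_mono (le_inf ((w.loc a ha a1).la r _ hr r2 rp inf_le_right (Yr.inf_left _) AN)
      ((comm_le_left cp.norm).trans (inf_le_left.trans hY))) le_rfl).trans (w.bx X hX hA a ha a1)
  refine comm_le_iff.2 fun y hy x hx => ?_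
  obtain ⟨o, ho, c, hc, rfl⟩ := (mem_sup_of_norm_right (inf_le_left.trans n)).1 (hO hy)
  rw [show o * c * x * (o * c)⁻¹ * x⁻¹ = o * (c * x * c⁻¹ * o⁻¹ * x⁻¹) by group,
    ← mem_cent_iff.1 hc.2 x hx, mul_inv_cancel_right]
  exact mul_mem ho (conj_mem_of_mem_normalizer (Vn hx) (inv_mem ho))

/-- L1 -/
theorem l1 (hr : r.Prime) (r2 : r ≠ 2) (rp : w.pos → r ≠ w.p) (hX : X ≠ ⊤) (hA : w.A ≤ X) (hY : Y ≤ X)
    (Yr : PiGrp {r} Y) (AY : w.A ≤ 𝐍(Y)) : Y ≤ EX w.V X :=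
  ((copAct_of_ne (w.ws.VA.trans AY) Yr w.ws.four.piGrp r2).le_sup_cent (w.l1' hr r2 rp hX hA hY Yr AY)).trans
    (sup_le_sup_left (le_inf (inf_le_left.trans hY)
      (w.ws.le_core inf_le_right (odd_iff.1 (odd_of_pi (Yr.inf_left _) r2)))) _)

theorem norm_cj {c : G} (hc : c ∈ 𝐍(w.A)) (hY : w.A ≤ 𝐍(Y)) : w.A ≤ 𝐍(cj c Y) := by
  rw [← cj_normalizer, ← cj_eq_of_mem_normalizer hc]; exact cj_mono c hY

theorem max_cj {c : G} (hc : c ∈ 𝐍(w.A)) (hR : Maximal (fun Y => PiGrp {r} Y ∧ w.A ≤ 𝐍(Y)) R) :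
    Maximal (fun Y => PiGrp {r} Y ∧ w.A ≤ 𝐍(Y)) (cj c R) :=
  ⟨⟨hR.1.1.cj c, w.norm_cj hc hR.1.2⟩, fun _ h1 h2 => le_cj_iff.2
    (hR.2 ⟨h1.1.cj c⁻¹, w.norm_cj (inv_mem hc) h1.2⟩ (cj_le_iff.1 h2))⟩

theorem exists_max (Yr : PiGrp {r} Y) (AY : w.A ≤ 𝐍(Y)) :
    ∃ R, Y ≤ R ∧ Maximal (fun Y => PiGrp {r} Y ∧ w.A ≤ 𝐍(Y)) R := by
  obtain ⟨P, QP, hP, mP⟩ := exists_maximal_ge (fun Y => PiGrp {r} Y ∧ w.A ≤ 𝐍(Y)) (A := Y) ⟨Yr, AY⟩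
  exact ⟨P, QP, hP, fun Y h1 h2 => (mP Y h1 h2).le⟩

/-- L2: the maximal `A`-invariant `r`-subgroups that meet nontrivially are conjugate under `C(A)` -/
theorem trans (hr : r.Prime) (r2 : r ≠ 2) (rp : w.pos → r ≠ w.p)
    (hR : Maximal (fun Y => PiGrp {r} Y ∧ w.A ≤ 𝐍(Y)) R) (hR' : Maximal (fun Y => PiGrp {r} Y ∧ w.A ≤ 𝐍(Y)) R')
    (h : R ⊓ R' ≠ ⊥) : ∃ c ∈ 𝐂(w.A), cj c R = R' := by
  induction hn : Nat.card G - Nat.card ↥(R ⊓ R') using Nat.strong_induction_on generalizing R R' with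
  | _ n ih =>
  obtain ⟨Rr, AR⟩ := hR.1
  obtain ⟨Rr', AR'⟩ := hR'.1
  by_cases e : R ≤ R'
  · exact ⟨1, one_mem _, by rw [cj_one, hR.eq_of_le hR'.1 e]⟩
  by_cases e' : R' ≤ R
  · exact ⟨1, one_mem _, by rw [cj_one, hR'.eq_of_le hR.1 e']⟩
  have AI := norms_inf AR AR'
  have hX := w.norm_ne' h (Rr.inf_left R').solvable
  have AX : w.A ≤ 𝐍(𝐍(R ⊓ R')) := AI.trans le_normalizer
  have cp := copAct_p_right (w.ws.normEX AI) (EX.odd _ _) w.ws.syl.piGrp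
  obtain ⟨Q, hQ, AQ, RQ⟩ := cp.exists_sylowIn_ge (w.l1 hr r2 rp hX AI inf_le_right (Rr.inf_left _) (norms_inf AR AX))
    (Rr.inf_left _) (norms_inf AR AX)
  obtain ⟨c, hc, RQ'⟩ := cp.sylowIn_le_cj hQ AQ (w.l1 hr r2 rp hX AI inf_le_right (Rr'.inf_left _) (norms_inf AR' AX))
    (Rr'.inf_left _) (norms_inf AR' AX)
  obtain ⟨P, QP, hP⟩ := w.exists_max hQ.piGrp AQ
  have lt : ∀ Y Y' : Subgroup G, R ⊓ R' < Y ⊓ Y' → Nat.card G - Nat.card ↥(Y ⊓ Y') < n ∧ Y ⊓ Y' ≠ ⊥ := fun Y Y' k =>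
    ⟨hn ▸ Nat.sub_lt_sub_left ((card_lt_of_lt' k).trans_le (card_le_card_group _)) (card_lt_of_lt' k), k.ne_bot⟩
  obtain ⟨k1, k2⟩ := lt R P ((lt_inf_normalizer_nil Rr.nilpotent (inf_lt_left.2 e)).trans_le
    (le_inf inf_le_left (RQ.trans QP)))
  obtain ⟨k3, k4⟩ := lt (cj c P) R' ((lt_inf_normalizer_nil Rr'.nilpotent (inf_lt_right.2 e')).trans_le
    (le_inf (RQ'.trans (cj_mono c QP)) inf_le_left))
  obtain ⟨x, hx, rfl⟩ := ih _ k1 hR hP k2 rfl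
  obtain ⟨y, hy, rfl⟩ := ih _ k3 (w.max_cj (centralizer_le_normalizer _ hc.2) hP) hR' k4 rfl
  exact ⟨y * (c * x), mul_mem hy (mul_mem hc.2 hx), by rw [cj_mul, cj_mul]⟩

end WI

end CA.ABG
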